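import Cfsg.Agent.Lib.H27.GolayStab

/-!
# Isomorphisms with the symmetric group of degree 6 from faithful actions
-/

set_option autoImplicit false
set_option maxRecDepth 100000

namespace Cfsg.Agent.H27.Golay

open Cfsg
open scoped Pointwise

/-- The action on an invariant set. -/
noncomputable def restrictHomS (H : Subgroup ↥M24) (D : Finset GolayPt)
    (hH : ∀ g ∈ H, ((g : ↥M24) : Equiv.Perm GolayPt) • D = D) : ↥H →* Equiv.Perm ↥D :=
  MonoidHom.mk' (fun g => Equiv.Perm.subtypePerm ((g : ↥M24) : Equiv.Perm GolayPt)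
      (fun x => apply_mem_of_smul_eq (hH g g.2)))
    (fun a b => by
      rw [Equiv.Perm.subtypePerm_mul]
      rfl)

theorem iso_perm_of_faithful (H : Subgroup ↥M24) (D : Finset GolayPt) (hD : D.card = 6)
    (hH : ∀ g ∈ H, ((g : ↥M24) : Equiv.Perm GolayPt) • D = D) (hcard : Nat.card ↥H = 720)
    (hf : ∀ g ∈ H, (∀ p ∈ D, ((g : ↥M24) : Equiv.Perm GolayPt) p = p) → g = 1) :
    Nonempty (↥H ≃* Equiv.Perm (Fin 6)) := by
  classical
  have hinj : Function.Injective (restrictHomS H D hH) := by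
    rw [injective_iff_map_eq_one]
    intro g hg
    have h1 := hf g g.2 (fun p hp => by
      have := congrArg (fun f : Equiv.Perm ↥D => ((f ⟨p, hp⟩ : ↥D) : GolayPt)) hg
      exact this)
    exact Subtype.ext h1
  have hcard2 : Nat.card (Equiv.Perm ↥D) = 720 := by
    rw [Nat.card_eq_fintype_card, Fintype.card_perm, Fintype.card_coe, hD]
    rfl
  have hbij : Function.Bijective (restrictHomS H D hH) := by
    rw [Function.Bijective]
    refine ⟨hinj, ?_⟩
    have : Nat.card ↥H = Nat.card (Equiv.Perm ↥D) := by rw [hcard, hcard2]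
    exact ((Nat.bijective_iff_injective_and_card _).2 ⟨hinj, this⟩).2
  have e1 : ↥H ≃* Equiv.Perm ↥D := MulEquiv.ofBijective _ hbij
  have e2 : ↥D ≃ Fin 6 := D.equivFinOfCardEq hD
  exact ⟨e1.trans e2.permCongrHom⟩

/-- Elements of the group fixing six base points of the octad are listed by `T7`. -/
theorem exists_T7 {g : Equiv.Perm GolayPt} (hg : g ∈ fixG [5, 3, 2, 1, 0, 23]) :
    ∃ t ∈ T7, permOK t = true ∧ g = P t := by
  obtain ⟨b, hb, hfb, g2, hg2, e2⟩ := level7.exists_mul hg
  have : g2 = 1 := by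
    have h : g2 ∈ fixG baseL := hg2
    rw [fix_base_trivial] at h
    exact h
  refine ⟨b, hb, isM24_permOK (isFix_isM24 hfb), ?_⟩
  rw [e2, this, mul_one]

/-- Every code of the 6-point group is `1` as soon as it fixes a given octad. -/
def trivT7 (m : ℕ) : Bool :=
  allL (fun t => Bool.rec true (idF (pa t)) (fixTest t m)) T7

theorem eq_one_of_trivT7 {m : ℕ} (hm : trivT7 m = true) {g : Equiv.Perm GolayPt}
    (hg : g ∈ fixG [5, 3, 2, 1, 0, 23]) (hs : g • fs m = fs m) : g = 1 := by
  obtain ⟨t, ht, hok, rfl⟩ := exists_T7 hg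
  have h1 := allL_spec hm t ht
  rw [(fixTest_spec hok).2 hs] at h1
  have h2 : idF (pa t) = true := h1
  ext p
  rw [P_apply hok, Nat.eq_of_beq_eq_true (allBelow_spec h2 _ (idx_lt p)), pt_idx]
  rfl

end Cfsg.Agent.H27.Golay
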