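import Cfsg.Agent.Lib.H27.GolayIso
import Cfsg.Agent.Lib.H27.GolayForest2

/-!
# Dodecads: transitivity, the number of tetrads meeting a set
-/

set_option autoImplicit false
set_option maxRecDepth 100000

namespace Cfsg.Agent.H27.Golay

open Cfsg
open scoped Pointwise

theorem zero_of_popc {x : ℕ} (hx : x < 2 ^ 24) (h : popc x = 0) : x = 0 := by
  have h6 := card_fs hx
  have h7 : fs x = ∅ := by
    rw [← Finset.card_eq_zero, h6, h]
  apply Nat.eq_of_testBit_eq
  intro i
  by_cases hi : i < 24
  · have : pt i ∉ fs x := by rw [h7]; simp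
    rw [mem_fs, idx_pt ⟨i, hi⟩] at this
    simpa using this
  · have h9 : x < 2 ^ i := lt_of_lt_of_le hx (Nat.pow_le_pow_right (by norm_num) (by omega))
    rw [Nat.testBit_eq_false_of_lt h9]
    simp

theorem inter_nonempty_iff {a : ℕ} (y : ℕ) (ha : a < 2 ^ 24) :
    (fs a ∩ fs y).Nonempty ↔ Nat.beq (Nat.land a y) 0 = false := by
  rw [← Finset.card_pos, card_inter_fs ha]
  constructor
  · intro h
    cases hb : Nat.beq (Nat.land a y) 0 with
    | false => rfl
    | true =>
      rw [Nat.eq_of_beq_eq_true hb] at h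
      exact absurd h (by decide)
  · intro hb
    apply Nat.pos_of_ne_zero
    intro h0
    have h1 : Nat.land a y = 0 := zero_of_popc (lt_of_le_of_lt Nat.and_le_left ha) h0
    rw [h1] at hb
    exact absurd hb (by decide)

/-- The number of members of a family meeting a set. -/
def meetN (Y : Finset GolayPt) (S : Finset (Finset GolayPt)) : ℕ :=
  (S.filter fun t => (t ∩ Y).Nonempty).card

theorem meetN_smul (g : Equiv.Perm GolayPt) (Y : Finset GolayPt) (S : Finset (Finset GolayPt)) :
    meetN (g • Y) (g • S) = meetN Y S := by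
  unfold meetN
  have : (g • S).filter (fun t => (t ∩ g • Y).Nonempty) = g • (S.filter fun t => (t ∩ Y).Nonempty) := by
    ext t
    constructor
    · intro h
      obtain ⟨h1, h2⟩ := Finset.mem_filter.1 h
      obtain ⟨u, hu, rfl⟩ := Finset.mem_smul_finset.1 h1
      refine Finset.mem_smul_finset.2 ⟨u, Finset.mem_filter.2 ⟨hu, ?_⟩, rfl⟩
      rwa [← Finset.smul_finset_inter, Finset.smul_finset_nonempty] at h2
    · intro h
      obtain ⟨u, hu, rfl⟩ := Finset.mem_smul_finset.1 h
      obtain ⟨h1, h2⟩ := Finset.mem_filter.1 hu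
      refine Finset.mem_filter.2 ⟨Finset.smul_mem_smul_finset h1, ?_⟩
      rwa [← Finset.smul_finset_inter, Finset.smul_finset_nonempty]
  rw [this, Finset.card_smul_finset]

/-- The list form of `meetN`. -/
def meetL (y : ℕ) (l : List ℕ) : ℕ := countL (fun a => Bool.rec true false (Nat.beq (Nat.land a y) 0)) l

theorem meetN_famOf {l : List ℕ} (h : (l.map fs).Nodup) (hl : ∀ m ∈ l, m < 2 ^ 24) (y : ℕ) :
    meetN (fs y) (famOf l) = meetL y l := by
  unfold meetN meetL
  rw [Finset.card_filter, sum_famOf h, countL_eq]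
  clear h
  induction l with
  | nil => rfl
  | cons a as ih =>
    rw [List.map_cons, List.sum_cons, List.filter_cons, ih (fun m hm => hl m (List.mem_cons_of_mem _ hm))]
    have ha := hl a List.mem_cons_self
    by_cases hn : (fs a ∩ fs y).Nonempty
    · have h1 := (inter_nonempty_iff y ha).1 hn
      rw [if_pos hn, h1]
      simp only [↓reduceIte, List.length_cons]
      omega
    · have h2 : Nat.beq (Nat.land a y) 0 = true := by
        cases hb : Nat.beq (Nat.land a y) 0 with
        | true => rfl
        | false => exact absurd ((inter_nonempty_iff y ha).2 hb) hn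
      rw [if_neg hn, h2]
      simp

theorem gensM_ok : allL isM24 gensM = true := by decide +kernel

theorem gensM_spec {π : ℕ} (h : π ∈ gensM) : isM24 π = true := allL_spec gensM_ok π h

theorem reachMD : ∀ c ∈ dodecadL, ∃ r ∈ [D0m], fs c ∈ Orb (∅ : Finset GolayPt) (fs r) :=
  forest_reach (∅ : Finset GolayPt) fs dodecadL actO gensM 24 (packL 24 dodecadL) infMD [D0m]
    (fun π hπ => ⟨P_mem_M24 (gensM_spec hπ), Finset.smul_finset_empty _⟩)
    (fun π hπ _ _ _ _ h => actO_spec (gensM_spec hπ) h)
    (by decide +kernel) (by decide +kernel) (by decide +kernel)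

/-- `M24` is transitive on the dodecads. -/
theorem exists_smul_D0 {d : Finset GolayPt} (hd : d ∈ dodecads) : ∃ g ∈ M24, g • fs D0m = d := by
  obtain ⟨c, hc, rfl⟩ := (mem_dodecads_iff_list d).1 hd
  obtain ⟨r, hr, s, hs, -, h⟩ := reachMD c hc
  rw [List.mem_singleton] at hr
  subst hr
  exact ⟨s, hs, h⟩

theorem D0_mem : D0m ∈ dodecadL := by decide +kernel

theorem fsD0_mem : fs D0m ∈ dodecads := fs_mem_dodecads D0_mem

theorem smul_mem_dodecads' {g : Equiv.Perm GolayPt} (hg : g ∈ M24) {d : Finset GolayPt}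
    (hd : d ∈ dodecads) : g • d ∈ dodecads := smul_mem_dodecads hg hd

/-- The order of the stabiliser of a dodecad. -/
theorem card_stab_dodecad {d : Finset GolayPt} (hd : d ∈ dodecads) :
    Nat.card ↥(MulAction.stabilizer M24 d) = 95040 := by
  have h := card_stab_of_trans (A := dodecads) (x := d) hd
    (fun y hy => by
      obtain ⟨g, hg, rfl⟩ := exists_smul_D0 hd
      obtain ⟨g', hg', rfl⟩ := exists_smul_D0 hy
      refine ⟨g' * g⁻¹, M24.mul_mem hg' (M24.inv_mem hg), ?_⟩
      rw [mul_smul, inv_smul_smul])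
    (fun g hg y hy => smul_mem_dodecads hg hy)
  rw [ncard_dodecads_all] at h
  omega

end Cfsg.Agent.H27.Golay
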