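import Cfsg.Agent.Lib.H27.Plane4c

set_option autoImplicit false

namespace Cfsg.Agent.H27.Plane4

open Classical Cfsg.Agent.H27.Steiner

variable {α : Type*} [Fintype α] [DecidableEq α] {L : Set (Finset α)}

section
variable (h : Pl L) {H : Finset α} (hH : H.card = 6) (hI : Ind L H) (a : ↥H ≃ Fin 6)
include h hH hI

theorem exists_syn {p : α} (hp : p ∉ H) :
    ∃ t : Fin 15, ∀ x : ↥H, (a ⟨oth L H p x, (h.oth_spec hH hI hp x.2).1⟩).val = syv t.val (a x).val := by
  let ot : ↥H → ↥H := fun x => ⟨oth L H p x, (h.oth_spec hH hI hp x.2).1⟩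
  have hinv : Function.Involutive ot := by
    intro x
    apply Subtype.ext
    exact h.oth_oth hH hI hp x.2
  let σ : Equiv.Perm (Fin 6) := (a.symm.trans hinv.toPerm).trans a
  have hσ : ∀ x : ↥H, σ (a x) = a (ot x) := by
    intro x
    simp [σ]
  have h1 : ∀ i, σ i ≠ i := by
    intro i he
    obtain ⟨x, rfl⟩ := a.surjective i
    rw [hσ] at he
    have := a.injective he
    exact (h.oth_spec hH hI hp x.2).2.1 (congrArg Subtype.val this)
  have h2 : ∀ i, σ (σ i) = i := by
    intro i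
    obtain ⟨x, rfl⟩ := a.surjective i
    rw [hσ, hσ, hinv]
  obtain ⟨t, ht⟩ := k1 σ h1 h2
  refine ⟨t, fun x => ?_⟩
  have := ht (a x)
  rw [hσ] at this
  exact this

end

/-- the syntheme of a point off the hyperoval -/
noncomputable def tp (L : Set (Finset α)) (H : Finset α) (a : ↥H ≃ Fin 6) (p : α) : Fin 15 :=
  if hp : p ∈ H ∨ ¬ (∃ t : Fin 15, ∀ x (hx : x ∈ H), ∃ hm : oth L H p x ∈ H,
      (a ⟨oth L H p x, hm⟩).val = syv t.val (a ⟨x, hx⟩).val) then 0
  else (not_or.mp hp).2 |> not_not.mp |> Classical.choose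

theorem tp_spec (h : Pl L) {H : Finset α} (hH : H.card = 6) (hI : Ind L H) (a : ↥H ≃ Fin 6)
    {p : α} (hp : p ∉ H) {x : α} (hx : x ∈ H) :
    (a ⟨oth L H p x, (h.oth_spec hH hI hp hx).1⟩).val = syv (tp L H a p).val (a ⟨x, hx⟩).val := by
  have hex : ∃ t : Fin 15, ∀ x (hx : x ∈ H), ∃ hm : oth L H p x ∈ H,
      (a ⟨oth L H p x, hm⟩).val = syv t.val (a ⟨x, hx⟩).val := by
    obtain ⟨t, ht⟩ := exists_syn h hH hI a hp
    exact ⟨t, fun x hx => ⟨(h.oth_spec hH hI hp hx).1, ht ⟨x, hx⟩⟩⟩
  have hc : ¬ (p ∈ H ∨ ¬ (∃ t : Fin 15, ∀ x (hx : x ∈ H), ∃ hm : oth L H p x ∈ H,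
      (a ⟨oth L H p x, hm⟩).val = syv t.val (a ⟨x, hx⟩).val)) := by
    rintro (h1 | h1)
    · exact hp h1
    · exact h1 hex
  rw [tp, dif_neg hc]
  have hsp := (((not_or.mp hc).2 |> not_not.mp).choose_spec) x hx
  obtain ⟨_, h2⟩ := hsp
  exact h2

/-- the coordinate map -/
noncomputable def phi (L : Set (Finset α)) (H : Finset α) (a : ↥H ≃ Fin 6) (x : α) : Fin 21 :=
  if hx : x ∈ H then ⟨(a ⟨x, hx⟩).val, by have := (a ⟨x, hx⟩).isLt; omega⟩
  else ⟨6 + (tp L H a x).val, by have := (tp L H a x).isLt; omega⟩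

theorem phi_mem {H : Finset α} (a : ↥H ≃ Fin 6) {x : α} (hx : x ∈ H) :
    (phi L H a x).val = (a ⟨x, hx⟩).val := by
  simp [phi, hx]

theorem phi_off {H : Finset α} (a : ↥H ≃ Fin 6) {x : α} (hx : x ∉ H) :
    (phi L H a x).val = 6 + (tp L H a x).val := by
  simp [phi, hx]

theorem phi_injective (h : Pl L) {H : Finset α} (hH : H.card = 6) (hI : Ind L H) (a : ↥H ≃ Fin 6) :
    Function.Injective (phi L H a) := by
  intro x y hxy
  have hv : (phi L H a x).val = (phi L H a y).val := congrArg Fin.val hxy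
  by_cases hx : x ∈ H <;> by_cases hy : y ∈ H
  · rw [phi_mem a hx, phi_mem a hy] at hv
    have := a.injective (Fin.ext hv)
    exact congrArg Subtype.val this
  · rw [phi_mem a hx, phi_off a hy] at hv
    have := (a ⟨x, hx⟩).isLt
    omega
  · rw [phi_off a hx, phi_mem a hy] at hv
    have := (a ⟨y, hy⟩).isLt
    omega
  · rw [phi_off a hx, phi_off a hy] at hv
    have ht : (tp L H a x).val = (tp L H a y).val := by omega
    apply h.match_inj hH hI hx hy
    intro z hz
    have h1 := tp_spec h hH hI a hx hz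
    have h2 := tp_spec h hH hI a hy hz
    rw [ht, ← h2] at h1
    have := a.injective (Fin.ext h1)
    exact congrArg Subtype.val this

theorem phi_bijective (h : Pl L) {H : Finset α} (hH : H.card = 6) (hI : Ind L H) (a : ↥H ≃ Fin 6) :
    Function.Bijective (phi L H a) := by
  rw [Fintype.bijective_iff_injective_and_card]
  exact ⟨phi_injective h hH hI a, by rw [h.card, Fintype.card_fin]⟩

/-- passants give compatible synthemes -/
theorem passant_compat (h : Pl L) {H : Finset α} (hH : H.card = 6) (hI : Ind L H) (a : ↥H ≃ Fin 6)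
    {l : Finset α} (hl : l ∈ L) (hn : ∀ x ∈ l, x ∉ H) {p q : α} (hp : p ∈ l) (hq : q ∈ l) (hpq : p ≠ q) :
    compat (tp L H a p).val (tp L H a q).val = true := by
  apply compat_of
  intro i hi he
  let x : ↥H := a.symm ⟨i, hi⟩
  have hxa : (a x).val = i := by simp [x]
  have h1 := tp_spec h hH hI a (hn p hp) x.2
  have h2 := tp_spec h hH hI a (hn q hq) x.2
  have e0 : (⟨x.1, x.2⟩ : ↥H) = x := rfl
  rw [e0, hxa] at h2
  rw [e0, hxa, he, ← h2] at h1
  have h3 : oth L H p x = oth L H q x := congrArg Subtype.val (a.injective (Fin.ext h1))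
  have c1 := h.mem_chord hH hI (hn p hp) x.2
  have c2 := h.mem_chord hH hI (hn q hq) x.2
  rw [← h3] at c2
  have hne := (h.oth_spec hH hI (hn p hp) x.2).2.1.symm
  have e : l = ln L x (oth L H p x) :=
    h.line_unique hl (h.ln_mem hne) hpq hp hq c1 c2
  apply hn x (by rw [e]; exact h.left_mem hne) x.2

/-- every line is carried into a line of the model -/
theorem phi_line (h : Pl L) {H : Finset α} (hH : H.card = 6) (hI : Ind L H) (a : ↥H ≃ Fin 6)
    {l : Finset α} (hl : l ∈ L) : ∃ m ∈ mlL, ∀ v ∈ l, phi L H a v ∈ ofMask m := by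
  by_cases hn : ∀ x ∈ l, x ∉ H
  · -- a passant
    let f : Fin 5 ≃ ↥l := (l.equivFinOfCardEq (h.card_line hl)).symm
    let pt : Fin 5 → α := fun k => (f k : α)
    have hpt : ∀ k, pt k ∈ l := fun k => (f k).2
    have hne : ∀ j k, j ≠ k → pt j ≠ pt k := by
      intro j k hjk he
      exact hjk (f.injective (Subtype.ext he))
    have hc : ∀ j k, j ≠ k → compat (tp L H a (pt j)).val (tp L H a (pt k)).val = true :=
      fun j k hjk => passant_compat h hH hI a hl hn (hpt j) (hpt k) (hne j k hjk)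
    have hlt : ∀ k, (tp L H a (pt k)).val < 15 := fun k => (tp L H a (pt k)).isLt
    obtain ⟨m, hm, b0, b1, b2, b3, b4⟩ := chkT_spec (hlt 0) (hlt 1) (hlt 2) (hlt 3) (hlt 4)
      (hc 0 1 (by decide)) (hc 0 2 (by decide)) (hc 1 2 (by decide)) (hc 0 3 (by decide))
      (hc 1 3 (by decide)) (hc 2 3 (by decide)) (hc 0 4 (by decide)) (hc 1 4 (by decide))
      (hc 2 4 (by decide)) (hc 3 4 (by decide))
    refine ⟨m, hm, fun v hv => ?_⟩
    have hk : ∃ k, pt k = v := by
      obtain ⟨k, hk⟩ := f.surjective ⟨v, hv⟩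
      exact ⟨k, congrArg Subtype.val hk⟩
    obtain ⟨k, rfl⟩ := hk
    rw [mem_ofMask, phi_off a (hn _ (hpt k))]
    fin_cases k
    · exact b0
    · exact b1
    · exact b2
    · exact b3
    · exact b4
  · -- a secant
    push Not at hn
    obtain ⟨x, hxl, hx⟩ := hn
    obtain ⟨y, hy, hyx, hyl⟩ := h.secant hH hI hx hl hxl
    have hij : (a ⟨x, hx⟩).val ≠ (a ⟨y, hy⟩).val := by
      intro he
      have := a.injective (Fin.ext he)
      exact hyx (congrArg Subtype.val this).symm
    obtain ⟨m, hm, b1, b2, b3⟩ := chkD_spec (a ⟨x, hx⟩).isLt (a ⟨y, hy⟩).isLt hij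
    refine ⟨m, hm, fun v hv => ?_⟩
    rw [mem_ofMask]
    by_cases hvH : v ∈ H
    · have : v = x ∨ v = y := by
        by_contra hc
        push Not at hc
        exact hI.no_three hl hx hy hvH hyx.symm hc.1.symm hc.2.symm hxl hyl hv
      rcases this with rfl | rfl
      · rw [phi_mem a hvH]; exact b1
      · rw [phi_mem a hvH]; exact b2
    · rw [phi_off a hvH]
      apply b3 _ (tp L H a v).isLt
      have h1 := tp_spec h hH hI a hvH hx
      have h2 := h.oth_unique hH hI hvH hx hy hyx hl hv hxl hyl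
      rw [← h1]
      congr 2
      exact Subtype.ext h2

/-- the coordinatisation theorem -/
theorem model_iso (h : Pl L) {H : Finset α} (hH : H.card = 6) (hI : Ind L H) (a : ↥H ≃ Fin 6) :
    ∃ e : α ≃ Fin 21, (∀ x : ↥H, (e x).val = (a x).val) ∧
      ∀ b : Finset (Fin 21), (∃ l ∈ L, l.image e = b) ↔ b ∈ MLF := by
  let e : α ≃ Fin 21 := Equiv.ofBijective _ (phi_bijective h hH hI a)
  have he : ∀ x, e x = phi L H a x := fun _ => rfl
  refine ⟨e, ?_, ?_⟩
  · intro x
    rw [he, phi_mem a x.2]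
  · have himg : ∀ l ∈ L, l.image e ∈ MLF := by
      intro l hl
      obtain ⟨m, hm, hsub⟩ := phi_line h hH hI a hl
      have hss : l.image e ⊆ ofMask m := by
        intro v hv
        obtain ⟨x, hx, rfl⟩ := Finset.mem_image.mp hv
        exact hsub x hx
      have hcard : (l.image e).card = 5 := by
        rw [Finset.card_image_of_injective _ e.injective, h.card_line hl]
      have heq : l.image e = ofMask m :=
        Finset.eq_of_subset_of_card_le hss (by rw [hcard, card_ofMask m hm])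
      rw [heq]
      exact mem_MLF.mpr ⟨m, hm, rfl⟩
    let B : Finset (Finset (Fin 21)) := (blocks L).image (fun l => l.image e)
    have hB : B ⊆ MLF := by
      intro b hb
      obtain ⟨l, hl, rfl⟩ := Finset.mem_image.mp hb
      exact himg l (mem_blocks.mp hl)
    have hcard : B.card = 21 := by
      rw [Finset.card_image_of_injective _ (Finset.image_injective e.injective)]
      have := h.lam0 ∅ (by simp)
      rw [lam] at this
      rw [← this]
      congr 1
      ext l
      simp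
    have heq : B = MLF := Finset.eq_of_subset_of_card_le hB (by rw [hcard]; exact card_MLF_le)
    intro b
    constructor
    · rintro ⟨l, hl, rfl⟩
      exact himg l hl
    · intro hb
      rw [← heq] at hb
      obtain ⟨l, hl, rfl⟩ := Finset.mem_image.mp hb
      exact ⟨l, mem_blocks.mp hl, rfl⟩

/-- hyperovals exist -/
theorem Pl.exists_hyperoval (h : Pl L) : ∃ H : Finset α, H.card = 6 ∧ Ind L H := by
  have : (Ik L 6).Nonempty := by
    rw [← Finset.card_pos, h.card_Ik6]; norm_num
  obtain ⟨H, hH⟩ := this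
  exact ⟨H, (mem_Ik.mp hH).1, (mem_Ik.mp hH).2⟩

/-- uniqueness: an automorphism fixing a hyperoval pointwise is trivial -/
theorem aut_trivial (h : Pl L) {H : Finset α} (hH : H.card = 6) (hI : Ind L H) (g : Equiv.Perm α)
    (hg : ∀ l ∈ L, l.image g ∈ L) (hfix : ∀ x ∈ H, g x = x) : g = 1 := by
  have hoff : ∀ p, p ∉ H → g p ∉ H := by
    intro p hp hgp
    apply hp
    have := hfix _ hgp
    have h2 := g.injective this
    rwa [h2] at hgp
  ext p
  by_cases hp : p ∈ H
  · simp [hfix p hp]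
  · have hgp := hoff p hp
    have : g p = p := by
      apply h.match_inj hH hI hgp hp
      intro x hx
      have hpx := Pl.ne_of_mem hp hx
      obtain ⟨h1, h2, h3⟩ := h.oth_spec hH hI hp hx
      have hl : (ln L p x).image g ∈ L := hg _ (h.ln_mem hpx)
      refine h.oth_unique hH hI hgp hx h1 h2 hl ?_ ?_ ?_
      · exact Finset.mem_image.mpr ⟨p, h.left_mem hpx, rfl⟩
      · exact Finset.mem_image.mpr ⟨x, h.right_mem hpx, hfix x hx⟩
      · exact Finset.mem_image.mpr ⟨_, h3, hfix _ h1⟩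
    simp [this]

end Cfsg.Agent.H27.Plane4
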