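import Mathlib
import Cfsg.Prelude.Def_Sporadic_a

set_option autoImplicit false

namespace Cfsg.Agent.H27.Steiner

variable {α : Type*} [Fintype α] [DecidableEq α]

open Classical in
/-- the blocks as a finset -/
noncomputable def blocks (B : Set (Finset α)) : Finset (Finset α) :=
  Finset.univ.filter (· ∈ B)

theorem mem_blocks {B : Set (Finset α)} {b : Finset α} : b ∈ blocks B ↔ b ∈ B := by
  simp [blocks]

/-- number of blocks through `s` -/
noncomputable def lam (B : Set (Finset α)) (s : Finset α) : ℕ :=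
  ((blocks B).filter (s ⊆ ·)).card

theorem lam_step {B : Set (Finset α)} {k i L : ℕ} (hk : ∀ b ∈ B, b.card = k)
    {s : Finset α} (hs : s.card = i) (hL : ∀ x, x ∉ s → lam B (insert x s) = L) :
    lam B s * (k - i) = (Fintype.card α - i) * L := by
  have h1 := Finset.sum_card_bipartiteAbove_eq_sum_card_bipartiteBelow
    (s := (blocks B).filter (s ⊆ ·)) (t := sᶜ) (fun b x => x ∈ b)
  have h2 : ∀ b ∈ (blocks B).filter (s ⊆ ·),
      (Finset.bipartiteAbove (fun (b : Finset α) x => x ∈ b) sᶜ b).card = k - i := by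
    intro b hb
    rw [Finset.mem_filter, mem_blocks] at hb
    have : Finset.bipartiteAbove (fun (b : Finset α) x => x ∈ b) sᶜ b = b \ s := by
      ext x
      simp [Finset.bipartiteAbove, and_comm]
    rw [this, Finset.card_sdiff_of_subset hb.2, hk b hb.1, hs]
  have h3 : ∀ x ∈ sᶜ,
      (Finset.bipartiteBelow (fun (b : Finset α) x => x ∈ b) ((blocks B).filter (s ⊆ ·)) x).card
        = L := by
    intro x hx
    rw [Finset.mem_compl] at hx
    rw [← hL x hx, lam]
    congr 1
    ext b
    simp only [Finset.bipartiteBelow, Finset.mem_filter, Finset.insert_subset_iff]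
    tauto
  rw [Finset.sum_congr rfl h2, Finset.sum_congr rfl h3] at h1
  simp only [Finset.sum_const, smul_eq_mul, Finset.card_compl, hs] at h1
  exact h1

theorem lam_of_top {B : Set (Finset α)} {t k : ℕ} (hB : Cfsg.IsSteinerSystem t k B)
    {s : Finset α} (hs : s.card = t) : lam B s = 1 := by
  obtain ⟨b, ⟨hb, hsb⟩, huniq⟩ := hB.2 s hs
  rw [lam, Finset.card_eq_one]
  refine ⟨b, ?_⟩
  ext c
  simp only [Finset.mem_filter, mem_blocks, Finset.mem_singleton]
  constructor
  · rintro ⟨h1, h2⟩
    exact huniq c ⟨h1, h2⟩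
  · rintro rfl
    exact ⟨hb, hsb⟩

/-- one step down -/
theorem lam_down {B : Set (Finset α)} {k i L M : ℕ} (hk : ∀ b ∈ B, b.card = k)
    (hpos : 0 < k - i) (hM : M * (k - i) = (Fintype.card α - i) * L)
    (hL : ∀ s : Finset α, s.card = i + 1 → lam B s = L) :
    ∀ s : Finset α, s.card = i → lam B s = M := by
  intro s hs
  have := lam_step (L := L) hk hs (fun x hx => hL _ (by rw [Finset.card_insert_of_notMem hx, hs]))
  rw [← hM] at this
  exact Nat.eq_of_mul_eq_mul_right hpos this

theorem ncard_setOf_eq {B : Set (Finset α)} {P : Finset α → Prop} [DecidablePred P] :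
    {b : Finset α | b ∈ B ∧ P b}.ncard = ((blocks B).filter P).card := by
  rw [← Set.ncard_coe_finset]
  congr 1
  ext b
  simp [mem_blocks]

section S5824

variable {B : Set (Finset α)} (hα : Fintype.card α = 24) (hB : Cfsg.IsSteinerSystem 5 8 B)
include hα hB

theorem lam4 : ∀ s : Finset α, s.card = 4 → lam B s = 5 :=
  lam_down hB.1 (by norm_num) (by rw [hα]) (fun _ hs => lam_of_top hB hs)

theorem lam3 : ∀ s : Finset α, s.card = 3 → lam B s = 21 :=
  lam_down hB.1 (by norm_num) (by rw [hα]) (lam4 hα hB)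

theorem lam2 : ∀ s : Finset α, s.card = 2 → lam B s = 77 :=
  lam_down hB.1 (by norm_num) (by rw [hα]) (lam3 hα hB)

theorem lam1 : ∀ s : Finset α, s.card = 1 → lam B s = 253 :=
  lam_down hB.1 (by norm_num) (by rw [hα]) (lam2 hα hB)

theorem lam0 : ∀ s : Finset α, s.card = 0 → lam B s = 759 :=
  lam_down hB.1 (by norm_num) (by rw [hα]) (lam1 hα hB)

end S5824

end Cfsg.Agent.H27.Steiner
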