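import Mathlib
import Cfsg.Prelude.Def_Sporadic_a

set_option autoImplicit false

namespace Cfsg.Agent.H27.AbsGolay

open Classical

/-- the ambient space -/
abbrev V24 := Fin 24 → ZMod 2

/-- bundled hypotheses of an abstract Golay code -/
structure AG (C : Submodule (ZMod 2) V24) : Prop where
  hdim : Module.finrank (ZMod 2) C = 12
  horth : ∀ v ∈ C, ∀ w ∈ C, ∑ i, v i * w i = 0
  hmin : ∀ w ∈ C, w ≠ 0 → 8 ≤ hammingNorm w

variable {C : Submodule (ZMod 2) V24}

/-- dot product -/
def dot (x c : V24) : ZMod 2 := ∑ i, x i * c i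

theorem dot_comm (x c : V24) : dot x c = dot c x := by
  simp [dot, mul_comm]

theorem dot_add_left (x y c : V24) : dot (x + y) c = dot x c + dot y c := by
  simp [dot, add_mul, Finset.sum_add_distrib]

theorem dot_add_right (x c d : V24) : dot x (c + d) = dot x c + dot x d := by
  simp [dot, mul_add, Finset.sum_add_distrib]

theorem dot_single (i : Fin 24) (c : V24) : dot (Pi.single i 1) c = c i := by
  simp [dot, Pi.single_apply, ite_mul]

theorem AG.selfDual (h : AG C) {x : V24} (hx : ∀ c ∈ C, dot c x = 0) : x ∈ C := by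
  let B : LinearMap.BilinForm (ZMod 2) V24 := Matrix.toBilin' 1
  have hB : ∀ a b, B a b = dot a b := by
    intro a b
    simp [B, Matrix.toBilin'_apply', dot, dotProduct]
  have hnd : B.Nondegenerate := by
    apply Matrix.Nondegenerate.toBilin'
    apply Matrix.nondegenerate_of_det_ne_zero
    simp
  have hfin := LinearMap.BilinForm.finrank_orthogonal hnd C
  have hV : Module.finrank (ZMod 2) V24 = 24 := by simp
  rw [hV, h.hdim] at hfin
  have hle : C ≤ B.orthogonal C := by
    intro c hc
    rw [LinearMap.BilinForm.mem_orthogonal_iff]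
    intro d hd
    change B d c = 0
    rw [hB]
    exact h.horth d hd c hc
  have heq : C = B.orthogonal C := by
    apply Submodule.eq_of_le_of_finrank_eq hle
    rw [h.hdim, hfin]
  rw [heq, LinearMap.BilinForm.mem_orthogonal_iff]
  intro d hd
  change B d x = 0
  rw [hB]
  exact hx d hd

/-- the sign -/
def chi (a : ZMod 2) : ℤ := if a = 0 then 1 else -1

theorem chi_add (a b : ZMod 2) : chi (a + b) = chi a * chi b := by
  revert a b; decide

theorem chi_zero : chi 0 = 1 := by decide

theorem chi_of_ne {a : ZMod 2} (h : a ≠ 0) : chi a = -1 := by simp [chi, h]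

theorem chi_eq (a : ZMod 2) : chi a = 1 - 2 * (if a ≠ 0 then 1 else 0) := by
  revert a; decide

/-- sum of signs -/
def Fs (c : V24) : ℤ := ∑ i, chi (c i)

theorem Fs_eq (c : V24) : Fs c = 24 - 2 * (hammingNorm c : ℤ) := by
  simp only [Fs, chi_eq, Finset.sum_sub_distrib, ← Finset.mul_sum]
  simp only [hammingNorm, Finset.card_filter]
  push_cast
  simp

/-- the code as a finset -/
noncomputable def CF (C : Submodule (ZMod 2) V24) : Finset V24 := Finset.univ.filter (· ∈ C)

theorem mem_CF {c : V24} : c ∈ CF C ↔ c ∈ C := by simp [CF]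

theorem AG.card_CF (h : AG C) : (CF C).card = 4096 := by
  have h1 : Fintype.card C = (CF C).card :=
    Fintype.card_of_subtype (CF C) (fun x => mem_CF)
  have h2 : Fintype.card C = Fintype.card (ZMod 2) ^ Module.finrank (ZMod 2) C :=
    Module.card_eq_pow_finrank
  rw [← h1, h2, h.hdim, ZMod.card]
  norm_num

/-- the character sum -/
noncomputable def Es (C : Submodule (ZMod 2) V24) (x : V24) : ℤ := ∑ c ∈ CF C, chi (dot x c)

theorem AG.Es_of_mem (h : AG C) {x : V24} (hx : x ∈ C) : Es C x = 4096 := by
  have : ∀ c ∈ CF C, chi (dot x c) = 1 := by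
    intro c hc
    have : dot x c = 0 := h.horth x hx c (mem_CF.mp hc)
    rw [this, chi_zero]
  rw [Es, Finset.sum_congr rfl this, Finset.sum_const, h.card_CF]
  rfl

theorem AG.Es_of_not_mem (h : AG C) {x : V24} (hx : x ∉ C) : Es C x = 0 := by
  have : ∃ c₀ ∈ C, dot c₀ x ≠ 0 := by
    by_contra hc
    push Not at hc
    exact hx (h.selfDual hc)
  obtain ⟨c₀, hc₀, hne⟩ := this
  have hne' : dot x c₀ ≠ 0 := by rwa [dot_comm]
  have hself : ∀ a : V24, a + c₀ + c₀ = a := by
    intro a
    rw [add_assoc, CharTwo.add_self_eq_zero, add_zero]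
  have h1 : Es C x = ∑ c ∈ CF C, chi (dot x (c + c₀)) := by
    apply Finset.sum_nbij' (fun c => c + c₀) (fun c => c + c₀)
    · intro c hc
      exact mem_CF.mpr (C.add_mem (mem_CF.mp hc) hc₀)
    · intro c hc
      exact mem_CF.mpr (C.add_mem (mem_CF.mp hc) hc₀)
    · intro c _
      exact hself c
    · intro c _
      exact hself c
    · intro c _
      rw [hself]
  have h2 : ∑ c ∈ CF C, chi (dot x (c + c₀)) = - Es C x := by
    rw [Es, ← Finset.sum_neg_distrib]
    apply Finset.sum_congr rfl
    intro c _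
    rw [dot_add_right, chi_add, chi_of_ne hne']
    ring
  omega

/-- words of small weight -/
theorem AG.small_mem_iff (h : AG C) {x : V24} (hw : hammingNorm x < 8) : x ∈ C ↔ x = 0 := by
  constructor
  · intro hx
    by_contra hne
    have := h.hmin x hx hne
    omega
  · rintro rfl
    exact C.zero_mem

/-- the unit vectors -/
noncomputable def e (i : Fin 24) : V24 := Pi.single i 1

theorem e_apply (i j : Fin 24) : e i j = if j = i then 1 else 0 := by
  simp [e, Pi.single_apply]

theorem chi_e (i : Fin 24) (c : V24) : chi (dot (e i) c) = chi (c i) := by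
  rw [e, dot_single]

theorem hamming_le_of_subset {x : V24} {s : Finset (Fin 24)} (h : ∀ m, m ∉ s → x m = 0) :
    hammingNorm x ≤ s.card := by
  apply Finset.card_le_card
  intro m hm
  rw [Finset.mem_filter] at hm
  by_contra hc
  exact hm.2 (h m hc)

theorem hamming_x2 (i j : Fin 24) : hammingNorm (e i + e j) ≤ 2 := by
  have : hammingNorm (e i + e j) ≤ ({i, j} : Finset (Fin 24)).card := by
    apply hamming_le_of_subset
    intro m hm
    simp only [Finset.mem_insert, Finset.mem_singleton, not_or] at hm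
    simp [e_apply, hm.1, hm.2]
  exact this.trans Finset.card_le_two

theorem hamming_x4 (i j k l : Fin 24) : hammingNorm (e i + e j + e k + e l) ≤ 4 := by
  have : hammingNorm (e i + e j + e k + e l) ≤ ({i, j, k, l} : Finset (Fin 24)).card := by
    apply hamming_le_of_subset
    intro m hm
    simp only [Finset.mem_insert, Finset.mem_singleton, not_or] at hm
    simp [e_apply, hm.1, hm.2.1, hm.2.2.1, hm.2.2.2]
  exact this.trans Finset.card_le_four

theorem e_ne (i j : Fin 24) (h : i ≠ j) : e i + e j ≠ 0 := by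
  intro h0
  have := congrFun h0 i
  simp [e_apply, h] at this

theorem x2_zero_iff (i j : Fin 24) : e i + e j = 0 ↔ i = j := by
  constructor
  · intro h
    by_contra hne
    exact e_ne i j hne h
  · rintro rfl
    exact CharTwo.add_self_eq_zero _

/-- the pattern of coincidences of 4 indices -/
def Pt (i j k l : Fin 24) : Prop := (i = j ∧ k = l) ∨ (i = k ∧ j = l) ∨ (i = l ∧ j = k)

theorem x4_zero_iff (i j k l : Fin 24) : e i + e j + e k + e l = 0 ↔ Pt i j k l := by
  constructor
  · intro h
    have hm : ∀ m, (if m = i then (1 : ZMod 2) else 0) + (if m = j then 1 else 0) +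
        (if m = k then 1 else 0) + (if m = l then 1 else 0) = 0 := by
      intro m
      have := congrFun h m
      simpa [e_apply] using this
    have h1 := hm i
    rw [if_pos rfl] at h1
    by_cases hj : i = j <;> by_cases hk : i = k <;> by_cases hl : i = l
    · exact Or.inl ⟨hj, hk.symm.trans hl⟩
    · rw [if_pos hj, if_pos hk, if_neg hl] at h1
      exact absurd h1 (by decide)
    · rw [if_pos hj, if_neg hk, if_pos hl] at h1
      exact absurd h1 (by decide)
    · -- i = j only
      have h2 := hm k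
      rw [if_neg (fun h => hk h.symm), if_neg (fun h => hk (hj.trans h.symm)), if_pos rfl] at h2
      by_cases hkl : k = l
      · exact Or.inl ⟨hj, hkl⟩
      · rw [if_neg hkl] at h2
        exact absurd h2 (by decide)
    · rw [if_neg hj, if_pos hk, if_pos hl] at h1
      exact absurd h1 (by decide)
    · -- i = k only
      have h2 := hm j
      rw [if_neg (fun h => hj h.symm), if_pos rfl, if_neg (fun h => hj (hk.trans h.symm))] at h2
      by_cases hjl : j = l
      · exact Or.inr (Or.inl ⟨hk, hjl⟩)
      · rw [if_neg hjl] at h2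
        exact absurd h2 (by decide)
    · -- i = l only
      have h2 := hm j
      have hjl : ¬ j = l := fun h => hj (hl.trans h.symm)
      rw [if_neg (fun h => hj h.symm), if_pos rfl, if_neg hjl] at h2
      by_cases hjk : j = k
      · exact Or.inr (Or.inr ⟨hl, hjk⟩)
      · rw [if_neg hjk] at h2
        exact absurd h2 (by decide)
    · rw [if_neg hj, if_neg hk, if_neg hl] at h1
      exact absurd h1 (by decide)
  · rintro (⟨rfl, rfl⟩ | ⟨rfl, rfl⟩ | ⟨rfl, rfl⟩)
    · rw [CharTwo.add_self_eq_zero, zero_add, CharTwo.add_self_eq_zero]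
    · have : e i + e j + e i + e j = (e i + e i) + (e j + e j) := by abel
      rw [this, CharTwo.add_self_eq_zero, CharTwo.add_self_eq_zero, add_zero]
    · have : e i + e j + e j + e i = (e i + e i) + (e j + e j) := by abel
      rw [this, CharTwo.add_self_eq_zero, CharTwo.add_self_eq_zero, add_zero]

theorem sum_Pt : ∑ i : Fin 24, ∑ j : Fin 24, ∑ k : Fin 24, ∑ l : Fin 24,
    (if Pt i j k l then (4096 : ℤ) else 0) = 4096 * 1680 := by
  have h1 : ∀ i j : Fin 24, ∑ k : Fin 24, ∑ l : Fin 24, (if Pt i j k l then (4096 : ℤ) else 0) =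
      2 * 4096 + (if i = j then 22 * 4096 else 0) := by
    intro i j
    by_cases hij : i = j
    · subst hij
      have hiff : ∀ k l : Fin 24, Pt i i k l ↔ k = l := by
        intro k l
        constructor
        · rintro (⟨-, h⟩ | ⟨h1, h2⟩ | ⟨h1, h2⟩)
          · exact h
          · exact h1.symm.trans h2
          · exact h2.symm.trans h1
        · intro h
          exact Or.inl ⟨rfl, h⟩
      have : ∀ k l : Fin 24, (if Pt i i k l then (4096 : ℤ) else 0) = if k = l then 4096 else 0 := by
        intro k l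
        simp only [hiff]
      simp only [this, Finset.sum_ite_eq, Finset.mem_univ, if_true, Finset.sum_const,
        Finset.card_univ, Fintype.card_fin]
      norm_num
    · have : ∀ k l : Fin 24, (if Pt i j k l then (4096 : ℤ) else 0) =
          (if k = i then (if l = j then 4096 else 0) else 0) +
          (if k = j then (if l = i then 4096 else 0) else 0) := by
        intro k l
        by_cases h1 : k = i <;> by_cases h2 : k = j <;> by_cases h3 : l = i <;> by_cases h4 : l = j <;>
          simp only [Pt, h1, h2, h3, h4, hij, if_true, if_false, false_and, true_and, and_true, and_false, or_false, false_or, true_or, or_true, add_zero, zero_add, Ne.symm hij] <;>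
          grind
      simp only [this, Finset.sum_add_distrib, Finset.sum_ite_eq', Finset.mem_univ, if_true,
        hij, if_false]
      simp [Finset.sum_ite_eq']
  simp only [h1, Finset.sum_add_distrib, Finset.sum_ite_eq, Finset.mem_univ, if_true,
    Finset.sum_const, Finset.card_univ, Fintype.card_fin]
  norm_num


theorem chi2 (i j : Fin 24) (c : V24) : chi (c i) * chi (c j) = chi (dot (e i + e j) c) := by
  rw [dot_add_left, chi_add, chi_e, chi_e]

theorem chi4 (i j k l : Fin 24) (c : V24) :
    chi (c i) * chi (c j) * chi (c k) * chi (c l) = chi (dot (e i + e j + e k + e l) c) := by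
  rw [dot_add_left, dot_add_left, dot_add_left, chi_add, chi_add, chi_add, chi_e, chi_e, chi_e, chi_e]

theorem AG.Es2 (h : AG C) (i j : Fin 24) :
    Es C (e i + e j) = if i = j then 4096 else 0 := by
  by_cases hij : i = j
  · rw [if_pos hij, h.Es_of_mem]
    rw [(x2_zero_iff i j).mpr hij]
    exact C.zero_mem
  · rw [if_neg hij, h.Es_of_not_mem]
    rw [h.small_mem_iff (lt_of_le_of_lt (hamming_x2 i j) (by norm_num)), x2_zero_iff]
    exact hij

theorem AG.Es4 (h : AG C) (i j k l : Fin 24) :
    Es C (e i + e j + e k + e l) = if Pt i j k l then 4096 else 0 := by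
  by_cases hij : Pt i j k l
  · rw [if_pos hij, h.Es_of_mem]
    rw [(x4_zero_iff i j k l).mpr hij]
    exact C.zero_mem
  · rw [if_neg hij, h.Es_of_not_mem]
    rw [h.small_mem_iff (lt_of_le_of_lt (hamming_x4 i j k l) (by norm_num)), x4_zero_iff]
    exact hij

theorem AG.moment2 (h : AG C) : ∑ c ∈ CF C, (Fs c) ^ 2 = 4096 * 24 := by
  have h1 : ∀ c : V24, (Fs c) ^ 2 = ∑ i : Fin 24, ∑ j : Fin 24, chi (dot (e i + e j) c) := by
    intro c
    rw [Fs, sq, Finset.sum_mul_sum]
    simp only [chi2]
  simp only [h1]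
  rw [Finset.sum_comm]
  have h2 : ∀ i : Fin 24, ∑ c ∈ CF C, ∑ j : Fin 24, chi (dot (e i + e j) c) = 4096 := by
    intro i
    rw [Finset.sum_comm]
    have : ∀ j : Fin 24, ∑ c ∈ CF C, chi (dot (e i + e j) c) = if i = j then 4096 else 0 :=
      fun j => h.Es2 i j
    simp only [this, Finset.sum_ite_eq, Finset.mem_univ, if_true]
  simp only [h2, Finset.sum_const, Finset.card_univ, Fintype.card_fin]
  norm_num

theorem AG.moment4 (h : AG C) : ∑ c ∈ CF C, (Fs c) ^ 4 = 4096 * 1680 := by
  have h1 : ∀ c : V24, (Fs c) ^ 4 = ∑ i : Fin 24, ∑ j : Fin 24, ∑ k : Fin 24, ∑ l : Fin 24,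
      chi (dot (e i + e j + e k + e l) c) := by
    intro c
    simp only [← chi4]
    have : (Fs c) ^ 4 = Fs c * Fs c * Fs c * Fs c := by ring
    rw [this, Fs]
    simp only [Finset.sum_mul, Finset.mul_sum]
    rw [Finset.sum_comm]
    apply Finset.sum_congr rfl
    intro i _
    rw [Finset.sum_comm]
    apply Finset.sum_congr rfl
    intro j _
    rw [Finset.sum_comm]
    apply Finset.sum_congr rfl
    intro k _
    apply Finset.sum_congr rfl
    intro l _
    ring
  simp only [h1]
  rw [← sum_Pt, Finset.sum_comm]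
  apply Finset.sum_congr rfl
  intro i _
  rw [Finset.sum_comm]
  apply Finset.sum_congr rfl
  intro j _
  rw [Finset.sum_comm]
  apply Finset.sum_congr rfl
  intro k _
  rw [Finset.sum_comm]
  apply Finset.sum_congr rfl
  intro l _
  exact h.Es4 i j k l

theorem zmod2_mul_self (a : ZMod 2) : a * a = a := by
  revert a; decide

theorem AG.sum_eq_zero (h : AG C) {c : V24} (hc : c ∈ C) : ∑ i, c i = 0 := by
  have := h.horth c hc c hc
  simpa [zmod2_mul_self] using this

/-- the all-ones word -/
def u1 : V24 := fun _ => 1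

theorem AG.u1_mem (h : AG C) : u1 ∈ C := by
  apply h.selfDual
  intro c hc
  simpa [dot, u1] using h.sum_eq_zero hc

theorem sum_eq_wt (c : V24) : ∑ i, c i = ((hammingNorm c : ℕ) : ZMod 2) := by
  have h1 : ∀ a : ZMod 2, a = if a ≠ 0 then 1 else 0 := by decide
  rw [hammingNorm, Finset.card_filter]
  push_cast
  exact Finset.sum_congr rfl (fun i _ => h1 (c i))

theorem AG.even_wt (h : AG C) {c : V24} (hc : c ∈ C) : 2 ∣ hammingNorm c := by
  have := h.sum_eq_zero hc
  rw [sum_eq_wt] at this
  exact (ZMod.natCast_eq_zero_iff _ _).mp this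

theorem wt_add_u1 (c : V24) : hammingNorm (c + u1) + hammingNorm c = 24 := by
  have h1 : ∀ a : ZMod 2, a = 0 ∨ a = 1 := by decide
  rw [hammingNorm, hammingNorm, Finset.card_filter, Finset.card_filter, ← Finset.sum_add_distrib]
  have h2 : ∀ i : Fin 24, (if (c + u1) i ≠ 0 then 1 else 0) + (if c i ≠ 0 then 1 else 0) = 1 := by
    intro i
    rcases h1 (c i) with h3 | h3 <;> simp [u1, h3, CharTwo.add_self_eq_zero]
  rw [Finset.sum_congr rfl (fun i _ => h2 i)]
  simp

theorem wt_zero_iff (c : V24) : hammingNorm c = 0 ↔ c = 0 := hammingNorm_eq_zero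

theorem wt_24_iff (c : V24) : hammingNorm c = 24 ↔ c = u1 := by
  constructor
  · intro h
    have h1 := wt_add_u1 c
    have h2 : c + u1 = 0 := (wt_zero_iff _).mp (by omega)
    have h3 : c = c + (u1 + u1) := by
      rw [CharTwo.add_self_eq_zero, add_zero]
    rw [h3, ← add_assoc, h2, zero_add]
  · rintro rfl
    have h1 := wt_add_u1 u1
    rw [CharTwo.add_self_eq_zero] at h1
    have : hammingNorm (0 : V24) = 0 := (wt_zero_iff _).mpr rfl
    omega

theorem u1_ne_zero : u1 ≠ 0 := by
  intro h
  have := congrFun h 0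
  simp [u1] at this

theorem AG.wt_range (h : AG C) {c : V24} (hc : c ∈ C) (h0 : c ≠ 0) (h1 : c ≠ u1) :
    8 ≤ hammingNorm c ∧ hammingNorm c ≤ 16 := by
  refine ⟨h.hmin c hc h0, ?_⟩
  have h2 := wt_add_u1 c
  have h3 : c + u1 ≠ 0 := by
    intro h4
    apply h1
    have h5 : c = c + (u1 + u1) := by
      rw [CharTwo.add_self_eq_zero, add_zero]
    rw [h5, ← add_assoc, h4, zero_add]
  have := h.hmin _ (C.add_mem hc h.u1_mem) h3
  omega

theorem wt_map_zero : hammingNorm (0 : V24) = 0 := (wt_zero_iff _).mpr rfl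
theorem wt_map_u1 : hammingNorm u1 = 24 := (wt_24_iff _).mpr rfl

/-- only weights `0, 8, 12, 16, 24` occur -/
theorem AG.weights (h : AG C) {c : V24} (hc : c ∈ C) :
    hammingNorm c = 0 ∨ hammingNorm c = 8 ∨ hammingNorm c = 12 ∨ hammingNorm c = 16 ∨
      hammingNorm c = 24 := by
  by_cases h0 : c = 0
  · left; rw [h0]; exact wt_map_zero
  by_cases h1 : c = u1
  · right; right; right; right; rw [h1]; exact wt_map_u1
  have hq : ∀ x : V24, (Fs x) ^ 4 - 64 * (Fs x) ^ 2 =
      (24 - 2 * (hammingNorm x : ℤ)) ^ 4 - 64 * (24 - 2 * (hammingNorm x : ℤ)) ^ 2 := by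
    intro x; rw [Fs_eq]
  have hS : ∑ x ∈ CF C, ((Fs x) ^ 4 - 64 * (Fs x) ^ 2) = 589824 := by
    rw [Finset.sum_sub_distrib, ← Finset.mul_sum, h.moment4, h.moment2]
    norm_num
  have hmem0 : (0 : V24) ∈ CF C := mem_CF.mpr C.zero_mem
  have hmem1 : u1 ∈ (CF C).erase 0 :=
    Finset.mem_erase.mpr ⟨u1_ne_zero, mem_CF.mpr h.u1_mem⟩
  have hF0 : Fs 0 = 24 := by rw [Fs_eq, wt_map_zero]; norm_num
  have hF1 : Fs u1 = -24 := by rw [Fs_eq, wt_map_u1]; norm_num
  have hR : ∑ x ∈ ((CF C).erase 0).erase u1, ((Fs x) ^ 4 - 64 * (Fs x) ^ 2) = 0 := by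
    have e1 := Finset.sum_erase_eq_sub (f := fun x => (Fs x) ^ 4 - 64 * (Fs x) ^ 2) hmem0
    have e2 := Finset.sum_erase_eq_sub (f := fun x => (Fs x) ^ 4 - 64 * (Fs x) ^ 2) hmem1
    rw [e2, e1, hS, hF0, hF1]
    norm_num
  have hnp : ∀ x ∈ ((CF C).erase 0).erase u1, (Fs x) ^ 4 - 64 * (Fs x) ^ 2 ≤ 0 := by
    intro x hx
    have hx1 := Finset.mem_erase.mp hx
    have hx2 := Finset.mem_erase.mp hx1.2
    obtain ⟨h8, h16⟩ := h.wt_range (mem_CF.mp hx2.2) hx2.1 hx1.1
    obtain ⟨m, hm⟩ := h.even_wt (mem_CF.mp hx2.2)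
    rw [hq, hm]
    have h4 : 4 ≤ m := by omega
    have h5 : m ≤ 8 := by omega
    interval_cases m <;> norm_num
  have hzero := (Finset.sum_eq_zero_iff_of_nonpos hnp).mp hR
  have hcm : c ∈ ((CF C).erase 0).erase u1 :=
    Finset.mem_erase.mpr ⟨h1, Finset.mem_erase.mpr ⟨h0, mem_CF.mpr hc⟩⟩
  have h3 := hzero c hcm
  obtain ⟨h8, h16⟩ := h.wt_range hc h0 h1
  obtain ⟨m, hm⟩ := h.even_wt hc
  rw [hq, hm] at h3
  have h4 : 4 ≤ m := by omega
  have h5 : m ≤ 8 := by omega
  rw [hm]
  interval_cases m <;> first | omega | (exfalso; norm_num at h3)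

/-- the number of octads -/
theorem AG.count8 (h : AG C) : ((CF C).filter (fun c => hammingNorm c = 8)).card = 759 := by
  set N8 := ((CF C).filter (fun c => hammingNorm c = 8)).card with hN8
  set N16 := ((CF C).filter (fun c => hammingNorm c = 16)).card with hN16
  set N0 := ((CF C).filter (fun c => hammingNorm c = 0)).card with hN0
  set N24 := ((CF C).filter (fun c => hammingNorm c = 24)).card with hN24
  have h0 : N0 = 1 := by
    rw [hN0, Finset.card_eq_one]
    refine ⟨0, ?_⟩
    ext x
    simp only [Finset.mem_filter, mem_CF, Finset.mem_singleton, wt_zero_iff]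
    constructor
    · exact fun h => h.2
    · rintro rfl
      exact ⟨C.zero_mem, rfl⟩
  have h24 : N24 = 1 := by
    rw [hN24, Finset.card_eq_one]
    refine ⟨u1, ?_⟩
    ext x
    simp only [Finset.mem_filter, mem_CF, Finset.mem_singleton, wt_24_iff]
    constructor
    · exact fun h => h.2
    · rintro rfl
      exact ⟨h.u1_mem, rfl⟩
  have h816 : N8 = N16 := by
    rw [hN8, hN16]
    apply Finset.card_nbij' (fun c => c + u1) (fun c => c + u1)
    · intro c hc
      have hc' := Finset.mem_filter.mp (Finset.mem_coe.mp hc)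
      refine Finset.mem_coe.mpr (Finset.mem_filter.mpr ⟨mem_CF.mpr (C.add_mem (mem_CF.mp hc'.1) h.u1_mem), ?_⟩)
      have h5 := hc'.2
      have := wt_add_u1 c
      show hammingNorm (c + u1) = 16
      omega
    · intro c hc
      have hc' := Finset.mem_filter.mp (Finset.mem_coe.mp hc)
      refine Finset.mem_coe.mpr (Finset.mem_filter.mpr ⟨mem_CF.mpr (C.add_mem (mem_CF.mp hc'.1) h.u1_mem), ?_⟩)
      have h5 := hc'.2
      have := wt_add_u1 c
      show hammingNorm (c + u1) = 8
      omega
    · intro c _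
      simp only
      rw [add_assoc, CharTwo.add_self_eq_zero, add_zero]
    · intro c _
      simp only
      rw [add_assoc, CharTwo.add_self_eq_zero, add_zero]
  have hs : (4096 * 24 : ℤ) = 576 * N0 + 64 * N8 + 64 * N16 + 576 * N24 := by
    rw [← h.moment2, hN0, hN8, hN16, hN24]
    simp only [Finset.card_filter]
    push_cast
    simp only [Finset.mul_sum, ← Finset.sum_add_distrib]
    apply Finset.sum_congr rfl
    intro c hc
    rw [Fs_eq]
    rcases h.weights (mem_CF.mp hc) with h1 | h1 | h1 | h1 | h1 <;> rw [h1] <;> norm_num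
  rw [h0, h24, ← h816] at hs
  push_cast at hs
  omega


/-- support as a finset -/
noncomputable def supp (c : V24) : Finset (Fin 24) := Finset.univ.filter (fun i => c i ≠ 0)

theorem mem_supp {c : V24} {i : Fin 24} : i ∈ supp c ↔ c i ≠ 0 := by simp [supp]

theorem card_supp (c : V24) : (supp c).card = hammingNorm c := by
  simp only [supp, hammingNorm]

theorem val_of_ne {a : ZMod 2} (h : a ≠ 0) : a = 1 := by
  revert a; decide

theorem supp_inj {c d : V24} (h : supp c = supp d) : c = d := by
  funext i
  by_cases hc : c i = 0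
  · have : i ∉ supp c := by simp [mem_supp, hc]
    rw [h] at this
    simp only [mem_supp, not_not] at this
    rw [hc, this]
  · have : i ∈ supp c := mem_supp.mpr hc
    rw [h] at this
    rw [val_of_ne hc, val_of_ne (mem_supp.mp this)]

/-- distance bound -/
theorem AG.eq_of_card_inter (h : AG C) {c d : V24} (hc : c ∈ C) (hd : d ∈ C)
    (hcard : (supp c).card + (supp d).card < 8 + 2 * (supp c ∩ supp d).card) : c = d := by
  by_contra hne
  have h1 : c + d ≠ 0 := by
    intro h0
    apply hne
    have : c = c + (d + d) := by rw [CharTwo.add_self_eq_zero, add_zero]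
    rw [this, ← add_assoc, h0, zero_add]
  have h2 := h.hmin _ (C.add_mem hc hd) h1
  have h3 : hammingNorm (c + d) ≤ ((supp c \ supp d) ∪ (supp d \ supp c)).card := by
    apply hamming_le_of_subset
    intro m hm
    simp only [Finset.mem_union, Finset.mem_sdiff, not_or, not_and, not_not, mem_supp] at hm
    have h4 : ∀ a b : ZMod 2, (a ≠ 0 → b ≠ 0) → (b ≠ 0 → a ≠ 0) → a + b = 0 := by decide
    exact h4 _ _ (fun h => hm.1 h) (fun h => hm.2 h)
  have h5 : ((supp c \ supp d) ∪ (supp d \ supp c)).card ≤
      (supp c \ supp d).card + (supp d \ supp c).card := Finset.card_union_le _ _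
  have h6 := Finset.card_sdiff_add_card_inter (supp c) (supp d)
  have h7 := Finset.card_sdiff_add_card_inter (supp d) (supp c)
  rw [Finset.inter_comm] at h7
  omega

/-- Steiner property: the octads -/
theorem AG.exists_octad (h : AG C) {s : Finset (Fin 24)} (hs : s.card = 5) :
    ∃ c ∈ C, hammingNorm c = 8 ∧ s ⊆ supp c := by
  let O := (CF C).filter (fun c => hammingNorm c = 8)
  let T : Finset (Finset (Fin 24)) := Finset.powersetCard 5 Finset.univ
  let U : Finset (Finset (Fin 24)) := O.biUnion (fun c => Finset.powersetCard 5 (supp c))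
  have hdisj : (O : Set V24).PairwiseDisjoint (fun c => Finset.powersetCard 5 (supp c)) := by
    intro c hc d hd hne
    have hc' := Finset.mem_filter.mp (Finset.mem_coe.mp hc)
    have hd' := Finset.mem_filter.mp (Finset.mem_coe.mp hd)
    simp only [Function.onFun]
    rw [Finset.disjoint_left]
    intro x hx hy
    rw [Finset.mem_powersetCard] at hx hy
    apply hne
    apply h.eq_of_card_inter (mem_CF.mp hc'.1) (mem_CF.mp hd'.1)
    have h1 : x ⊆ supp c ∩ supp d := Finset.subset_inter hx.1 hy.1
    have h2 := Finset.card_le_card h1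
    rw [card_supp, card_supp, hc'.2, hd'.2]
    omega
  have hUcard : U.card = 42504 := by
    rw [Finset.card_biUnion hdisj]
    have : ∀ c ∈ O, (Finset.powersetCard 5 (supp c)).card = 56 := by
      intro c hc
      have hc' := Finset.mem_filter.mp hc
      rw [Finset.card_powersetCard, card_supp, hc'.2]
      rfl
    rw [Finset.sum_congr rfl this, Finset.sum_const, h.count8]
    rfl
  have hTcard : T.card = 42504 := by
    rw [Finset.card_powersetCard, Finset.card_univ, Fintype.card_fin]
    rfl
  have hsub : U ⊆ T := by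
    intro x hx
    obtain ⟨c, -, hc⟩ := Finset.mem_biUnion.mp hx
    rw [Finset.mem_powersetCard] at hc ⊢
    exact ⟨Finset.subset_univ _, hc.2⟩
  have heq : U = T := Finset.eq_of_subset_of_card_le hsub (by rw [hUcard, hTcard])
  have hsT : s ∈ T := Finset.mem_powersetCard.mpr ⟨Finset.subset_univ _, hs⟩
  rw [← heq] at hsT
  obtain ⟨c, hc, hcs⟩ := Finset.mem_biUnion.mp hsT
  have hc' := Finset.mem_filter.mp hc
  exact ⟨c, mem_CF.mp hc'.1, hc'.2, (Finset.mem_powersetCard.mp hcs).1⟩

theorem AG.octad_unique (h : AG C) {c d : V24} (hc : c ∈ C) (hd : d ∈ C)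
    (h8c : hammingNorm c = 8) (h8d : hammingNorm d = 8) {s : Finset (Fin 24)} (hs : s.card = 5)
    (hsc : s ⊆ supp c) (hsd : s ⊆ supp d) : c = d := by
  apply h.eq_of_card_inter hc hd
  have h1 : s ⊆ supp c ∩ supp d := Finset.subset_inter hsc hsd
  have h2 := Finset.card_le_card h1
  rw [card_supp, card_supp, h8c, h8d]
  omega

end Cfsg.Agent.H27.AbsGolay
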