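import Cfsg.Agent.Lib.H27.AbsGolay

set_option autoImplicit false

namespace Cfsg.Agent.H27.AbsGolay

open Classical

variable {C : Submodule (ZMod 2) V24}

theorem AG.two_words (h : AG C) {w u u' : V24} (hu : u - w ∈ C) (hu' : u' - w ∈ C)
    (hw : hammingNorm u ≤ 4) (hw' : hammingNorm u' ≤ 4) (hne : u ≠ u') :
    hammingNorm u = 4 ∧ hammingNorm u' = 4 ∧ Disjoint (supp u) (supp u') := by
  have h1 : u + u' ∈ C := by
    have := C.sub_mem hu hu'
    rwa [sub_sub_sub_cancel_right, CharTwo.sub_eq_add] at this
  have h2 : u + u' ≠ 0 := by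
    intro h0
    apply hne
    have : u = u + (u' + u') := by rw [CharTwo.add_self_eq_zero, add_zero]
    rw [this, ← add_assoc, h0, zero_add]
  have h3 := h.hmin _ h1 h2
  have h4 : hammingNorm (u + u') ≤ (supp u ∪ supp u').card := by
    apply hamming_le_of_subset
    intro m hm
    simp only [Finset.mem_union, not_or, mem_supp, not_not] at hm
    simp [hm.1, hm.2]
  have h5 := Finset.card_union_add_card_inter (supp u) (supp u')
  rw [card_supp, card_supp] at h5
  have h6 : (supp u ∩ supp u').card = 0 := by omega
  refine ⟨by omega, by omega, ?_⟩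
  rw [Finset.disjoint_iff_inter_eq_empty]
  exact Finset.card_eq_zero.mp h6

/-- words of weight at most 4 in the coset of `u` -/
noncomputable def SF (C : Submodule (ZMod 2) V24) (u : V24) : Finset V24 :=
  Finset.univ.filter (fun v => v - u ∈ C ∧ hammingNorm v ≤ 4)

theorem mem_SF {u v : V24} : v ∈ SF C u ↔ v - u ∈ C ∧ hammingNorm v ≤ 4 := by
  simp [SF]

theorem AG.SF_wt (h : AG C) {u v : V24} (hu : hammingNorm u = 4) (hv : v ∈ SF C u) :
    hammingNorm v = 4 := by
  by_cases hvu : v = u
  · rw [hvu, hu]
  · have hv' := mem_SF.mp hv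
    exact (h.two_words (w := u) hv'.1 (by simp) hv'.2 hu.le hvu).1

theorem AG.SF_card (h : AG C) {u : V24} (hu : hammingNorm u = 4) : (SF C u).card = 6 := by
  have hdisj : ((SF C u : Finset V24) : Set V24).PairwiseDisjoint supp := by
    intro a ha b hb hne
    have ha' := mem_SF.mp (Finset.mem_coe.mp ha)
    have hb' := mem_SF.mp (Finset.mem_coe.mp hb)
    exact (h.two_words ha'.1 hb'.1 ha'.2 hb'.2 hne).2.2
  have hcover : (SF C u).biUnion supp = Finset.univ := by
    apply Finset.eq_univ_of_forall
    intro x
    rw [Finset.mem_biUnion]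
    by_cases hx : x ∈ supp u
    · exact ⟨u, mem_SF.mpr ⟨by simp, hu.le⟩, hx⟩
    · have hs : (insert x (supp u)).card = 5 := by
        rw [Finset.card_insert_of_notMem hx, card_supp, hu]
      obtain ⟨o, ho, ho8, hos⟩ := h.exists_octad hs
      have hxo : x ∈ supp o := hos (Finset.mem_insert_self _ _)
      have huo : supp u ⊆ supp o := (Finset.subset_insert _ _).trans hos
      have hsupp : supp (o + u) = supp o \ supp u := by
        ext m
        simp only [Finset.mem_sdiff, mem_supp, not_not, Pi.add_apply]
        by_cases hm : u m = 0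
        · simp [hm]
        · have hm1 : u m = 1 := val_of_ne hm
          have hmo : o m = 1 := val_of_ne (mem_supp.mp (huo (mem_supp.mpr hm)))
          simp [hm1, hmo, CharTwo.add_self_eq_zero]
      have hcard : hammingNorm (o + u) = 4 := by
        rw [← card_supp, hsupp, Finset.card_sdiff_of_subset huo, card_supp, card_supp, ho8, hu]
      refine ⟨o + u, mem_SF.mpr ⟨?_, hcard.le⟩, ?_⟩
      · simpa using ho
      · rw [hsupp, Finset.mem_sdiff]
        exact ⟨hxo, hx⟩
  have hcard := Finset.card_biUnion hdisj
  rw [hcover, Finset.card_univ, Fintype.card_fin] at hcard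
  have h4 : ∀ v ∈ SF C u, (supp v).card = 4 := by
    intro v hv
    rw [card_supp]
    exact h.SF_wt hu hv
  rw [Finset.sum_congr rfl h4, Finset.sum_const, smul_eq_mul] at hcard
  omega

/-- indicator of a set -/
noncomputable def indV (s : Finset (Fin 24)) : V24 := fun i => if i ∈ s then 1 else 0

theorem supp_indV (s : Finset (Fin 24)) : supp (indV s) = s := by
  ext i
  simp [mem_supp, indV]

theorem count_wt (k : ℕ) : ((Finset.univ : Finset V24).filter (fun u => hammingNorm u = k)).card =
    Nat.choose 24 k := by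
  have h1 : (Finset.powersetCard k (Finset.univ : Finset (Fin 24))).card = Nat.choose 24 k := by
    rw [Finset.card_powersetCard, Finset.card_univ, Fintype.card_fin]
  rw [← h1]
  apply Finset.card_bij (fun c _ => supp c)
  · intro c hc
    rw [Finset.mem_powersetCard]
    refine ⟨Finset.subset_univ _, ?_⟩
    rw [card_supp]
    exact (Finset.mem_filter.mp hc).2
  · intro c _ d _ hcd
    exact supp_inj hcd
  · intro s hs
    rw [Finset.mem_powersetCard] at hs
    refine ⟨indV s, ?_, supp_indV s⟩
    rw [Finset.mem_filter]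
    refine ⟨Finset.mem_univ _, ?_⟩
    rw [← card_supp, supp_indV]
    exact hs.2

/-- words of weight at most 3 -/
noncomputable def setA : Finset V24 := (Finset.univ : Finset V24).filter (fun u => hammingNorm u ≤ 3)
/-- words of weight 4 -/
noncomputable def setB : Finset V24 := (Finset.univ : Finset V24).filter (fun u => hammingNorm u = 4)

theorem mem_setA {u : V24} : u ∈ setA ↔ hammingNorm u ≤ 3 := by simp [setA]
theorem mem_setB {u : V24} : u ∈ setB ↔ hammingNorm u = 4 := by simp [setB]

theorem card_setB : setB.card = 10626 := by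
  have : setB.card = Nat.choose 24 4 := count_wt 4
  rw [this]; rfl

theorem card_setA : setA.card = 2325 := by
  have h1 := Finset.card_eq_sum_card_fiberwise (s := setA) (t := Finset.range 4)
      (f := (hammingNorm : V24 → ℕ)) (by
        intro u hu
        have := mem_setA.mp (Finset.mem_coe.mp hu)
        exact Finset.mem_coe.mpr (Finset.mem_range.mpr (by omega)))
  have h2 : ∀ k ∈ Finset.range 4, (setA.filter (fun u => hammingNorm u = k)).card = Nat.choose 24 k := by
    intro k hk
    have hk' := Finset.mem_range.mp hk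
    have : setA.filter (fun u => hammingNorm u = k) =
        (Finset.univ : Finset V24).filter (fun u => hammingNorm u = k) := by
      apply Finset.ext
      intro u
      rw [Finset.mem_filter, mem_setA, Finset.mem_filter]
      constructor
      · exact fun h => ⟨Finset.mem_univ _, h.2⟩
      · intro h
        exact ⟨by omega, h.2⟩
    rw [this]
    exact count_wt k
  rw [h1, Finset.sum_congr rfl h2]
  rfl

theorem AG.covering (h : AG C) (w : V24) : ∃ u, u - w ∈ C ∧ hammingNorm u ≤ 4 := by
  let Q := V24 ⧸ C
  let π : V24 → Q := Submodule.Quotient.mk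
  have hπ : ∀ a b : V24, π a = π b ↔ a - b ∈ C := fun a b => Submodule.Quotient.eq C
  have : Fintype Q := Fintype.ofFinite _
  have hQ : Fintype.card Q = 4096 := by
    have h1 := C.toAddSubgroup.card_eq_card_quotient_mul_card_addSubgroup
    have h2 : Nat.card C = 4096 := by
      rw [Nat.card_eq_fintype_card]
      have h3 : Fintype.card C = Fintype.card (ZMod 2) ^ Module.finrank (ZMod 2) C :=
        Module.card_eq_pow_finrank
      rw [h3, h.hdim, ZMod.card]
      norm_num
    have h4 : Nat.card V24 = 2 ^ 24 := by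
      rw [Nat.card_eq_fintype_card, Fintype.card_fun, ZMod.card, Fintype.card_fin]
    have h5 : Nat.card (V24 ⧸ C.toAddSubgroup) * Nat.card C.toAddSubgroup = 2 ^ 24 := by
      rw [← h4]; exact h1.symm
    have h6 : Nat.card C.toAddSubgroup = 4096 := h2
    have h7 : Nat.card (V24 ⧸ C.toAddSubgroup) = Fintype.card Q :=
      Nat.card_eq_fintype_card (α := Q)
    rw [h6, h7] at h5
    omega
  have hinjA : Set.InjOn π (setA : Set V24) := by
    intro a ha b hb hab
    by_contra hne
    have ha' := mem_setA.mp (Finset.mem_coe.mp ha)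
    have hb' := mem_setA.mp (Finset.mem_coe.mp hb)
    have hab' := (hπ a b).mp hab
    have := (h.two_words (w := b) hab' (by simp) (by omega) (by omega) hne).1
    omega
  have hIA : (setA.image π).card = 2325 := by
    rw [Finset.card_image_of_injOn hinjA, card_setA]
  have hfib : ∀ y ∈ setB.image π, (setB.filter (fun v => π v = y)).card = 6 := by
    intro y hy
    obtain ⟨u, hu, rfl⟩ := Finset.mem_image.mp hy
    have hu4 : hammingNorm u = 4 := mem_setB.mp hu
    rw [← h.SF_card hu4]
    have : setB.filter (fun v => π v = π u) = SF C u := by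
      apply Finset.ext
      intro v
      rw [Finset.mem_filter, mem_setB, mem_SF]
      constructor
      · rintro ⟨h1, h2⟩
        exact ⟨(hπ v u).mp h2, h1.le⟩
      · intro h1
        exact ⟨h.SF_wt hu4 (mem_SF.mpr h1), (hπ v u).mpr h1.1⟩
    rw [this]
  have hIB : (setB.image π).card = 1771 := by
    have h1 := Finset.card_eq_sum_card_image π setB
    rw [Finset.sum_congr rfl hfib, Finset.sum_const, smul_eq_mul, card_setB] at h1
    omega
  have hdisj : Disjoint (setA.image π) (setB.image π) := by
    rw [Finset.disjoint_left]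
    intro y hy1 hy2
    obtain ⟨a, ha, rfl⟩ := Finset.mem_image.mp hy1
    obtain ⟨b, hb, hab⟩ := Finset.mem_image.mp hy2
    have ha' := mem_setA.mp ha
    have hb' := mem_setB.mp hb
    have hne : a ≠ b := by
      rintro rfl
      omega
    have := (h.two_words (w := b) ((hπ a b).mp hab.symm) (by simp) (by omega) (by omega) hne).1
    omega
  have hall : setA.image π ∪ setB.image π = Finset.univ := by
    apply Finset.eq_univ_of_card
    rw [Finset.card_union_of_disjoint hdisj, hIA, hIB, hQ]
  have hw : π w ∈ setA.image π ∪ setB.image π := by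
    rw [hall]; exact Finset.mem_univ _
  rcases Finset.mem_union.mp hw with h1 | h1
  · obtain ⟨u, hu, hu2⟩ := Finset.mem_image.mp h1
    exact ⟨u, (hπ u w).mp hu2, by have := mem_setA.mp hu; omega⟩
  · obtain ⟨u, hu, hu2⟩ := Finset.mem_image.mp h1
    exact ⟨u, (hπ u w).mp hu2, by have := mem_setB.mp hu; omega⟩


theorem dot_eq_card (c d : V24) : dot c d = (((supp c ∩ supp d).card : ℕ) : ZMod 2) := by
  have h1 : ∀ a b : ZMod 2, a * b = if (a ≠ 0 ∧ b ≠ 0) then 1 else 0 := by decide
  have h2 : supp c ∩ supp d = Finset.univ.filter (fun i => c i ≠ 0 ∧ d i ≠ 0) := by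
    ext i
    simp [mem_supp]
  rw [h2, Finset.card_filter, dot]
  push_cast
  exact Finset.sum_congr rfl (fun i _ => h1 (c i) (d i))

theorem AG.exists_odd_octad (h : AG C) {U : Finset (Fin 24)} (h1 : 1 ≤ U.card) (h4 : U.card ≤ 4) :
    ∃ o ∈ C, hammingNorm o = 8 ∧ Odd (supp o ∩ U).card := by
  have hcompl : 5 - U.card ≤ (Uᶜ).card := by
    rw [Finset.card_compl, Fintype.card_fin]
    omega
  obtain ⟨F, hF, hFc⟩ := Finset.exists_subset_card_eq hcompl
  have hdisj : Disjoint U F := by
    rw [Finset.disjoint_left]
    intro x hx hxF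
    exact (Finset.mem_compl.mp (hF hxF)) hx
  have hcard : (U ∪ F).card = 5 := by
    rw [Finset.card_union_of_disjoint hdisj, hFc]
    omega
  obtain ⟨O₁, hO₁, h8₁, hs₁⟩ := h.exists_octad hcard
  have hUO : U ⊆ supp O₁ := Finset.subset_union_left.trans hs₁
  have hFO : F ⊆ supp O₁ := Finset.subset_union_right.trans hs₁
  by_cases hodd : Odd U.card
  · refine ⟨O₁, hO₁, h8₁, ?_⟩
    rwa [Finset.inter_eq_right.mpr hUO]
  · rw [Nat.not_odd_iff_even] at hodd
    obtain ⟨p, hp⟩ : U.Nonempty := Finset.card_pos.mp (by omega)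
    have hb : ∃ b, b ∉ supp O₁ := by
      by_contra hc
      push Not at hc
      have : supp O₁ = Finset.univ := Finset.eq_univ_of_forall hc
      have h3 := card_supp O₁
      rw [this, Finset.card_univ, Fintype.card_fin, h8₁] at h3
      omega
    obtain ⟨b, hbO⟩ := hb
    have hb1 : b ∉ (U.erase p) ∪ F := by
      intro hm
      rcases Finset.mem_union.mp hm with hm | hm
      · exact hbO (hUO (Finset.mem_of_mem_erase hm))
      · exact hbO (hFO hm)
    have hdisj2 : Disjoint (U.erase p) F :=
      Finset.disjoint_of_subset_left (Finset.erase_subset _ _) hdisj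
    have hcard2 : (insert b ((U.erase p) ∪ F)).card = 5 := by
      rw [Finset.card_insert_of_notMem hb1, Finset.card_union_of_disjoint hdisj2, hFc,
        Finset.card_erase_of_mem hp]
      omega
    obtain ⟨O₂, hO₂, h8₂, hs₂⟩ := h.exists_octad hcard2
    have hpO₂ : p ∉ supp O₂ := by
      intro hpm
      have hsub : U ∪ F ⊆ supp O₂ := by
        intro x hx
        rcases Finset.mem_union.mp hx with hx | hx
        · by_cases hxp : x = p
          · rw [hxp]; exact hpm
          · apply hs₂
            exact Finset.mem_insert_of_mem (Finset.mem_union_left _ (Finset.mem_erase.mpr ⟨hxp, hx⟩))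
        · apply hs₂
          exact Finset.mem_insert_of_mem (Finset.mem_union_right _ hx)
      have heq : O₁ = O₂ := h.octad_unique hO₁ hO₂ h8₁ h8₂ hcard hs₁ hsub
      apply hbO
      rw [heq]
      exact hs₂ (Finset.mem_insert_self _ _)
    refine ⟨O₂, hO₂, h8₂, ?_⟩
    have hinter : supp O₂ ∩ U = U.erase p := by
      ext x
      simp only [Finset.mem_inter, Finset.mem_erase]
      constructor
      · rintro ⟨h5, h6⟩
        exact ⟨fun e => hpO₂ (e ▸ h5), h6⟩
      · rintro ⟨h5, h6⟩
        exact ⟨hs₂ (Finset.mem_insert_of_mem (Finset.mem_union_left _ (Finset.mem_erase.mpr ⟨h5, h6⟩))), h6⟩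
    rw [hinter, Finset.card_erase_of_mem hp]
    exact Nat.Even.sub_odd (by omega) hodd (by decide)

theorem AG.span_eq (h : AG C) :
    Submodule.span (ZMod 2) {w : V24 | w ∈ C ∧ hammingNorm w = 8} = C := by
  set S := Submodule.span (ZMod 2) {w : V24 | w ∈ C ∧ hammingNorm w = 8} with hS
  have hle : S ≤ C := Submodule.span_le.mpr (fun w hw => hw.1)
  by_contra hne
  have hlt : S < C := lt_of_le_of_ne hle hne
  have hfin : Module.finrank (ZMod 2) S < 12 := by
    rw [← h.hdim]
    exact Submodule.finrank_lt_finrank_of_lt hlt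
  let B : LinearMap.BilinForm (ZMod 2) V24 := Matrix.toBilin' 1
  have hB : ∀ a b, B a b = dot a b := by
    intro a b
    simp [B, Matrix.toBilin'_apply', dot, dotProduct]
  have hnd : B.Nondegenerate := by
    apply Matrix.Nondegenerate.toBilin'
    apply Matrix.nondegenerate_of_det_ne_zero
    simp
  have hf := LinearMap.BilinForm.finrank_orthogonal hnd S
  have hV : Module.finrank (ZMod 2) V24 = 24 := by simp
  rw [hV] at hf
  have hex : ∃ x ∈ B.orthogonal S, x ∉ C := by
    by_contra hc
    push Not at hc
    have : B.orthogonal S ≤ C := fun x hx => hc x hx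
    have h2 := Submodule.finrank_mono this
    rw [h.hdim, hf] at h2
    omega
  obtain ⟨x, hx, hxC⟩ := hex
  rw [LinearMap.BilinForm.mem_orthogonal_iff] at hx
  obtain ⟨u, hu, hw⟩ := h.covering x
  have huC : u ∉ C := by
    intro hm
    apply hxC
    have := C.sub_mem hm hu
    simpa using this
  have hu0 : u ≠ 0 := by
    rintro rfl
    exact huC C.zero_mem
  have hU1 : 1 ≤ (supp u).card := by
    rw [card_supp]
    exact Nat.one_le_iff_ne_zero.mpr (fun h' => hu0 ((wt_zero_iff u).mp h'))
  have hU4 : (supp u).card ≤ 4 := by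
    rw [card_supp]; exact hw
  obtain ⟨o, ho, ho8, hodd⟩ := h.exists_odd_octad hU1 hU4
  have hoS : o ∈ S := Submodule.subset_span ⟨ho, ho8⟩
  have h0 : dot o u = 0 := by
    have e : u = x + (u - x) := by abel
    rw [e, dot_add_right]
    have h1 : dot o x = 0 := by
      rw [← hB]; exact hx o hoS
    have h2 : dot o (u - x) = 0 := h.horth o ho _ hu
    rw [h1, h2, add_zero]
  rw [dot_eq_card] at h0
  have h3 := (ZMod.natCast_eq_zero_iff _ _).mp h0
  obtain ⟨m, hm⟩ := hodd
  omega

end Cfsg.Agent.H27.AbsGolay
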