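import Mathlib
import Cfsg.Prelude.Def_ChevStructure

/-!
# The integral reflection representation of a crystallographic Coxeter group is faithful

For a Cartan-type integer matrix attached to a Coxeter matrix, the simple reflections act on `ℤⁿ`;
the classical positivity argument (induction on the length with the dihedral parabolic subgroups)
shows that the representation is faithful.  The centre then consists of scalars.
-/

set_option autoImplicit false

namespace Cfsg.Agent.H27.CoxC

variable {n : ℕ}

/-- The linear functional of a row of the matrix. -/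
def phi (A : Fin n → Fin n → ℤ) (i : Fin n) (x : Fin n → ℤ) : ℤ := ∑ j, A i j * x j

/-- Basis vectors. -/
def ee (i : Fin n) : Fin n → ℤ := Pi.single i 1

/-- The reflection, computably. -/
def rf (A : Fin n → Fin n → ℤ) (i : Fin n) (x : Fin n → ℤ) : Fin n → ℤ :=
  fun k => if k = i then x k - phi A i x else x k

theorem phi_add (A : Fin n → Fin n → ℤ) (i : Fin n) (x y : Fin n → ℤ) : phi A i (x + y) = phi A i x + phi A i y := by
  simp only [phi, Pi.add_apply, mul_add, Finset.sum_add_distrib]

theorem phi_sub (A : Fin n → Fin n → ℤ) (i : Fin n) (x y : Fin n → ℤ) : phi A i (x - y) = phi A i x - phi A i y := by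
  simp only [phi, Pi.sub_apply, mul_sub, Finset.sum_sub_distrib]

theorem phi_smul (A : Fin n → Fin n → ℤ) (i : Fin n) (c : ℤ) (x : Fin n → ℤ) : phi A i (c • x) = c * phi A i x := by
  simp only [phi, Pi.smul_apply, smul_eq_mul, Finset.mul_sum]
  refine Finset.sum_congr rfl fun j _ => ?_
  ring

theorem phi_ee (A : Fin n → Fin n → ℤ) (i j : Fin n) : phi A i (ee j) = A i j := by
  simp only [phi, ee, Pi.single_apply, mul_ite, mul_one, mul_zero, Finset.sum_ite_eq', Finset.mem_univ, if_true]

theorem rf_eq (A : Fin n → Fin n → ℤ) (i : Fin n) (x : Fin n → ℤ) : rf A i x = x - phi A i x • ee i := by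
  funext k
  by_cases h : k = i
  · subst h
    simp [rf, ee]
  · simp [rf, ee, h]

/-- The reflection as a linear map. -/
def Rm (A : Fin n → Fin n → ℤ) (i : Fin n) : Module.End ℤ (Fin n → ℤ) where
  toFun := rf A i
  map_add' x y := by
    simp only [rf_eq, phi_add, add_smul]
    abel
  map_smul' c x := by
    simp only [rf_eq, phi_smul, RingHom.id_apply, smul_sub, mul_smul]

theorem Rm_apply (A : Fin n → Fin n → ℤ) (i : Fin n) (x : Fin n → ℤ) : Rm A i x = x - phi A i x • ee i := rf_eq A i x

/-- The admissible pairs of off-diagonal entries. -/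
def Off (m : ℕ) (a b : ℤ) : Prop :=
  (m = 2 ∧ a = 0 ∧ b = 0) ∨ (m = 3 ∧ a = -1 ∧ b = -1) ∨ (m = 4 ∧ a = -1 ∧ b = -2) ∨ (m = 4 ∧ a = -2 ∧ b = -1) ∨
    (m = 6 ∧ a = -1 ∧ b = -3) ∨ (m = 6 ∧ a = -3 ∧ b = -1)

instance (m : ℕ) (a b : ℤ) : Decidable (Off m a b) := by
  unfold Off
  infer_instance

/-- A Cartan-type matrix for a Coxeter matrix. -/
structure CartanFor (M : CoxeterMatrix (Fin n)) (A : Fin n → Fin n → ℤ) : Prop where
  diag : ∀ i, A i i = 2
  off : ∀ i j, i ≠ j → Off (M i j) (A i j) (A j i)

section Rel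

variable {M : CoxeterMatrix (Fin n)} {A : Fin n → Fin n → ℤ}

theorem Rm_self (hC : CartanFor M A) (i : Fin n) : Rm A i * Rm A i = 1 := by
  refine LinearMap.ext fun x => ?_
  show Rm A i (Rm A i x) = x
  rw [Rm_apply, Rm_apply A i x, phi_sub, phi_smul, phi_ee, hC.diag]
  ext k
  simp only [Pi.sub_apply, Pi.smul_apply, smul_eq_mul]
  ring

/-- One step of the product of two reflections. -/
def st (a b : ℤ) (t : ℤ × ℤ × ℤ × ℤ) : ℤ × ℤ × ℤ × ℤ :=
  (-(t.1 - t.2.1 * a), -t.2.1 - (t.1 - t.2.1 * a) * b, t.2.2.1 - (t.1 - t.2.1 * a), t.2.2.2 - t.2.1)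

theorem iter_rel (hC : CartanFor M A) (i j : Fin n) (k : ℕ) (x : Fin n → ℤ) :
    ((Rm A i * Rm A j) ^ k) x =
        x + ((st (A i j) (A j i))^[k] (phi A i x, phi A j x, 0, 0)).2.2.1 • ee i +
          ((st (A i j) (A j i))^[k] (phi A i x, phi A j x, 0, 0)).2.2.2 • ee j ∧
      phi A i (((Rm A i * Rm A j) ^ k) x) = ((st (A i j) (A j i))^[k] (phi A i x, phi A j x, 0, 0)).1 ∧
      phi A j (((Rm A i * Rm A j) ^ k) x) = ((st (A i j) (A j i))^[k] (phi A i x, phi A j x, 0, 0)).2.1 := by
  induction k with
  | zero =>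
    simp
  | succ k ih =>
    obtain ⟨h1, h2, h3⟩ := ih
    rw [pow_succ', Function.iterate_succ_apply']
    set y := ((Rm A i * Rm A j) ^ k) x with hy
    set t := (st (A i j) (A j i))^[k] (phi A i x, phi A j x, 0, 0) with ht
    have e1 : (Rm A i * Rm A j) y = y - phi A j y • ee j - (phi A i y - phi A j y * A i j) • ee i := by
      show Rm A i (Rm A j y) = _
      rw [Rm_apply A j y, Rm_apply, phi_sub, phi_smul, phi_ee]
    have e2 : (Rm A i * Rm A j) y = x + (st (A i j) (A j i) t).2.2.1 • ee i + (st (A i j) (A j i) t).2.2.2 • ee j := by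
      rw [e1, h2, h3, h1]
      ext k'
      simp only [st, Pi.add_apply, Pi.sub_apply, Pi.smul_apply, smul_eq_mul]
      ring
    refine ⟨e2, ?_, ?_⟩
    · show phi A i ((Rm A i * Rm A j) y) = _
      rw [e1, phi_sub, phi_sub, phi_smul, phi_smul, phi_ee, phi_ee, hC.diag, h2, h3]
      simp only [st]
      ring
    · show phi A j ((Rm A i * Rm A j) y) = _
      rw [e1, phi_sub, phi_sub, phi_smul, phi_smul, phi_ee, phi_ee, hC.diag, h2, h3]
      simp only [st]
      ring

theorem liftable (hC : CartanFor M A) : M.IsLiftable (Rm A) := by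
  intro i j
  by_cases hij : i = j
  · subst hij
    rw [M.diagonal, pow_one, Rm_self hC]
  · refine LinearMap.ext fun x => ?_
    have h1 := (iter_rel hC i j (M i j) x).1
    show ((Rm A i * Rm A j) ^ M i j) x = x
    rw [h1]
    rcases hC.off i j hij with ⟨hm, ha, hb⟩ | ⟨hm, ha, hb⟩ | ⟨hm, ha, hb⟩ | ⟨hm, ha, hb⟩ | ⟨hm, ha, hb⟩ | ⟨hm, ha, hb⟩ <;>
    · rw [hm, ha, hb]
      simp only [Function.iterate_succ, Function.iterate_zero, Function.comp, id, st]
      ext k
      simp only [Pi.add_apply, Pi.smul_apply, smul_eq_mul]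
      ring

end Rel

/-- Alternating words starting with `f`. -/
def altL (f g : Fin n) : ℕ → List (Fin n)
  | 0 => []
  | k + 1 => f :: altL g f k

theorem altL_concat (f g : Fin n) (k : ℕ) : altL f g (k + 1) = altL f g k ++ [if Even k then f else g] := by
  induction k generalizing f g with
  | zero => simp [altL]
  | succ k ih =>
    rw [altL, ih g f, altL, List.cons_append]
    congr 2
    by_cases h : Even k
    · have h' : ¬ Even (k + 1) := by
        rw [Nat.even_add_one]
        simpa using h
      simp [h, h']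
    · have h' : Even (k + 1) := by
        rw [Nat.even_add_one]
        exact h
      simp [h, h']

theorem alt_eq_altL (i i' : Fin n) (k : ℕ) :
    CoxeterSystem.alternatingWord i i' k = altL (if Odd k then i' else i) (if Odd k then i else i') k := by
  induction k with
  | zero => simp [altL, CoxeterSystem.alternatingWord]
  | succ k ih =>
    rw [CoxeterSystem.alternatingWord_succ', ih, altL]
    by_cases h : Even k
    · have h1 : ¬ Odd k := by
        simpa using h
      have h2 : Odd (k + 1) := h.add_one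
      simp [h, h1, h2]
    · have h1 : Odd k := by
        simpa using h
      have h2 : ¬ Odd (k + 1) := by
        rw [Nat.odd_add_one]
        simpa using h1
      simp [h, h1, h2]

theorem altL_eq_alt (f g : Fin n) (k : ℕ) :
    altL f g k = CoxeterSystem.alternatingWord (if Odd k then g else f) (if Odd k then f else g) k := by
  rw [alt_eq_altL]
  by_cases h : Odd k <;> simp [h]

/-- The coordinates of alternating products on a simple root. -/
def pXY (a b : ℤ) : ℕ → ℤ × ℤ
  | 0 => (1, 0)
  | k + 1 =>
    if Even k then ((pXY a b k).1, -(pXY a b k).2 - b * (pXY a b k).1)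
    else (-(pXY a b k).1 - a * (pXY a b k).2, (pXY a b k).2)

theorem pXY_nonneg {m : ℕ} {a b : ℤ} (h : Off m a b) {k : ℕ} (hk : k < m) :
    0 ≤ (pXY a b k).1 ∧ 0 ≤ (pXY a b k).2 := by
  rcases h with ⟨rfl, rfl, rfl⟩ | ⟨rfl, rfl, rfl⟩ | ⟨rfl, rfl, rfl⟩ | ⟨rfl, rfl, rfl⟩ | ⟨rfl, rfl, rfl⟩ | ⟨rfl, rfl, rfl⟩ <;>
    interval_cases k <;> decide

section Faithful

variable {M : CoxeterMatrix (Fin n)} {A : Fin n → Fin n → ℤ}

/-- The representation. -/
noncomputable def rho (hC : CartanFor M A) : M.Group →* Module.End ℤ (Fin n → ℤ) :=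
  M.toCoxeterSystem.lift ⟨Rm A, liftable hC⟩

theorem rho_simple (hC : CartanFor M A) (i : Fin n) : rho hC (M.toCoxeterSystem.simple i) = Rm A i :=
  M.toCoxeterSystem.lift_apply_simple (liftable hC) i

theorem vec_formula (hC : CartanFor M A) {s t : Fin n} (k : ℕ) (f g : Fin n)
    (hf : f = if Odd k then t else s) (hg : g = if Odd k then s else t) :
    rho hC (M.toCoxeterSystem.wordProd (altL f g k)) (ee s) =
      (pXY (A s t) (A t s) k).1 • ee s + (pXY (A s t) (A t s) k).2 • ee t := by
  induction k generalizing f g with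
  | zero =>
    simp [altL, pXY]
  | succ k ih =>
    rw [altL, CoxeterSystem.wordProd_cons, map_mul, rho_simple]
    show Rm A f (rho hC (M.toCoxeterSystem.wordProd (altL g f k)) (ee s)) = _
    by_cases h : Even k
    · have h1 : ¬ Odd k := by
        simpa using h
      have h2 : Odd (k + 1) := h.add_one
      rw [if_pos h2] at hf hg
      rw [ih g f (by rw [if_neg h1]; exact hg) (by rw [if_neg h1]; exact hf), hf, Rm_apply, phi_add, phi_smul, phi_smul,
        phi_ee, phi_ee, hC.diag]
      simp only [pXY, if_pos h]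
      ext k'
      simp only [Pi.add_apply, Pi.sub_apply, Pi.smul_apply, smul_eq_mul]
      ring
    · have h1 : Odd k := by
        simpa using h
      have h2 : ¬ Odd (k + 1) := by
        rw [Nat.odd_add_one]
        simpa using h1
      rw [if_neg h2] at hf hg
      rw [ih g f (by rw [if_pos h1]; exact hg) (by rw [if_pos h1]; exact hf), hf, Rm_apply, phi_add, phi_smul, phi_smul,
        phi_ee, phi_ee, hC.diag]
      simp only [pXY, if_neg h]
      ext k'
      simp only [Pi.add_apply, Pi.sub_apply, Pi.smul_apply, smul_eq_mul]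
      ring

/-- Non-negativity. -/
def Pos (x : Fin n → ℤ) : Prop := ∀ k, 0 ≤ x k

theorem Pos.comb {x y : Fin n → ℤ} (hx : Pos x) (hy : Pos y) {a b : ℤ} (ha : 0 ≤ a) (hb : 0 ≤ b) :
    Pos (a • x + b • y) := by
  intro k
  simp only [Pi.add_apply, Pi.smul_apply, smul_eq_mul]
  exact add_nonneg (mul_nonneg ha (hx k)) (mul_nonneg hb (hy k))

theorem ee_pos (s : Fin n) : Pos (ee s) := by
  intro k
  simp only [ee, Pi.single_apply]
  split_ifs <;> norm_num

theorem altL_length (f g : Fin n) (k : ℕ) : (altL f g k).length = k := by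
  induction k generalizing f g with
  | zero => rfl
  | succ k ih => simp [altL, ih]

theorem pos_main (hC : CartanFor M A) (N : ℕ) :
    ∀ w : M.Group, M.toCoxeterSystem.length w = N → ∀ s, M.toCoxeterSystem.length (w * M.toCoxeterSystem.simple s) = M.toCoxeterSystem.length w + 1 →
      Pos (rho hC w (ee s)) := by
  classical
  induction N using Nat.strong_induction_on with
  | _ N IH =>
  intro w hN s hs
  by_cases hw1 : w = 1
  · subst hw1
    simpa using ee_pos s
  set cs' := M.toCoxeterSystem with hcs'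
  obtain ⟨t, ht⟩ := cs'.exists_rightDescent_of_ne_one hw1
  have ht' : cs'.length (w * cs'.simple t) + 1 = cs'.length w := by
    have h1 := cs'.length_mul_simple w t
    have h2 : cs'.length (w * cs'.simple t) < cs'.length w := ht
    omega
  have hts : t ≠ s := by
    rintro rfl
    omega
  let Dec : ℕ → Prop := fun r => ∃ (v : M.Group) (k : ℕ) (f g : Fin n), cs'.length v = r ∧ ((f = s ∧ g = t) ∨ (f = t ∧ g = s)) ∧
    w = v * cs'.wordProd (altL f g k) ∧ cs'.length v + k = cs'.length w
  have hd0 : Dec (cs'.length (w * cs'.simple t)) := by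
    refine ⟨w * cs'.simple t, 1, t, s, rfl, Or.inr ⟨rfl, rfl⟩, ?_, ht'⟩
    simp [altL, CoxeterSystem.wordProd_cons, mul_assoc]
  have hex : ∃ r, Dec r := ⟨_, hd0⟩
  obtain ⟨v, k, f, g, hv, hfg, hw, hlen⟩ := Nat.find_spec hex
  have hmin : ∀ r, r < cs'.length v → ¬ Dec r := by
    intro r hr
    rw [hv] at hr
    exact Nat.find_min hex hr
  have hvlt : cs'.length v < cs'.length w := by
    have h1 := Nat.find_min' hex hd0
    rw [← hv] at h1
    omega
  have hlw : ∀ (u : List (Fin n)) (v' : M.Group), w = v' * cs'.wordProd u → cs'.length w ≤ cs'.length v' + u.length := by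
    intro u v' e
    rw [e]
    exact (cs'.length_mul_le _ _).trans (Nat.add_le_add_left (cs'.length_wordProd_le u) _)
  -- the minimal factor has no descent at `s`, `t`
  have hup : ∀ x, (x = f ∨ x = g) → cs'.length (v * cs'.simple x) = cs'.length v + 1 := by
    intro x hx
    rcases cs'.length_mul_simple v x with h | h
    · exact h
    exfalso
    rcases hx with rfl | rfl
    · rcases k with _ | j
      · refine hmin (cs'.length (v * cs'.simple x)) (by omega) ⟨v * cs'.simple x, 1, x, g, rfl, hfg, ?_, ?_⟩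
        · rw [hw]
          simp [altL, CoxeterSystem.wordProd_cons, mul_assoc]
        · omega
      · have h1 := hlw (altL g x j) (v * cs'.simple x) (by
          rw [hw, altL, CoxeterSystem.wordProd_cons, mul_assoc])
        rw [altL_length] at h1
        omega
    · have hfg' : (x = s ∧ f = t) ∨ (x = t ∧ f = s) := by
        rcases hfg with ⟨h1, h2⟩ | ⟨h1, h2⟩
        · exact Or.inr ⟨h2, h1⟩
        · exact Or.inl ⟨h2, h1⟩
      refine hmin (cs'.length (v * cs'.simple x)) (by omega) ⟨v * cs'.simple x, k + 1, x, f, rfl, hfg', ?_, ?_⟩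
      · rw [hw, altL, CoxeterSystem.wordProd_cons]
        simp [mul_assoc]
      · omega
  have hfs : s = f ∨ s = g := by
    rcases hfg with ⟨h1, _⟩ | ⟨_, h1⟩
    · exact Or.inl h1.symm
    · exact Or.inr h1.symm
  have hft : t = f ∨ t = g := by
    rcases hfg with ⟨_, h1⟩ | ⟨h1, _⟩
    · exact Or.inr h1.symm
    · exact Or.inl h1.symm
  have hPs : Pos (rho hC v (ee s)) := IH (cs'.length v) (by omega) v rfl s (hup s hfs)
  have hPt : Pos (rho hC v (ee t)) := IH (cs'.length v) (by omega) v rfl t (hup t hft)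
  obtain ⟨j, rfl⟩ : ∃ j, k = j + 1 := ⟨k - 1, by omega⟩
  -- no descent of the word at `s`
  have hnots : ∀ (u : List (Fin n)), u.length = j → cs'.wordProd (altL f g (j + 1)) = cs'.wordProd (u ++ [s]) → False := by
    intro u hu e
    have h1 : w * cs'.simple s = v * cs'.wordProd u := by
      rw [hw, e, cs'.wordProd_append, cs'.wordProd_singleton, mul_assoc, mul_assoc, cs'.simple_mul_simple_self, mul_one]
    have h2 := cs'.length_mul_le v (cs'.wordProd u)
    have h3 := cs'.length_wordProd_le u
    rw [← h1, hu] at *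
    omega
  have hL : (if Even j then f else g) ≠ s := by
    intro e
    apply hnots (altL f g j) (altL_length _ _ _)
    rw [altL_concat, e]
  have hLt : (if Even j then f else g) = t := by
    rcases hfg with ⟨rfl, rfl⟩ | ⟨rfl, rfl⟩ <;> by_cases h : Even j <;> simp [h] at hL ⊢ <;> first | exact absurd rfl hL | skip
  have hori : f = (if Odd (j + 1) then t else s) ∧ g = (if Odd (j + 1) then s else t) := by
    by_cases h : Even j
    · have h2 : Odd (j + 1) := h.add_one
      rw [if_pos h] at hLt
      rw [if_pos h2, if_pos h2]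
      rcases hfg with ⟨h3, h4⟩ | ⟨h3, h4⟩
      · exact absurd (h3.symm.trans hLt) hts.symm
      · exact ⟨h3, h4⟩
    · have h2 : ¬ Odd (j + 1) := by
        rw [Nat.odd_add_one]
        simpa using h
      rw [if_neg h] at hLt
      rw [if_neg h2, if_neg h2]
      rcases hfg with ⟨h3, h4⟩ | ⟨h3, h4⟩
      · exact ⟨h3, h4⟩
      · exact absurd (h4.symm.trans hLt) hts.symm
  have hoff := hC.off s t hts.symm
  have hMpos : M s t ≠ 0 := by
    rcases hoff with h | h | h | h | h | h <;> rw [h.1] <;> norm_num
  have hMf : ∀ (a b : Fin n), ((a = s ∧ b = t) ∨ (a = t ∧ b = s)) → M a b = M s t := by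
    rintro a b (⟨rfl, rfl⟩ | ⟨rfl, rfl⟩)
    · rfl
    · exact M.symmetric _ _
  have hij : ((if Odd (j + 1) then g else f) = s ∧ (if Odd (j + 1) then f else g) = t) ∨
      ((if Odd (j + 1) then g else f) = t ∧ (if Odd (j + 1) then f else g) = s) := by
    by_cases h : Odd (j + 1) <;> simp only [h, if_true, if_false] <;> rcases hfg with ⟨h3, h4⟩ | ⟨h3, h4⟩
    · exact Or.inr ⟨h4, h3⟩
    · exact Or.inl ⟨h4, h3⟩
    · exact Or.inl ⟨h3, h4⟩
    · exact Or.inr ⟨h3, h4⟩
  have hrd : cs'.IsReduced (CoxeterSystem.alternatingWord (if Odd (j + 1) then g else f) (if Odd (j + 1) then f else g) (j + 1)) := by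
    rw [← altL_eq_alt]
    show cs'.length (cs'.wordProd (altL f g (j + 1))) = (altL f g (j + 1)).length
    rw [altL_length]
    have h1 := cs'.length_wordProd_le (altL f g (j + 1))
    rw [altL_length] at h1
    have h2 := hlw (altL f g (j + 1)) v hw
    have h3 : cs'.length w ≤ cs'.length v + cs'.length (cs'.wordProd (altL f g (j + 1))) := by
      conv_lhs => rw [hw]
      exact cs'.length_mul_le _ _
    omega
  have hk1 : j + 1 ≤ M s t := by
    by_contra hcon
    push Not at hcon
    refine cs'.not_isReduced_alternatingWord _ _ ?_ ?_ hrd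
    · rw [hMf _ _ hij]
      exact hMpos
    · rw [hMf _ _ hij]
      exact hcon
  have hk2 : j + 1 ≠ M s t := by
    intro e
    have hbr := cs'.wordProd_braidWord_eq (if Odd (j + 1) then g else f) (if Odd (j + 1) then f else g)
    unfold CoxeterSystem.braidWord at hbr
    rw [M.symmetric (if Odd (j + 1) then f else g) (if Odd (j + 1) then g else f), hMf _ _ hij, ← e, ← altL_eq_alt] at hbr
    have hsw : CoxeterSystem.alternatingWord (if Odd (j + 1) then f else g) (if Odd (j + 1) then g else f) (j + 1) = altL g f (j + 1) :=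
      (altL_eq_alt g f (j + 1)).symm
    rw [hsw] at hbr
    apply hnots (altL g f j) (altL_length _ _ _)
    rw [hbr, altL_concat]
    congr 3
    by_cases h : Even j
    · rw [if_pos h] at hLt ⊢
      rcases hfg with ⟨h3, h4⟩ | ⟨h3, h4⟩
      · exact absurd (h3.symm.trans hLt) hts.symm
      · exact h4
    · rw [if_neg h] at hLt ⊢
      rcases hfg with ⟨h3, h4⟩ | ⟨h3, h4⟩
      · exact h3
      · exact absurd (h4.symm.trans hLt) hts.symm
  have hk : j + 1 < M s t := lt_of_le_of_ne hk1 hk2
  obtain ⟨hnx, hny⟩ := pXY_nonneg hoff hk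
  have hform := vec_formula hC (s := s) (t := t) (j + 1) f g hori.1 hori.2
  have e0 : rho hC w (ee s) = rho hC v (rho hC (cs'.wordProd (altL f g (j + 1))) (ee s)) := by
    conv_lhs => rw [hw, map_mul]
    rfl
  rw [e0, hform, map_add, map_smul, map_smul]
  exact Pos.comb hPs hPt hnx hny

/-- The representation is faithful. -/
theorem rho_injective (hC : CartanFor M A) : Function.Injective (rho hC) := by
  rw [injective_iff_map_eq_one]
  intro w hw
  by_contra hne
  set cs' := M.toCoxeterSystem with hcs'
  obtain ⟨s, hs⟩ := cs'.exists_rightDescent_of_ne_one hne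
  have hs' : cs'.length (w * cs'.simple s) < cs'.length w := hs
  have h1 : cs'.length (w * cs'.simple s * cs'.simple s) = cs'.length (w * cs'.simple s) + 1 := by
    rw [mul_assoc, cs'.simple_mul_simple_self, mul_one]
    have := cs'.length_mul_simple w s
    omega
  have h2 := pos_main hC _ (w * cs'.simple s) rfl s h1
  have h3 : rho hC (w * cs'.simple s) (ee s) = - ee s := by
    rw [map_mul, hw, one_mul, rho_simple, Rm_apply, phi_ee, hC.diag]
    ext k
    simp only [Pi.sub_apply, Pi.smul_apply, smul_eq_mul, Pi.neg_apply]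
    ring
  have h4 := h2 s
  rw [h3] at h4
  simp [ee] at h4

end Faithful

end Cfsg.Agent.H27.CoxC
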