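import Mathlib
import Cfsg.Agent.Lib.H27.CoxC

/-!
# Centres of the crystallographic Coxeter groups of exceptional type
-/

set_option autoImplicit false
set_option maxRecDepth 100000

namespace Cfsg.Agent.H27.CoxC

variable {n : ℕ} {M : CoxeterMatrix (Fin n)} {A : Fin n → Fin n → ℤ}

theorem end_ext {f g : Module.End ℤ (Fin n → ℤ)} (h : ∀ j, f (ee j) = g (ee j)) : f = g := by
  apply LinearMap.pi_ext
  intro j x
  have h1 : (Pi.single j x : Fin n → ℤ) = x • ee j := by
    ext k
    simp [ee, Pi.single_apply]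
  rw [h1, map_smul, map_smul, h]

/-- A central element acts as a scalar. -/
theorem central_scalar (hC : CartanFor M A)
    (hconn : ∀ c : Fin n → ℤ, (∀ i j, A i j ≠ 0 → c i = c j) → ∀ i j, c i = c j) (i₀ : Fin n)
    {z : M.Group} (hz : z ∈ Subgroup.center M.Group) :
    ∃ c : ℤ, rho hC z = c • 1 := by
  classical
  set Z := rho hC z with hZ
  have hcomm : ∀ i, Z * Rm A i = Rm A i * Z := by
    intro i
    rw [← rho_simple hC i, hZ, ← map_mul, ← map_mul]
    congr 1
    exact (Subgroup.mem_center_iff.1 hz _).symm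
  have key : ∀ i x, phi A i x • Z (ee i) = phi A i (Z x) • ee i := by
    intro i x
    have h1 : Z (Rm A i x) = Rm A i (Z x) := LinearMap.congr_fun (hcomm i) x
    rw [Rm_apply, Rm_apply, map_sub, map_smul] at h1
    have h2 := sub_right_inj.1 h1
    exact h2
  have hdiag : ∀ i, Z (ee i) = (Z (ee i) i) • ee i := by
    intro i
    have h1 := key i (ee i)
    rw [phi_ee, hC.diag] at h1
    ext k
    have h2 := congrFun h1 k
    simp only [Pi.smul_apply, smul_eq_mul, ee, Pi.single_apply] at h2 ⊢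
    by_cases hk : k = i
    · subst hk
      simp
    · simp only [hk, if_false, mul_zero] at h2 ⊢
      omega
  set c : Fin n → ℤ := fun i => Z (ee i) i with hc
  have hadj : ∀ i j, A i j ≠ 0 → c i = c j := by
    intro i j hij
    have h1 := key i (ee j)
    rw [hdiag j, phi_smul, phi_ee] at h1
    have h2 := congrFun h1 i
    rw [hdiag i] at h2
    simp only [Pi.smul_apply, smul_eq_mul, ee, Pi.single_apply, if_true, mul_one] at h2
    have h2' : A i j * Z (ee i) i = Z (ee j) j * A i j := h2
    have h3 : A i j * (c i - c j) = 0 := by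
      show A i j * (Z (ee i) i - Z (ee j) j) = 0
      rw [mul_sub, h2']
      ring
    rcases mul_eq_zero.1 h3 with h4 | h4
    · exact absurd h4 hij
    · linarith
  have hall := hconn c hadj
  refine ⟨c i₀, end_ext fun j => ?_⟩
  rw [hdiag j]
  simp only [LinearMap.smul_apply, Module.End.one_apply]
  have h5 : Z (ee j) j = c i₀ := hall j i₀
  rw [h5]

theorem central_pm (hC : CartanFor M A)
    (hconn : ∀ c : Fin n → ℤ, (∀ i j, A i j ≠ 0 → c i = c j) → ∀ i j, c i = c j) (i₀ : Fin n)
    {z : M.Group} (hz : z ∈ Subgroup.center M.Group) :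
    rho hC z = 1 ∨ rho hC z = -1 := by
  obtain ⟨c, hc⟩ := central_scalar hC hconn i₀ hz
  obtain ⟨d, hd⟩ := central_scalar hC hconn i₀ (inv_mem hz)
  have h1 : rho hC z * rho hC z⁻¹ = 1 := by
    rw [← map_mul, mul_inv_cancel, map_one]
  rw [hc, hd] at h1
  have h2 := LinearMap.congr_fun h1 (ee i₀)
  have h3 := congrFun h2 i₀
  simp [ee] at h3
  have h4 : c = 1 ∨ c = -1 := Int.eq_one_or_neg_one_of_mul_eq_one h3
  rcases h4 with rfl | rfl
  · left
    simpa using hc
  · right
    simpa using hc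

/-- Products of reflections, computably. -/
def prodF (A : Fin n → Fin n → ℤ) (l : List (Fin n)) (x : Fin n → ℤ) : Fin n → ℤ :=
  l.foldr (fun i y => rf A i y) x

theorem prod_apply (l : List (Fin n)) (x : Fin n → ℤ) : (l.map (Rm A)).prod x = prodF A l x := by
  induction l with
  | nil => rfl
  | cons a l ih =>
    rw [List.map_cons, List.prod_cons]
    show Rm A a ((l.map (Rm A)).prod x) = _
    rw [ih]
    rfl

theorem pow_apply (l : List (Fin n)) (h : ℕ) (x : Fin n → ℤ) :
    ((l.map (Rm A)).prod ^ h) x = (prodF A l)^[h] x := by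
  induction h generalizing x with
  | zero => rfl
  | succ h ih =>
    rw [pow_succ, Function.iterate_succ_apply]
    show ((l.map (Rm A)).prod ^ h) ((l.map (Rm A)).prod x) = _
    rw [ih, prod_apply]

theorem rho_cox (hC : CartanFor M A) :
    rho hC ((List.finRange n).map M.simple).prod = ((List.finRange n).map (Rm A)).prod := by
  rw [map_list_prod, List.map_map]
  congr 1

theorem center_two (hC : CartanFor M A)
    (hconn : ∀ c : Fin n → ℤ, (∀ i j, A i j ≠ 0 → c i = c j) → ∀ i j, c i = c j) (i₀ : Fin n)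
    (h : ℕ) (hk : ∀ j, (prodF A (List.finRange n))^[h] (ee j) = - ee j) :
    Nat.card (Subgroup.center M.Group) = 2 ∧
      Subgroup.center M.Group ≤ Subgroup.zpowers ((List.finRange n).map M.simple).prod := by
  classical
  set cox := ((List.finRange n).map M.simple).prod with hcox
  have hζ : rho hC (cox ^ h) = -1 := by
    rw [map_pow, hcox, rho_cox]
    apply end_ext
    intro j
    rw [pow_apply, hk]
    rfl
  have hinj := rho_injective hC
  have hζc : cox ^ h ∈ Subgroup.center M.Group := by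
    rw [Subgroup.mem_center_iff]
    intro g
    apply hinj
    rw [map_mul, map_mul, hζ]
    simp
  have hone : (1 : Module.End ℤ (Fin n → ℤ)) ≠ -1 := by
    intro e
    have h2 := congrFun (LinearMap.congr_fun e (ee i₀)) i₀
    simp [ee] at h2
  have hζ1 : (1 : M.Group) ≠ cox ^ h := by
    intro e
    rw [← e, map_one] at hζ
    exact hone hζ
  have hall : ∀ z ∈ Subgroup.center M.Group, z = 1 ∨ z = cox ^ h := by
    intro z hz
    rcases central_pm hC hconn i₀ hz with h1 | h1
    · left
      apply hinj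
      rw [h1, map_one]
    · right
      apply hinj
      rw [h1, hζ]
  have hset : ((Subgroup.center M.Group : Subgroup M.Group) : Set M.Group) = {1, cox ^ h} := by
    ext z
    simp only [SetLike.mem_coe, Set.mem_insert_iff, Set.mem_singleton_iff]
    constructor
    · exact hall z
    · rintro (rfl | rfl)
      · exact one_mem _
      · exact hζc
  refine ⟨?_, ?_⟩
  · have h1 : Nat.card (Subgroup.center M.Group) = ((Subgroup.center M.Group : Subgroup M.Group) : Set M.Group).ncard :=
      Nat.card_coe_set_eq _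
    rw [h1, hset, Set.ncard_pair hζ1]
  · intro z hz
    rcases hall z hz with rfl | rfl
    · exact one_mem _
    · exact Subgroup.npow_mem_zpowers _ _

theorem center_one (hC : CartanFor M A)
    (hconn : ∀ c : Fin n → ℤ, (∀ i j, A i j ≠ 0 → c i = c j) → ∀ i j, c i = c j) (i₀ : Fin n)
    (c : Fin n → ℤ) (hc : ∀ i, (3 : ℤ) ∣ phi A i c) (hc0 : ¬ (3 : ℤ) ∣ c i₀) :
    Nat.card (Subgroup.center M.Group) = 1 ∧
      Subgroup.center M.Group ≤ Subgroup.zpowers ((List.finRange n).map M.simple).prod := by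
  have hinv : ∀ w : M.Group, ∀ k, (3 : ℤ) ∣ rho hC w c k - c k := by
    intro w
    induction w using M.toCoxeterSystem.simple_induction_left with
    | one =>
      intro k
      simp
    | mul_simple_left w i ih =>
      intro k
      rw [map_mul, rho_simple]
      show (3 : ℤ) ∣ Rm A i (rho hC w c) k - c k
      rw [Rm_apply]
      have h1 : (3 : ℤ) ∣ phi A i (rho hC w c) := by
        have h2 : phi A i (rho hC w c) = phi A i c + phi A i (rho hC w c - c) := by
          rw [phi_sub]
          ring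
        rw [h2]
        refine dvd_add (hc i) ?_
        unfold phi
        refine Finset.dvd_sum fun j _ => ?_
        exact (ih j).mul_left _
      simp only [Pi.sub_apply, Pi.smul_apply, smul_eq_mul]
      have h3 : rho hC w c k - phi A i (rho hC w c) * ee i k - c k =
          (rho hC w c k - c k) - phi A i (rho hC w c) * ee i k := by
        ring
      rw [h3]
      exact dvd_sub (ih k) (h1.mul_right _)
  have hbot : Subgroup.center M.Group = ⊥ := by
    rw [eq_bot_iff]
    intro z hz
    rw [Subgroup.mem_bot]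
    rcases central_pm hC hconn i₀ hz with h1 | h1
    · apply rho_injective hC
      rw [h1, map_one]
    · exfalso
      have h2 := hinv z i₀
      rw [h1] at h2
      simp only [LinearMap.neg_apply, Module.End.one_apply, Pi.neg_apply] at h2
      apply hc0
      have h3 : -c i₀ - c i₀ = -(2 * c i₀) := by
        ring
      rw [h3] at h2
      omega
  rw [hbot]
  exact ⟨Subgroup.card_bot, bot_le⟩

/-- The vertices reached in `k` steps. -/
def reach (A : Fin n → Fin n → ℤ) (i₀ : Fin n) : ℕ → Finset (Fin n)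
  | 0 => {i₀}
  | k + 1 => reach A i₀ k ∪ Finset.univ.filter fun j => ∃ i ∈ reach A i₀ k, A i j ≠ 0

theorem conn_of_reach (i₀ : Fin n) (k : ℕ) (h : ∀ i, i ∈ reach A i₀ k) :
    ∀ c : Fin n → ℤ, (∀ i j, A i j ≠ 0 → c i = c j) → ∀ i j, c i = c j := by
  intro c hc
  have key : ∀ m, ∀ i ∈ reach A i₀ m, c i = c i₀ := by
    intro m
    induction m with
    | zero =>
      intro i hi
      simp only [reach, Finset.mem_singleton] at hi
      rw [hi]
    | succ m ih =>
      intro i hi
      rw [reach, Finset.mem_union, Finset.mem_filter] at hi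
      rcases hi with hi | ⟨-, a, ha, hai⟩
      · exact ih i hi
      · rw [← ih a ha]
        exact (hc a i hai).symm
  intro i j
  rw [key k i (h i), key k j (h j)]

def A_B2 : Fin 2 → Fin 2 → ℤ := !![2, -1; -2, 2]
def A_G2 : Fin 2 → Fin 2 → ℤ := !![2, -1; -3, 2]
def A_D4 : Fin 4 → Fin 4 → ℤ := !![2, -1, 0, 0; -1, 2, -1, -1; 0, -1, 2, 0; 0, -1, 0, 2]
def A_F4 : Fin 4 → Fin 4 → ℤ := !![2, -1, 0, 0; -1, 2, -2, 0; 0, -1, 2, -1; 0, 0, -1, 2]
def A_E6 : Fin 6 → Fin 6 → ℤ :=
  !![2, 0, -1, 0, 0, 0;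
     0, 2, 0, -1, 0, 0;
     -1, 0, 2, -1, 0, 0;
     0, -1, -1, 2, -1, 0;
     0, 0, 0, -1, 2, -1;
     0, 0, 0, 0, -1, 2]
def A_E7 : Fin 7 → Fin 7 → ℤ :=
  !![2, 0, -1, 0, 0, 0, 0;
     0, 2, 0, -1, 0, 0, 0;
     -1, 0, 2, -1, 0, 0, 0;
     0, -1, -1, 2, -1, 0, 0;
     0, 0, 0, -1, 2, -1, 0;
     0, 0, 0, 0, -1, 2, -1;
     0, 0, 0, 0, 0, -1, 2]
def A_E8 : Fin 8 → Fin 8 → ℤ :=
  !![2, 0, -1, 0, 0, 0, 0, 0;
     0, 2, 0, -1, 0, 0, 0, 0;
     -1, 0, 2, -1, 0, 0, 0, 0;
     0, -1, -1, 2, -1, 0, 0, 0;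
     0, 0, 0, -1, 2, -1, 0, 0;
     0, 0, 0, 0, -1, 2, -1, 0;
     0, 0, 0, 0, 0, -1, 2, -1;
     0, 0, 0, 0, 0, 0, -1, 2]

/-- Boolean test for the off-diagonal conditions. -/
def offTest (n : ℕ) (N : Fin n → Fin n → ℕ) (A : Fin n → Fin n → ℤ) : Bool :=
  (List.finRange n).all fun i => (List.finRange n).all fun j =>
    decide (i = j) || decide (Off (N i j) (A i j) (A j i))

def diagTest (n : ℕ) (A : Fin n → Fin n → ℤ) : Bool :=
  (List.finRange n).all fun i => decide (A i i = 2)

theorem mkC {M : CoxeterMatrix (Fin n)} {A : Fin n → Fin n → ℤ} (h1 : diagTest n A = true)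
    (h2 : offTest n (fun i j => M.M i j) A = true) : CartanFor M A := by
  refine ⟨fun i => ?_, fun i j hij => ?_⟩
  · have := List.all_eq_true.1 h1 i (List.mem_finRange i)
    simpa using this
  · have h3 := List.all_eq_true.1 (List.all_eq_true.1 h2 i (List.mem_finRange i)) j (List.mem_finRange j)
    simp only [Bool.or_eq_true, decide_eq_true_eq] at h3
    exact h3.resolve_left hij

theorem C_B2 : CartanFor (CoxeterMatrix.B 2) A_B2 := mkC (by decide +kernel) (by decide +kernel)
theorem C_G2 : CartanFor CoxeterMatrix.G₂ A_G2 := mkC (by decide +kernel) (by decide +kernel)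
theorem C_D4 : CartanFor Cfsg.Lie.coxeterD4 A_D4 := mkC (by decide +kernel) (by decide +kernel)
theorem C_F4 : CartanFor CoxeterMatrix.F₄ A_F4 := mkC (by decide +kernel) (by decide +kernel)
theorem C_E6 : CartanFor CoxeterMatrix.E₆ A_E6 := mkC (by decide +kernel) (by decide +kernel)
theorem C_E7 : CartanFor CoxeterMatrix.E₇ A_E7 := mkC (by decide +kernel) (by decide +kernel)
theorem C_E8 : CartanFor CoxeterMatrix.E₈ A_E8 := mkC (by decide +kernel) (by decide +kernel)

theorem pow_B2 : ∀ j, (prodF A_B2 (List.finRange 2))^[2] (ee j) = - ee j := by decide +kernel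
theorem pow_G2 : ∀ j, (prodF A_G2 (List.finRange 2))^[3] (ee j) = - ee j := by decide +kernel
theorem pow_D4 : ∀ j, (prodF A_D4 (List.finRange 4))^[3] (ee j) = - ee j := by decide +kernel
theorem pow_F4 : ∀ j, (prodF A_F4 (List.finRange 4))^[6] (ee j) = - ee j := by decide +kernel
theorem pow_E7 : ∀ j, (prodF A_E7 (List.finRange 7))^[9] (ee j) = - ee j := by decide +kernel
theorem pow_E8 : ∀ j, (prodF A_E8 (List.finRange 8))^[15] (ee j) = - ee j := by decide +kernel

theorem main_center (c : (Σ n : ℕ, CoxeterMatrix (Fin n)) × ℕ)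
    (hc : c ∈ [(⟨2, CoxeterMatrix.B 2⟩, 2), (⟨2, CoxeterMatrix.G₂⟩, 2), (⟨4, Cfsg.Lie.coxeterD4⟩, 2), (⟨4, CoxeterMatrix.F₄⟩, 2),
      (⟨6, CoxeterMatrix.E₆⟩, 1), (⟨7, CoxeterMatrix.E₇⟩, 2), (⟨8, CoxeterMatrix.E₈⟩, 2)]) :
    Nat.card (Subgroup.center c.1.2.Group) = c.2 ∧
      Subgroup.center c.1.2.Group ≤ Subgroup.zpowers ((List.finRange c.1.1).map c.1.2.simple).prod := by
  simp only [List.mem_cons, List.not_mem_nil, or_false] at hc
  rcases hc with rfl | rfl | rfl | rfl | rfl | rfl | rfl
  · exact center_two C_B2 (conn_of_reach 0 2 (by decide +kernel)) 0 2 pow_B2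
  · exact center_two C_G2 (conn_of_reach 0 2 (by decide +kernel)) 0 3 pow_G2
  · exact center_two C_D4 (conn_of_reach 0 4 (by decide +kernel)) 0 3 pow_D4
  · exact center_two C_F4 (conn_of_reach 0 4 (by decide +kernel)) 0 6 pow_F4
  · exact center_one C_E6 (conn_of_reach 0 6 (by decide +kernel)) 0 ![4, 3, 5, 6, 4, 2]
      (by
        intro i
        have : phi A_E6 i ![4, 3, 5, 6, 4, 2] % 3 = 0 := by
          revert i
          decide +kernel
        omega)
      (by decide +kernel)
  · exact center_two C_E7 (conn_of_reach 0 7 (by decide +kernel)) 0 9 pow_E7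
  · exact center_two C_E8 (conn_of_reach 0 8 (by decide +kernel)) 0 15 pow_E8

end Cfsg.Agent.H27.CoxC
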