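import Cfsg.Agent.Lib.H03.OSpin
import Cfsg.Agent.Lib.H27.GeoOrth

/-! Exceptional isomorphisms of orthogonal groups: the general assembly. -/

set_option autoImplicit false

namespace Cfsg.Agent.H27.Exc

open Cfsg Cfsg.Geo Matrix
open scoped MatrixGroups commutatorElement

variable {ι : Type} [Fintype ι] [DecidableEq ι] {F : Type*} [Field F]

theorem index_four [Fintype F] {Q : (ι → F) → F} (hQ : IsNondegenerateQuadraticForm Q) (h2 : (2 : F) ≠ 0)
    (hn : 2 ≤ Fintype.card ι) : (Omega F Q).index = 4 := by
  classical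
  obtain ⟨χ₁, χ₂, h1, h3, hΩ, hs⟩ := Cfsg.Agent.H03.OSpin.odd_chars h2 hn (Cfsg.Agent.H27.GO.toQF hQ)
    (Cfsg.Agent.H27.GO.toQF_nondeg hQ)
  have hker : Cfsg.Omega F ⇑(Cfsg.Agent.H27.GO.toQF hQ) = (χ₁.prod χ₂).ker := by
    ext g
    rw [hΩ, MonoidHom.mem_ker, MonoidHom.prod_apply, Prod.ext_iff]
    rfl
  have := (hker ▸ rfl : (Cfsg.Omega F ⇑(Cfsg.Agent.H27.GO.toQF hQ)).index = ((χ₁.prod χ₂).ker).index)
  have e2 : ((χ₁.prod χ₂).ker).index = 4 := by
    rw [Subgroup.index_ker, MonoidHom.range_eq_top.2 hs, Nat.card_congr Subgroup.topEquiv.toEquiv,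
      Nat.card_prod, Nat.card_eq_fintype_card, Fintype.card_units_int]
  exact this.trans e2

/-- the assembly: a homomorphism `S → O(Q)` with image in `Ω` and of the right order. -/
theorem exc_main [Fintype F] {Q : (ι → F) → F} (hQ : IsNondegenerateQuadraticForm Q) (hn : 2 ≤ Fintype.card ι)
    {S : Type*} [Group S] [Finite S] (Φ : S →* ↥(isometryGroup F Q))
    (hle : ∀ s, Φ s ∈ Omega F Q)
    (hc1 : (2 : F) ≠ 0 → Nat.card (isometryGroup F Q) = 4 * Nat.card Φ.range)
    (hc2 : (2 : F) = 0 → Nat.card (isometryGroup F Q) = 2 * Nat.card Φ.range)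
    (hker : Φ.ker ≤ Subgroup.center S)
    (hcf : ∀ s : S, (∀ t : S, s * t * s⁻¹ * t⁻¹ ∈ Subgroup.center S) → s ∈ Subgroup.center S) :
    Nonempty (POmega F Q ≃* S ⧸ Subgroup.center S) := by
  classical
  have hleR : Φ.range ≤ Omega F Q := by
    rintro _ ⟨s, rfl⟩
    exact hle s
  have hgeR : Omega F Q ≤ Φ.range := by
    by_cases h2 : (2 : F) = 0
    · have hidx : Φ.range.index = 2 := by
        have e := Subgroup.card_mul_index Φ.range
        have hpos : 0 < Nat.card Φ.range := Nat.card_pos
        rw [hc2 h2] at e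
        have : Nat.card Φ.range * Φ.range.index = Nat.card Φ.range * 2 := by rw [e]; ring
        exact Nat.eq_of_mul_eq_mul_left hpos this
      show commutator _ ≤ _
      rw [commutator_def, Subgroup.commutator_le]
      intro a _ b _
      have hm := fun x y => Subgroup.mul_mem_iff_of_index_two (H := Φ.range) hidx (a := x) (b := y)
      rw [commutatorElement_def, hm, hm, hm]
      simp only [inv_mem_iff]
      tauto
    · have hi := index_four hQ h2 hn
      have e1 := Subgroup.card_mul_index (Omega F Q)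
      rw [hi, hc1 h2] at e1
      have hcard : Nat.card (Omega F Q) = Nat.card Φ.range := by omega
      have := Subgroup.eq_of_le_of_card_ge hleR (by rw [hcard])
      rw [this]
  have hEq : Φ.range = Omega F Q := le_antisymm hleR hgeR
  let Ψ : S →* ↥(Omega F Q) := Φ.codRestrict _ hle
  have hΨ : ∀ s, ((Ψ s : ↥(Omega F Q)) : ↥(isometryGroup F Q)) = Φ s := fun s => rfl
  have hΨs : Function.Surjective Ψ := by
    rintro ⟨x, hx⟩
    rw [← hEq] at hx
    obtain ⟨s, rfl⟩ := hx
    exact ⟨s, rfl⟩
  let θ : S →* POmega F Q := (QuotientGroup.mk' (Subgroup.center (Omega F Q))).comp Ψ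
  have hθs : Function.Surjective θ := (QuotientGroup.mk'_surjective _).comp hΨs
  have hθk : θ.ker = Subgroup.center S := by
    ext s
    rw [MonoidHom.mem_ker]
    show (QuotientGroup.mk' (Subgroup.center (Omega F Q))) (Ψ s) = 1 ↔ _
    rw [QuotientGroup.mk'_apply, QuotientGroup.eq_one_iff]
    constructor
    · intro h
      apply hcf
      intro t
      apply hker
      rw [MonoidHom.mem_ker]
      have h1 := (Subgroup.mem_center_iff.1 h) (Ψ t)
      have h2 : Ψ (s * t * s⁻¹ * t⁻¹) = 1 := by
        simp only [map_mul, map_inv]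
        rw [← h1]
        group
      have h3 := congrArg (fun x : ↥(Omega F Q) => (x : ↥(isometryGroup F Q))) h2
      exact h3
    · intro h
      rw [Subgroup.mem_center_iff]
      intro y
      obtain ⟨t, rfl⟩ := hΨs y
      rw [← map_mul, ← map_mul, (Subgroup.mem_center_iff.1 h) t]
  exact ⟨(QuotientGroup.quotientKerEquivOfSurjective θ hθs).symm.trans (QuotientGroup.quotientMulEquivOfEq hθk)⟩

/-- Linear action models. -/
structure Act {S : Type*} [Group S] (Q : (ι → F) → F) (act : S → (ι → F) →ₗ[F] (ι → F)) : Prop where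
  one : ∀ v, act 1 v = v
  mul : ∀ s t v, act (s * t) v = act s (act t v)
  pres : ∀ s v, Q (act s v) = Q v

/-- the homomorphism to the isometry group of a linear action -/
noncomputable def Act.hom {S : Type*} [Group S] {Q : (ι → F) → F} {act : S → (ι → F) →ₗ[F] (ι → F)} (h : Act Q act) :
    S →* ↥(isometryGroup F Q) where
  toFun s := ⟨⟨LinearMap.toMatrix' (act s), LinearMap.toMatrix' (act s⁻¹), by
      rw [← LinearMap.toMatrix'_comp]
      have : (act s).comp (act s⁻¹) = LinearMap.id := LinearMap.ext fun v => by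
        simp only [LinearMap.comp_apply, LinearMap.id_apply]
        rw [← h.mul, mul_inv_cancel, h.one]
      rw [this, LinearMap.toMatrix'_id], by
      rw [← LinearMap.toMatrix'_comp]
      have : (act s⁻¹).comp (act s) = LinearMap.id := LinearMap.ext fun v => by
        simp only [LinearMap.comp_apply, LinearMap.id_apply]
        rw [← h.mul, inv_mul_cancel, h.one]
      rw [this, LinearMap.toMatrix'_id]⟩, by
      intro u v
      show Q _ = Q _
      show Q (LinearMap.toMatrix' (act s) *ᵥ u) = Q u
      rw [LinearMap.toMatrix'_mulVec, h.pres]⟩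
  map_one' := by
    apply Subtype.ext
    apply Units.ext
    show LinearMap.toMatrix' (act 1) = 1
    have : act 1 = LinearMap.id := LinearMap.ext fun v => by
      simp [h.one]
    rw [this, LinearMap.toMatrix'_id]
  map_mul' s t := by
    apply Subtype.ext
    apply Units.ext
    show LinearMap.toMatrix' (act (s * t)) = LinearMap.toMatrix' (act s) * LinearMap.toMatrix' (act t)
    rw [← LinearMap.toMatrix'_comp]
    congr 1
    exact LinearMap.ext fun v => by simp [h.mul]

theorem Act.hom_apply {S : Type*} [Group S] {Q : (ι → F) → F} {act : S → (ι → F) →ₗ[F] (ι → F)} (h : Act Q act)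
    (s : S) (v : ι → F) : (((h.hom s : ↥(isometryGroup F Q)) : GL ι F) : Matrix ι ι F) *ᵥ v = act s v := by
  show LinearMap.toMatrix' (act s) *ᵥ v = act s v
  rw [LinearMap.toMatrix'_mulVec]

theorem Act.mem_ker {S : Type*} [Group S] {Q : (ι → F) → F} {act : S → (ι → F) →ₗ[F] (ι → F)} (h : Act Q act)
    (s : S) : s ∈ h.hom.ker ↔ ∀ v, act s v = v := by
  rw [MonoidHom.mem_ker]
  constructor
  · intro e v
    rw [← h.hom_apply, e]
    simp
  · intro e
    apply Subtype.ext
    apply Units.ext
    show LinearMap.toMatrix' (act s) = 1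
    have : act s = LinearMap.id := LinearMap.ext fun v => by
      simp [e]
    rw [this, LinearMap.toMatrix'_id]

end Cfsg.Agent.H27.Exc
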