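import Cfsg.Agent.Lib.H27.ExcBase
import Cfsg.Agent.Lib.Lead.GLComm

/-! Exceptional isomorphisms: linear models and the centre of `SL`. -/

set_option autoImplicit false

namespace Cfsg.Agent.H27.Exc

open Cfsg Cfsg.Geo Matrix
open scoped MatrixGroups commutatorElement

variable {ι : Type} [Fintype ι] [DecidableEq ι] {F : Type*} [Field F]

/-- Linear models. -/
theorem model_act {E : Type*} [AddCommGroup E] [Module F E] {S : Type*} [Group S] {Q : (ι → F) → F}
    {F' : Type*} (i : F → F') (hi : Function.Injective i)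
    (A : (ι → F) →ₗ[F] E) (C : E →ₗ[F] (ι → F)) (T : S → E →ₗ[F] E) (W : Set E)
    (hCA : ∀ v, C (A v) = v) (hAC : ∀ m ∈ W, A (C m) = m) (hAW : ∀ v, A v ∈ W)
    (hTW : ∀ s, ∀ m ∈ W, T s m ∈ W) (hT1 : ∀ m, T 1 m = m) (hTm : ∀ s t m, T (s * t) m = T s (T t m))
    (q : E → F') (hq : ∀ v, q (A v) = i (Q v)) (hqT : ∀ s, ∀ m ∈ W, q (T s m) = q m) :
    Act Q (fun s => C ∘ₗ T s ∘ₗ A) where
  one v := by simp [hT1, hCA]
  mul s t v := by
    simp only [LinearMap.comp_apply]
    rw [hAC _ (hTW t _ (hAW v)), hTm]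
  pres s v := by
    apply hi
    simp only [LinearMap.comp_apply]
    rw [← hq, hAC _ (hTW s _ (hAW v)), hqT _ _ (hAW v), hq]

theorem model_ker {E : Type*} [AddCommGroup E] [Module F E] {S : Type*} [Group S] {Q : (ι → F) → F}
    {act : S → (ι → F) →ₗ[F] (ι → F)} (h : Act Q act)
    (A : (ι → F) →ₗ[F] E) (C : E →ₗ[F] (ι → F)) (T : S → E →ₗ[F] E) (W : Set E)
    (hact : act = fun s => C ∘ₗ T s ∘ₗ A)
    (hCA : ∀ v, C (A v) = v) (hAC : ∀ m ∈ W, A (C m) = m) (hAW : ∀ v, A v ∈ W)
    (hTW : ∀ s, ∀ m ∈ W, T s m ∈ W) (s : S) : s ∈ h.hom.ker ↔ ∀ v, T s (A v) = A v := by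
  rw [h.mem_ker, hact]
  constructor
  · intro e v
    have := e v
    simp only [LinearMap.comp_apply] at this
    rw [← hAC _ (hTW s _ (hAW v)), this]
  · intro e v
    simp only [LinearMap.comp_apply]
    rw [e, hCA]

/-- `SL` modulo its centre has trivial centre. -/
theorem sl_center_free [Nontrivial ι] (s : Matrix.SpecialLinearGroup ι F)
    (h : ∀ t : Matrix.SpecialLinearGroup ι F, s * t * s⁻¹ * t⁻¹ ∈ Subgroup.center (Matrix.SpecialLinearGroup ι F)) :
    s ∈ Subgroup.center (Matrix.SpecialLinearGroup ι F) := by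
  classical
  rw [Subgroup.mem_center_iff]
  intro g
  refine Cfsg.Agent.Lead.transvection_induction' (fun g => g * s = s * g) ?_ ?_ g
  · intro i j hij c
    set t := Matrix.SpecialLinearGroup.transvection hij c with ht
    obtain ⟨r, _, hr⟩ := Matrix.SpecialLinearGroup.mem_center_iff.1 (h t)
    have hT : (t : Matrix ι ι F) = 1 + Matrix.single i j c := by
      rw [ht, Matrix.SpecialLinearGroup.transvection_coe]
    obtain ⟨N, hN⟩ : ∃ N : Matrix ι ι F, N = Matrix.single i j c := ⟨_, rfl⟩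
    have hNN : N * N = 0 := by
      rw [hN, Matrix.single_mul_single_of_ne _ _ _ _ hij.symm]
    have hNii : N i i = 0 := by
      rw [hN, Matrix.single_apply_of_ne]
      intro hh
      exact hij hh.2.symm
    have e1 : s * t * s⁻¹ = (s * t * s⁻¹ * t⁻¹) * t := by group
    have hM : (s : Matrix ι ι F) * t * ((s⁻¹ : Matrix.SpecialLinearGroup ι F) : Matrix ι ι F) = r • (t : Matrix ι ι F) := by
      have := congrArg (fun x : Matrix.SpecialLinearGroup ι F => (x : Matrix ι ι F)) e1
      simp only [Matrix.SpecialLinearGroup.coe_mul] at this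
      rw [this, ← Matrix.SpecialLinearGroup.coe_mul, ← Matrix.SpecialLinearGroup.coe_mul, ← Matrix.SpecialLinearGroup.coe_mul, ← hr]
      simp [Matrix.scalar_apply, Matrix.smul_eq_diagonal_mul]
    have hss : ((s⁻¹ : Matrix.SpecialLinearGroup ι F) : Matrix ι ι F) * (s : Matrix ι ι F) = 1 := by
      rw [← Matrix.SpecialLinearGroup.coe_mul]; simp
    have hss' : (s : Matrix ι ι F) * ((s⁻¹ : Matrix.SpecialLinearGroup ι F) : Matrix ι ι F) = 1 := by
      rw [← Matrix.SpecialLinearGroup.coe_mul]; simp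
    obtain ⟨X, hX⟩ : ∃ X : Matrix ι ι F, X = (s : Matrix ι ι F) * N * ((s⁻¹ : Matrix.SpecialLinearGroup ι F) : Matrix ι ι F) := ⟨_, rfl⟩
    have hXX : X * X = 0 := by
      rw [hX]
      calc _ = (s : Matrix ι ι F) * N * (((s⁻¹ : Matrix.SpecialLinearGroup ι F) : Matrix ι ι F) * (s : Matrix ι ι F)) * N * ((s⁻¹ : Matrix.SpecialLinearGroup ι F) : Matrix ι ι F) := by
            simp only [Matrix.mul_assoc]
        _ = (s : Matrix ι ι F) * (N * N) * ((s⁻¹ : Matrix.SpecialLinearGroup ι F) : Matrix ι ι F) := by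
            rw [hss]; simp only [Matrix.mul_one, Matrix.mul_assoc]
        _ = 0 := by rw [hNN]; simp
    have hM' : (s : Matrix ι ι F) * (1 + N) * ((s⁻¹ : Matrix.SpecialLinearGroup ι F) : Matrix ι ι F) = r • (1 + N) := by
      rw [hN, ← hT]; exact hM
    have hX2 : X = r • (1 + N) - 1 := by
      have e2 : (s : Matrix ι ι F) * (1 + N) * ((s⁻¹ : Matrix.SpecialLinearGroup ι F) : Matrix ι ι F) = 1 + (s : Matrix ι ι F) * N * ((s⁻¹ : Matrix.SpecialLinearGroup ι F) : Matrix ι ι F) := by
        rw [Matrix.mul_add, Matrix.add_mul, Matrix.mul_one, hss']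
      rw [← hM', e2, hX]
      abel
    have hr1 : r = 1 := by
      have h3 : (X * X) i i = (r - 1) ^ 2 := by
        rw [hX2]
        have e3 : (r • (1 + N) - 1) * (r • (1 + N) - 1) = ((r - 1) ^ 2) • (1 : Matrix ι ι F) + (2 * (r - 1) * r) • N + (r ^ 2) • (N * N) := by
          have : r • (1 + N) - 1 = (r - 1) • (1 : Matrix ι ι F) + r • N := by
            rw [smul_add, sub_smul, one_smul]; abel
          rw [this]
          simp only [Matrix.add_mul, Matrix.mul_add, Matrix.smul_mul, Matrix.mul_smul, Matrix.one_mul, Matrix.mul_one, smul_add, smul_smul]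
          have e4 : ∀ (a b c d : F) (A B : Matrix ι ι F), (a • (1 : Matrix ι ι F) + b • A) + (c • A + d • B) = a • (1 : Matrix ι ι F) + (b + c) • A + d • B := by
            intro a b c d A B
            rw [add_smul]; abel
          rw [e4]
          congr 2 <;> congr 1 <;> ring
        rw [e3, hNN]
        simp [hNii, Matrix.one_apply]
      rw [hXX] at h3
      have h4 : (r - 1) ^ 2 = 0 := by rw [← h3]; simp
      have h5 := pow_eq_zero_iff (two_ne_zero) |>.1 h4
      exact sub_eq_zero.1 h5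
    have e5 : s * t * s⁻¹ * t⁻¹ = 1 := by
      apply Subtype.ext
      rw [← hr, hr1]
      simp
    have e6 : s * t = t * s := by
      have : s * t = (s * t * s⁻¹ * t⁻¹) * (t * s) := by group
      rw [this, e5, one_mul]
    exact e6.symm
  · intro A B hA hB
    rw [mul_assoc, hB, ← mul_assoc, hA, mul_assoc]

end Cfsg.Agent.H27.Exc
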