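import Cfsg.Agent.Lib.H27.ExcBase2
import Cfsg.Agent.Lib.Lead.OrthoOrder
import Cfsg.Agent.Lib.H10.CardSL
import Cfsg.Agent.Lib.H28.OMain

/-! `PΩ₃(q) ≅ PSL₂(q)`, `q` odd. -/

set_option autoImplicit false

namespace Cfsg.Agent.H27.Exc

open Cfsg Cfsg.Geo Matrix
open scoped MatrixGroups commutatorElement

theorem map_comm_mem {G H : Type*} [Group G] [Group H] (f : G →* H) {x : G} (hx : x ∈ commutator G) :
    f x ∈ commutator H := by
  rw [commutator_def] at hx ⊢
  have := Subgroup.mem_map_of_mem f hx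
  rw [Subgroup.map_commutator] at this
  exact Subgroup.commutator_mono le_top le_top this

section O3

variable {F : Type*} [Field F]

/-- the traceless matrix of a vector -/
noncomputable def A3 : ((Unit ⊕ (Fin 1 ⊕ Fin 1)) → F) →ₗ[F] Matrix (Fin 2) (Fin 2) F where
  toFun v := !![v (.inl ()), v (.inr (.inl 0)); v (.inr (.inr 0)), - v (.inl ())]
  map_add' u v := by
    ext i j
    fin_cases i <;> fin_cases j <;> simp <;> ring
  map_smul' c v := by
    ext i j
    fin_cases i <;> fin_cases j <;> simp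

/-- the coordinates -/
noncomputable def C3 : Matrix (Fin 2) (Fin 2) F →ₗ[F] ((Unit ⊕ (Fin 1 ⊕ Fin 1)) → F) where
  toFun M := Sum.elim (fun _ => M 0 0) (Sum.elim (fun _ => M 0 1) (fun _ => M 1 0))
  map_add' M N := by
    funext i
    rcases i with _ | _ | _ <;> simp
  map_smul' c M := by
    funext i
    rcases i with _ | _ | _ <;> simp

/-- conjugation -/
noncomputable def T3 (g : GL (Fin 2) F) : Matrix (Fin 2) (Fin 2) F →ₗ[F] Matrix (Fin 2) (Fin 2) F :=
  (LinearMap.mulLeft F (g : Matrix (Fin 2) (Fin 2) F)).comp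
    (LinearMap.mulRight F ((g⁻¹ : GL (Fin 2) F) : Matrix (Fin 2) (Fin 2) F))

theorem T3_apply (g : GL (Fin 2) F) (M : Matrix (Fin 2) (Fin 2) F) :
    T3 g M = (g : Matrix (Fin 2) (Fin 2) F) * (M * ((g⁻¹ : GL (Fin 2) F) : Matrix (Fin 2) (Fin 2) F)) := rfl

theorem act3 : Act (quadFormOdd 1 F) (fun s : GL (Fin 2) F => C3 ∘ₗ T3 s ∘ₗ A3) := by
  refine model_act (F := F) (F' := F) id Function.injective_id A3 C3 T3 {M | Matrix.trace M = 0} ?_ ?_ ?_ ?_ ?_ ?_
    (fun M => - M.det) ?_ ?_
  · intro v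
    funext i
    rcases i with ⟨⟩ | i | i
    · simp [A3, C3]
    · have : i = 0 := Subsingleton.elim _ _
      subst this
      simp [A3, C3]
    · have : i = 0 := Subsingleton.elim _ _
      subst this
      simp [A3, C3]
  · intro m hm
    have hm' : m 0 0 + m 1 1 = 0 := by
      have : Matrix.trace m = 0 := hm
      rwa [Matrix.trace_fin_two] at this
    ext i j
    fin_cases i <;> fin_cases j <;> simp [A3, C3]
    linear_combination -hm'
  · intro v
    show Matrix.trace (A3 v) = 0
    simp [A3, Matrix.trace_fin_two]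
  · intro s m hm
    show Matrix.trace (T3 s m) = 0
    have : ((s⁻¹ : GL (Fin 2) F) : Matrix (Fin 2) (Fin 2) F) * (s : Matrix (Fin 2) (Fin 2) F) = 1 := by
      rw [← Matrix.GeneralLinearGroup.coe_mul]; simp
    rw [T3_apply, Matrix.trace_mul_comm, Matrix.mul_assoc, this, Matrix.mul_one]
    exact hm
  · intro m
    simp [T3_apply]
  · intro s t m
    simp only [T3_apply, _root_.mul_inv_rev, Matrix.GeneralLinearGroup.coe_mul, Matrix.mul_assoc]
  · intro v
    simp only [id, quadFormOdd, A3, LinearMap.coe_mk, AddHom.coe_mk, Matrix.det_fin_two_of]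
    simp
    ring
  · intro s m _
    have : ((s⁻¹ : GL (Fin 2) F) : Matrix (Fin 2) (Fin 2) F) * (s : Matrix (Fin 2) (Fin 2) F) = 1 := by
      rw [← Matrix.GeneralLinearGroup.coe_mul]; simp
    show - (T3 s m).det = - m.det
    rw [T3_apply, Matrix.det_mul, Matrix.det_mul, mul_comm, mul_assoc, ← Matrix.det_mul, this]
    simp

/-- the homomorphism from `SL₂` -/
noncomputable def phi3 : SpecialLinearGroup (Fin 2) F →* ↥(isometryGroup F (quadFormOdd 1 F)) :=
  (act3 (F := F)).hom.comp SpecialLinearGroup.toGL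

theorem phi3_ker_iff (s : SpecialLinearGroup (Fin 2) F) :
    s ∈ (phi3 (F := F)).ker ↔ ∀ M : Matrix (Fin 2) (Fin 2) F, Matrix.trace M = 0 → (s : Matrix (Fin 2) (Fin 2) F) * M = M * s := by
  have hinv : ((s⁻¹ : SpecialLinearGroup (Fin 2) F) : Matrix (Fin 2) (Fin 2) F) * (s : Matrix (Fin 2) (Fin 2) F) = 1 := by
    rw [← Matrix.SpecialLinearGroup.coe_mul]; simp
  have key : s ∈ (phi3 (F := F)).ker ↔ SpecialLinearGroup.toGL s ∈ (act3 (F := F)).hom.ker := by
    simp [phi3, MonoidHom.mem_ker]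
  rw [key]
  rw [model_ker (act3 (F := F)) A3 C3 T3 {M | Matrix.trace M = 0} rfl ?_ ?_ ?_ ?_]
  · constructor
    · intro h M hM
      have h1 : A3 (C3 M) = M := by
        have hm' : M 0 0 + M 1 1 = 0 := by rwa [Matrix.trace_fin_two] at hM
        ext i j
        fin_cases i <;> fin_cases j <;> simp [A3, C3]
        linear_combination -hm'
      have h2 := h (C3 M)
      rw [h1, T3_apply] at h2
      have e : ((SpecialLinearGroup.toGL s : GL (Fin 2) F) : Matrix (Fin 2) (Fin 2) F) = s := rfl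
      have e' : (((SpecialLinearGroup.toGL s)⁻¹ : GL (Fin 2) F) : Matrix (Fin 2) (Fin 2) F) * (s : Matrix (Fin 2) (Fin 2) F) = 1 := by
        rw [← e, ← Matrix.GeneralLinearGroup.coe_mul]; simp
      rw [e] at h2
      calc (s : Matrix (Fin 2) (Fin 2) F) * M = (s : Matrix (Fin 2) (Fin 2) F) * M * (((SpecialLinearGroup.toGL s)⁻¹ : GL (Fin 2) F) * (s : Matrix (Fin 2) (Fin 2) F)) := by
            rw [e', Matrix.mul_one]
        _ = ((s : Matrix (Fin 2) (Fin 2) F) * (M * ((SpecialLinearGroup.toGL s)⁻¹ : GL (Fin 2) F))) * s := by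
            simp only [Matrix.mul_assoc]
        _ = _ := by rw [h2]
    · intro h v
      have h1 := h (A3 v) (by simp [A3, Matrix.trace_fin_two])
      rw [T3_apply]
      have e : ((SpecialLinearGroup.toGL s : GL (Fin 2) F) : Matrix (Fin 2) (Fin 2) F) = s := rfl
      have e' : (s : Matrix (Fin 2) (Fin 2) F) * (((SpecialLinearGroup.toGL s)⁻¹ : GL (Fin 2) F) : Matrix (Fin 2) (Fin 2) F) = 1 := by
        rw [← e, ← Matrix.GeneralLinearGroup.coe_mul]; simp
      rw [e, ← Matrix.mul_assoc, h1, Matrix.mul_assoc, e', Matrix.mul_one]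
  · intro v
    funext i
    rcases i with ⟨⟩ | i | i
    · simp [A3, C3]
    · have : i = 0 := Subsingleton.elim _ _
      subst this
      simp [A3, C3]
    · have : i = 0 := Subsingleton.elim _ _
      subst this
      simp [A3, C3]
  · intro m hm
    have hm' : m 0 0 + m 1 1 = 0 := by
      have : Matrix.trace m = 0 := hm
      rwa [Matrix.trace_fin_two] at this
    ext i j
    fin_cases i <;> fin_cases j <;> simp [A3, C3]
    linear_combination -hm'
  · intro v
    show Matrix.trace (A3 v) = 0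
    simp [A3, Matrix.trace_fin_two]
  · intro t m hm
    show Matrix.trace (T3 t m) = 0
    have : ((t⁻¹ : GL (Fin 2) F) : Matrix (Fin 2) (Fin 2) F) * (t : Matrix (Fin 2) (Fin 2) F) = 1 := by
      rw [← Matrix.GeneralLinearGroup.coe_mul]; simp
    rw [T3_apply, Matrix.trace_mul_comm, Matrix.mul_assoc, this, Matrix.mul_one]
    exact hm

/-- A matrix commuting with the two nilpotent elementary matrices is scalar. -/
theorem scalar_of_comm2 {s : Matrix (Fin 2) (Fin 2) F} (h1 : s * !![0, 1; 0, 0] = !![0, 1; 0, 0] * s)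
    (h2 : s * !![0, 0; 1, 0] = !![0, 0; 1, 0] * s) : s 0 1 = 0 ∧ s 1 0 = 0 ∧ s 1 1 = s 0 0 := by
  have a1 := congrFun (congrFun h1 0) 1
  have a2 := congrFun (congrFun h1 1) 1
  have a3 := congrFun (congrFun h2 0) 0
  simp [Matrix.mul_apply, Fin.sum_univ_two] at a1 a2 a3
  refine ⟨a3, a2.symm ▸ ?_, ?_⟩
  · simpa using a2
  · exact a1.symm

end O3

section Main

variable {F : Type*} [Field F] [Fintype F]

theorem phi3_mem_omega (h2 : (2 : F) ≠ 0) (s : SpecialLinearGroup (Fin 2) F) :
    phi3 s ∈ Omega F (quadFormOdd 1 F) := by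
  have hne : (-1 : F) ≠ 1 := by
    intro h
    apply h2
    linear_combination (-1 : F) * h
  have hcomm := Cfsg.Agent.Lead.commutator_GL_eq_ker (F := F) 2 (fun _ => ⟨-1, by simp, hne⟩)
  have : SpecialLinearGroup.toGL s ∈ commutator (GL (Fin 2) F) := by
    rw [hcomm, ← Cfsg.Agent.Lead.range_toGL_eq_ker_det']
    exact ⟨s, rfl⟩
  exact map_comm_mem (act3 (F := F)).hom this

/-- the kernel has exactly two elements and is central -/
theorem phi3_ker (h2 : (2 : F) ≠ 0) :
    (phi3 (F := F)).ker ≤ Subgroup.center _ ∧ Nat.card (phi3 (F := F)).ker = 2 := by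
  classical
  have hne : (-1 : F) ≠ 1 := by
    intro h
    apply h2
    linear_combination (-1 : F) * h
  have hchar : ∀ s ∈ (phi3 (F := F)).ker, (s : Matrix (Fin 2) (Fin 2) F) = 1 ∨ (s : Matrix (Fin 2) (Fin 2) F) = -1 := by
    intro s hs
    rw [phi3_ker_iff] at hs
    obtain ⟨a1, a2, a3⟩ := scalar_of_comm2 (hs _ (by simp [Matrix.trace_fin_two])) (hs _ (by simp [Matrix.trace_fin_two]))
    have hdet := s.2
    rw [Matrix.det_fin_two, a1, a2, a3] at hdet
    have h3 : (s 0 0 - 1) * (s 0 0 + 1) = 0 := by linear_combination hdet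
    rcases mul_eq_zero.1 h3 with h4 | h4
    · left
      have h5 : s 0 0 = 1 := sub_eq_zero.1 h4
      ext i j
      fin_cases i <;> fin_cases j <;> simp [a1, a2, a3, h5]
    · right
      have h5 : s 0 0 = -1 := by linear_combination h4
      ext i j
      fin_cases i <;> fin_cases j <;> simp [a1, a2, a3, h5]
  let m : SpecialLinearGroup (Fin 2) F := ⟨-1, by simp [Matrix.det_neg]⟩
  have hm : (m : Matrix (Fin 2) (Fin 2) F) = -1 := rfl
  have hmk : m ∈ (phi3 (F := F)).ker := by
    rw [phi3_ker_iff]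
    intro M _
    rw [hm]; simp
  have hm1 : m ≠ 1 := by
    intro h
    have := congrArg (fun x : SpecialLinearGroup (Fin 2) F => (x : Matrix (Fin 2) (Fin 2) F) 0 0) h
    simp [hm] at this
    exact hne this
  constructor
  · intro s hs
    rw [Subgroup.mem_center_iff]
    intro g
    apply Subtype.ext
    rcases hchar s hs with h | h <;> simp [h]
  · rw [Nat.card_eq_two_iff' (1 : (phi3 (F := F)).ker)]
    refine ⟨⟨m, hmk⟩, fun h => hm1 (congrArg Subtype.val h), ?_⟩
    rintro ⟨y, hy⟩ hy1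
    apply Subtype.ext
    apply Subtype.ext
    rcases hchar y hy with h | h
    · exact absurd (Subtype.ext (Subtype.ext h)) hy1
    · exact h

end Main

section Final

variable {F : Type*} [Field F] [Fintype F]

/-- **`PΩ₃(q) ≅ PSL₂(q)`** -/
theorem pomega3 (hodd : Odd (Fintype.card F)) :
    Nonempty (POmega F (quadFormOdd 1 F) ≃* ProjectiveSpecialLinearGroup (Fin 2) F) := by
  classical
  have h2 : (2 : F) ≠ 0 := Cfsg.Agent.H28.two_ne_zero_of_odd hodd
  have hQ := Cfsg.Agent.H28.quadFormOdd_nondeg (F := F) 1 h2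
  obtain ⟨hk1, hk2⟩ := phi3_ker (F := F) h2
  have hcardO := Cfsg.Agent.Lead.Ortho.card_GO_odd (F := F) rfl hodd 1
  have hr : Nat.card (phi3 (F := F)).range * Nat.card (phi3 (F := F)).ker = Nat.card (SpecialLinearGroup (Fin 2) F) := by
    rw [mul_comm, ← Subgroup.index_ker, Subgroup.card_mul_index]
  rw [hk2, Cfsg.Agent.H10.card_SL_two] at hr
  refine exc_main hQ (by simp) (phi3 (F := F)) (phi3_mem_omega h2) ?_ (fun h => absurd h h2) hk1 ?_
  · intro _
    rw [hcardO]
    simp only [Finset.prod_range_one, pow_one, one_pow]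
    norm_num
    change 2 * Fintype.card F * (Fintype.card F ^ 2 - 1) = 4 * Nat.card ↥(phi3 (F := F)).range
    rw [mul_assoc, ← hr]
    ring
  · intro s hs
    exact sl_center_free s hs

end Final

end Cfsg.Agent.H27.Exc
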