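import Cfsg.Agent.Lib.H27.ExcO5
import Cfsg.Agent.Lib.H12.QuadExt2
import Cfsg.Agent.Lib.H11.PSL2
import Cfsg.Agent.Lib.H10.CardSL

/-! `PΩ⁻₄(q) ≅ PSL₂(q²)`. -/

set_option autoImplicit false

namespace Cfsg.Agent.H27.Exc

open Cfsg Cfsg.Geo Matrix
open scoped MatrixGroups commutatorElement

/-- The quadratic extension with a chosen root of the anisotropic form. -/
structure QDat (F K : Type*) [Field F] [Field K] [Algebra F K] (a b : F) where
  σ : K →+* K
  hι : ∀ t : F, σ (algebraMap F K t) = algebraMap F K t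
  hσσ : ∀ x, σ (σ x) = x
  hfix : ∀ x, σ x = x → ∃ t, algebraMap F K t = x
  θ : K
  htr : θ + σ θ = - algebraMap F K a
  hnm : θ * σ θ = algebraMap F K b
  c₁ : K →ₗ[F] F
  c₂ : K →ₗ[F] F
  hc : ∀ w, algebraMap F K (c₁ w) - algebraMap F K (c₂ w) * θ = w
  hc₁ : ∀ x y, c₁ (algebraMap F K x - algebraMap F K y * θ) = x
  hc₂ : ∀ x y, c₂ (algebraMap F K x - algebraMap F K y * θ) = y

section QD

variable {F K : Type*} [Field F] [Field K] [Algebra F K] {a b : F}

local notation "ι" => algebraMap F K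

/-- the norm formula -/
theorem QDat.norm (D : QDat F K a b) (x y : F) :
    (ι x - ι y * D.θ) * D.σ (ι x - ι y * D.θ) = ι (x ^ 2 + a * x * y + b * y ^ 2) := by
  simp only [map_sub, map_mul, D.hι, map_add, map_pow]
  linear_combination (-(ι x * ι y)) * D.htr + (ι y ^ 2) * D.hnm

theorem QDat.c₁_ι (D : QDat F K a b) (x : F) : D.c₁ (ι x) = x := by
  simpa using D.hc₁ x 0

theorem QDat.c₂_ι (D : QDat F K a b) (x : F) : D.c₂ (ι x) = 0 := by
  simpa using D.hc₂ x 0

theorem exists_qdat [Fintype F] [Fintype K] {q : ℕ} (hF : Fintype.card F = q) (hK : Fintype.card K = q ^ 2)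
    (hab : ∀ z₁ z₂ : F, z₁ ^ 2 + a * z₁ * z₂ + b * z₂ ^ 2 = 0 → z₁ = 0 ∧ z₂ = 0) :
    Nonempty (QDat F K a b) := by
  classical
  obtain ⟨S⟩ := H12.QE.exists_setup (F := F) (K := K) hK hF
  obtain ⟨θ, hθ⟩ := H12.QE.exists_root_quadratic (F := F) (K := K) hK hF a b hab
  have hne : S.σ θ ≠ θ := by
    intro h
    obtain ⟨t, ht⟩ := S.hfix θ h
    rw [← ht] at hθ
    have h1 : algebraMap F K (t ^ 2 + a * t * 1 + b * 1 ^ 2) = 0 := by
      simp only [map_add, map_mul, map_pow, map_one]
      linear_combination hθ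
    have h2 := (map_eq_zero (algebraMap F K)).1 h1
    exact one_ne_zero (hab _ _ h2).2
  have hσ : S.σ θ ^ 2 + ι a * S.σ θ + ι b = 0 := by
    have := congrArg S.σ hθ
    simpa [S.hι] using this
  have htr : θ + S.σ θ = - ι a := by
    have h1 : (θ - S.σ θ) * (θ + S.σ θ + ι a) = 0 := by linear_combination hθ - hσ
    rcases mul_eq_zero.1 h1 with h2 | h2
    · exact absurd (sub_eq_zero.1 h2).symm hne
    · linear_combination h2
  have hnm : θ * S.σ θ = ι b := by
    linear_combination θ * htr - hθ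
  let L : (F × F) →ₗ[F] K :=
    { toFun := fun p => ι p.1 - ι p.2 * θ
      map_add' := by
        intro p r
        simp only [Prod.fst_add, Prod.snd_add, map_add]
        ring
      map_smul' := by
        intro c p
        show ι (c • p).1 - ι (c • p).2 * θ = c • (ι p.1 - ι p.2 * θ)
        rw [Prod.smul_fst, Prod.smul_snd]
        simp only [smul_eq_mul, map_mul, Algebra.smul_def]
        ring }
  have hL : ∀ p, L p = ι p.1 - ι p.2 * θ := fun _ => rfl
  have hnorm : ∀ x y : F, (ι x - ι y * θ) * S.σ (ι x - ι y * θ) = ι (x ^ 2 + a * x * y + b * y ^ 2) := by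
    intro x y
    simp only [map_sub, map_mul, S.hι, map_add, map_pow]
    linear_combination (-(ι x * ι y)) * htr + (ι y ^ 2) * hnm
  have hinj : Function.Injective L := by
    rw [injective_iff_map_eq_zero]
    rintro ⟨x, y⟩ h
    rw [hL] at h
    have h1 := hnorm x y
    simp only at h
    rw [h, zero_mul] at h1
    have h2 := (map_eq_zero (algebraMap F K)).1 h1.symm
    obtain ⟨h3, h4⟩ := hab _ _ h2
    rw [h3, h4]
    rfl
  have hbij : Function.Bijective L := by
    rw [Fintype.bijective_iff_injective_and_card]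
    refine ⟨hinj, ?_⟩
    rw [Fintype.card_prod, hF, hK, sq]
  let E := LinearEquiv.ofBijective L hbij
  have hE : ∀ w, L (E.symm w) = w := fun w => E.apply_symm_apply w
  have hE' : ∀ p, E.symm (L p) = p := fun p => E.symm_apply_apply p
  refine ⟨⟨S.σ, S.hι, S.hσσ, S.hfix, θ, htr, hnm, (LinearMap.fst F F F) ∘ₗ E.symm.toLinearMap,
    (LinearMap.snd F F F) ∘ₗ E.symm.toLinearMap, ?_, ?_, ?_⟩⟩
  · intro w
    exact hE w
  · intro x y
    have := hE' (x, y)
    rw [hL] at this
    show (E.symm _).1 = x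
    rw [this]
  · intro x y
    have := hE' (x, y)
    rw [hL] at this
    show (E.symm _).2 = y
    rw [this]

end QD

section Model

variable {F K : Type*} [Field F] [Field K] [Algebra F K] {a b : F}

local notation "ι" => algebraMap F K

/-- vectors to Hermitian matrices -/
noncomputable def Am (D : QDat F K a b) : ((Fin 1 ⊕ Fin 1) ⊕ Fin 2 → F) →ₗ[F] Matrix (Fin 2) (Fin 2) K where
  toFun v := !![ι (v (.inl (.inl 0))), ι (v (.inr 0)) - ι (v (.inr 1)) * D.θ;
    D.σ (ι (v (.inr 0)) - ι (v (.inr 1)) * D.θ), - ι (v (.inl (.inr 0)))]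
  map_add' u v := by
    ext i j
    fin_cases i <;> fin_cases j <;> simp <;> ring
  map_smul' c v := by
    ext i j
    fin_cases i <;> fin_cases j <;> simp [Algebra.smul_def, D.hι] <;> ring

/-- coordinates -/
noncomputable def Cm (D : QDat F K a b) : Matrix (Fin 2) (Fin 2) K →ₗ[F] ((Fin 1 ⊕ Fin 1) ⊕ Fin 2 → F) where
  toFun M := Sum.elim (Sum.elim (fun _ => D.c₁ (M 0 0)) (fun _ => - D.c₁ (M 1 1))) ![D.c₁ (M 0 1), D.c₂ (M 0 1)]
  map_add' M N := by
    funext i
    rcases i with (i | i) | i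
    · simp
    · simp; ring
    · fin_cases i <;> simp
  map_smul' c M := by
    funext i
    rcases i with (i | i) | i
    · simp
    · simp
    · fin_cases i <;> simp

theorem CAm (D : QDat F K a b) (v) : Cm D (Am D v) = v := by
  funext i
  rcases i with (i | i) | i
  · fin_cases i
    simp [Am, Cm, D.c₁_ι]
  · fin_cases i
    simp [Am, Cm, D.c₁_ι]
  · fin_cases i
    · simp [Am, Cm, D.hc₁]
    · simp [Am, Cm, D.hc₂]

/-- Hermitian matrices -/
def Wm (D : QDat F K a b) : Set (Matrix (Fin 2) (Fin 2) K) := {M | M.map D.σ = Mᵀ}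

theorem ACm (D : QDat F K a b) (m : Matrix (Fin 2) (Fin 2) K) (hm : m ∈ Wm D) : Am D (Cm D m) = m := by
  have h00 : D.σ (m 0 0) = m 0 0 := congrFun (congrFun hm 0) 0
  have h11 : D.σ (m 1 1) = m 1 1 := congrFun (congrFun hm 1) 1
  have h01 : D.σ (m 0 1) = m 1 0 := congrFun (congrFun hm 0) 1
  obtain ⟨t, ht⟩ := D.hfix _ h00
  obtain ⟨r, hr⟩ := D.hfix _ h11
  ext i j
  fin_cases i <;> fin_cases j
  · simp [Am, Cm, ← ht, D.c₁_ι]
  · simp [Am, Cm, D.hc]
  · have := D.hc (m 0 1)
    simp only [Am, Cm, LinearMap.coe_mk, AddHom.coe_mk, Sum.elim_inr, Sum.elim_inl]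
    show D.σ (ι (D.c₁ (m 0 1)) - ι (D.c₂ (m 0 1)) * D.θ) = m 1 0
    rw [this, h01]
  · simp [Am, Cm, ← hr, D.c₁_ι]

theorem AWm (D : QDat F K a b) (v) : Am D v ∈ Wm D := by
  show (Am D v).map D.σ = (Am D v)ᵀ
  ext i j
  fin_cases i <;> fin_cases j <;> simp [Am, D.hι, D.hσσ]

/-- the twisted action of `SL₂(K)` -/
noncomputable def Tm (D : QDat F K a b) (s : Matrix.SpecialLinearGroup (Fin 2) K) :
    Matrix (Fin 2) (Fin 2) K →ₗ[F] Matrix (Fin 2) (Fin 2) K :=
  (LinearMap.mulLeft F (s : Matrix (Fin 2) (Fin 2) K)).comp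
    (LinearMap.mulRight F ((s : Matrix (Fin 2) (Fin 2) K).map D.σ)ᵀ)

theorem Tm_apply (D : QDat F K a b) (s : Matrix.SpecialLinearGroup (Fin 2) K) (M) :
    Tm D s M = (s : Matrix (Fin 2) (Fin 2) K) * (M * ((s : Matrix (Fin 2) (Fin 2) K).map D.σ)ᵀ) := rfl

theorem Tm_W (D : QDat F K a b) (s : Matrix.SpecialLinearGroup (Fin 2) K) (m) (hm : m ∈ Wm D) : Tm D s m ∈ Wm D := by
  show (Tm D s m).map D.σ = (Tm D s m)ᵀ
  have hm' : m.map D.σ = mᵀ := hm
  have hss : (((s : Matrix (Fin 2) (Fin 2) K).map D.σ).map D.σ) = s := by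
    ext i j
    simp [D.hσσ]
  rw [Tm_apply, Matrix.map_mul, Matrix.map_mul, hm', Matrix.transpose_mul, Matrix.transpose_mul, Matrix.transpose_transpose,
    Matrix.mul_assoc, Matrix.transpose_map, hss]

/-- the form -/
noncomputable def qm (M : Matrix (Fin 2) (Fin 2) K) : K := - M.det

theorem qm_A (D : QDat F K a b) (v) : qm (Am D v) = ι (quadFormMinus 1 F a b v) := by
  have hn := D.norm (v (.inr 0)) (v (.inr 1))
  simp only [qm, Am, LinearMap.coe_mk, AddHom.coe_mk, Matrix.det_fin_two_of, quadFormMinus, Fin.sum_univ_one, map_add, map_mul]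
  simp only [map_add, map_mul, map_pow] at hn ⊢
  linear_combination hn

theorem qm_T (D : QDat F K a b) (s : Matrix.SpecialLinearGroup (Fin 2) K) (m) : qm (Tm D s m) = qm m := by
  have h1 : ((s : Matrix (Fin 2) (Fin 2) K).map D.σ).det = 1 := by
    have := RingHom.map_det D.σ (s : Matrix (Fin 2) (Fin 2) K)
    rw [s.2, map_one] at this
    exact this.symm
  rw [qm, qm, Tm_apply, Matrix.det_mul, Matrix.det_mul, Matrix.det_transpose, h1, s.2]
  ring

theorem actm (D : QDat F K a b) :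
    Act (quadFormMinus 1 F a b) (fun s : Matrix.SpecialLinearGroup (Fin 2) K => Cm D ∘ₗ Tm D s ∘ₗ Am D) := by
  refine model_act (F := F) (F' := K) ι (algebraMap F K).injective (Am D) (Cm D) (Tm D) (Wm D) (CAm D) (ACm D)
    (AWm D) (Tm_W D) ?_ ?_ qm (qm_A D) ?_
  · intro m
    simp [Tm_apply]
  · intro s t m
    simp only [Tm_apply, Matrix.SpecialLinearGroup.coe_mul, Matrix.map_mul, Matrix.transpose_mul, Matrix.mul_assoc]
  · intro s m _
    exact qm_T D s m

noncomputable def phim (D : QDat F K a b) : Matrix.SpecialLinearGroup (Fin 2) K →* ↥(isometryGroup F (quadFormMinus 1 F a b)) :=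
  (actm D).hom

theorem phim_ker (D : QDat F K a b) (s : Matrix.SpecialLinearGroup (Fin 2) K) :
    s ∈ (phim D).ker ↔ (s : Matrix (Fin 2) (Fin 2) K) = 1 ∨ (s : Matrix (Fin 2) (Fin 2) K) = -1 := by
  have hk := model_ker (actm D) (Am D) (Cm D) (Tm D) (Wm D) rfl (CAm D) (ACm D) (AWm D) (Tm_W D) s
  constructor
  · intro h
    have h2 := hk.1 h
    obtain ⟨g, hg⟩ : ∃ g : Matrix (Fin 2) (Fin 2) K, g = s := ⟨_, rfl⟩
    obtain ⟨g', hg'⟩ : ∃ g' : Matrix (Fin 2) (Fin 2) K, g' = (g.map D.σ)ᵀ := ⟨_, rfl⟩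
    have h3 : ∀ v, g * (Am D v * g') = Am D v := by
      intro v
      have := h2 v
      rw [Tm_apply, ← hg, ← hg'] at this
      exact this
    have e1 : Am D (Sum.elim (Sum.elim ![1] ![-1]) ![0, 0]) = 1 := by
      ext i j
      fin_cases i <;> fin_cases j <;> simp [Am]
    have e2 : Am D (Sum.elim (Sum.elim ![1] ![0]) ![0, 0]) = !![1, 0; 0, 0] := by
      ext i j
      fin_cases i <;> fin_cases j <;> simp [Am]
    have e3 : Am D (Sum.elim (Sum.elim ![0] ![0]) ![1, 0]) = !![0, 1; 1, 0] := by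
      ext i j
      fin_cases i <;> fin_cases j <;> simp [Am]
    have h4 : g * g' = 1 := by
      have := h3 (Sum.elim (Sum.elim ![1] ![-1]) ![0, 0])
      rwa [e1, Matrix.one_mul] at this
    have h5 : g' * g = 1 := mul_eq_one_comm.1 h4
    have hcomm : ∀ M, g * (M * g') = M → g * M = M * g := by
      intro M hM
      calc g * M = g * (M * (g' * g)) := by rw [h5, Matrix.mul_one]
        _ = (g * (M * g')) * g := by simp only [Matrix.mul_assoc]
        _ = M * g := by rw [hM]
    have h6 := hcomm _ (h3 (Sum.elim (Sum.elim ![1] ![0]) ![0, 0]))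
    have h7 := hcomm _ (h3 (Sum.elim (Sum.elim ![0] ![0]) ![1, 0]))
    rw [e2] at h6
    rw [e3] at h7
    have hdet : g.det = 1 := by rw [hg]; exact s.2
    rw [Matrix.det_fin_two] at hdet
    have c01 : g 0 1 = 0 := by
      have := congrFun (congrFun h6 0) 1
      simpa [Matrix.mul_apply, Fin.sum_univ_two] using this.symm
    have c10 : g 1 0 = 0 := by
      have := congrFun (congrFun h6 1) 0
      simpa [Matrix.mul_apply, Fin.sum_univ_two] using this
    have c11 : g 0 0 = g 1 1 := by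
      have := congrFun (congrFun h7 0) 1
      simpa [Matrix.mul_apply, Fin.sum_univ_two] using this
    rw [c01, c10, ← c11] at hdet
    have h8 : (g 0 0 - 1) * (g 0 0 + 1) = 0 := by linear_combination hdet
    rw [← hg]
    rcases mul_eq_zero.1 h8 with h9 | h9
    · left
      have h10 : g 0 0 = 1 := sub_eq_zero.1 h9
      ext i j
      fin_cases i <;> fin_cases j <;> simp [c01, c10, ← c11, h10]
    · right
      have h10 : g 0 0 = -1 := by linear_combination h9
      ext i j
      fin_cases i <;> fin_cases j <;> simp [c01, c10, ← c11, h10]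
  · intro h
    apply hk.2
    intro v
    rw [Tm_apply]
    have e : ((-1 : Matrix (Fin 2) (Fin 2) K).map D.σ) = -1 := by
      ext i j
      fin_cases i <;> fin_cases j <;> simp
    rcases h with h | h <;> rw [h]
    · simp
    · rw [e]
      simp

end Model

section FinalM

variable {F K : Type*} [Field F] [Field K] [Fintype F] [Fintype K]

theorem pomega4minus_aux [Algebra F K] {q : ℕ} (hF : Fintype.card F = q) (hK : Fintype.card K = q ^ 2) (a b : F)
    (hab : ∀ z₁ z₂ : F, z₁ ^ 2 + a * z₁ * z₂ + b * z₂ ^ 2 = 0 → z₁ = 0 ∧ z₂ = 0) (D : QDat F K a b) :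
    Nonempty (POmega F (quadFormMinus 1 F a b) ≃* ProjectiveSpecialLinearGroup (Fin 2) K) := by
  classical
  have hQ := nondeg_of_qf (Cfsg.Agent.Lead.Ortho.qfMinus 1 a b) (Cfsg.Agent.Lead.Ortho.ndMinus 1 a b hab)
  have hq2 : 2 ≤ q := hF ▸ Fintype.one_lt_card
  have hcardO : Nat.card (isometryGroup F (quadFormMinus 1 F a b)) =
      2 * q ^ 2 * (q ^ 2 + 1) * (q ^ 2 - 1) := by
    have := Cfsg.Agent.Lead.Ortho.card_GO_minus (F := F) hF 2 (by norm_num) a b hab
    simpa using this
  have hcardS := Cfsg.Agent.H10.card_SL_two (F := K)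
  rw [hK] at hcardS
  have hr : Nat.card (phim D).range * Nat.card (phim D).ker =
      Nat.card (Matrix.SpecialLinearGroup (Fin 2) K) := by
    rw [mul_comm, ← Subgroup.index_ker, Subgroup.card_mul_index]
  rw [hcardS] at hr
  have hSnum : q ^ 2 * ((q ^ 2) ^ 2 - 1) = q ^ 2 * (q ^ 2 + 1) * (q ^ 2 - 1) := by
    have h1 : 1 ≤ q ^ 2 := Nat.one_le_pow _ _ (by omega)
    obtain ⟨k, hk⟩ : ∃ k, q ^ 2 = k + 1 := ⟨q ^ 2 - 1, by omega⟩
    rw [hk]
    simp only [Nat.add_sub_cancel]
    have : (k + 1) ^ 2 - 1 = (k + 1 + 1) * k := by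
      have : (k + 1) ^ 2 = (k + 1 + 1) * k + 1 := by ring
      omega
    rw [this]
    ring
  have h2K : ∀ h : (2 : F) ≠ 0, (2 : K) ≠ 0 := by
    intro h h'
    apply h
    have : algebraMap F K 2 = 0 := by
      rw [map_ofNat]; exact h'
    exact (map_eq_zero _).1 this
  have h4K : 4 ≤ Fintype.card K := by
    rw [hK]
    calc 4 = 2 ^ 2 := by norm_num
      _ ≤ q ^ 2 := Nat.pow_le_pow_left hq2 2
  refine exc_main hQ (by simp) (phim D) ?_ ?_ ?_ ?_ ?_
  · intro s
    have h1 := Cfsg.Agent.H11.commutator_SL2_eq_top (F := K) h4K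
    apply map_comm_mem
    rw [h1]
    trivial
  · intro h2
    have h2' := h2K h2
    have hk : Nat.card (phim D).ker = 2 := by
      let m : Matrix.SpecialLinearGroup (Fin 2) K := ⟨-1, by simp [Matrix.det_neg]⟩
      have hm : (m : Matrix (Fin 2) (Fin 2) K) = -1 := rfl
      have hne : (-1 : K) ≠ 1 := by
        intro h
        apply h2'
        linear_combination (-1 : K) * h
      have hmk : m ∈ (phim D).ker := by
        rw [phim_ker]
        exact Or.inr hm
      have hm1 : m ≠ 1 := by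
        intro h
        have := congrArg (fun x : Matrix.SpecialLinearGroup (Fin 2) K => (x : Matrix (Fin 2) (Fin 2) K) 0 0) h
        simp [hm] at this
        exact hne this
      rw [Nat.card_eq_two_iff' (1 : (phim D).ker)]
      refine ⟨⟨m, hmk⟩, fun h => hm1 (congrArg Subtype.val h), ?_⟩
      rintro ⟨y, hy⟩ hy1
      apply Subtype.ext
      rcases (phim_ker D y).1 hy with h | h
      · exfalso
        apply hy1
        apply Subtype.ext
        exact Subtype.ext h
      · exact Subtype.ext h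
    rw [hk, hSnum] at hr
    rw [hcardO]
    rw [show 4 * Nat.card (phim D).range = 2 * (Nat.card (phim D).range * 2) by ring, hr]
    ring
  · intro h2
    have hk : Nat.card (phim D).ker = 1 := by
      rw [Nat.card_eq_one_iff_unique]
      refine ⟨⟨?_⟩, ⟨1⟩⟩
      rintro ⟨y, hy⟩ ⟨z, hz⟩
      apply Subtype.ext
      have h2K' : (2 : K) = 0 := by
        have : algebraMap F K 2 = 0 := by rw [h2, map_zero]
        rwa [map_ofNat] at this
      have hone : (-1 : Matrix (Fin 2) (Fin 2) K) = 1 := by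
        have : (-1 : K) = 1 := by linear_combination (-1 : K) * h2K'
        ext i j
        fin_cases i <;> fin_cases j <;> simp [this]
      have key : ∀ w ∈ (phim D).ker, w = 1 := by
        intro w hw
        apply Subtype.ext
        rcases (phim_ker D w).1 hw with h | h
        · exact h
        · rw [h, hone]; rfl
      show y = z
      rw [key y hy, key z hz]
    rw [hk, mul_one, hSnum] at hr
    rw [hcardO, hr]
    ring
  · intro s hs
    rw [Subgroup.mem_center_iff]
    intro g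
    apply Subtype.ext
    rcases (phim_ker D s).1 hs with h | h <;> simp [h]
  · intro s hs
    exact sl_center_free s hs

/-- **`PΩ⁻₄(q) ≅ PSL₂(q²)`** -/
theorem pomega4minus {q : ℕ} (hF : Fintype.card F = q) (hK : Fintype.card K = q ^ 2) (a b : F)
    (hab : ∀ z₁ z₂ : F, z₁ ^ 2 + a * z₁ * z₂ + b * z₂ ^ 2 = 0 → z₁ = 0 ∧ z₂ = 0) :
    Nonempty (POmega F (quadFormMinus 1 F a b) ≃* ProjectiveSpecialLinearGroup (Fin 2) K) := by
  obtain ⟨i⟩ := H12.QE.exists_ringHom (F := F) (K := K) hK hF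
  letI : Algebra F K := i.toAlgebra
  obtain ⟨D⟩ := exists_qdat (F := F) (K := K) hF hK hab
  exact pomega4minus_aux hF hK a b hab D

end FinalM

end Cfsg.Agent.H27.Exc
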