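import Cfsg.Agent.Lib.H27.ExcO3

/-! `PΩ⁺₄(q) ≅ PSL₂(q) × PSL₂(q)`, `q ≥ 3`. -/

set_option autoImplicit false

namespace Cfsg.Agent.H27.Exc

open Cfsg Cfsg.Geo Matrix
open scoped MatrixGroups commutatorElement

theorem nondeg_of_qf {ι : Type} [Fintype ι] [DecidableEq ι] {F : Type*} [Field F] {Q : (ι → F) → F} {B : (ι → F) → (ι → F) → F}
    (h : Cfsg.Agent.Lead.Ortho.QF Q B) (hnd : Cfsg.Agent.Lead.Ortho.ND B (⊤ : Submodule F (ι → F))) :
    IsNondegenerateQuadraticForm Q := by
  have hpol : ∀ x y, QuadraticMap.polar Q x y = B x y := by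
    intro x y
    rw [QuadraticMap.polar, h.add]
    ring
  refine ⟨h.smul, ⟨?_, ?_, ?_, ?_⟩, ?_⟩
  · intro x y v
    simp only [hpol]
    exact h.add_left x y v
  · intro c x v
    simp only [hpol]
    exact h.smul_left c x v
  · intro v x y
    simp only [hpol]
    rw [h.symm, h.add_left, h.symm x, h.symm y]
  · intro c v x
    simp only [hpol]
    rw [h.symm, h.smul_left, h.symm x]
  · intro v hv
    have h1 := hnd v (Submodule.mem_top) hv
    obtain ⟨y, _, hy⟩ := h1
    refine ⟨⟨y, ?_⟩, ⟨y, ?_⟩⟩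
    · rw [hpol, h.symm]; exact hy
    · rw [hpol]; exact hy

section O4

variable {F : Type*} [Field F]

/-- the subgroup of pairs of equal determinant -/
def G4 (F : Type*) [Field F] : Subgroup (GL (Fin 2) F × GL (Fin 2) F) :=
  (MonoidHom.ker ((GeneralLinearGroup.det.comp (MonoidHom.fst _ _)) / (GeneralLinearGroup.det.comp (MonoidHom.snd _ _))
    : GL (Fin 2) F × GL (Fin 2) F →* Fˣ))

theorem mem_G4 {p : GL (Fin 2) F × GL (Fin 2) F} : p ∈ G4 F ↔ p.1.det = p.2.det := by
  simp [G4, MonoidHom.mem_ker, div_eq_one]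

/-- matrix of a vector -/
noncomputable def A4 : ((Fin 2 ⊕ Fin 2) → F) →ₗ[F] Matrix (Fin 2) (Fin 2) F where
  toFun v := !![v (.inl 0), v (.inl 1); - v (.inr 1), v (.inr 0)]
  map_add' u v := by
    ext i j
    fin_cases i <;> fin_cases j <;> simp <;> ring
  map_smul' c v := by
    ext i j
    fin_cases i <;> fin_cases j <;> simp

/-- coordinates -/
noncomputable def C4 : Matrix (Fin 2) (Fin 2) F →ₗ[F] ((Fin 2 ⊕ Fin 2) → F) where
  toFun M := Sum.elim ![M 0 0, M 0 1] ![M 1 1, - M 1 0]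
  map_add' M N := by
    funext i
    rcases i with i | i <;> fin_cases i <;> simp <;> ring
  map_smul' c M := by
    funext i
    rcases i with i | i <;> fin_cases i <;> simp

/-- left and right multiplication -/
noncomputable def T4 (p : G4 F) : Matrix (Fin 2) (Fin 2) F →ₗ[F] Matrix (Fin 2) (Fin 2) F :=
  (LinearMap.mulLeft F ((p : GL (Fin 2) F × GL (Fin 2) F).1 : Matrix (Fin 2) (Fin 2) F)).comp
    (LinearMap.mulRight F (((p : GL (Fin 2) F × GL (Fin 2) F).2⁻¹ : GL (Fin 2) F) : Matrix (Fin 2) (Fin 2) F))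

theorem T4_apply (p : G4 F) (M : Matrix (Fin 2) (Fin 2) F) :
    T4 p M = ((p : GL (Fin 2) F × GL (Fin 2) F).1 : Matrix (Fin 2) (Fin 2) F) *
      (M * (((p : GL (Fin 2) F × GL (Fin 2) F).2⁻¹ : GL (Fin 2) F) : Matrix (Fin 2) (Fin 2) F)) := rfl

theorem CA4 (v : (Fin 2 ⊕ Fin 2) → F) : C4 (A4 v) = v := by
  funext i
  rcases i with i | i <;> fin_cases i <;> simp [A4, C4]

theorem AC4 (m : Matrix (Fin 2) (Fin 2) F) : A4 (C4 m) = m := by
  ext i j
  fin_cases i <;> fin_cases j <;> simp [A4, C4]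

theorem act4 : Act (quadFormPlus 2 F) (fun s : G4 F => C4 ∘ₗ T4 s ∘ₗ A4) := by
  refine model_act (F := F) (F' := F) id Function.injective_id A4 C4 T4 Set.univ CA4 (fun m _ => AC4 m)
    (fun _ => trivial) (fun _ _ _ => trivial) ?_ ?_ (fun M => M.det) ?_ ?_
  · intro m
    simp [T4_apply]
  · intro s t m
    simp only [T4_apply, Subgroup.coe_mul, Prod.fst_mul, Prod.snd_mul, _root_.mul_inv_rev,
      Matrix.GeneralLinearGroup.coe_mul, Matrix.mul_assoc]
  · intro v
    simp only [id, quadFormPlus, A4, LinearMap.coe_mk, AddHom.coe_mk, Matrix.det_fin_two_of, Fin.sum_univ_two]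
    ring
  · rintro ⟨⟨g, h⟩, hp⟩ m _
    have h1 := mem_G4.1 hp
    have h2 : (h : Matrix (Fin 2) (Fin 2) F).det * ((h⁻¹ : GL (Fin 2) F) : Matrix (Fin 2) (Fin 2) F).det = 1 := by
      rw [← Matrix.det_mul, ← Matrix.GeneralLinearGroup.coe_mul]; simp
    have h3 : (g : Matrix (Fin 2) (Fin 2) F).det = (h : Matrix (Fin 2) (Fin 2) F).det := congrArg Units.val h1
    show (T4 _ m).det = m.det
    rw [T4_apply, Matrix.det_mul, Matrix.det_mul]
    simp only
    rw [h3]
    calc _ = m.det * ((h : Matrix (Fin 2) (Fin 2) F).det * ((h⁻¹ : GL (Fin 2) F) : Matrix (Fin 2) (Fin 2) F).det) := by ring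
      _ = _ := by rw [h2, mul_one]

/-- the embedding of `SL₂ × SL₂` -/
def iota4 : SpecialLinearGroup (Fin 2) F × SpecialLinearGroup (Fin 2) F →* G4 F where
  toFun p := ⟨(SpecialLinearGroup.toGL p.1, SpecialLinearGroup.toGL p.2), by
    rw [mem_G4]
    apply Units.ext
    show (p.1 : Matrix (Fin 2) (Fin 2) F).det = (p.2 : Matrix (Fin 2) (Fin 2) F).det
    rw [p.1.2, p.2.2]⟩
  map_one' := by
    apply Subtype.ext
    simp
  map_mul' a b := by
    apply Subtype.ext
    simp

noncomputable def phi4 : SpecialLinearGroup (Fin 2) F × SpecialLinearGroup (Fin 2) F →* ↥(isometryGroup F (quadFormPlus 2 F)) :=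
  (act4 (F := F)).hom.comp iota4

theorem phi4_ker_iff (s : SpecialLinearGroup (Fin 2) F × SpecialLinearGroup (Fin 2) F) :
    s ∈ (phi4 (F := F)).ker ↔ ∀ M : Matrix (Fin 2) (Fin 2) F, (s.1 : Matrix (Fin 2) (Fin 2) F) * M = M * s.2 := by
  have key : s ∈ (phi4 (F := F)).ker ↔ iota4 s ∈ (act4 (F := F)).hom.ker := by
    simp [phi4, MonoidHom.mem_ker]
  rw [key, model_ker (act4 (F := F)) A4 C4 T4 Set.univ rfl CA4 (fun m _ => AC4 m) (fun _ => trivial)
    (fun _ _ _ => trivial)]
  have e1 : ((iota4 s : G4 F) : GL (Fin 2) F × GL (Fin 2) F).1 = SpecialLinearGroup.toGL s.1 := rfl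
  have e2 : ((iota4 s : G4 F) : GL (Fin 2) F × GL (Fin 2) F).2 = SpecialLinearGroup.toGL s.2 := rfl
  have e3 : (((SpecialLinearGroup.toGL s.2)⁻¹ : GL (Fin 2) F) : Matrix (Fin 2) (Fin 2) F) * (s.2 : Matrix (Fin 2) (Fin 2) F) = 1 := by
    have : ((SpecialLinearGroup.toGL s.2 : GL (Fin 2) F) : Matrix (Fin 2) (Fin 2) F) = s.2 := rfl
    rw [← this, ← Matrix.GeneralLinearGroup.coe_mul]; simp
  have e4 : (s.2 : Matrix (Fin 2) (Fin 2) F) * (((SpecialLinearGroup.toGL s.2)⁻¹ : GL (Fin 2) F) : Matrix (Fin 2) (Fin 2) F) = 1 := by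
    have : ((SpecialLinearGroup.toGL s.2 : GL (Fin 2) F) : Matrix (Fin 2) (Fin 2) F) = s.2 := rfl
    rw [← this, ← Matrix.GeneralLinearGroup.coe_mul]; simp
  have e5 : ((SpecialLinearGroup.toGL s.1 : GL (Fin 2) F) : Matrix (Fin 2) (Fin 2) F) = s.1 := rfl
  constructor
  · intro h M
    have h2 := h (C4 M)
    rw [AC4, T4_apply, e1, e2, e5] at h2
    calc (s.1 : Matrix (Fin 2) (Fin 2) F) * M = (s.1 : Matrix (Fin 2) (Fin 2) F) * M * (((SpecialLinearGroup.toGL s.2)⁻¹ : GL (Fin 2) F) * (s.2 : Matrix (Fin 2) (Fin 2) F)) := by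
          rw [e3, Matrix.mul_one]
      _ = ((s.1 : Matrix (Fin 2) (Fin 2) F) * (M * ((SpecialLinearGroup.toGL s.2)⁻¹ : GL (Fin 2) F))) * s.2 := by
          simp only [Matrix.mul_assoc]
      _ = _ := by rw [h2]
  · intro h v
    rw [T4_apply, e1, e2, e5, ← Matrix.mul_assoc, h, Matrix.mul_assoc, e4, Matrix.mul_one]

theorem phi4_ker (s : SpecialLinearGroup (Fin 2) F × SpecialLinearGroup (Fin 2) F) :
    s ∈ (phi4 (F := F)).ker ↔ s.1 = s.2 ∧ ((s.1 : Matrix (Fin 2) (Fin 2) F) = 1 ∨ (s.1 : Matrix (Fin 2) (Fin 2) F) = -1) := by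
  rw [phi4_ker_iff]
  constructor
  · intro h
    have h0 := h 1
    rw [Matrix.mul_one, Matrix.one_mul] at h0
    have h12 : s.1 = s.2 := Subtype.ext h0
    refine ⟨h12, ?_⟩
    rw [← h0] at h
    obtain ⟨a1, a2, a3⟩ := scalar_of_comm2 (h _) (h _)
    have hdet := s.1.2
    rw [Matrix.det_fin_two, a1, a2, a3] at hdet
    have h3 : (s.1 0 0 - 1) * (s.1 0 0 + 1) = 0 := by linear_combination hdet
    rcases mul_eq_zero.1 h3 with h4 | h4
    · left
      have h5 : s.1 0 0 = 1 := sub_eq_zero.1 h4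
      ext i j
      fin_cases i <;> fin_cases j <;> simp [a1, a2, a3, h5]
    · right
      have h5 : s.1 0 0 = -1 := by linear_combination h4
      ext i j
      fin_cases i <;> fin_cases j <;> simp [a1, a2, a3, h5]
  · rintro ⟨h1, h2⟩ M
    rw [← h1]
    rcases h2 with h | h <;> simp [h]

/-- a diagonal element of prescribed determinant -/
noncomputable def dg (u : Fˣ) : GL (Fin 2) F :=
  GeneralLinearGroup.mkOfDetNeZero !![(u : F), 0; 0, 1] (by simp [Matrix.det_fin_two])

theorem dg_det (u : Fˣ) : GeneralLinearGroup.det (dg u) = u := by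
  apply Units.ext
  show (!![(u : F), 0; 0, 1] : Matrix (Fin 2) (Fin 2) F).det = u
  simp [Matrix.det_fin_two]

theorem dg_comm (u v : Fˣ) : dg u * dg v = dg v * dg u := by
  apply Units.ext
  show (!![(u : F), 0; 0, 1] : Matrix (Fin 2) (Fin 2) F) * !![(v : F), 0; 0, 1] = !![(v : F), 0; 0, 1] * !![(u : F), 0; 0, 1]
  ext i j
  fin_cases i <;> fin_cases j <;> simp [Matrix.mul_apply, Fin.sum_univ_two, mul_comm]

theorem comm_left {g : GL (Fin 2) F} (hg : g ∈ commutator (GL (Fin 2) F)) :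
    ∃ hp : (g, (1 : GL (Fin 2) F)) ∈ G4 F, (⟨(g, 1), hp⟩ : G4 F) ∈ commutator (G4 F) := by
  rw [commutator_eq_closure] at hg
  induction hg using Subgroup.closure_induction with
  | mem x hx =>
    obtain ⟨a, b, rfl⟩ := hx
    have ha : (a, dg (GeneralLinearGroup.det a)) ∈ G4 F := by
      rw [mem_G4]; exact (dg_det _).symm
    have hb : (b, dg (GeneralLinearGroup.det b)) ∈ G4 F := by
      rw [mem_G4]; exact (dg_det _).symm
    have hp : (⁅a, b⁆, (1 : GL (Fin 2) F)) ∈ G4 F := by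
      rw [mem_G4]
      simp only [map_commutatorElement, map_one, commutatorElement_eq_one_iff_commute]
      exact mul_comm _ _
    have e : (⁅(⟨_, ha⟩ : G4 F), (⟨_, hb⟩ : G4 F)⁆ : G4 F) = ⟨(⁅a, b⁆, 1), hp⟩ := by
      apply Subtype.ext
      simp only [commutatorElement_def, Subgroup.coe_mul, Subgroup.coe_inv, Prod.mk_mul_mk, Prod.inv_mk, Prod.mk.injEq, true_and]
      rw [dg_comm]
      group
    refine ⟨hp, ?_⟩
    rw [← e]
    exact Subgroup.commutator_mem_commutator (Subgroup.mem_top _) (Subgroup.mem_top _)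
  | one => exact ⟨one_mem _, one_mem _⟩
  | mul x y _ _ hx hy =>
    obtain ⟨h1, h2⟩ := hx
    obtain ⟨h3, h4⟩ := hy
    have e : (⟨(x * y, (1 : GL (Fin 2) F)), by
        have := (G4 F).mul_mem h1 h3
        simpa using this⟩ : G4 F) = (⟨_, h1⟩ : G4 F) * (⟨_, h3⟩ : G4 F) := by
      apply Subtype.ext
      simp
    exact ⟨_, e ▸ mul_mem h2 h4⟩
  | inv x _ hx =>
    obtain ⟨h1, h2⟩ := hx
    have e : (⟨(x⁻¹, (1 : GL (Fin 2) F)), by
        have := (G4 F).inv_mem h1
        simpa using this⟩ : G4 F) = (⟨_, h1⟩ : G4 F)⁻¹ := by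
      apply Subtype.ext
      simp
    exact ⟨_, e ▸ inv_mem h2⟩

theorem comm_right {g : GL (Fin 2) F} (hg : g ∈ commutator (GL (Fin 2) F)) :
    ∃ hp : ((1 : GL (Fin 2) F), g) ∈ G4 F, (⟨(1, g), hp⟩ : G4 F) ∈ commutator (G4 F) := by
  rw [commutator_eq_closure] at hg
  induction hg using Subgroup.closure_induction with
  | mem x hx =>
    obtain ⟨a, b, rfl⟩ := hx
    have ha : (dg (GeneralLinearGroup.det a), a) ∈ G4 F := by
      rw [mem_G4]; exact (dg_det _)
    have hb : (dg (GeneralLinearGroup.det b), b) ∈ G4 F := by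
      rw [mem_G4]; exact (dg_det _)
    have hp : ((1 : GL (Fin 2) F), ⁅a, b⁆) ∈ G4 F := by
      rw [mem_G4]
      simp only [map_commutatorElement, map_one]
      symm
      rw [commutatorElement_eq_one_iff_commute]
      exact mul_comm _ _
    have e : (⁅(⟨_, ha⟩ : G4 F), (⟨_, hb⟩ : G4 F)⁆ : G4 F) = ⟨(1, ⁅a, b⁆), hp⟩ := by
      apply Subtype.ext
      simp only [commutatorElement_def, Subgroup.coe_mul, Subgroup.coe_inv, Prod.mk_mul_mk, Prod.inv_mk, Prod.mk.injEq, and_true]
      rw [dg_comm]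
      group
    refine ⟨hp, ?_⟩
    rw [← e]
    exact Subgroup.commutator_mem_commutator (Subgroup.mem_top _) (Subgroup.mem_top _)
  | one => exact ⟨one_mem _, one_mem _⟩
  | mul x y _ _ hx hy =>
    obtain ⟨h1, h2⟩ := hx
    obtain ⟨h3, h4⟩ := hy
    have e : (⟨((1 : GL (Fin 2) F), x * y), by
        have := (G4 F).mul_mem h1 h3
        simpa using this⟩ : G4 F) = (⟨_, h1⟩ : G4 F) * (⟨_, h3⟩ : G4 F) := by
      apply Subtype.ext
      simp
    exact ⟨_, e ▸ mul_mem h2 h4⟩
  | inv x _ hx =>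
    obtain ⟨h1, h2⟩ := hx
    have e : (⟨((1 : GL (Fin 2) F), x⁻¹), by
        have := (G4 F).inv_mem h1
        simpa using this⟩ : G4 F) = (⟨_, h1⟩ : G4 F)⁻¹ := by
      apply Subtype.ext
      simp
    exact ⟨_, e ▸ inv_mem h2⟩

theorem toGL_mem_comm (hF : ∃ a : F, a ≠ 0 ∧ a ≠ 1) (s : SpecialLinearGroup (Fin 2) F) :
    SpecialLinearGroup.toGL s ∈ commutator (GL (Fin 2) F) := by
  have hcomm := Cfsg.Agent.Lead.commutator_GL_eq_ker (F := F) 2 (fun _ => hF)
  rw [hcomm, ← Cfsg.Agent.Lead.range_toGL_eq_ker_det']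
  exact ⟨s, rfl⟩

theorem phi4_mem_omega (hF : ∃ a : F, a ≠ 0 ∧ a ≠ 1) (s : SpecialLinearGroup (Fin 2) F × SpecialLinearGroup (Fin 2) F) :
    phi4 s ∈ Omega F (quadFormPlus 2 F) := by
  obtain ⟨h1, h2⟩ := comm_left (toGL_mem_comm hF s.1)
  obtain ⟨h3, h4⟩ := comm_right (toGL_mem_comm hF s.2)
  have e : iota4 s = (⟨_, h1⟩ : G4 F) * (⟨_, h3⟩ : G4 F) := by
    apply Subtype.ext
    simp [iota4]
  show (act4 (F := F)).hom (iota4 s) ∈ _
  rw [e]
  exact map_comm_mem (act4 (F := F)).hom (mul_mem h2 h4)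

end O4

section Final

variable {F : Type*} [Field F] [Fintype F]

theorem exists_third (hF : 3 ≤ Fintype.card F) : ∃ a : F, a ≠ 0 ∧ a ≠ 1 := by
  classical
  by_contra h
  push Not at h
  have : (Finset.univ : Finset F) ⊆ {0, 1} := by
    intro a _
    by_cases h0 : a = 0
    · simp [h0]
    · simp [h a h0]
  have h2 := Finset.card_le_card this
  have h3 : ({0, 1} : Finset F).card ≤ 2 := Finset.card_le_two
  rw [Finset.card_univ] at h2
  omega

theorem center_prod_iff {A B : Type*} [Group A] [Group B] (s : A × B) :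
    s ∈ Subgroup.center (A × B) ↔ s.1 ∈ Subgroup.center A ∧ s.2 ∈ Subgroup.center B := by
  simp only [Subgroup.mem_center_iff]
  constructor
  · intro h
    exact ⟨fun g => congrArg Prod.fst (h (g, 1)), fun g => congrArg Prod.snd (h (1, g))⟩
  · rintro ⟨h1, h2⟩ g
    exact Prod.ext (h1 g.1) (h2 g.2)

/-- the product of projective groups -/
theorem prod_quot {A B : Type*} [Group A] [Group B] :
    Nonempty ((A × B) ⧸ Subgroup.center (A × B) ≃* (A ⧸ Subgroup.center A) × (B ⧸ Subgroup.center B)) := by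
  let π : A × B →* (A ⧸ Subgroup.center A) × (B ⧸ Subgroup.center B) :=
    MonoidHom.prodMap (QuotientGroup.mk' _) (QuotientGroup.mk' _)
  have hs : Function.Surjective π := by
    rintro ⟨x, y⟩
    obtain ⟨a, rfl⟩ := QuotientGroup.mk'_surjective _ x
    obtain ⟨b, rfl⟩ := QuotientGroup.mk'_surjective _ y
    exact ⟨(a, b), rfl⟩
  have hk : π.ker = Subgroup.center (A × B) := by
    ext s
    rw [center_prod_iff, MonoidHom.mem_ker, Prod.ext_iff]
    show (QuotientGroup.mk' _ s.1 = 1 ∧ QuotientGroup.mk' _ s.2 = 1) ↔ _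
    rw [QuotientGroup.mk'_apply, QuotientGroup.mk'_apply, QuotientGroup.eq_one_iff, QuotientGroup.eq_one_iff]
  exact ⟨(QuotientGroup.quotientMulEquivOfEq hk).symm.trans (QuotientGroup.quotientKerEquivOfSurjective π hs)⟩

theorem quadFormPlus_nondeg (m : ℕ) : IsNondegenerateQuadraticForm (quadFormPlus m F) :=
  nondeg_of_qf (Cfsg.Agent.Lead.Ortho.qfPlus m) (Cfsg.Agent.Lead.Ortho.ndPlus m)

/-- **`PΩ⁺₄(q) ≅ PSL₂(q) × PSL₂(q)`** -/
theorem pomega4plus (hF : 3 ≤ Fintype.card F) :
    Nonempty (POmega F (quadFormPlus 2 F) ≃* ProjectiveSpecialLinearGroup (Fin 2) F × ProjectiveSpecialLinearGroup (Fin 2) F) := by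
  classical
  have hQ := quadFormPlus_nondeg (F := F) 2
  have ha := exists_third hF
  have hcardO := Cfsg.Agent.Lead.Ortho.card_GO_plus (F := F) rfl 2 (by norm_num)
  have hr : Nat.card (phi4 (F := F)).range * Nat.card (phi4 (F := F)).ker =
      Nat.card (SpecialLinearGroup (Fin 2) F × SpecialLinearGroup (Fin 2) F) := by
    rw [mul_comm, ← Subgroup.index_ker, Subgroup.card_mul_index]
  rw [Nat.card_prod, Cfsg.Agent.H10.card_SL_two] at hr
  have hP : Nat.card ↥(isometryGroup F (quadFormPlus 2 F)) =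
      2 * (Fintype.card F * (Fintype.card F ^ 2 - 1) * (Fintype.card F * (Fintype.card F ^ 2 - 1))) := by
    rw [hcardO]
    norm_num
    ring
  obtain ⟨e⟩ : Nonempty (POmega F (quadFormPlus 2 F) ≃*
      (SpecialLinearGroup (Fin 2) F × SpecialLinearGroup (Fin 2) F) ⧸ Subgroup.center (SpecialLinearGroup (Fin 2) F × SpecialLinearGroup (Fin 2) F)) := by
    refine exc_main hQ (by simp) (phi4 (F := F)) (phi4_mem_omega ha) ?_ ?_ ?_ ?_
    · intro h2
      have hk : Nat.card (phi4 (F := F)).ker = 2 := by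
        let m : SpecialLinearGroup (Fin 2) F := ⟨-1, by simp [Matrix.det_neg]⟩
        have hm : (m : Matrix (Fin 2) (Fin 2) F) = -1 := rfl
        have hne : (-1 : F) ≠ 1 := by
          intro h
          apply h2
          linear_combination (-1 : F) * h
        have hmk : (m, m) ∈ (phi4 (F := F)).ker := by
          rw [phi4_ker]
          exact ⟨rfl, Or.inr hm⟩
        have hm1 : (m, m) ≠ 1 := by
          intro h
          have := congrArg (fun x : SpecialLinearGroup (Fin 2) F × SpecialLinearGroup (Fin 2) F => (x.1 : Matrix (Fin 2) (Fin 2) F) 0 0) h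
          simp [hm] at this
          exact hne this
        rw [Nat.card_eq_two_iff' (1 : (phi4 (F := F)).ker)]
        refine ⟨⟨(m, m), hmk⟩, fun h => hm1 (congrArg Subtype.val h), ?_⟩
        rintro ⟨y, hy⟩ hy1
        apply Subtype.ext
        obtain ⟨h3, h4⟩ := (phi4_ker y).1 hy
        have hy2 : y.1 = m := by
          rcases h4 with h | h
          · exfalso
            apply hy1
            apply Subtype.ext
            apply Prod.ext
            · exact Subtype.ext h
            · rw [← h3]; exact Subtype.ext h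
          · exact Subtype.ext h
        exact Prod.ext hy2 (h3 ▸ hy2)
      rw [hk] at hr
      rw [hP, ← hr]
      ring
    · intro h2
      have hk : Nat.card (phi4 (F := F)).ker = 1 := by
        rw [Nat.card_eq_one_iff_unique]
        refine ⟨⟨?_⟩, ⟨1⟩⟩
        rintro ⟨y, hy⟩ ⟨z, hz⟩
        apply Subtype.ext
        have hone : (-1 : Matrix (Fin 2) (Fin 2) F) = 1 := by
          have : (-1 : F) = 1 := by linear_combination (-1 : F) * h2
          ext i j
          fin_cases i <;> fin_cases j <;> simp [this]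
        have key : ∀ w ∈ (phi4 (F := F)).ker, w = 1 := by
          intro w hw
          obtain ⟨h3, h4⟩ := (phi4_ker w).1 hw
          have hw1 : w.1 = 1 := by
            apply Subtype.ext
            rcases h4 with h | h
            · exact h
            · rw [h, hone]; rfl
          apply Prod.ext hw1
          rw [← h3]; exact hw1
        show y = z
        rw [key y hy, key z hz]
      rw [hk, mul_one] at hr
      rw [hP, ← hr]
    · intro s hs
      obtain ⟨h3, h4⟩ := (phi4_ker s).1 hs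
      rw [center_prod_iff, ← h3]
      have : s.1 ∈ Subgroup.center (SpecialLinearGroup (Fin 2) F) := by
        rw [Subgroup.mem_center_iff]
        intro g
        apply Subtype.ext
        rcases h4 with h | h <;> simp [h]
      exact ⟨this, this⟩
    · intro s hs
      rw [center_prod_iff]
      constructor
      · apply sl_center_free
        intro t
        have := (center_prod_iff _).1 (hs (t, 1))
        exact this.1
      · apply sl_center_free
        intro t
        have := (center_prod_iff _).1 (hs (1, t))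
        exact this.2
  obtain ⟨e2⟩ := prod_quot (A := SpecialLinearGroup (Fin 2) F) (B := SpecialLinearGroup (Fin 2) F)
  exact ⟨e.trans e2⟩

end Final

end Cfsg.Agent.H27.Exc
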