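import Cfsg.Agent.Lib.H27.ExcPf
import Cfsg.Agent.Lib.Lead.SpSimple
import Cfsg.Agent.Lib.Lead.SpOrder
import Cfsg.Agent.Lib.H28.OMain
import Cfsg.Agent.Lib.H27.GeoOPar2

/-! `PΩ₅(q) ≅ PSp₄(q)` for `q` odd. -/

set_option autoImplicit false

namespace Cfsg.Agent.H27.Exc

open Cfsg Cfsg.Geo Matrix
open scoped MatrixGroups commutatorElement

/-- centres of simple quotients. -/
theorem hcf_of_simple {S : Type*} [Group S] (hs : IsSimpleGroup (S ⧸ Subgroup.center S))
    (hp : commutator S = ⊤) (s : S) (h : ∀ t : S, s * t * s⁻¹ * t⁻¹ ∈ Subgroup.center S) :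
    s ∈ Subgroup.center S := by
  have hmk : ∀ a b : S, a * b * a⁻¹ * b⁻¹ ∈ Subgroup.center S → (QuotientGroup.mk' (Subgroup.center S) a * QuotientGroup.mk' (Subgroup.center S) b = QuotientGroup.mk' (Subgroup.center S) b * QuotientGroup.mk' (Subgroup.center S) a) := by
    intro a b hab
    rw [← map_mul, ← map_mul, QuotientGroup.mk'_apply, QuotientGroup.mk'_apply, QuotientGroup.eq]
    have e : (a * b)⁻¹ * (b * a) = (a * b)⁻¹ * (a * b * a⁻¹ * b⁻¹)⁻¹ * (a * b) := by group
    have := (Subgroup.center S).inv_mem hab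
    have h3 := (Subgroup.normal_of_characteristic (Subgroup.center S)).conj_mem _ this (a * b)⁻¹
    rw [e]
    simpa using h3
  have hmk2 : ∀ a b : S, (QuotientGroup.mk' (Subgroup.center S) a * QuotientGroup.mk' (Subgroup.center S) b = QuotientGroup.mk' (Subgroup.center S) b * QuotientGroup.mk' (Subgroup.center S) a) → a * b * a⁻¹ * b⁻¹ ∈ Subgroup.center S := by
    intro a b hab
    rw [← map_mul, ← map_mul, QuotientGroup.mk'_apply, QuotientGroup.mk'_apply, QuotientGroup.eq] at hab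
    have e : a * b * a⁻¹ * b⁻¹ = ((a * b) * ((a * b)⁻¹ * (b * a)) * (a * b)⁻¹)⁻¹ := by group
    rw [e]
    exact (Subgroup.center S).inv_mem ((Subgroup.normal_of_characteristic _).conj_mem _ hab _)
  have hc : QuotientGroup.mk' (Subgroup.center S) s ∈ Subgroup.center (S ⧸ Subgroup.center S) := by
    rw [Subgroup.mem_center_iff]
    intro y
    obtain ⟨t, rfl⟩ := QuotientGroup.mk'_surjective _ y
    exact (hmk s t (h t)).symm
  rcases hs.eq_bot_or_eq_top_of_normal _ (inferInstance : (Subgroup.center (S ⧸ Subgroup.center S)).Normal) with h0 | h0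
  · rw [h0, Subgroup.mem_bot, QuotientGroup.mk'_apply, QuotientGroup.eq_one_iff] at hc
    exact hc
  · -- commutative quotient
    have h1 : commutator S ≤ Subgroup.center S := by
      rw [commutator_def, Subgroup.commutator_le]
      intro a _ b _
      rw [commutatorElement_def]
      apply hmk2
      have : QuotientGroup.mk' (Subgroup.center S) a ∈ Subgroup.center (S ⧸ Subgroup.center S) := by
        rw [h0]; trivial
      exact (Subgroup.mem_center_iff.1 this _).symm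
    rw [hp] at h1
    exact h1 trivial

section

variable {F : Type*} [Field F]

/-- the reindexing of `Fin 2 ⊕ Fin 2` -/
def e4 : Fin 4 ≃ Fin 2 ⊕ Fin 2 := (finSumFinEquiv (m := 2) (n := 2)).symm

/-- reindexed matrices -/
def re4 (M : Matrix (Fin 2 ⊕ Fin 2) (Fin 2 ⊕ Fin 2) F) : Matrix (Fin 4) (Fin 4) F := M.submatrix e4 e4

theorem re4_mul (A B : Matrix (Fin 2 ⊕ Fin 2) (Fin 2 ⊕ Fin 2) F) : re4 (A * B) = re4 A * re4 B := by
  simp [re4, Matrix.submatrix_mul_equiv]

theorem re4_one : re4 (1 : Matrix (Fin 2 ⊕ Fin 2) (Fin 2 ⊕ Fin 2) F) = 1 := by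
  simp [re4]

theorem re4_J : re4 (Matrix.J (Fin 2) F) = skew 0 (-1) 0 0 (-1) 0 := by
  have e0 : e4 0 = .inl 0 := rfl
  have e1 : e4 1 = .inl 1 := rfl
  have e2 : e4 2 = .inr 0 := rfl
  have e3 : e4 3 = .inr 1 := rfl
  ext i j
  fin_cases i <;> fin_cases j <;> simp [re4, e0, e1, e2, e3, Matrix.J, skew]

omit [Field F] in
theorem re4_transpose (A : Matrix (Fin 2 ⊕ Fin 2) (Fin 2 ⊕ Fin 2) F) : re4 Aᵀ = (re4 A)ᵀ := rfl

theorem re4_sp (s : symplecticGroup (Fin 2) F) :
    re4 (s : Matrix (Fin 2 ⊕ Fin 2) (Fin 2 ⊕ Fin 2) F) * skew 0 (-1) 0 0 (-1) 0 * (re4 (s : Matrix (Fin 2 ⊕ Fin 2) (Fin 2 ⊕ Fin 2) F))ᵀ = skew 0 (-1) 0 0 (-1) 0 := by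
  have h := (SymplecticGroup.mem_iff).1 s.2
  rw [← re4_J, ← re4_transpose, ← re4_mul, ← re4_mul, h]

theorem re4_det (s : symplecticGroup (Fin 2) F) :
    (re4 (s : Matrix (Fin 2 ⊕ Fin 2) (Fin 2 ⊕ Fin 2) F)).det = 1 := by
  have h := pf_conj (re4 (s : Matrix (Fin 2 ⊕ Fin 2) (Fin 2 ⊕ Fin 2) F)) (isAlt_skew (0 : F) (-1) 0 0 (-1) 0)
  rw [re4_sp] at h
  simp [pf, skew] at h
  exact h.symm


/-- the polarised invariance -/
theorem pol_conj (g : Matrix (Fin 4) (Fin 4) F) (hg : g.det = 1) (hJ : g * skew 0 (-1) 0 0 (-1) 0 * gᵀ = skew 0 (-1) 0 0 (-1) 0)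
    {M : Matrix (Fin 4) (Fin 4) F} (hM : IsAlt M) :
    (g * M * gᵀ) 0 2 + (g * M * gᵀ) 1 3 = M 0 2 + M 1 3 := by
  have hJ' : IsAlt (skew (0 : F) (-1) 0 0 (-1) 0) := isAlt_skew _ _ _ _ _ _
  have hadd : IsAlt (M + skew (0 : F) (-1) 0 0 (-1) 0) := by
    constructor
    · intro i
      rw [Matrix.add_apply, hM.1, hJ'.1, add_zero]
    · intro i j
      rw [Matrix.add_apply, Matrix.add_apply, hM.2 i j, hJ'.2 i j]
      ring
  have h1 := pf_conj g hadd
  have h2 := pf_conj g hM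
  have e : g * (M + skew (0 : F) (-1) 0 0 (-1) 0) * gᵀ = g * M * gᵀ + skew (0 : F) (-1) 0 0 (-1) 0 := by
    rw [Matrix.mul_add, Matrix.add_mul, hJ]
  rw [e, hg, one_mul] at h1
  rw [hg, one_mul] at h2
  simp only [pf, Matrix.add_apply] at h1 h2
  simp [skew] at h1
  linear_combination h1 - h2

/-- vectors to matrices -/
noncomputable def A5 : (Unit ⊕ (Fin 2 ⊕ Fin 2) → F) →ₗ[F] Matrix (Fin 4) (Fin 4) F where
  toFun v := skew (v (.inr (.inl 0))) (v (.inl ())) (v (.inr (.inl 1))) (v (.inr (.inr 1))) (- v (.inl ())) (v (.inr (.inr 0)))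
  map_add' u v := by
    ext i j
    fin_cases i <;> fin_cases j <;> simp [skew] <;> ring
  map_smul' c v := by
    ext i j
    fin_cases i <;> fin_cases j <;> simp [skew]

/-- coordinates -/
noncomputable def C5 : Matrix (Fin 4) (Fin 4) F →ₗ[F] (Unit ⊕ (Fin 2 ⊕ Fin 2) → F) where
  toFun M := Sum.elim (fun _ => M 0 2) (Sum.elim ![M 0 1, M 0 3] ![M 2 3, M 1 2])
  map_add' M N := by
    funext i
    rcases i with i | i | i
    · simp
    · fin_cases i <;> simp
    · fin_cases i <;> simp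
  map_smul' c M := by
    funext i
    rcases i with i | i | i
    · simp
    · fin_cases i <;> simp
    · fin_cases i <;> simp

theorem CA5 (v : Unit ⊕ (Fin 2 ⊕ Fin 2) → F) : C5 (A5 v) = v := by
  funext i
  rcases i with i | i | i
  · simp [A5, C5, skew]
  · fin_cases i <;> simp [A5, C5, skew]
  · fin_cases i <;> simp [A5, C5, skew]

/-- the space of the model -/
def W5 : Set (Matrix (Fin 4) (Fin 4) F) := {M | IsAlt M ∧ M 0 2 + M 1 3 = 0}

theorem AC5 (m : Matrix (Fin 4) (Fin 4) F) (hm : m ∈ W5) : A5 (C5 m) = m := by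
  conv_rhs => rw [eq_skew hm.1]
  have h : m 1 3 = - m 0 2 := by linear_combination hm.2
  rw [h]
  simp [A5, C5]

/-- the action -/
noncomputable def T5 (s : symplecticGroup (Fin 2) F) := T6 (re4 (s : Matrix (Fin 2 ⊕ Fin 2) (Fin 2 ⊕ Fin 2) F))

theorem T5_W (s : symplecticGroup (Fin 2) F) (m : Matrix (Fin 4) (Fin 4) F) (hm : m ∈ W5) : T5 s m ∈ W5 := by
  refine ⟨?_, ?_⟩
  · rw [T5, T6_apply']
    exact isAlt_conj _ hm.1
  · rw [T5, T6_apply', pol_conj _ (re4_det s) (re4_sp s) hm.1]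
    exact hm.2

theorem act5 : Act (quadFormOdd 2 F) (fun s : symplecticGroup (Fin 2) F => C5 ∘ₗ T5 s ∘ₗ A5) := by
  refine model_act (F := F) (F' := F) id Function.injective_id A5 C5 T5 W5 CA5 AC5
    ?_ T5_W ?_ ?_ pf ?_ ?_
  · intro v
    refine ⟨isAlt_skew _ _ _ _ _ _, ?_⟩
    simp [A5, skew]
  · intro m
    simp [T5, T6_apply, re4_one]
  · intro s t m
    simp only [T5, T6_apply, Submonoid.coe_mul, re4_mul, Matrix.transpose_mul, Matrix.mul_assoc]
  · intro v
    simp only [id, quadFormOdd, A5, LinearMap.coe_mk, AddHom.coe_mk, pf, skew, Fin.sum_univ_two]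
    simp
    ring
  · intro s m hm
    rw [T5, T6_apply', pf_conj _ hm.1, re4_det, one_mul]

noncomputable def phi5 : symplecticGroup (Fin 2) F →* ↥(isometryGroup F (quadFormOdd 2 F)) :=
  (act5 (F := F)).hom

theorem phi5_ker (h2 : (2 : F) ≠ 0) (s : symplecticGroup (Fin 2) F) :
    s ∈ (phi5 (F := F)).ker ↔ (s : Matrix (Fin 2 ⊕ Fin 2) (Fin 2 ⊕ Fin 2) F) = 1 ∨ (s : Matrix (Fin 2 ⊕ Fin 2) (Fin 2 ⊕ Fin 2) F) = -1 := by
  have hk := model_ker (act5 (F := F)) A5 C5 T5 W5 rfl CA5 AC5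
    (by
      intro v
      refine ⟨isAlt_skew _ _ _ _ _ _, ?_⟩
      simp [A5, skew]) T5_W s
  have hre : ∀ M : Matrix (Fin 2 ⊕ Fin 2) (Fin 2 ⊕ Fin 2) F, ∀ c : F, re4 M = (c • (1 : Matrix (Fin 4) (Fin 4) F)) → M = c • (1 : Matrix (Fin 2 ⊕ Fin 2) (Fin 2 ⊕ Fin 2) F) := by
    intro M c h
    ext i j
    have := congrFun (congrFun h (e4.symm i)) (e4.symm j)
    simp only [re4, Matrix.submatrix_apply, Equiv.apply_symm_apply, Matrix.smul_apply, Matrix.one_apply, EmbeddingLike.apply_eq_iff_eq] at this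
    rw [this]
    simp [Matrix.one_apply]
  constructor
  · intro h
    have h3 := hk.1 h
    obtain ⟨g, hg⟩ : ∃ g, g = re4 (s : Matrix (Fin 2 ⊕ Fin 2) (Fin 2 ⊕ Fin 2) F) := ⟨_, rfl⟩
    have h4 : ∀ m ∈ W5, g * m * gᵀ = (m : Matrix (Fin 4) (Fin 4) F) := by
      intro m hm
      have := h3 (C5 m)
      rw [AC5 m hm, T5, T6_apply', ← hg] at this
      exact this
    have h5 : ∀ a b c d e f : F, g * skew a b c d e f * gᵀ = skew a b c d e f := by
      intro a b c d e f
      have hsp : g * skew 0 (-1) 0 0 (-1) 0 * gᵀ = skew 0 (-1) 0 0 (-1) 0 := by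
        rw [hg]; exact re4_sp s
      -- decompose
      obtain ⟨t, ht⟩ : ∃ t : F, t * 2 = b + e := ⟨(b + e) / 2, by field_simp⟩
      have e1 : skew a b c d e f = skew a (b - t) c d (e - t) f + t • skew 0 1 0 0 1 0 := by
        ext i j
        fin_cases i <;> fin_cases j <;> simp [skew] <;> ring
      have e2 : skew (0 : F) 1 0 0 1 0 = - skew 0 (-1) 0 0 (-1) 0 := by
        ext i j
        fin_cases i <;> fin_cases j <;> simp [skew]
      have h6 := h4 (skew a (b - t) c d (e - t) f) ⟨isAlt_skew _ _ _ _ _ _, by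
        simp [skew]
        linear_combination (-1 : F) * ht⟩
      rw [e1, e2, smul_neg, Matrix.mul_add, Matrix.add_mul, h6, Matrix.mul_neg, Matrix.neg_mul, Matrix.mul_smul, Matrix.smul_mul, hsp]
    obtain ⟨h6, h7, h8⟩ := scalar_of_fix g h5
    have h9 : (g 0 0 - 1) * (g 0 0 + 1) = 0 := by
      linear_combination h8
    rcases mul_eq_zero.1 h9 with h10 | h10
    · left
      have h11 : g 0 0 = 1 := sub_eq_zero.1 h10
      have := hre (s : Matrix (Fin 2 ⊕ Fin 2) (Fin 2 ⊕ Fin 2) F) 1 (by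
        rw [← hg]
        ext i j
        by_cases hij : i = j
        · subst hij
          rw [h7 i 0, h11]; simp
        · rw [h6 i j hij]; simp [hij])
      rwa [one_smul] at this
    · right
      have h11 : g 0 0 = -1 := by linear_combination h10
      have := hre (s : Matrix (Fin 2 ⊕ Fin 2) (Fin 2 ⊕ Fin 2) F) (-1) (by
        rw [← hg]
        ext i j
        by_cases hij : i = j
        · subst hij
          rw [h7 i 0, h11]; simp
        · rw [h6 i j hij]; simp [hij])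
      rwa [neg_one_smul] at this
  · intro h
    apply hk.2
    intro v
    rw [T5, T6_apply']
    rcases h with h | h <;> rw [h]
    · simp [re4_one]
    · have : re4 (-1 : Matrix (Fin 2 ⊕ Fin 2) (Fin 2 ⊕ Fin 2) F) = - 1 := by
        rw [← re4_one]; rfl
      rw [this]
      simp

end

section Final5

variable {F : Type*} [Field F] [Fintype F]

/-- **`PΩ₅(q) ≅ PSp₄(q)`** -/
theorem pomega5 (hodd : Odd (Fintype.card F)) :
    Nonempty (POmega F (quadFormOdd 2 F) ≃* PSp 2 F) := by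
  classical
  have h2 : (2 : F) ≠ 0 := Cfsg.Agent.H27.GO.two_ne_zero_of_odd hodd
  have hQ := Cfsg.Agent.H28.quadFormOdd_nondeg (F := F) 2 h2
  have hq3 : 3 ≤ Fintype.card F := by
    obtain ⟨k, hk⟩ := hodd
    have := Fintype.one_lt_card (α := F)
    omega
  have hcardO := Cfsg.Agent.Lead.Ortho.card_GO_odd (F := F) rfl hodd 2
  have hcardS := Cfsg.Agent.Lead.card_Sp (F := F) rfl 2
  have hr : Nat.card (phi5 (F := F)).range * Nat.card (phi5 (F := F)).ker =
      Nat.card (symplecticGroup (Fin 2) F) := by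
    rw [mul_comm, ← Subgroup.index_ker, Subgroup.card_mul_index]
  refine exc_main hQ (by simp) (phi5 (F := F)) ?_ ?_ ?_ ?_ ?_
  · intro s
    have h1 := Cfsg.Agent.Lead.sp_perfect (F := F) 2 (Or.inr (Or.inl ⟨rfl, hq3⟩))
    apply map_comm_mem
    rw [h1]
    trivial
  · intro _
    have hk : Nat.card (phi5 (F := F)).ker = 2 := by
      let m : symplecticGroup (Fin 2) F := ⟨-1, SymplecticGroup.neg_mem (one_mem _)⟩
      have hm : (m : Matrix (Fin 2 ⊕ Fin 2) (Fin 2 ⊕ Fin 2) F) = -1 := rfl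
      have hne : (-1 : F) ≠ 1 := by
        intro h
        apply h2
        linear_combination (-1 : F) * h
      have hmk : m ∈ (phi5 (F := F)).ker := by
        rw [phi5_ker h2]
        exact Or.inr hm
      have hm1 : m ≠ 1 := by
        intro h
        have := congrArg (fun x : symplecticGroup (Fin 2) F => (x : Matrix (Fin 2 ⊕ Fin 2) (Fin 2 ⊕ Fin 2) F) (.inl 0) (.inl 0)) h
        simp [hm] at this
        exact hne this
      rw [Nat.card_eq_two_iff' (1 : (phi5 (F := F)).ker)]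
      refine ⟨⟨m, hmk⟩, fun h => hm1 (congrArg Subtype.val h), ?_⟩
      rintro ⟨y, hy⟩ hy1
      apply Subtype.ext
      rcases (phi5_ker h2 y).1 hy with h | h
      · exfalso
        apply hy1
        apply Subtype.ext
        exact Subtype.ext h
      · exact Subtype.ext h
    rw [hk] at hr
    rw [hcardO]
    rw [hcardS] at hr
    rw [show 4 * Nat.card (phi5 (F := F)).range = 2 * (Nat.card (phi5 (F := F)).range * 2) by ring, hr]
    ring
  · intro h
    exact absurd h h2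
  · intro s hs
    rw [Subgroup.mem_center_iff]
    intro g
    apply Subtype.ext
    rcases (phi5_ker h2 s).1 hs with h | h <;> simp [h]
  · intro s hs
    exact hcf_of_simple (Cfsg.Agent.Lead.psp_simple (F := F) 2 le_rfl (fun _ => hq3))
      (Cfsg.Agent.Lead.sp_perfect (F := F) 2 (Or.inr (Or.inl ⟨rfl, hq3⟩))) s hs

end Final5

end Cfsg.Agent.H27.Exc
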