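import Cfsg.Agent.Lib.H27.ExcO4m
import Cfsg.Agent.Lib.Lead.PSUSimple
import Cfsg.Agent.Lib.Lead.SUOrder
import Cfsg.Agent.Lib.Lead.GUOrder
import Cfsg.Agent.Lib.Lead.SUCenter

/-! `PΩ⁻₆(q) ≅ PSU₄(q)`. -/

set_option autoImplicit false

namespace Cfsg.Agent.H27.Exc

open Cfsg Cfsg.Geo Matrix
open scoped MatrixGroups commutatorElement

section Star

variable {K : Type*} [Field K]

/-- the Hodge star on alternating matrices -/
def star4 (M : Matrix (Fin 4) (Fin 4) K) : Matrix (Fin 4) (Fin 4) K :=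
  skew (M 2 3) (-M 1 3) (M 1 2) (M 0 3) (-M 0 2) (M 0 1)

theorem star4_skew (a b c d e f : K) : star4 (skew a b c d e f) = skew f (-e) d c (-b) a := by
  simp [star4, skew]

theorem star_conj_apply (h : Matrix (Fin 4) (Fin 4) K) (a b c d e f : K) (i j : Fin 4) :
    (hᵀ * star4 (h * skew a b c d e f * hᵀ) * h) i j = h.det * star4 (skew a b c d e f) i j := by
  have e1 : ∀ X : Matrix (Fin 4) (Fin 4) K, hᵀ * X * h = hᵀ * X * (hᵀ)ᵀ := by
    intro X; rw [Matrix.transpose_transpose]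
  rw [e1, star4, conj_apply]
  simp only [conj_apply, Matrix.transpose_apply, star4_skew, det4]
  fin_cases i <;> fin_cases j <;> simp [skew] <;> ring

theorem star_conj (h : Matrix (Fin 4) (Fin 4) K) {N : Matrix (Fin 4) (Fin 4) K} (hN : IsAlt N) :
    hᵀ * star4 (h * N * hᵀ) * h = h.det • star4 N := by
  rw [eq_skew hN]
  ext i j
  rw [star_conj_apply]
  simp

theorem skew_map (σ : K →+* K) (a b c d e f : K) :
    (skew a b c d e f).map σ = skew (σ a) (σ b) (σ c) (σ d) (σ e) (σ f) := by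
  ext i j
  fin_cases i <;> fin_cases j <;> simp [skew]

theorem isAlt_map (σ : K →+* K) {M : Matrix (Fin 4) (Fin 4) K} (h : IsAlt M) : IsAlt (M.map σ) := by
  constructor
  · intro i
    simp [h.1]
  · intro i j
    simp [h.2 i j]

/-- the algebraic identity behind the isometry -/
theorem norm_id (x₁ x₂ y₁ y₂ θ θ' c c' d d' κ κ' i : K) (h1 : c * c' = -1) (h2 : d * d' = -1)
    (h3 : κ' * (1 + c * d') = -i) (h4 : κ * (1 + c' * d) = i) (h5 : i * (θ - θ') = 1) :
    (x₁ + x₂ * θ + (y₁ * θ - y₂) * κ) * (x₁ + x₂ * θ' + (y₁ * θ' - y₂) * κ')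
      + ((x₁ + x₂ * θ) * c + (y₁ * θ - y₂) * κ * d) * ((x₁ + x₂ * θ') * c' + (y₁ * θ' - y₂) * κ' * d')
      = x₁ * y₁ + x₂ * y₂ := by
  linear_combination ((x₁ + x₂ * θ) * (x₁ + x₂ * θ')) * h1 + ((y₁ * θ - y₂) * κ * ((y₁ * θ' - y₂) * κ')) * h2
    + ((x₁ + x₂ * θ) * (y₁ * θ' - y₂)) * h3 + ((y₁ * θ - y₂) * (x₁ + x₂ * θ')) * h4 + (x₁ * y₁ + x₂ * y₂) * h5

end Star

section Model6

variable {F K : Type*} [Field F] [Field K] [Algebra F K] {a b : F}

local notation "ι" => algebraMap F K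

/-- the coordinates on the real form -/
structure U6 (D : QDat F K a b) where
  L : ((Fin 2 ⊕ Fin 2) ⊕ Fin 2 → F) →ₗ[F] (Fin 3 → K)
  Li : (Fin 3 → K) →ₗ[F] ((Fin 2 ⊕ Fin 2) ⊕ Fin 2 → F)
  hLi : ∀ v, Li (L v) = v
  hLi' : ∀ u, L (Li u) = u
  hN : ∀ v, L v 0 * D.σ (L v 0) + L v 1 * D.σ (L v 1) + L v 2 * D.σ (L v 2) = ι (quadFormMinus 2 F a b v)

theorem QDat.θ_ne (D : QDat F K a b)
    (hab : ∀ z₁ z₂ : F, z₁ ^ 2 + a * z₁ * z₂ + b * z₂ ^ 2 = 0 → z₁ = 0 ∧ z₂ = 0) : D.θ ≠ D.σ D.θ := by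
  intro h
  obtain ⟨t, ht⟩ := D.hfix _ h.symm
  have h1 := D.norm t 1
  rw [ht] at h1
  simp only [map_one, one_mul, sub_self, zero_mul] at h1
  have h2 := (map_eq_zero (algebraMap F K)).1 h1.symm
  exact one_ne_zero (hab _ _ h2).2

/-- the linear map to `K³` -/
noncomputable def L6 (D : QDat F K a b) (c d κ : K) : ((Fin 2 ⊕ Fin 2) ⊕ Fin 2 → F) →ₗ[F] (Fin 3 → K) where
  toFun v := ![ι (v (.inl (.inl 0))) + ι (v (.inl (.inl 1))) * D.θ + (ι (v (.inl (.inr 0))) * D.θ - ι (v (.inl (.inr 1)))) * κ,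
    (ι (v (.inl (.inl 0))) + ι (v (.inl (.inl 1))) * D.θ) * c + (ι (v (.inl (.inr 0))) * D.θ - ι (v (.inl (.inr 1)))) * κ * d,
    ι (v (.inr 0)) - ι (v (.inr 1)) * D.θ]
  map_add' u v := by
    funext i
    fin_cases i <;> simp <;> ring
  map_smul' r v := by
    funext i
    fin_cases i <;> simp [Algebra.smul_def] <;> ring

theorem exists_U6 [Fintype F] [Fintype K] {q : ℕ} (hF : Fintype.card F = q) (hK : Fintype.card K = q ^ 2)
    (hab : ∀ z₁ z₂ : F, z₁ ^ 2 + a * z₁ * z₂ + b * z₂ ^ 2 = 0 → z₁ = 0 ∧ z₂ = 0) (D : QDat F K a b)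
    {c d : K} (hc : c * D.σ c = -1) (hd : d * D.σ d = -1) (hne : c ≠ d) : Nonempty (U6 D) := by
  classical
  have hθ := D.θ_ne hab
  have hδ : D.θ - D.σ D.θ ≠ 0 := sub_ne_zero.2 hθ
  have hA : 1 + D.σ c * d ≠ 0 := by
    intro h
    apply hne
    linear_combination c * h - d * hc
  obtain ⟨κ, hκ⟩ : ∃ κ, κ = ((D.θ - D.σ D.θ) * (1 + D.σ c * d))⁻¹ := ⟨_, rfl⟩
  have hκ0 : κ ≠ 0 := by
    rw [hκ]
    exact inv_ne_zero (mul_ne_zero hδ hA)
  have hκ1 : κ * ((D.θ - D.σ D.θ) * (1 + D.σ c * d)) = 1 := by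
    rw [hκ]
    exact inv_mul_cancel₀ (mul_ne_zero hδ hA)
  have hκ2 : D.σ κ * (-(D.θ - D.σ D.θ) * (1 + c * D.σ d)) = 1 := by
    have := congrArg D.σ hκ1
    simp only [map_mul, map_sub, map_add, map_one, D.hσσ] at this
    linear_combination this
  obtain ⟨i, hi⟩ : ∃ i, i = (D.θ - D.σ D.θ)⁻¹ := ⟨_, rfl⟩
  have hi1 : i * (D.θ - D.σ D.θ) = 1 := by
    rw [hi]
    exact inv_mul_cancel₀ hδ
  have h4 : κ * (1 + D.σ c * d) = i := by
    calc κ * (1 + D.σ c * d) = (κ * ((D.θ - D.σ D.θ) * (1 + D.σ c * d))) * i := by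
          linear_combination (-(κ * (1 + D.σ c * d))) * hi1
      _ = i := by rw [hκ1, one_mul]
  have h3 : D.σ κ * (1 + c * D.σ d) = -i := by
    calc D.σ κ * (1 + c * D.σ d) = - ((D.σ κ * (-(D.θ - D.σ D.θ) * (1 + c * D.σ d))) * i) := by
          linear_combination (-(D.σ κ * (1 + c * D.σ d))) * hi1
      _ = -i := by rw [hκ2, one_mul]
  have hinj : Function.Injective (L6 D c d κ) := by
    rw [injective_iff_map_eq_zero]
    intro v hv
    have h0 := congrFun hv 0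
    have h1 := congrFun hv 1
    have h2 := congrFun hv 2
    simp only [L6, LinearMap.coe_mk, AddHom.coe_mk, Matrix.cons_val_zero, Matrix.cons_val_one, Pi.zero_apply, Matrix.cons_val] at h0 h1 h2
    -- the last block
    have hz := D.norm (v (.inr 0)) (v (.inr 1))
    rw [h2, zero_mul] at hz
    obtain ⟨hz1, hz2⟩ := hab _ _ ((map_eq_zero (algebraMap F K)).1 hz.symm)
    -- the first block
    obtain ⟨s, hs⟩ : ∃ s, s = ι (v (.inl (.inl 0))) + ι (v (.inl (.inl 1))) * D.θ := ⟨_, rfl⟩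
    obtain ⟨t, ht⟩ : ∃ t, t = ι (v (.inl (.inr 0))) * D.θ - ι (v (.inl (.inr 1))) := ⟨_, rfl⟩
    rw [← hs, ← ht] at h0 h1
    have ht0 : t * κ = 0 := by
      have : (t * κ) * (d - c) = 0 := by linear_combination h1 - c * h0
      rcases mul_eq_zero.1 this with h | h
      · exact h
      · exact absurd (sub_eq_zero.1 h).symm hne
    have ht1 : t = 0 := by
      rcases mul_eq_zero.1 ht0 with h | h
      · exact h
      · exact absurd h hκ0
    have hs0 : s = 0 := by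
      rw [ht0, add_zero] at h0
      exact h0
    have e1 : ι (v (.inl (.inl 0))) - ι (- v (.inl (.inl 1))) * D.θ = 0 := by
      rw [map_neg]
      rw [hs] at hs0
      linear_combination hs0
    have e2 : ι (- v (.inl (.inr 1))) - ι (- v (.inl (.inr 0))) * D.θ = 0 := by
      rw [map_neg, map_neg]
      rw [ht] at ht1
      linear_combination ht1
    have x1 := D.hc₁ (v (.inl (.inl 0))) (- v (.inl (.inl 1)))
    have x2 := D.hc₂ (v (.inl (.inl 0))) (- v (.inl (.inl 1)))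
    have y1 := D.hc₁ (- v (.inl (.inr 1))) (- v (.inl (.inr 0)))
    have y2 := D.hc₂ (- v (.inl (.inr 1))) (- v (.inl (.inr 0)))
    rw [e1, map_zero] at x1 x2
    rw [e2, map_zero] at y1 y2
    funext k
    rcases k with (k | k) | k
    · fin_cases k
      · exact x1.symm
      · simpa using x2.symm
    · fin_cases k
      · simpa using y2.symm
      · simpa using y1.symm
    · fin_cases k
      · exact hz1
      · exact hz2
  have hbij : Function.Bijective (L6 D c d κ) := by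
    rw [Fintype.bijective_iff_injective_and_card]
    refine ⟨hinj, ?_⟩
    simp only [Fintype.card_fun, Fintype.card_sum, Fintype.card_fin, hF, hK]
    ring
  let E := LinearEquiv.ofBijective (L6 D c d κ) hbij
  have hE : ∀ w, L6 D c d κ (E.symm w) = w := fun w => E.apply_symm_apply w
  have hE' : ∀ p, E.symm (L6 D c d κ p) = p := fun p => E.symm_apply_apply p
  refine ⟨⟨L6 D c d κ, E.symm.toLinearMap, hE', hE, ?_⟩⟩
  intro v
  have hm := norm_id (ι (v (.inl (.inl 0)))) (ι (v (.inl (.inl 1)))) (ι (v (.inl (.inr 0)))) (ι (v (.inl (.inr 1))))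
    D.θ (D.σ D.θ) c (D.σ c) d (D.σ d) κ (D.σ κ) i hc hd h3 h4 hi1
  have hz := D.norm (v (.inr 0)) (v (.inr 1))
  simp only [L6, LinearMap.coe_mk, AddHom.coe_mk, Matrix.cons_val_zero, Matrix.cons_val_one, Matrix.cons_val,
    quadFormMinus, Fin.sum_univ_two, map_add]
  simp only [map_add, map_sub, map_mul, map_pow, D.hι] at hz ⊢
  linear_combination hm + hz

/-- vectors to matrices -/
noncomputable def Au (D : QDat F K a b) (U : U6 D) : ((Fin 2 ⊕ Fin 2) ⊕ Fin 2 → F) →ₗ[F] Matrix (Fin 4) (Fin 4) K where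
  toFun v := skew (U.L v 0) (U.L v 1) (U.L v 2) (D.σ (U.L v 2)) (- D.σ (U.L v 1)) (D.σ (U.L v 0))
  map_add' u v := by
    ext i j
    fin_cases i <;> fin_cases j <;> simp [skew] <;> ring
  map_smul' r v := by
    have e : ∀ i, U.L (r • v) i = ι r * U.L v i := by
      intro i
      rw [map_smul, Pi.smul_apply, Algebra.smul_def]
    simp only [e, RingHom.id_apply]
    ext i j
    fin_cases i <;> fin_cases j <;> simp [skew, Algebra.smul_def, D.hι]

/-- coordinates -/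
noncomputable def Cu (D : QDat F K a b) (U : U6 D) : Matrix (Fin 4) (Fin 4) K →ₗ[F] ((Fin 2 ⊕ Fin 2) ⊕ Fin 2 → F) where
  toFun M := U.Li ![M 0 1, M 0 2, M 0 3]
  map_add' M N := by
    rw [← map_add]
    congr 1
    funext i
    fin_cases i <;> simp
  map_smul' r M := by
    rw [RingHom.id_apply, ← map_smul]
    congr 1
    funext i
    fin_cases i <;> simp

theorem CAu (D : QDat F K a b) (U : U6 D) (v) : Cu D U (Au D U v) = v := by
  have : ![U.L v 0, U.L v 1, U.L v 2] = U.L v := by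
    funext i
    fin_cases i <;> rfl
  show U.Li ![skew _ _ _ _ _ _ 0 1, skew _ _ _ _ _ _ 0 2, skew _ _ _ _ _ _ 0 3] = v
  simp only [skew]
  simp
  rw [this, U.hLi]

/-- the real form -/
def Wu (D : QDat F K a b) : Set (Matrix (Fin 4) (Fin 4) K) := {M | IsAlt M ∧ star4 (M.map D.σ) = M}

theorem ACu (D : QDat F K a b) (U : U6 D) (m : Matrix (Fin 4) (Fin 4) K) (hm : m ∈ Wu D) : Au D U (Cu D U m) = m := by
  have h1 := hm.2
  have h2 : U.L (Cu D U m) = ![m 0 1, m 0 2, m 0 3] := U.hLi' _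
  conv_rhs => rw [eq_skew hm.1]
  have e1 : m 1 2 = D.σ (m 0 3) := (congrFun (congrFun h1 1) 2).symm.trans (by simp [star4, skew])
  have e2 : m 1 3 = - D.σ (m 0 2) := (congrFun (congrFun h1 1) 3).symm.trans (by simp [star4, skew])
  have e3 : m 2 3 = D.σ (m 0 1) := (congrFun (congrFun h1 2) 3).symm.trans (by simp [star4, skew])
  rw [e1, e2, e3]
  show skew (U.L (Cu D U m) 0) (U.L (Cu D U m) 1) (U.L (Cu D U m) 2) (D.σ (U.L (Cu D U m) 2)) (- D.σ (U.L (Cu D U m) 1)) (D.σ (U.L (Cu D U m) 0)) = _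
  rw [h2]
  simp

theorem AWu (D : QDat F K a b) (U : U6 D) (v) : Au D U v ∈ Wu D := by
  refine ⟨isAlt_skew _ _ _ _ _ _, ?_⟩
  show star4 ((skew _ _ _ _ _ _).map D.σ) = skew _ _ _ _ _ _
  rw [skew_map, star4_skew]
  simp [D.hσσ]

end Model6

section Group6

variable {F K : Type*} [Field F] [Field K] [Algebra F K] {a b : F} {q : ℕ}

local notation "ι" => algebraMap F K

/-- underlying matrices -/
def matU (s : SU 4 K q) : Matrix (Fin 4) (Fin 4) K := ((s : Matrix.SpecialLinearGroup (Fin 4) K) : Matrix (Fin 4) (Fin 4) K)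

theorem matU_mul (s t : SU 4 K q) : matU (s * t) = matU s * matU t := rfl

theorem matU_one : matU (1 : SU 4 K q) = 1 := rfl

theorem matU_det (s : SU 4 K q) : (matU s).det = 1 := (s : Matrix.SpecialLinearGroup (Fin 4) K).2

theorem su_rel (σ : K →+* K) (hσ : ∀ x, σ x = x ^ q) (s : SU 4 K q) : (matU s)ᵀ * (matU s).map σ = 1 := by
  ext i j
  have h := s.2 (Pi.single i 1) (Pi.single j 1)
  have e : ∀ k, (slToMat 4 K (s : Matrix.SpecialLinearGroup (Fin 4) K) *ᵥ (Pi.single k 1 : Fin 4 → K)) = fun l => matU s l k := by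
    intro k
    exact Matrix.mulVec_single_one _ _
  simp only [e, hermForm, ← hσ] at h
  rw [Matrix.mul_apply]
  simp only [Matrix.transpose_apply, Matrix.map_apply]
  rw [h]
  have e2 : ∀ k, σ ((Pi.single j 1 : Fin 4 → K) k) = (Pi.single j 1 : Fin 4 → K) k := by
    intro k
    by_cases hk : k = j
    · subst hk; simp
    · simp [hk]
  simp only [e2]
  rw [Finset.sum_eq_single i]
  · simp [Matrix.one_apply, Pi.single_apply]
  · intro k _ hk
    simp [hk]
  · simp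

/-- the action -/
noncomputable def Tu (g : Matrix (Fin 4) (Fin 4) K) : Matrix (Fin 4) (Fin 4) K →ₗ[F] Matrix (Fin 4) (Fin 4) K :=
  (LinearMap.mulLeft F g).comp (LinearMap.mulRight F gᵀ)

theorem Tu_apply (g M : Matrix (Fin 4) (Fin 4) K) : Tu (F := F) g M = g * (M * gᵀ) := rfl

theorem Tu_apply' (g M : Matrix (Fin 4) (Fin 4) K) : Tu (F := F) g M = g * M * gᵀ := by
  rw [Tu_apply, Matrix.mul_assoc]

theorem QDat.σ_eq [Fintype F] [Fintype K] (D : QDat F K a b) (hF : Fintype.card F = q) (hK : Fintype.card K = q ^ 2)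
    (hab : ∀ z₁ z₂ : F, z₁ ^ 2 + a * z₁ * z₂ + b * z₂ ^ 2 = 0 → z₁ = 0 ∧ z₂ = 0) (x : K) : D.σ x = x ^ q := by
  obtain ⟨S⟩ := H12.QE.exists_setup (F := F) (K := K) hK hF
  have hne : S.σ D.θ ≠ D.θ := by
    intro h
    obtain ⟨t, ht⟩ := S.hfix _ h
    apply D.θ_ne hab
    rw [← ht, D.hι]
  have hr : S.σ D.θ = D.σ D.θ := by
    have h1 : D.θ ^ 2 + ι a * D.θ + ι b = 0 := by
      linear_combination D.θ * D.htr - D.hnm
    have h2 : S.σ D.θ ^ 2 + ι a * S.σ D.θ + ι b = 0 := by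
      have := congrArg S.σ h1
      simpa [S.hι] using this
    have h3 : (S.σ D.θ - D.θ) * (S.σ D.θ - D.σ D.θ) = 0 := by
      linear_combination h2 - (S.σ D.θ) * D.htr + D.hnm
    rcases mul_eq_zero.1 h3 with h4 | h4
    · exact absurd (sub_eq_zero.1 h4) hne
    · exact sub_eq_zero.1 h4
  rw [← S.hσq, ← D.hc x]
  simp only [map_sub, map_mul, D.hι, S.hι, hr]

variable {D : QDat F K a b}

theorem Tu_W (hσq : ∀ x, D.σ x = x ^ q) (s : SU 4 K q) (m : Matrix (Fin 4) (Fin 4) K) (hm : m ∈ Wu D) :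
    Tu (F := F) (matU s) m ∈ Wu D := by
  rw [Tu_apply']
  obtain ⟨g, hg⟩ : ∃ g, g = matU s := ⟨_, rfl⟩
  rw [← hg]
  refine ⟨isAlt_conj _ hm.1, ?_⟩
  obtain ⟨h, hh⟩ : ∃ h, h = g.map D.σ := ⟨_, rfl⟩
  have hdet : h.det = 1 := by
    have := RingHom.map_det D.σ g
    rw [hg, matU_det, map_one] at this
    rw [hh, hg]
    exact this.symm
  have r1 : gᵀ * h = 1 := by
    rw [hh, hg]
    exact su_rel D.σ hσq s
  have r2 : h * gᵀ = 1 := mul_eq_one_comm.1 r1
  have r3 : hᵀ * g = 1 := by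
    have := congrArg Matrix.transpose r1
    rwa [Matrix.transpose_mul, Matrix.transpose_transpose, Matrix.transpose_one] at this
  have r4 : g * hᵀ = 1 := mul_eq_one_comm.1 r3
  have hmap : (g * m * gᵀ).map D.σ = h * m.map D.σ * hᵀ := by
    rw [hh, ← Matrix.transpose_map]
    exact (Matrix.map_mul.trans (by rw [Matrix.map_mul]))
  have hs := star_conj h (isAlt_map D.σ hm.1)
  rw [hdet, one_smul, hm.2] at hs
  rw [hmap]
  calc star4 (h * m.map D.σ * hᵀ) = (g * hᵀ) * star4 (h * m.map D.σ * hᵀ) * (h * gᵀ) := by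
        rw [r4, r2, Matrix.one_mul, Matrix.mul_one]
    _ = g * (hᵀ * star4 (h * m.map D.σ * hᵀ) * h) * gᵀ := by simp only [Matrix.mul_assoc]
    _ = g * m * gᵀ := by rw [hs]

theorem actu (U : U6 D) (hσq : ∀ x, D.σ x = x ^ q) :
    Act (quadFormMinus 2 F a b) (fun s : SU 4 K q => Cu D U ∘ₗ Tu (F := F) (matU s) ∘ₗ Au D U) := by
  refine model_act (F := F) (F' := K) ι (algebraMap F K).injective (Au D U) (Cu D U) (fun s : SU 4 K q => Tu (F := F) (matU s)) (Wu D) (CAu D U) (ACu D U)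
    (AWu D U) (Tu_W hσq) ?_ ?_ pf ?_ ?_
  · intro m
    simp [Tu_apply, matU_one]
  · intro s t m
    simp only [Tu_apply, matU_mul, Matrix.transpose_mul, Matrix.mul_assoc]
  · intro v
    rw [← U.hN]
    simp only [Au, LinearMap.coe_mk, AddHom.coe_mk, pf, skew]
    simp
  · intro s m hm
    rw [Tu_apply', pf_conj _ hm.1, matU_det, one_mul]

/-- the homomorphism -/
noncomputable def phiu (U : U6 D) (hσq : ∀ x, D.σ x = x ^ q) : SU 4 K q →* ↥(isometryGroup F (quadFormMinus 2 F a b)) :=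
  (actu U hσq).hom

theorem fix_pair (g : Matrix (Fin 4) (Fin 4) K) (θ θ' : K) (hθ : θ ≠ θ') (X Y : Matrix (Fin 4) (Fin 4) K)
    (h1 : g * (X + Y) * gᵀ = X + Y) (h2 : g * (θ • X + θ' • Y) * gᵀ = θ • X + θ' • Y) :
    g * X * gᵀ = X ∧ g * Y * gᵀ = Y := by
  have hδ : θ - θ' ≠ 0 := sub_ne_zero.2 hθ
  simp only [Matrix.mul_add, Matrix.add_mul, Matrix.mul_smul, Matrix.smul_mul] at h1 h2
  obtain ⟨X', hX'⟩ : ∃ X', X' = g * X * gᵀ := ⟨_, rfl⟩
  obtain ⟨Y', hY'⟩ : ∃ Y', Y' = g * Y * gᵀ := ⟨_, rfl⟩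
  rw [← hX', ← hY'] at h1 h2 ⊢
  have h3 : (θ - θ') • X' = (θ - θ') • X := by
    have e1 : (θ - θ') • X' = θ • X' + θ' • Y' - θ' • (X' + Y') := by
      rw [sub_smul, smul_add]; abel
    have e2 : (θ - θ') • X = θ • X + θ' • Y - θ' • (X + Y) := by
      rw [sub_smul, smul_add]; abel
    rw [e1, e2, h1, h2]
  have h4 : (θ - θ') • Y' = (θ - θ') • Y := by
    have e1 : (θ - θ') • Y' = θ • (X' + Y') - (θ • X' + θ' • Y') := by
      rw [sub_smul, smul_add]; abel
    have e2 : (θ - θ') • Y = θ • (X + Y) - (θ • X + θ' • Y) := by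
      rw [sub_smul, smul_add]; abel
    rw [e1, e2, h1, h2]
  exact ⟨smul_right_injective _ hδ h3, smul_right_injective _ hδ h4⟩

theorem fix_pair2 (g : Matrix (Fin 4) (Fin 4) K) (σ : K →+* K) (θ : K) (hθ : θ ≠ σ θ) (X Y : Matrix (Fin 4) (Fin 4) K)
    (h : ∀ t : K, g * (t • X + σ t • Y) * gᵀ = t • X + σ t • Y) : g * X * gᵀ = X ∧ g * Y * gᵀ = Y := by
  have h1 := h 1
  rw [map_one, one_smul, one_smul] at h1
  exact fix_pair g θ (σ θ) hθ X Y h1 (h θ)

theorem skew_e1 (σ : K →+* K) (t : K) : t • skew 1 0 0 0 0 0 + σ t • skew 0 0 0 0 0 1 = skew t 0 0 (σ 0) (-σ 0) (σ t) := by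
  ext i j
  fin_cases i <;> fin_cases j <;> simp [skew]

theorem skew_e2 (σ : K →+* K) (t : K) : t • skew 0 1 0 0 0 0 + σ t • skew 0 0 0 0 (-1) 0 = skew 0 t 0 (σ 0) (-σ t) (σ 0) := by
  ext i j
  fin_cases i <;> fin_cases j <;> simp [skew]

theorem skew_e3 (σ : K →+* K) (t : K) : t • skew 0 0 1 0 0 0 + σ t • skew 0 0 0 1 0 0 = skew 0 0 t (σ t) (-σ 0) (σ 0) := by
  ext i j
  fin_cases i <;> fin_cases j <;> simp [skew]

theorem skew_decomp (a₁ b₁ c₁ d₁ e₁ f₁ : K) : skew a₁ b₁ c₁ d₁ e₁ f₁ = a₁ • skew 1 0 0 0 0 0 + f₁ • skew 0 0 0 0 0 1 + b₁ • skew 0 1 0 0 0 0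
    + (-e₁) • skew 0 0 0 0 (-1) 0 + c₁ • skew 0 0 1 0 0 0 + d₁ • skew 0 0 0 1 0 0 := by
  ext i j
  fin_cases i <;> fin_cases j <;> simp [skew]

theorem phiu_ker (U : U6 D) (hσq : ∀ x, D.σ x = x ^ q)
    (hab : ∀ z₁ z₂ : F, z₁ ^ 2 + a * z₁ * z₂ + b * z₂ ^ 2 = 0 → z₁ = 0 ∧ z₂ = 0) (s : SU 4 K q) :
    s ∈ (phiu U hσq).ker ↔ matU s = 1 ∨ matU s = -1 := by
  have hk := model_ker (actu (q := q) U hσq) (Au D U) (Cu D U) (fun s : SU 4 K q => Tu (F := F) (matU s)) (Wu D) rfl (CAu D U) (ACu D U)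
    (AWu D U) (Tu_W hσq) s
  constructor
  · intro h
    have h2 := hk.1 h
    obtain ⟨g, hg⟩ : ∃ g, g = matU s := ⟨_, rfl⟩
    rw [← hg]
    have h3 : ∀ m ∈ Wu D, g * m * gᵀ = m := by
      intro m hm
      have := h2 (Cu D U m)
      rw [ACu D U m hm, Tu_apply', ← hg] at this
      exact this
    have hθ := D.θ_ne hab
    have hW : ∀ a₁ b₁ c₁ : K, skew a₁ b₁ c₁ (D.σ c₁) (- D.σ b₁) (D.σ a₁) ∈ Wu D := by
      intro a₁ b₁ c₁
      refine ⟨isAlt_skew _ _ _ _ _ _, ?_⟩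
      rw [skew_map, star4_skew]
      simp [D.hσσ]
    have p1 := fix_pair2 g D.σ D.θ hθ (skew 1 0 0 0 0 0) (skew 0 0 0 0 0 1)
      (fun t => by rw [skew_e1]; exact h3 _ (hW _ _ _))
    have p2 := fix_pair2 g D.σ D.θ hθ (skew 0 1 0 0 0 0) (skew 0 0 0 0 (-1) 0)
      (fun t => by rw [skew_e2]; exact h3 _ (hW _ _ _))
    have p3 := fix_pair2 g D.σ D.θ hθ (skew 0 0 1 0 0 0) (skew 0 0 0 1 0 0)
      (fun t => by rw [skew_e3]; exact h3 _ (hW _ _ _))
    have hall : ∀ a₁ b₁ c₁ d₁ e₁ f₁ : K, g * skew a₁ b₁ c₁ d₁ e₁ f₁ * gᵀ = skew a₁ b₁ c₁ d₁ e₁ f₁ := by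
      intro a₁ b₁ c₁ d₁ e₁ f₁
      rw [skew_decomp]
      simp only [Matrix.mul_add, Matrix.add_mul, Matrix.mul_smul, Matrix.smul_mul]
      rw [p1.1, p1.2, p2.1, p2.2, p3.1, p3.2]
    obtain ⟨h5, h6, h7⟩ := scalar_of_fix g hall
    have h8 : (g 0 0 - 1) * (g 0 0 + 1) = 0 := by
      linear_combination h7
    rcases mul_eq_zero.1 h8 with h9 | h9
    · left
      have h10 : g 0 0 = 1 := sub_eq_zero.1 h9
      ext i j
      by_cases hij : i = j
      · subst hij
        rw [h6 i 0, h10]; simp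
      · rw [h5 i j hij]; simp [hij]
    · right
      have h10 : g 0 0 = -1 := by linear_combination h9
      ext i j
      by_cases hij : i = j
      · subst hij
        rw [h6 i 0, h10]; simp
      · rw [h5 i j hij]; simp [hij]
  · intro h
    apply hk.2
    intro v
    rw [Tu_apply']
    rcases h with h | h <;> rw [h] <;> simp

end Group6

section Final6m

variable {F K : Type*} [Field F] [Field K] [Fintype F] [Fintype K]

theorem card_SU4 {q : ℕ} (hK : Fintype.card K = q ^ 2) (hq2 : 2 ≤ q) :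
    Nat.card (SU 4 K q) = q ^ 6 * (q ^ 2 - 1) * (q ^ 3 + 1) * (q ^ 4 - 1) := by
  have h1 := Cfsg.Agent.Lead.card_GU_eq (n := 4) hK (by norm_num)
  rw [Cfsg.Agent.Lead.card_GU hK] at h1
  simp only [Finset.prod_range_succ, Finset.prod_range_zero] at h1
  have e0 : Even 0 := by decide
  have e1 : ¬ Even (0 + 1) := by decide
  have e2 : Even (0 + 1 + 1) := by decide
  have e3 : ¬ Even (0 + 1 + 1 + 1) := by decide
  norm_num [Nat.even_iff] at h1
  apply Nat.eq_of_mul_eq_mul_left (show 0 < q + 1 by omega)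
  rw [← h1]
  ring

/-- **`PΩ⁻₆(q) ≅ PSU₄(q)`** -/
theorem pomega6minus {q : ℕ} (hF : Fintype.card F = q) (hK : Fintype.card K = q ^ 2) (a b : F)
    (hab : ∀ z₁ z₂ : F, z₁ ^ 2 + a * z₁ * z₂ + b * z₂ ^ 2 = 0 → z₁ = 0 ∧ z₂ = 0) :
    Nonempty (POmega F (quadFormMinus 2 F a b) ≃* PSU 4 K q) := by
  classical
  obtain ⟨i⟩ := H12.QE.exists_ringHom (F := F) (K := K) hK hF
  letI : Algebra F K := i.toAlgebra
  obtain ⟨D⟩ := exists_qdat (F := F) (K := K) hF hK hab
  have hσq : ∀ x, D.σ x = x ^ q := D.σ_eq hF hK hab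
  obtain ⟨c, d, _, hcd, _, _, hc, hd, _⟩ := Cfsg.Agent.Lead.exists_three_norm (F := K) hK
  have hc' : c * D.σ c = -1 := by
    rw [hσq, ← hc]; ring
  have hd' : d * D.σ d = -1 := by
    rw [hσq, ← hd]; ring
  obtain ⟨U⟩ := exists_U6 hF hK hab D hc' hd' hcd
  have hq2 : 2 ≤ q := hF ▸ Fintype.one_lt_card
  have hQ := nondeg_of_qf (Cfsg.Agent.Lead.Ortho.qfMinus 2 a b) (Cfsg.Agent.Lead.Ortho.ndMinus 2 a b hab)
  have hcardO : Nat.card (isometryGroup F (quadFormMinus 2 F a b)) =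
      2 * (q ^ 6 * (q ^ 2 - 1) * (q ^ 3 + 1) * (q ^ 4 - 1)) := by
    have := Cfsg.Agent.Lead.Ortho.card_GO_minus (F := F) hF 3 (by norm_num) a b hab
    have e : Nat.card (isometryGroup F (quadFormMinus 2 F a b)) = 2 * q ^ (3 * (3 - 1)) * (q ^ 3 + 1) * ∏ i ∈ Finset.range (3 - 1), (q ^ (2 * (i + 1)) - 1) := this
    rw [e]
    simp only [Finset.prod_range_succ, Finset.prod_range_zero]
    norm_num
    ring
  have hcardS := card_SU4 hK hq2
  have hr : Nat.card (phiu U hσq).range * Nat.card (phiu U hσq).ker =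
      Nat.card (SU 4 K q) := by
    rw [mul_comm, ← Subgroup.index_ker, Subgroup.card_mul_index]
  rw [hcardS] at hr
  have h2K : ∀ h : (2 : F) ≠ 0, (2 : K) ≠ 0 := by
    intro h h'
    apply h
    have : algebraMap F K 2 = 0 := by
      rw [map_ofNat]; exact h'
    exact (map_eq_zero _).1 this
  have hne3 : ¬ (4 = 3 ∧ q = 2) := by norm_num
  have hperf := Cfsg.Agent.Lead.PSU.commutator_eq_top (n := 4) (F := K) (q := q) hK (by norm_num) (by norm_num) hne3
  have hneg : ∃ m : SU 4 K q, matU m = -1 := by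
    have hdet1 : (-1 : Matrix (Fin 4) (Fin 4) K).det = 1 := by
      simp [Matrix.det_neg]
      norm_num
    refine ⟨⟨⟨-1, hdet1⟩, ?_⟩, rfl⟩
    intro u v
    have e : (slToMat 4 K ⟨-1, hdet1⟩ : Matrix (Fin 4) (Fin 4) K) = -1 := rfl
    rw [e]
    simp only [hermForm, Matrix.neg_mulVec, Matrix.one_mulVec, Pi.neg_apply, ← hσq, map_neg, neg_mul_neg]
  refine exc_main hQ (by simp) (phiu U hσq) ?_ ?_ ?_ ?_ ?_
  · intro s
    apply map_comm_mem
    rw [hperf]
    trivial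
  · intro h2
    have h2' := h2K h2
    have hk : Nat.card (phiu U hσq).ker = 2 := by
      obtain ⟨m, hm⟩ := hneg
      have hne : (-1 : K) ≠ 1 := by
        intro h
        apply h2'
        linear_combination (-1 : K) * h
      have hmk : m ∈ (phiu U hσq).ker := by
        rw [phiu_ker U hσq hab]
        exact Or.inr hm
      have hm1 : m ≠ 1 := by
        intro h
        have := congrArg (fun x : SU 4 K q => matU x 0 0) h
        simp [hm, matU_one] at this
        exact hne this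
      rw [Nat.card_eq_two_iff' (1 : (phiu U hσq).ker)]
      refine ⟨⟨m, hmk⟩, fun h => hm1 (congrArg Subtype.val h), ?_⟩
      rintro ⟨y, hy⟩ hy1
      apply Subtype.ext
      rcases (phiu_ker U hσq hab y).1 hy with h | h
      · exfalso
        apply hy1
        apply Subtype.ext
        apply Subtype.ext
        exact Subtype.ext h
      · apply Subtype.ext
        apply Subtype.ext
        show matU y = matU m
        rw [h, hm]
    rw [hk] at hr
    rw [hcardO, ← hr]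
    ring
  · intro h2
    have hk : Nat.card (phiu U hσq).ker = 1 := by
      rw [Nat.card_eq_one_iff_unique]
      refine ⟨⟨?_⟩, ⟨1⟩⟩
      rintro ⟨y, hy⟩ ⟨z, hz⟩
      apply Subtype.ext
      have h2K' : (2 : K) = 0 := by
        have : algebraMap F K 2 = 0 := by rw [h2, map_zero]
        rwa [map_ofNat] at this
      have hone : (-1 : Matrix (Fin 4) (Fin 4) K) = 1 := by
        have : (-1 : K) = 1 := by linear_combination (-1 : K) * h2K'
        ext i j
        fin_cases i <;> fin_cases j <;> simp [this]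
      have key : ∀ w ∈ (phiu U hσq).ker, w = 1 := by
        intro w hw
        apply Subtype.ext
        apply Subtype.ext
        rcases (phiu_ker U hσq hab w).1 hw with h | h
        · exact h
        · show matU w = 1
          rw [h, hone]
      show y = z
      rw [key y hy, key z hz]
    rw [hk, mul_one] at hr
    rw [hcardO, ← hr]
  · intro s hs
    rw [Subgroup.mem_center_iff]
    intro g
    apply Subtype.ext
    apply Subtype.ext
    show matU g * matU s = matU s * matU g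
    rcases (phiu_ker U hσq hab s).1 hs with h | h <;> simp [h]
  · intro s hs
    exact hcf_of_simple (Cfsg.Agent.Lead.PSU.psu_simple (n := 4) (F := K) (q := q) hK (by norm_num) (by norm_num) hne3) hperf s hs

end Final6m

end Cfsg.Agent.H27.Exc
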