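import Cfsg.Agent.Lib.H27.ExcO4p

/-! The Pfaffian of alternating `4 × 4` matrices. -/

set_option autoImplicit false

namespace Cfsg.Agent.H27.Exc

open Cfsg Cfsg.Geo Matrix
open scoped MatrixGroups commutatorElement

section Pf

variable {F : Type*} [Field F]

/-- an alternating `4 × 4` matrix -/
def skew (a b c d e f : F) : Matrix (Fin 4) (Fin 4) F :=
  !![0, a, b, c; -a, 0, d, e; -b, -d, 0, f; -c, -e, -f, 0]

/-- alternating matrices -/
def IsAlt (M : Matrix (Fin 4) (Fin 4) F) : Prop := (∀ i, M i i = 0) ∧ ∀ i j, M j i = - M i j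

theorem isAlt_skew (a b c d e f : F) : IsAlt (skew a b c d e f) := by
  constructor
  · intro i
    fin_cases i <;> simp [skew]
  · intro i j
    fin_cases i <;> fin_cases j <;> simp [skew]

theorem eq_skew {M : Matrix (Fin 4) (Fin 4) F} (h : IsAlt M) :
    M = skew (M 0 1) (M 0 2) (M 0 3) (M 1 2) (M 1 3) (M 2 3) := by
  obtain ⟨h1, h2⟩ := h
  ext i j
  fin_cases i <;> fin_cases j <;> simp [skew, h1]
  all_goals first | exact h2 _ _ | skip

/-- the Pfaffian -/
def pf (M : Matrix (Fin 4) (Fin 4) F) : F := M 0 1 * M 2 3 - M 0 2 * M 1 3 + M 0 3 * M 1 2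

theorem det4 (M : Matrix (Fin 4) (Fin 4) F) : M.det =
    M 0 0 * (M 1 1 * M 2 2 * M 3 3 - M 1 1 * M 2 3 * M 3 2 - M 1 2 * M 2 1 * M 3 3
        + M 1 2 * M 2 3 * M 3 1 + M 1 3 * M 2 1 * M 3 2 - M 1 3 * M 2 2 * M 3 1)
    - M 0 1 * (M 1 0 * M 2 2 * M 3 3 - M 1 0 * M 2 3 * M 3 2 - M 1 2 * M 2 0 * M 3 3
        + M 1 2 * M 2 3 * M 3 0 + M 1 3 * M 2 0 * M 3 2 - M 1 3 * M 2 2 * M 3 0)
    + M 0 2 * (M 1 0 * M 2 1 * M 3 3 - M 1 0 * M 2 3 * M 3 1 - M 1 1 * M 2 0 * M 3 3
        + M 1 1 * M 2 3 * M 3 0 + M 1 3 * M 2 0 * M 3 1 - M 1 3 * M 2 1 * M 3 0)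
    - M 0 3 * (M 1 0 * M 2 1 * M 3 2 - M 1 0 * M 2 2 * M 3 1 - M 1 1 * M 2 0 * M 3 2
        + M 1 1 * M 2 2 * M 3 0 + M 1 2 * M 2 0 * M 3 1 - M 1 2 * M 2 1 * M 3 0) := by
  rw [Matrix.det_succ_row_zero]
  simp only [Fin.sum_univ_four, Matrix.det_fin_three, Matrix.submatrix_apply]
  simp [Fin.succAbove]
  ring

theorem conj_apply (g : Matrix (Fin 4) (Fin 4) F) (a b c d e f : F) (i j : Fin 4) :
    (g * skew a b c d e f * gᵀ) i j =
      a * (g i 0 * g j 1 - g i 1 * g j 0) + b * (g i 0 * g j 2 - g i 2 * g j 0) + c * (g i 0 * g j 3 - g i 3 * g j 0)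
      + d * (g i 1 * g j 2 - g i 2 * g j 1) + e * (g i 1 * g j 3 - g i 3 * g j 1) + f * (g i 2 * g j 3 - g i 3 * g j 2) := by
  simp only [Matrix.mul_apply, Fin.sum_univ_four, Matrix.transpose_apply, skew]
  simp
  ring

theorem isAlt_conj (g : Matrix (Fin 4) (Fin 4) F) {M : Matrix (Fin 4) (Fin 4) F} (h : IsAlt M) :
    IsAlt (g * M * gᵀ) := by
  rw [eq_skew h]
  constructor
  · intro i
    rw [conj_apply]
    ring
  · intro i j
    rw [conj_apply, conj_apply]
    ring

theorem pf_conj (g : Matrix (Fin 4) (Fin 4) F) {M : Matrix (Fin 4) (Fin 4) F} (h : IsAlt M) :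
    pf (g * M * gᵀ) = g.det * pf M := by
  rw [eq_skew h]
  simp only [pf, conj_apply, det4]
  simp only [skew]
  simp
  ring

/-- the action on `4 × 4` matrices -/
noncomputable def T6 (g : Matrix (Fin 4) (Fin 4) F) : Matrix (Fin 4) (Fin 4) F →ₗ[F] Matrix (Fin 4) (Fin 4) F :=
  (LinearMap.mulLeft F g).comp (LinearMap.mulRight F gᵀ)

theorem T6_apply (g M : Matrix (Fin 4) (Fin 4) F) : T6 g M = g * (M * gᵀ) := rfl

theorem T6_apply' (g M : Matrix (Fin 4) (Fin 4) F) : T6 g M = g * M * gᵀ := by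
  rw [T6_apply, Matrix.mul_assoc]

/-- fixing the standard alternating matrices forces a scalar of square one. -/
theorem scalar_of_fix (g : Matrix (Fin 4) (Fin 4) F) (h : ∀ a b c d e f : F, g * skew a b c d e f * gᵀ = skew a b c d e f) :
    (∀ i j, i ≠ j → g i j = 0) ∧ (∀ i j, g i i = g j j) ∧ g 0 0 * g 0 0 = 1 := by
  -- the minors
  have m01 := fun i j => by
    have := congrFun (congrFun (h 1 0 0 0 0 0) i) j
    rw [conj_apply] at this
    exact (by simpa using this : g i 0 * g j 1 - g i 1 * g j 0 = skew (1 : F) 0 0 0 0 0 i j)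
  have m02 := fun i j => by
    have := congrFun (congrFun (h 0 1 0 0 0 0) i) j
    rw [conj_apply] at this
    exact (by simpa using this : g i 0 * g j 2 - g i 2 * g j 0 = skew (0 : F) 1 0 0 0 0 i j)
  have m03 := fun i j => by
    have := congrFun (congrFun (h 0 0 1 0 0 0) i) j
    rw [conj_apply] at this
    exact (by simpa using this : g i 0 * g j 3 - g i 3 * g j 0 = skew (0 : F) 0 1 0 0 0 i j)
  have m12 := fun i j => by
    have := congrFun (congrFun (h 0 0 0 1 0 0) i) j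
    rw [conj_apply] at this
    exact (by simpa using this : g i 1 * g j 2 - g i 2 * g j 1 = skew (0 : F) 0 0 1 0 0 i j)
  have m13 := fun i j => by
    have := congrFun (congrFun (h 0 0 0 0 1 0) i) j
    rw [conj_apply] at this
    exact (by simpa using this : g i 1 * g j 3 - g i 3 * g j 1 = skew (0 : F) 0 0 0 1 0 i j)
  have m23 := fun i j => by
    have := congrFun (congrFun (h 0 0 0 0 0 1) i) j
    rw [conj_apply] at this
    exact (by simpa using this : g i 2 * g j 3 - g i 3 * g j 2 = skew (0 : F) 0 0 0 0 1 i j)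
  have o01 : g 0 1 = 0 := by
    have v1 : g 0 1 * g 1 2 - g 0 2 * g 1 1 = 0 := (m12 0 1).trans (by simp [skew])
    have v2 : g 0 1 * g 2 2 - g 0 2 * g 2 1 = 0 := (m12 0 2).trans (by simp [skew])
    have v3 : g 1 1 * g 2 2 - g 1 2 * g 2 1 = 1 := (m12 1 2).trans (by simp [skew])
    linear_combination (-g 0 1) * v3 + g 1 1 * v2 - g 2 1 * v1
  have o02 : g 0 2 = 0 := by
    have v1 : g 0 1 * g 2 2 - g 0 2 * g 2 1 = 0 := (m12 0 2).trans (by simp [skew])
    have v2 : g 0 1 * g 1 2 - g 0 2 * g 1 1 = 0 := (m12 0 1).trans (by simp [skew])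
    have v3 : g 2 1 * g 1 2 - g 2 2 * g 1 1 = -1 := (m12 2 1).trans (by simp [skew])
    linear_combination (g 0 2) * v3 - g 2 2 * v2 + g 1 2 * v1
  have o03 : g 0 3 = 0 := by
    have v1 : g 0 1 * g 3 3 - g 0 3 * g 3 1 = 0 := (m13 0 3).trans (by simp [skew])
    have v2 : g 0 1 * g 1 3 - g 0 3 * g 1 1 = 0 := (m13 0 1).trans (by simp [skew])
    have v3 : g 3 1 * g 1 3 - g 3 3 * g 1 1 = -1 := (m13 3 1).trans (by simp [skew])
    linear_combination (g 0 3) * v3 - g 3 3 * v2 + g 1 3 * v1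
  have o10 : g 1 0 = 0 := by
    have v1 : g 1 0 * g 0 2 - g 1 2 * g 0 0 = 0 := (m02 1 0).trans (by simp [skew])
    have v2 : g 1 0 * g 2 2 - g 1 2 * g 2 0 = 0 := (m02 1 2).trans (by simp [skew])
    have v3 : g 0 0 * g 2 2 - g 0 2 * g 2 0 = 1 := (m02 0 2).trans (by simp [skew])
    linear_combination (-g 1 0) * v3 + g 0 0 * v2 - g 2 0 * v1
  have o12 : g 1 2 = 0 := by
    have v1 : g 1 0 * g 2 2 - g 1 2 * g 2 0 = 0 := (m02 1 2).trans (by simp [skew])
    have v2 : g 1 0 * g 0 2 - g 1 2 * g 0 0 = 0 := (m02 1 0).trans (by simp [skew])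
    have v3 : g 2 0 * g 0 2 - g 2 2 * g 0 0 = -1 := (m02 2 0).trans (by simp [skew])
    linear_combination (g 1 2) * v3 - g 2 2 * v2 + g 0 2 * v1
  have o13 : g 1 3 = 0 := by
    have v1 : g 1 0 * g 3 3 - g 1 3 * g 3 0 = 0 := (m03 1 3).trans (by simp [skew])
    have v2 : g 1 0 * g 0 3 - g 1 3 * g 0 0 = 0 := (m03 1 0).trans (by simp [skew])
    have v3 : g 3 0 * g 0 3 - g 3 3 * g 0 0 = -1 := (m03 3 0).trans (by simp [skew])
    linear_combination (g 1 3) * v3 - g 3 3 * v2 + g 0 3 * v1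
  have o20 : g 2 0 = 0 := by
    have v1 : g 2 0 * g 0 1 - g 2 1 * g 0 0 = 0 := (m01 2 0).trans (by simp [skew])
    have v2 : g 2 0 * g 1 1 - g 2 1 * g 1 0 = 0 := (m01 2 1).trans (by simp [skew])
    have v3 : g 0 0 * g 1 1 - g 0 1 * g 1 0 = 1 := (m01 0 1).trans (by simp [skew])
    linear_combination (-g 2 0) * v3 + g 0 0 * v2 - g 1 0 * v1
  have o21 : g 2 1 = 0 := by
    have v1 : g 2 0 * g 1 1 - g 2 1 * g 1 0 = 0 := (m01 2 1).trans (by simp [skew])
    have v2 : g 2 0 * g 0 1 - g 2 1 * g 0 0 = 0 := (m01 2 0).trans (by simp [skew])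
    have v3 : g 1 0 * g 0 1 - g 1 1 * g 0 0 = -1 := (m01 1 0).trans (by simp [skew])
    linear_combination (g 2 1) * v3 - g 1 1 * v2 + g 0 1 * v1
  have o23 : g 2 3 = 0 := by
    have v1 : g 2 0 * g 3 3 - g 2 3 * g 3 0 = 0 := (m03 2 3).trans (by simp [skew])
    have v2 : g 2 0 * g 0 3 - g 2 3 * g 0 0 = 0 := (m03 2 0).trans (by simp [skew])
    have v3 : g 3 0 * g 0 3 - g 3 3 * g 0 0 = -1 := (m03 3 0).trans (by simp [skew])
    linear_combination (g 2 3) * v3 - g 3 3 * v2 + g 0 3 * v1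
  have o30 : g 3 0 = 0 := by
    have v1 : g 3 0 * g 0 1 - g 3 1 * g 0 0 = 0 := (m01 3 0).trans (by simp [skew])
    have v2 : g 3 0 * g 1 1 - g 3 1 * g 1 0 = 0 := (m01 3 1).trans (by simp [skew])
    have v3 : g 0 0 * g 1 1 - g 0 1 * g 1 0 = 1 := (m01 0 1).trans (by simp [skew])
    linear_combination (-g 3 0) * v3 + g 0 0 * v2 - g 1 0 * v1
  have o31 : g 3 1 = 0 := by
    have v1 : g 3 0 * g 1 1 - g 3 1 * g 1 0 = 0 := (m01 3 1).trans (by simp [skew])
    have v2 : g 3 0 * g 0 1 - g 3 1 * g 0 0 = 0 := (m01 3 0).trans (by simp [skew])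
    have v3 : g 1 0 * g 0 1 - g 1 1 * g 0 0 = -1 := (m01 1 0).trans (by simp [skew])
    linear_combination (g 3 1) * v3 - g 1 1 * v2 + g 0 1 * v1
  have o32 : g 3 2 = 0 := by
    have v1 : g 3 0 * g 2 2 - g 3 2 * g 2 0 = 0 := (m02 3 2).trans (by simp [skew])
    have v2 : g 3 0 * g 0 2 - g 3 2 * g 0 0 = 0 := (m02 3 0).trans (by simp [skew])
    have v3 : g 2 0 * g 0 2 - g 2 2 * g 0 0 = -1 := (m02 2 0).trans (by simp [skew])
    linear_combination (g 3 2) * v3 - g 2 2 * v2 + g 0 2 * v1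
  have d01 : g 0 0 * g 1 1 = 1 := by
    have v3 := (m01 0 1).trans (show skew (1 : F) 0 0 0 0 0 0 1 = 1 by simp [skew])
    rw [o01, o10] at v3
    simpa using v3
  have d02 : g 0 0 * g 2 2 = 1 := by
    have v3 := (m02 0 2).trans (show skew (0 : F) 1 0 0 0 0 0 2 = 1 by simp [skew])
    rw [o02, o20] at v3
    simpa using v3
  have d03 : g 0 0 * g 3 3 = 1 := by
    have v3 := (m03 0 3).trans (show skew (0 : F) 0 1 0 0 0 0 3 = 1 by simp [skew])
    rw [o03, o30] at v3
    simpa using v3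
  have d12 : g 1 1 * g 2 2 = 1 := by
    have v3 := (m12 1 2).trans (show skew (0 : F) 0 0 1 0 0 1 2 = 1 by simp [skew])
    rw [o12, o21] at v3
    simpa using v3
  have d13 : g 1 1 * g 3 3 = 1 := by
    have v3 := (m13 1 3).trans (show skew (0 : F) 0 0 0 1 0 1 3 = 1 by simp [skew])
    rw [o13, o31] at v3
    simpa using v3
  have e12 : g 1 1 = g 2 2 := by
    linear_combination (g 2 2) * d01 - (g 1 1) * d02
  have e02 : g 0 0 = g 2 2 := by
    linear_combination (g 2 2) * d01 - (g 0 0) * d12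
  have e13 : g 1 1 = g 3 3 := by
    linear_combination (g 3 3) * d01 - (g 1 1) * d03
  have e01 : g 0 0 = g 1 1 := e02.trans e12.symm
  have hoff : ∀ i j, i ≠ j → g i j = 0 := by
    intro i j hij
    fin_cases i <;> fin_cases j <;> first | exact absurd rfl hij | assumption
  have hdiag : ∀ i, g i i = g 0 0 := by
    intro i
    fin_cases i
    · rfl
    · exact e01.symm
    · exact e02.symm
    · exact (e13.symm.trans e01.symm)
  refine ⟨hoff, fun i j => (hdiag i).trans (hdiag j).symm, ?_⟩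
  calc g 0 0 * g 0 0 = g 0 0 * g 1 1 := by rw [← e01]
    _ = 1 := d01

end Pf

section O6

variable {F : Type*} [Field F]

/-- the alternating matrix of a vector -/
noncomputable def A6 : ((Fin 3 ⊕ Fin 3) → F) →ₗ[F] Matrix (Fin 4) (Fin 4) F where
  toFun v := skew (v (.inl 0)) (v (.inl 1)) (v (.inl 2)) (v (.inr 2)) (- v (.inr 1)) (v (.inr 0))
  map_add' u v := by
    ext i j
    fin_cases i <;> fin_cases j <;> simp [skew] <;> ring
  map_smul' c v := by
    ext i j
    fin_cases i <;> fin_cases j <;> simp [skew]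

/-- coordinates -/
noncomputable def C6 : Matrix (Fin 4) (Fin 4) F →ₗ[F] ((Fin 3 ⊕ Fin 3) → F) where
  toFun M := Sum.elim ![M 0 1, M 0 2, M 0 3] ![M 2 3, - M 1 3, M 1 2]
  map_add' M N := by
    funext i
    rcases i with i | i <;> fin_cases i <;> simp <;> ring
  map_smul' c M := by
    funext i
    rcases i with i | i <;> fin_cases i <;> simp

theorem CA6 (v : (Fin 3 ⊕ Fin 3) → F) : C6 (A6 v) = v := by
  funext i
  rcases i with i | i <;> fin_cases i <;> simp [A6, C6, skew]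

theorem AC6 (m : Matrix (Fin 4) (Fin 4) F) (hm : IsAlt m) : A6 (C6 m) = m := by
  conv_rhs => rw [eq_skew hm]
  simp [A6, C6]

theorem act6 : Act (quadFormPlus 3 F) (fun s : Matrix.SpecialLinearGroup (Fin 4) F => C6 ∘ₗ T6 (s : Matrix (Fin 4) (Fin 4) F) ∘ₗ A6) := by
  refine model_act (F := F) (F' := F) id Function.injective_id A6 C6 (fun s : Matrix.SpecialLinearGroup (Fin 4) F => T6 (s : Matrix (Fin 4) (Fin 4) F)) {M | IsAlt M} CA6 (fun m hm => AC6 m hm)
    (fun _ => isAlt_skew _ _ _ _ _ _) ?_ ?_ ?_ pf ?_ ?_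
  · intro s m hm
    show IsAlt (T6 _ m)
    rw [T6_apply']
    exact isAlt_conj _ hm
  · intro m
    simp [T6_apply]
  · intro s t m
    simp only [T6_apply, Matrix.SpecialLinearGroup.coe_mul, Matrix.transpose_mul, Matrix.mul_assoc]
  · intro v
    simp only [id, quadFormPlus, A6, LinearMap.coe_mk, AddHom.coe_mk, pf, skew, Fin.sum_univ_three]
    simp
  · intro s m hm
    show pf (T6 _ m) = pf m
    rw [T6_apply', pf_conj _ hm, s.2, one_mul]

noncomputable def phi6 : Matrix.SpecialLinearGroup (Fin 4) F →* ↥(isometryGroup F (quadFormPlus 3 F)) :=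
  (act6 (F := F)).hom

theorem phi6_ker (s : Matrix.SpecialLinearGroup (Fin 4) F) :
    s ∈ (phi6 (F := F)).ker ↔ (s : Matrix (Fin 4) (Fin 4) F) = 1 ∨ (s : Matrix (Fin 4) (Fin 4) F) = -1 := by
  have hk := model_ker (act6 (F := F)) A6 C6 (fun s : Matrix.SpecialLinearGroup (Fin 4) F => T6 (s : Matrix (Fin 4) (Fin 4) F)) {M | IsAlt M} rfl CA6 (fun m hm => AC6 m hm)
    (fun _ => isAlt_skew _ _ _ _ _ _) (by
      intro s m hm
      show IsAlt (T6 _ m)
      rw [T6_apply']
      exact isAlt_conj _ hm) s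
  constructor
  · intro h
    have h2 := hk.1 h
    have h3 : ∀ a b c d e f : F, (s : Matrix (Fin 4) (Fin 4) F) * skew a b c d e f * (s : Matrix (Fin 4) (Fin 4) F)ᵀ = skew a b c d e f := by
      intro a b c d e f
      have h4 := h2 (C6 (skew a b c d e f))
      rw [AC6 _ (isAlt_skew _ _ _ _ _ _), T6_apply'] at h4
      exact h4
    obtain ⟨h5, h6, h7⟩ := scalar_of_fix _ h3
    have h8 : ((s : Matrix (Fin 4) (Fin 4) F) 0 0 - 1) * ((s : Matrix (Fin 4) (Fin 4) F) 0 0 + 1) = 0 := by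
      linear_combination h7
    rcases mul_eq_zero.1 h8 with h9 | h9
    · left
      have h10 : (s : Matrix (Fin 4) (Fin 4) F) 0 0 = 1 := sub_eq_zero.1 h9
      ext i j
      by_cases hij : i = j
      · subst hij
        rw [h6 i 0, h10]; simp
      · rw [h5 i j hij]; simp [hij]
    · right
      have h10 : (s : Matrix (Fin 4) (Fin 4) F) 0 0 = -1 := by linear_combination h9
      ext i j
      by_cases hij : i = j
      · subst hij
        rw [h6 i 0, h10]; simp
      · rw [h5 i j hij]; simp [hij]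
  · intro h
    apply hk.2
    intro v
    rw [T6_apply']
    rcases h with h | h <;> rw [h] <;> simp

end O6

section Final6

variable {F : Type*} [Field F] [Fintype F]

theorem card_SL4 : Nat.card (Matrix.SpecialLinearGroup (Fin 4) F) =
    Fintype.card F ^ 6 * (Fintype.card F ^ 4 - 1) * (Fintype.card F ^ 3 - 1) * (Fintype.card F ^ 2 - 1) := by
  obtain ⟨q, hq⟩ : ∃ q, Fintype.card F = q := ⟨_, rfl⟩
  have hq2 : 2 ≤ q := hq ▸ Fintype.one_lt_card
  have h := Cfsg.Agent.H10.card_SL_mul (F := F) 4 (by norm_num)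
  rw [Matrix.card_GL_field] at h
  simp only [Fin.prod_univ_four] at h
  simp only [Fin.val_zero, Fin.val_one, Fin.val_two, pow_zero, pow_one] at h
  have hv3 : (((3 : Fin 4) : ℕ)) = 3 := rfl
  rw [hv3] at h
  rw [hq] at h ⊢
  have hq1 : 0 < q - 1 := by omega
  apply Nat.eq_of_mul_eq_mul_right hq1
  rw [h]
  obtain ⟨k, rfl⟩ : ∃ k, q = k + 2 := ⟨q - 2, by omega⟩
  zify [show 1 ≤ (k + 2) ^ 4 from Nat.one_le_pow _ _ (by omega), show 1 ≤ (k + 2) ^ 3 from Nat.one_le_pow _ _ (by omega),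
    show 1 ≤ (k + 2) ^ 2 from Nat.one_le_pow _ _ (by omega), show 1 ≤ k + 2 by omega,
    show (k + 2) ≤ (k + 2) ^ 4 from Nat.le_self_pow (by norm_num) _,
    show (k + 2) ^ 2 ≤ (k + 2) ^ 4 from Nat.pow_le_pow_right (by omega) (by norm_num),
    show (k + 2) ^ 3 ≤ (k + 2) ^ 4 from Nat.pow_le_pow_right (by omega) (by norm_num)]
  ring

/-- **`PΩ⁺₆(q) ≅ PSL₄(q)`** -/
theorem pomega6plus :
    Nonempty (POmega F (quadFormPlus 3 F) ≃* ProjectiveSpecialLinearGroup (Fin 4) F) := by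
  classical
  have hQ := quadFormPlus_nondeg (F := F) 3
  have hcardO := Cfsg.Agent.Lead.Ortho.card_GO_plus (F := F) rfl 3 (by norm_num)
  have hr : Nat.card (phi6 (F := F)).range * Nat.card (phi6 (F := F)).ker =
      Nat.card (Matrix.SpecialLinearGroup (Fin 4) F) := by
    rw [mul_comm, ← Subgroup.index_ker, Subgroup.card_mul_index]
  rw [card_SL4] at hr
  have hP : Nat.card ↥(isometryGroup F (quadFormPlus 3 F)) =
      2 * (Fintype.card F ^ 6 * (Fintype.card F ^ 4 - 1) * (Fintype.card F ^ 3 - 1) * (Fintype.card F ^ 2 - 1)) := by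
    rw [hcardO]
    simp only [Finset.prod_range_succ, Finset.prod_range_zero]
    norm_num
    ring
  refine exc_main hQ (by simp) (phi6 (F := F)) ?_ ?_ ?_ ?_ ?_
  · intro s
    have h1 := Cfsg.Agent.Lead.commutator_SL_eq_top (ι := Fin 4) (F := F) (by simp)
    apply map_comm_mem
    rw [h1]
    trivial
  · intro h2
    have hk : Nat.card (phi6 (F := F)).ker = 2 := by
      let m : Matrix.SpecialLinearGroup (Fin 4) F := ⟨-1, by simp [Matrix.det_neg]; norm_num⟩
      have hm : (m : Matrix (Fin 4) (Fin 4) F) = -1 := rfl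
      have hne : (-1 : F) ≠ 1 := by
        intro h
        apply h2
        linear_combination (-1 : F) * h
      have hmk : m ∈ (phi6 (F := F)).ker := by
        rw [phi6_ker]
        exact Or.inr hm
      have hm1 : m ≠ 1 := by
        intro h
        have := congrArg (fun x : Matrix.SpecialLinearGroup (Fin 4) F => (x : Matrix (Fin 4) (Fin 4) F) 0 0) h
        simp [hm] at this
        exact hne this
      rw [Nat.card_eq_two_iff' (1 : (phi6 (F := F)).ker)]
      refine ⟨⟨m, hmk⟩, fun h => hm1 (congrArg Subtype.val h), ?_⟩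
      rintro ⟨y, hy⟩ hy1
      apply Subtype.ext
      rcases (phi6_ker y).1 hy with h | h
      · exfalso
        apply hy1
        apply Subtype.ext
        exact Subtype.ext h
      · exact Subtype.ext h
    rw [hk] at hr
    rw [hP, ← hr]
    ring
  · intro h2
    have hk : Nat.card (phi6 (F := F)).ker = 1 := by
      rw [Nat.card_eq_one_iff_unique]
      refine ⟨⟨?_⟩, ⟨1⟩⟩
      rintro ⟨y, hy⟩ ⟨z, hz⟩
      apply Subtype.ext
      have hone : (-1 : Matrix (Fin 4) (Fin 4) F) = 1 := by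
        have : (-1 : F) = 1 := by linear_combination (-1 : F) * h2
        ext i j
        fin_cases i <;> fin_cases j <;> simp [this]
      have key : ∀ w ∈ (phi6 (F := F)).ker, w = 1 := by
        intro w hw
        apply Subtype.ext
        rcases (phi6_ker w).1 hw with h | h
        · exact h
        · rw [h, hone]; rfl
      show y = z
      rw [key y hy, key z hz]
    rw [hk, mul_one] at hr
    rw [hP, ← hr]
  · intro s hs
    rw [Subgroup.mem_center_iff]
    intro g
    apply Subtype.ext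
    rcases (phi6_ker s).1 hs with h | h <;> simp [h]
  · intro s hs
    exact sl_center_free s hs

end Final6

end Cfsg.Agent.H27.Exc
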