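import Mathlib
import Cfsg.Prelude.Def_GeometricClasses
import Cfsg.Agent.Lib.H27.GeoDec

/-!
# Pure tensors, Kronecker products, and transfer of tensor-class statements to the product index
-/

set_option autoImplicit false
set_option linter.unusedSectionVars false

namespace Cfsg.Agent.H27.GT

open scoped Matrix MatrixGroups Kronecker
open Cfsg Cfsg.Geo Cfsg.Agent.H27.GD

variable {ι : Type} [Fintype ι] [DecidableEq ι] {F : Type*} [Field F] {n₁ n₂ : ℕ}

/-- The pure tensor of two coordinate vectors. -/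
def ptens (p : Fin n₁ → F) (s : Fin n₂ → F) : Fin n₁ × Fin n₂ → F := fun q => p q.1 * s q.2

theorem kron_mulVec_ptens (a : Matrix (Fin n₁) (Fin n₁) F) (b : Matrix (Fin n₂) (Fin n₂) F)
    (p : Fin n₁ → F) (s : Fin n₂ → F) : (a ⊗ₖ b) *ᵥ ptens p s = ptens (a *ᵥ p) (b *ᵥ s) := by
  funext ⟨i, j⟩
  simp only [Matrix.mulVec, dotProduct, ptens, Fintype.sum_prod_type, Matrix.kroneckerMap_apply]
  rw [Finset.sum_mul_sum]
  refine Finset.sum_congr rfl fun i' _ => Finset.sum_congr rfl fun j' _ => by ring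

theorem formOfGram_ptens (σ : F → F) (hσ : ∀ x y, σ (x * y) = σ x * σ y)
    (G₁ : Matrix (Fin n₁) (Fin n₁) F) (G₂ : Matrix (Fin n₂) (Fin n₂) F)
    (p r : Fin n₁ → F) (s t : Fin n₂ → F) :
    formOfGram σ (G₁ ⊗ₖ G₂) (ptens p s) (ptens r t) = formOfGram σ G₁ p r * formOfGram σ G₂ s t := by
  simp only [formOfGram, ptens, Fintype.sum_prod_type, Matrix.kroneckerMap_apply, hσ]
  rw [Finset.sum_mul]
  refine Finset.sum_congr rfl fun i _ => ?_
  rw [Finset.sum_comm, Finset.sum_mul]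
  refine Finset.sum_congr rfl fun i' _ => ?_
  rw [Finset.mul_sum]
  refine Finset.sum_congr rfl fun j _ => ?_
  rw [Finset.mul_sum]
  refine Finset.sum_congr rfl fun j' _ => by ring

theorem ptens_add_left (p p' : Fin n₁ → F) (s : Fin n₂ → F) : ptens (p + p') s = ptens p s + ptens p' s := by
  funext q
  simp [ptens, add_mul]

theorem ptens_add_right (p : Fin n₁ → F) (s s' : Fin n₂ → F) : ptens p (s + s') = ptens p s + ptens p s' := by
  funext q
  simp [ptens, mul_add]

theorem ptens_smul_left (a : F) (p : Fin n₁ → F) (s : Fin n₂ → F) : ptens (a • p) s = a • ptens p s := by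
  funext q
  simp [ptens, mul_assoc]

theorem ptens_smul_right (a : F) (p : Fin n₁ → F) (s : Fin n₂ → F) : ptens p (a • s) = a • ptens p s := by
  funext q
  simp [ptens]
  ring

/-- The pure tensor determines its right factor up to a scalar. -/
theorem ptens_eq_right {p p' : Fin n₁ → F} {s s' : Fin n₂ → F} (hp : p ≠ 0)
    (h : ptens p s = ptens p' s') : ∃ a : F, s = a • s' := by
  obtain ⟨i, hi⟩ := Function.ne_iff.mp hp
  refine ⟨p' i * (p i)⁻¹, ?_⟩
  funext j
  have := congrFun h (i, j)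
  simp only [ptens] at this
  simp only [Pi.smul_apply, smul_eq_mul]
  have hi' : p i ≠ 0 := hi
  field_simp
  linear_combination this

/-- The pure tensor determines its left factor up to a scalar. -/
theorem ptens_eq_left {p p' : Fin n₁ → F} {s s' : Fin n₂ → F} (hs : s ≠ 0)
    (h : ptens p s = ptens p' s') : ∃ a : F, p = a • p' := by
  obtain ⟨j, hj⟩ := Function.ne_iff.mp hs
  refine ⟨s' j * (s j)⁻¹, ?_⟩
  funext i
  have := congrFun h (i, j)
  simp only [ptens] at this
  simp only [Pi.smul_apply, smul_eq_mul]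
  have hj' : s j ≠ 0 := hj
  field_simp
  linear_combination this

/-! ### Gram matrices -/

theorem sum_single_eq {κ : Type} [Fintype κ] [DecidableEq κ] (x : κ → F) :
    x = ∑ a, x a • (Pi.single a 1 : κ → F) := by
  funext k
  simp [Finset.sum_apply, Pi.single_apply]

/-- A bilinear form is the form of its Gram matrix. -/
theorem form_eq_formOfGram_id {κ : Type} [Fintype κ] [DecidableEq κ] {f : (κ → F) → (κ → F) → F}
    (hf : IsBilinearForm f) (x y : κ → F) : f x y = formOfGram id (gramMatrix f) x y := by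
  let L := LinearMap.mk₂ F f hf.add_left hf.smul_left hf.add_right hf.smul_right
  have hL : ∀ x y, f x y = L x y := fun _ _ => rfl
  rw [hL]
  conv_lhs => rw [sum_single_eq x, sum_single_eq y]
  rw [map_sum L, LinearMap.sum_apply]
  simp only [formOfGram]
  refine Finset.sum_congr rfl fun a _ => ?_
  rw [map_sum]
  refine Finset.sum_congr rfl fun b _ => ?_
  simp only [map_smul, LinearMap.smul_apply, smul_eq_mul, id]
  change y b * (x a * f _ _) = x a * gramMatrix f a b * y b
  simp only [gramMatrix]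
  ring

/-! ### Transfer along the change of basis -/

/-- The group isomorphism underlying `tensorProductSubgroup`. -/
noncomputable def tenIso (e : ι ≃ Fin n₁ × Fin n₂) (P : GL ι F) : GL (Fin n₁ × Fin n₂) F ≃* GL ι F :=
  (glReindex e.symm).trans (MulAut.conj P)

/-- The change of coordinates. -/
def Phi (e : ι ≃ Fin n₁ × Fin n₂) (P : GL ι F) (x : Fin n₁ × Fin n₂ → F) : ι → F :=
  (P : Matrix ι ι F) *ᵥ (x ∘ e)

theorem tenIso_mulVec (e : ι ≃ Fin n₁ × Fin n₂) (P : GL ι F) (g : GL (Fin n₁ × Fin n₂) F)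
    (x : Fin n₁ × Fin n₂ → F) :
    ((tenIso e P g : GL ι F) : Matrix ι ι F) *ᵥ Phi e P x =
      Phi e P ((g : Matrix (Fin n₁ × Fin n₂) (Fin n₁ × Fin n₂) F) *ᵥ x) := by
  have h1 : ((tenIso e P g : GL ι F) : Matrix ι ι F) =
      (P : Matrix ι ι F) * ((g : Matrix (Fin n₁ × Fin n₂) (Fin n₁ × Fin n₂) F).submatrix e e) *
        ((P⁻¹ : GL ι F) : Matrix ι ι F) := rfl
  rw [h1, Phi, Phi, Matrix.mulVec_mulVec, Matrix.mul_assoc, Matrix.mul_assoc, ← Units.val_mul, inv_mul_cancel,
    Units.val_one, Matrix.mul_one, ← Matrix.mulVec_mulVec, Matrix.submatrix_mulVec_equiv]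
  have : (x ∘ e) ∘ e.symm = x := by
    funext a
    simp
  rw [this]

theorem Phi_surj (e : ι ≃ Fin n₁ × Fin n₂) (P : GL ι F) : Function.Surjective (Phi (F := F) e P) := by
  intro y
  refine ⟨(((P⁻¹ : GL ι F) : Matrix ι ι F) *ᵥ y) ∘ e.symm, ?_⟩
  simp only [Phi]
  have : (((P⁻¹ : GL ι F) : Matrix ι ι F) *ᵥ y) ∘ e.symm ∘ e = ((P⁻¹ : GL ι F) : Matrix ι ι F) *ᵥ y := by
    funext a; simp
  rw [Function.comp_assoc, this, Matrix.mulVec_mulVec, ← Units.val_mul, mul_inv_cancel, Units.val_one,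
    Matrix.one_mulVec]

theorem Phi_inj (e : ι ≃ Fin n₁ × Fin n₂) (P : GL ι F) : Function.Injective (Phi (F := F) e P) := by
  intro x y h
  have h1 := mulVec_inj h
  funext q
  have := congrFun h1 (e.symm q)
  simpa using this

theorem Phi_add (e : ι ≃ Fin n₁ × Fin n₂) (P : GL ι F) (x y : Fin n₁ × Fin n₂ → F) :
    Phi e P (x + y) = Phi e P x + Phi e P y := by
  simp only [Phi, ← Matrix.mulVec_add]
  rfl

theorem Phi_smul (e : ι ≃ Fin n₁ × Fin n₂) (P : GL ι F) (a : F) (x : Fin n₁ × Fin n₂ → F) :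
    Phi e P (a • x) = a • Phi e P x := by
  simp only [Phi, ← Matrix.mulVec_smul]
  rfl

/-- `Phi` as a linear map. -/
def PhiL (e : ι ≃ Fin n₁ × Fin n₂) (P : GL ι F) : (Fin n₁ × Fin n₂ → F) →ₗ[F] (ι → F) where
  toFun := Phi e P
  map_add' := Phi_add e P
  map_smul' := Phi_smul e P

theorem tensor_eq (e : ι ≃ Fin n₁ × Fin n₂) (P : GL ι F) :
    tensorProductSubgroup n₁ n₂ e P = (kroneckerSubgroup n₁ n₂ F).map (tenIso e P).toMonoidHom := by
  rw [tensorProductSubgroup, Subgroup.map_map]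
  rfl

theorem tenIso_mem_isoF (e : ι ≃ Fin n₁ × Fin n₂) (P : GL ι F) (B : (ι → F) → (ι → F) → F)
    (g : GL (Fin n₁ × Fin n₂) F) :
    tenIso e P g ∈ isoF B ↔ g ∈ isoF (fun x y => B (Phi e P x) (Phi e P y)) := by
  constructor
  · intro h x y
    change B (Phi e P _) (Phi e P _) = B (Phi e P x) (Phi e P y)
    rw [← tenIso_mulVec, ← tenIso_mulVec]
    exact h _ _
  · intro h x y
    obtain ⟨x, rfl⟩ := Phi_surj e P x
    obtain ⟨y, rfl⟩ := Phi_surj e P y
    rw [tenIso_mulVec, tenIso_mulVec]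
    exact h x y

theorem det_tenIso (e : ι ≃ Fin n₁ × Fin n₂) (P : GL ι F) (g : GL (Fin n₁ × Fin n₂) F) :
    ((tenIso e P g : GL ι F) : Matrix ι ι F).det = (g : Matrix (Fin n₁ × Fin n₂) (Fin n₁ × Fin n₂) F).det := by
  have h1 : ((tenIso e P g : GL ι F) : Matrix ι ι F) =
      (P : Matrix ι ι F) * ((g : Matrix (Fin n₁ × Fin n₂) (Fin n₁ × Fin n₂) F).submatrix e e) *
        ((P⁻¹ : GL ι F) : Matrix ι ι F) := rfl
  rw [h1, Matrix.det_mul, Matrix.det_mul, Matrix.det_submatrix_equiv_self, mul_comm, ← mul_assoc,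
    ← Matrix.det_mul, ← Units.val_mul, inv_mul_cancel, Units.val_one, Matrix.det_one, one_mul]

theorem tenIso_mem_SL (e : ι ≃ Fin n₁ × Fin n₂) (P : GL ι F) (g : GL (Fin n₁ × Fin n₂) F) :
    tenIso e P g ∈ specialLinear ι F ↔ g ∈ specialLinear (Fin n₁ × Fin n₂) F := by
  simp only [specialLinear, MonoidHom.mem_ker]
  rw [Units.ext_iff, Units.ext_iff]
  simp only [Matrix.GeneralLinearGroup.val_det_apply, Units.val_one]
  rw [det_tenIso]

/-- Transfer to the product index. -/
theorem transfer (e : ι ≃ Fin n₁ × Fin n₂) (P : GL ι F) (T : Subgroup (GL ι F))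
    (h : ∃ K' : Subgroup (GL (Fin n₁ × Fin n₂) F),
      kroneckerSubgroup n₁ n₂ F ⊓ T.comap (tenIso e P).toMonoidHom < K' ∧
        K' < T.comap (tenIso e P).toMonoidHom) :
    ∃ K : Subgroup (GL ι F), tensorProductSubgroup n₁ n₂ e P ⊓ T < K ∧ K < T := by
  obtain ⟨K', h1, h2⟩ := h
  have hinj : Function.Injective (tenIso e P).toMonoidHom := (tenIso e P).injective
  have hsurj : Function.Surjective (tenIso e P).toMonoidHom := (tenIso e P).surjective
  have hT : (T.comap (tenIso e P).toMonoidHom).map (tenIso e P).toMonoidHom = T :=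
    Subgroup.map_comap_eq_self_of_surjective hsurj T
  refine ⟨K'.map (tenIso e P).toMonoidHom, ?_, ?_⟩
  · have h3 := (Subgroup.map_lt_map_iff_of_injective hinj).mpr h1
    rw [Subgroup.map_inf _ _ _ hinj, hT, ← tensor_eq] at h3
    exact h3
  · have h3 := (Subgroup.map_lt_map_iff_of_injective hinj).mpr h2
    rwa [hT] at h3

end Cfsg.Agent.H27.GT
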