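import Mathlib
import Cfsg.Prelude.Def_GeometricClasses
import Cfsg.Agent.Lib.H27.GeoSieg
import Cfsg.Agent.Lib.H27.GeoTens
import Cfsg.Agent.S5638

/-!
# Tensor decompositions with a symplectic plane factor over the field with two elements, orthogonal case
-/

set_option autoImplicit false
set_option linter.unusedSectionVars false
set_option linter.unusedSimpArgs false

namespace Cfsg.Agent.H27.GO

open scoped MatrixGroups Matrix Kronecker
open Cfsg Cfsg.Geo Cfsg.Agent.H27.GD Cfsg.Agent.H27.GT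
open Cfsg.Agent.S5638 (nrm)

variable {ι : Type} [Fintype ι] [DecidableEq ι] {F : Type*} [Field F] {Q : (ι → F) → F}

/-- The order three matrix. -/
def omM : Matrix (Fin 2) (Fin 2) F := !![0, 1; 1, 1]

/-- Its inverse in characteristic two. -/
def omM' : Matrix (Fin 2) (Fin 2) F := !![1, 1; 1, 0]

theorem omM_mul (h2 : (2 : F) = 0) : (omM : Matrix (Fin 2) (Fin 2) F) * omM' = 1 := by
  ext i j
  fin_cases i <;> fin_cases j <;> simp [omM, omM', Matrix.mul_apply, Fin.sum_univ_two] <;> linear_combination h2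

theorem omM'_mul (h2 : (2 : F) = 0) : (omM' : Matrix (Fin 2) (Fin 2) F) * omM = 1 := by
  ext i j
  fin_cases i <;> fin_cases j <;> simp [omM, omM', Matrix.mul_apply, Fin.sum_univ_two] <;> linear_combination h2

/-- The Kronecker product of the order three matrix with the identity. -/
def W0 (h2 : (2 : F) = 0) (n₂ : ℕ) : GL (Fin 2 × Fin n₂) F :=
  ⟨omM ⊗ₖ (1 : Matrix (Fin n₂) (Fin n₂) F), omM' ⊗ₖ (1 : Matrix (Fin n₂) (Fin n₂) F),
    by rw [← Matrix.mul_kronecker_mul, omM_mul h2, Matrix.one_mul, Matrix.one_kronecker_one],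
    by rw [← Matrix.mul_kronecker_mul, omM'_mul h2, Matrix.one_mul, Matrix.one_kronecker_one]⟩

theorem kron_le_nrm [Fintype F] (hq : Fintype.card F = 2) (h2 : (2 : F) = 0) (n₂ : ℕ) :
    kroneckerSubgroup 2 n₂ F ≤ nrm (W0 h2 n₂) := by
  classical
  have hone : ∀ a : F, a ≠ 0 → a = 1 := by
    intro a ha
    have := FiniteField.pow_card_sub_one_eq_one a ha
    rw [hq] at this
    simpa using this
  have hzo : ∀ a : F, a = 0 ∨ a = 1 := fun a => by
    by_cases ha : a = 0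
    · exact Or.inl ha
    · exact Or.inr (hone a ha)
  let ω : Matrix (Fin 2) (Fin 2) F := omM
  let ω' : Matrix (Fin 2) (Fin 2) F := omM'
  rintro g ⟨a, b, hg⟩
  have hcases : ((a : Matrix (Fin 2) (Fin 2) F) * ω = ω * (a : Matrix (Fin 2) (Fin 2) F)) ∨
      ((a : Matrix (Fin 2) (Fin 2) F) * ω = ω' * (a : Matrix (Fin 2) (Fin 2) F)) := by
    have hdet : (a : Matrix (Fin 2) (Fin 2) F).det ≠ 0 := by
      have := a.isUnit
      exact ((Matrix.isUnit_iff_isUnit_det _).mp this).ne_zero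
    rw [Matrix.det_fin_two] at hdet
    have hex : (a : Matrix (Fin 2) (Fin 2) F) =
        !![(a : Matrix (Fin 2) (Fin 2) F) 0 0, (a : Matrix (Fin 2) (Fin 2) F) 0 1;
           (a : Matrix (Fin 2) (Fin 2) F) 1 0, (a : Matrix (Fin 2) (Fin 2) F) 1 1] := by
      ext i j
      fin_cases i <;> fin_cases j <;> rfl
    rw [hex]
    generalize (a : Matrix (Fin 2) (Fin 2) F) 0 0 = x00 at *
    generalize (a : Matrix (Fin 2) (Fin 2) F) 0 1 = x01 at *
    generalize (a : Matrix (Fin 2) (Fin 2) F) 1 0 = x10 at *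
    generalize (a : Matrix (Fin 2) (Fin 2) F) 1 1 = x11 at *
    have h11 : (1 : F) + 1 = 0 := by linear_combination h2
    have hcond : (x01 = x10 ∧ x11 = x00 + x01) ∨ (x11 = x00 ∧ x01 = x00 + x10) := by
      rcases hzo x00 with rfl | rfl <;> rcases hzo x01 with rfl | rfl <;>
        rcases hzo x10 with rfl | rfl <;> rcases hzo x11 with rfl | rfl <;>
        first
        | (exfalso; apply hdet; simp [h11]; done)
        | (exfalso; apply hdet; simp [h11, sub_eq_add_neg]; done)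
        | (simp [h11]; done)
    rcases hcond with ⟨rfl, rfl⟩ | ⟨rfl, rfl⟩
    · left
      ext i j
      fin_cases i <;> fin_cases j <;> simp [ω, omM, Matrix.mul_apply, Fin.sum_univ_two] <;> ring
    · right
      ext i j
      fin_cases i <;> fin_cases j <;> simp [ω, ω', omM, omM', Matrix.mul_apply, Fin.sum_univ_two] <;> ring
  have hWk : ((W0 h2 n₂ : GL (Fin 2 × Fin n₂) F) : Matrix (Fin 2 × Fin n₂) (Fin 2 × Fin n₂) F) = ω ⊗ₖ (1 : Matrix (Fin n₂) (Fin n₂) F) := rfl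
  have hWik : (((W0 h2 n₂)⁻¹ : GL (Fin 2 × Fin n₂) F) : Matrix (Fin 2 × Fin n₂) (Fin 2 × Fin n₂) F) = ω' ⊗ₖ (1 : Matrix (Fin n₂) (Fin n₂) F) := rfl
  rcases hcases with hc | hc
  · left
    have : g * W0 h2 n₂ = W0 h2 n₂ * g := by
      apply Units.ext
      rw [Units.val_mul, Units.val_mul, hg, hWk, ← Matrix.mul_kronecker_mul, ← Matrix.mul_kronecker_mul, hc,
        Matrix.mul_one, Matrix.one_mul]
    rw [this]
    group
  · right
    have : g * W0 h2 n₂ = (W0 h2 n₂)⁻¹ * g := by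
      apply Units.ext
      rw [Units.val_mul, Units.val_mul, hg, hWk, hWik, ← Matrix.mul_kronecker_mul, ← Matrix.mul_kronecker_mul, hc,
        Matrix.mul_one, Matrix.one_mul]
    rw [this]
    group

/-- Induction over pure tensors. -/
theorem ptens_induction {n₁ n₂ : ℕ} {R : (Fin n₁ × Fin n₂ → F) → Prop} (h0 : R 0) (hadd : ∀ x y, R x → R y → R (x + y))
    (hsmul : ∀ (a : F) x, R x → R (a • x)) (hp : ∀ p s, R (ptens p s)) (x : Fin n₁ × Fin n₂ → F) : R x := by
  classical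
  rw [sum_single_eq x]
  have hs : ∀ s : Finset (Fin n₁ × Fin n₂), R (∑ a ∈ s, x a • (Pi.single a 1 : Fin n₁ × Fin n₂ → F)) := by
    intro s
    induction s using Finset.induction_on with
    | empty => simpa using h0
    | insert a s ha ih =>
      rw [Finset.sum_insert ha]
      apply hadd _ _ _ ih
      apply hsmul
      have : (Pi.single a 1 : Fin n₁ × Fin n₂ → F) = ptens (Pi.single a.1 1) (Pi.single a.2 1) := by
        funext q
        obtain ⟨a1, a2⟩ := a
        obtain ⟨q1, q2⟩ := q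
        by_cases h1 : q1 = a1 <;> by_cases h2 : q2 = a2 <;> simp [ptens, Pi.single_apply, h1, h2]
      rw [this]
      exact hp _ _
  exact hs _

/-- The main theorem. -/
theorem f2tensor_main [Fintype F] (hq : Fintype.card F = 2) (hn : 7 ≤ Fintype.card ι) (hQ : IsNondegenerateQuadraticForm Q)
    {n₂ : ℕ} (h3 : 3 ≤ n₂) (e : ι ≃ Fin 2 × Fin n₂) (P : GL ι F) (f₁ : (Fin 2 → F) → (Fin 2 → F) → F)
    (f₂ : (Fin n₂ → F) → (Fin n₂ → F) → F) (hf₁ : IsSymplecticForm f₁) (hf₂ : IsSymplecticForm f₂)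
    (hT : IsTensorFormStructure id (QuadraticMap.polar Q) f₁ f₂ e P)
    (hpure : ∀ (x₁ : Fin 2 → F) (x₂ : Fin n₂ → F), Q (Phi e P (ptens x₁ x₂)) = 0) :
    ∃ K : Subgroup (GL ι F), tensorProductSubgroup 2 n₂ e P ⊓ omegaGL Q < K ∧ K < omegaGL Q := by
  classical
  have h2 : (2 : F) = 0 := by
    have : (Fintype.card F : F) = 0 := by simp
    rw [hq] at this
    exact_mod_cast this
  have hone : ∀ a : F, a ≠ 0 → a = 1 := by
    intro a ha
    have := FiniteField.pow_card_sub_one_eq_one a ha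
    rw [hq] at this
    simpa using this
  have hsubF : ∀ a b : F, a - b = a + b := fun a b => by linear_combination -b * h2
  have hnegF : ∀ a : F, -a = a := fun a => by linear_combination -a * h2
  obtain ⟨c, hc, hcf⟩ := hT
  have hc1 : c = 1 := hone c hc
  let Tn : (Fin 2 → F) → (Fin n₂ → F) → ι → F := fun p s => Phi e P (ptens p s)
  have hTT : ∀ p r s t, pl Q (Tn p s) (Tn r t) = f₁ p r * f₂ s t := by
    intro p r s t
    simp only [Tn, Phi]
    change QuadraticMap.polar Q _ _ = _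
    rw [hcf, formOfGram_ptens _ (fun x y => rfl), ← form_eq_formOfGram_id hf₁.bilinear,
      ← form_eq_formOfGram_id hf₂.bilinear, hc1, one_mul]
  have hQT : ∀ p s, Q (Tn p s) = 0 := hpure
  have hTaddr : ∀ p s s', Tn p (s + s') = Tn p s + Tn p s' := by
    intro p s s'
    simp only [Tn, ptens_add_right, Phi_add]
  have hTaddl : ∀ p p' s, Tn (p + p') s = Tn p s + Tn p' s := by
    intro p p' s
    simp only [Tn, ptens_add_left, Phi_add]
  -- the coordinates of the plane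
  let e₀ : Fin 2 → F := Pi.single 0 1
  let e₁ : Fin 2 → F := Pi.single 1 1
  have hexp : ∀ p : Fin 2 → F, p = p 0 • e₀ + p 1 • e₁ := by
    intro p
    ext i
    fin_cases i <;> simp [e₀, e₁]
  have h00 : f₁ e₀ e₀ = 0 := hf₁.alternating _
  have h11 : f₁ e₁ e₁ = 0 := hf₁.alternating _
  have h01 : f₁ e₀ e₁ = 1 := by
    apply hone
    intro h0
    have he₀ : e₀ ≠ 0 := by
      intro h
      have := congrFun h 0
      simp [e₀] at this
    obtain ⟨-, y, hy⟩ := hf₁.nondegenerate e₀ he₀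
    apply hy
    rw [hexp y, hf₁.bilinear.add_right, hf₁.bilinear.smul_right, hf₁.bilinear.smul_right, h00, h0]
    ring
  have h10 : f₁ e₁ e₀ = 1 := by
    rw [hf₁.skew, h01, hnegF]
  have hf₁form : ∀ p q, f₁ p q = p 0 * q 1 + p 1 * q 0 := by
    intro p q
    conv_lhs => rw [hexp p, hexp q]
    simp only [hf₁.bilinear.add_left, hf₁.bilinear.add_right, hf₁.bilinear.smul_left, hf₁.bilinear.smul_right, h00, h01, h10, h11]
    ring
  have homv0 : ∀ p : Fin 2 → F, (omM *ᵥ p) 0 = p 1 := by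
    intro p
    simp [omM, Matrix.mulVec, dotProduct, Fin.sum_univ_two]
  have homv1 : ∀ p : Fin 2 → F, (omM *ᵥ p) 1 = p 0 + p 1 := by
    intro p
    simp [omM, Matrix.mulVec, dotProduct, Fin.sum_univ_two]
  have homf : ∀ p q : Fin 2 → F, f₁ (omM *ᵥ p) q = f₁ p (omM *ᵥ q) + f₁ p q := by
    intro p q
    simp only [hf₁form, homv0, homv1]
    linear_combination -p 0 * q 1 * h2
  have homom : ∀ p : Fin 2 → F, omM *ᵥ (omM *ᵥ p) = omM *ᵥ p + p := by
    intro p
    ext i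
    fin_cases i
    · simp only [Fin.zero_eta, homv0, homv1, Pi.add_apply]
      ring
    · simp only [Fin.mk_one, homv0, homv1, Pi.add_apply]
      ring
  have home₀ : omM *ᵥ e₀ = e₁ := by
    ext i
    fin_cases i
    · simp [homv0, e₀, e₁]
    · simp [homv1, e₀, e₁]
  have home₁ : omM *ᵥ e₁ = e₀ + e₁ := by
    ext i
    fin_cases i
    · simp [homv0, e₀, e₁]
    · simp [homv1, e₀, e₁]
  have home₀' : omM' *ᵥ e₀ = e₀ + e₁ := by
    ext i
    fin_cases i <;> simp [omM', Matrix.mulVec, dotProduct, Fin.sum_univ_two, e₀, e₁]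
  -- the element W
  let W : GL ι F := tenIso e P (W0 h2 n₂)
  have hW : ∀ p s, (W : Matrix ι ι F) *ᵥ Tn p s = Tn (omM *ᵥ p) s := by
    intro p s
    change ((tenIso e P (W0 h2 n₂) : GL ι F) : Matrix ι ι F) *ᵥ Phi e P (ptens p s) = _
    rw [tenIso_mulVec]
    change Phi e P ((omM ⊗ₖ (1 : Matrix (Fin n₂) (Fin n₂) F)) *ᵥ ptens p s) = _
    rw [kron_mulVec_ptens, Matrix.one_mulVec]
  have hWi : ∀ p s, ((W⁻¹ : GL ι F) : Matrix ι ι F) *ᵥ Tn p s = Tn (omM' *ᵥ p) s := by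
    intro p s
    have : W⁻¹ = tenIso e P (W0 h2 n₂)⁻¹ := (map_inv (tenIso e P) _).symm
    rw [this]
    change ((tenIso e P (W0 h2 n₂)⁻¹ : GL ι F) : Matrix ι ι F) *ᵥ Phi e P (ptens p s) = _
    rw [tenIso_mulVec]
    change Phi e P ((omM' ⊗ₖ (1 : Matrix (Fin n₂) (Fin n₂) F)) *ᵥ ptens p s) = _
    rw [kron_mulVec_ptens, Matrix.one_mulVec]
  have hW2 : ∀ z, (W : Matrix ι ι F) *ᵥ ((W : Matrix ι ι F) *ᵥ z) = (W : Matrix ι ι F) *ᵥ z + z := by
    intro z
    obtain ⟨x, rfl⟩ := Phi_surj e P z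
    induction x using ptens_induction with
    | h0 =>
      have : Phi e P (0 : Fin 2 × Fin n₂ → F) = 0 := by
        simp [Phi]
      simp [this]
    | hadd x y hx hy =>
      rw [Phi_add, Matrix.mulVec_add, Matrix.mulVec_add, hx, hy]
      abel
    | hsmul a x hx =>
      rw [Phi_smul, Matrix.mulVec_smul, Matrix.mulVec_smul, hx, smul_add]
    | hp p s =>
      change (W : Matrix ι ι F) *ᵥ ((W : Matrix ι ι F) *ᵥ Tn p s) = (W : Matrix ι ι F) *ᵥ Tn p s + Tn p s
      rw [hW, hW, homom, hTaddl]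
  have hW5 : ∀ z z', pl Q ((W : Matrix ι ι F) *ᵥ z) z' = pl Q z ((W : Matrix ι ι F) *ᵥ z') + pl Q z z' := by
    intro z z'
    obtain ⟨x, rfl⟩ := Phi_surj e P z
    obtain ⟨y, rfl⟩ := Phi_surj e P z'
    induction x using ptens_induction with
    | h0 =>
      have : Phi e P (0 : Fin 2 × Fin n₂ → F) = 0 := by
        simp [Phi]
      simp [this, pl_zero_left hQ]
    | hadd x x' hx hx' =>
      rw [Phi_add, Matrix.mulVec_add, pl_add_left hQ, hx, hx', pl_add_left hQ, pl_add_left hQ]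
      ring
    | hsmul a x hx =>
      rw [Phi_smul, Matrix.mulVec_smul, pl_smul_left hQ, hx, pl_smul_left hQ, pl_smul_left hQ]
      ring
    | hp p s =>
      induction y using ptens_induction with
      | h0 =>
        have : Phi e P (0 : Fin 2 × Fin n₂ → F) = 0 := by
          simp [Phi]
        simp [this, pl_zero_right hQ]
      | hadd y y' hy hy' =>
        rw [Phi_add, Matrix.mulVec_add, pl_add_right hQ, hy, hy', pl_add_right hQ, pl_add_right hQ]
        ring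
      | hsmul a y hy =>
        rw [Phi_smul, Matrix.mulVec_smul, pl_smul_right hQ, hy, pl_smul_right hQ, pl_smul_right hQ]
        ring
      | hp r t =>
        change pl Q ((W : Matrix ι ι F) *ᵥ Tn p s) (Tn r t) = pl Q (Tn p s) ((W : Matrix ι ι F) *ᵥ Tn r t) + pl Q (Tn p s) (Tn r t)
        rw [hW, hW, hTT, hTT, hTT, homf]
        ring
  -- the normaliser contains the tensor stabiliser
  have hact : ∀ g ∈ tensorProductSubgroup 2 n₂ e P, ∃ (a : GL (Fin 2) F) (b : GL (Fin n₂) F),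
      ∀ p s, (g : Matrix ι ι F) *ᵥ Tn p s = Tn ((a : Matrix (Fin 2) (Fin 2) F) *ᵥ p) ((b : Matrix (Fin n₂) (Fin n₂) F) *ᵥ s) := by
    intro g hg
    rw [tensor_eq] at hg
    obtain ⟨g', ⟨a, b, hg'⟩, rfl⟩ := hg
    refine ⟨a, b, fun p s => ?_⟩
    change ((tenIso e P g' : GL ι F) : Matrix ι ι F) *ᵥ Phi e P (ptens p s) = _
    rw [tenIso_mulVec, hg', kron_mulVec_ptens]
  have hle : tensorProductSubgroup 2 n₂ e P ⊓ omegaGL Q ≤ nrm W ⊓ omegaGL Q := by
    apply le_inf _ inf_le_right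
    rintro g ⟨hg, -⟩
    rw [tensor_eq] at hg
    obtain ⟨g', hg', rfl⟩ := hg
    rcases kron_le_nrm hq h2 n₂ hg' with h | h
    · left
      change tenIso e P g' * tenIso e P (W0 h2 n₂) * (tenIso e P g')⁻¹ = tenIso e P (W0 h2 n₂)
      simpa only [map_mul, map_inv] using congrArg (tenIso e P) h
    · right
      change tenIso e P g' * tenIso e P (W0 h2 n₂) * (tenIso e P g')⁻¹ = (tenIso e P (W0 h2 n₂))⁻¹
      simpa only [map_mul, map_inv] using congrArg (tenIso e P) h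
  -- vectors in the second factor
  have hs₀ : ∃ s₀ : Fin n₂ → F, s₀ ≠ 0 := by
    have : NeZero n₂ := ⟨by omega⟩
    refine ⟨Pi.single 0 1, ?_⟩
    intro h
    have := congrFun h 0
    simp at this
  obtain ⟨s₀, hs₀0⟩ := hs₀
  obtain ⟨⟨s₁, hs₁n⟩, -⟩ := hf₂.nondegenerate s₀ hs₀0
  have hs₁₀ : f₂ s₁ s₀ = 1 := hone _ hs₁n
  have hs₀₁ : f₂ s₀ s₁ = 1 := by rw [hf₂.skew, hs₁₀, hnegF]
  have hs₂ : ∃ s₂ : Fin n₂ → F, s₂ ≠ 0 ∧ f₂ s₂ s₀ = 0 ∧ f₂ s₂ s₁ = 0 := by
    let L : (Fin n₂ → F) →ₗ[F] (Fin 2 → F) :=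
      { toFun := fun x => ![f₂ x s₀, f₂ x s₁]
        map_add' := fun x y => by
          ext i
          fin_cases i <;> simp [hf₂.bilinear.add_left]
        map_smul' := fun a x => by
          ext i
          fin_cases i <;> simp [hf₂.bilinear.smul_left] }
    have hker : LinearMap.ker L ≠ ⊥ := LinearMap.ker_ne_bot_of_finrank_lt (by simp; omega)
    obtain ⟨x, hx, hx0⟩ := Submodule.exists_mem_ne_zero_of_ne_bot hker
    have hx' : ![f₂ x s₀, f₂ x s₁] = 0 := hx
    refine ⟨x, hx0, by simpa using congrFun hx' 0, by simpa using congrFun hx' 1⟩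
  obtain ⟨s₂, hs₂0, hs₂₀, hs₂₁⟩ := hs₂
  have hs₀₂ : f₂ s₀ s₂ = 0 := by rw [hf₂.skew, hs₂₀, neg_zero]
  have hs₁₂ : f₂ s₁ s₂ = 0 := by rw [hf₂.skew, hs₂₁, neg_zero]
  have hs₀₀ : f₂ s₀ s₀ = 0 := hf₂.alternating _
  have hs₁₁ : f₂ s₁ s₁ = 0 := hf₂.alternating _
  have hs₂₂ : f₂ s₂ s₂ = 0 := hf₂.alternating _
  -- the first element
  obtain ⟨v, hv⟩ : ∃ v : ι → F, v = Tn e₀ s₀ + Tn e₁ s₂ := ⟨_, rfl⟩
  have hWv : (W : Matrix ι ι F) *ᵥ v = Tn e₁ s₀ + (Tn e₀ s₂ + Tn e₁ s₂) := by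
    rw [hv, Matrix.mulVec_add, hW, hW, home₀, home₁, hTaddl]
  have hQv : Q v = 0 := by
    rw [hv, Q_add Q, hQT, hQT, hTT, hs₀₂]
    ring
  have hQWv : Q ((W : Matrix ι ι F) *ᵥ v) = 0 := by
    rw [hWv]
    simp only [Q_add Q, pl_add_left hQ, pl_add_right hQ, hQT, hTT, hs₀₂, hs₂₂, h00, h01, h10, h11]
    ring
  have hvWv : pl Q v ((W : Matrix ι ι F) *ᵥ v) = 0 := by
    rw [hWv, hv]
    simp only [pl_add_left hQ, pl_add_right hQ, hTT, hs₀₀, hs₀₂, hs₂₀, hs₂₂, h00, h01, h10, h11]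
    ring
  have hli : LinearIndependent F ![v, (W : Matrix ι ι F) *ᵥ v] := by
    rw [LinearIndependent.pair_iff]
    intro α β hαβ
    have h1 := congrArg (fun y => pl Q (Tn e₁ s₁) y) hαβ
    have h2' := congrArg (fun y => pl Q (Tn e₀ s₁) y) hαβ
    rw [hWv, hv] at h1 h2'
    simp only [pl_add_right hQ, pl_smul_right hQ, pl_zero_right hQ, hTT, hs₁₀, hs₁₂, h00, h01, h10, h11] at h1 h2'
    constructor
    · linear_combination h1
    · linear_combination h2'
  obtain ⟨g₁, hg₁Ω, hg₁⟩ := exists_sieg hQ hn hQv hQWv hvWv hli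
  have hg₁K : g₁ ∈ nrm W := by
    left
    have hcomm : g₁ * W = W * g₁ := by
      apply gl_ext
      intro z
      rw [Units.val_mul, Units.val_mul, ← Matrix.mulVec_mulVec, ← Matrix.mulVec_mulVec, hg₁, hg₁, Matrix.mulVec_sub,
        Matrix.mulVec_add, Matrix.mulVec_smul, Matrix.mulVec_smul, hW2 v, hW5 z ((W : Matrix ι ι F) *ᵥ v), hW5 z v, hW2 v,
        pl_add_right hQ]
      ext i
      simp only [Pi.add_apply, Pi.sub_apply, Pi.smul_apply, smul_eq_mul]
      generalize pl Q z v = A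
      generalize pl Q z ((W : Matrix ι ι F) *ᵥ v) = B
      linear_combination ((A + B) * v i - B * ((W : Matrix ι ι F) *ᵥ v) i) * h2
    rw [hcomm]
    group
  have hg₁N : g₁ ∉ tensorProductSubgroup 2 n₂ e P ⊓ omegaGL Q := by
    rintro ⟨hg, -⟩
    obtain ⟨a, b, hab⟩ := hact g₁ hg
    have h1 : (g₁ : Matrix ι ι F) *ᵥ Tn e₀ s₁ = Tn e₀ s₁ + Tn e₀ s₀ + Tn e₁ s₂ := by
      rw [hg₁, hWv, hv]
      simp only [pl_add_right hQ, hTT, hs₁₀, hs₁₂, h00, h01, h10, h11]
      simp [add_assoc]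
    rw [hab] at h1
    have h3' : ptens ((a : Matrix (Fin 2) (Fin 2) F) *ᵥ e₀) ((b : Matrix (Fin n₂) (Fin n₂) F) *ᵥ s₁) =
        ptens e₀ s₁ + ptens e₀ s₀ + ptens e₁ s₂ := by
      apply Phi_inj e P
      simp only [Tn, Phi_add] at h1 ⊢
      exact h1
    generalize (a : Matrix (Fin 2) (Fin 2) F) *ᵥ e₀ = p at h3'
    generalize (b : Matrix (Fin n₂) (Fin n₂) F) *ᵥ s₁ = t at h3'
    have c0 : ∀ j, p 0 * t j = s₁ j + s₀ j := by
      intro j
      have := congrFun h3' (0, j)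
      simpa [ptens, e₀, e₁] using this
    have c1 : ∀ j, p 1 * t j = s₂ j := by
      intro j
      have := congrFun h3' (1, j)
      simpa [ptens, e₀, e₁] using this
    have e0 : p 0 • t = s₁ + s₀ := by
      ext j
      exact c0 j
    have e1 : p 1 • t = s₂ := by
      ext j
      exact c1 j
    have f0 := congrArg (fun y => f₂ y s₀) e0
    have f1 := congrArg (fun y => f₂ y s₀) e1
    simp only [hf₂.bilinear.smul_left, hf₂.bilinear.add_left, hs₁₀, hs₀₀, hs₂₀, add_zero] at f0 f1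
    have hne : f₂ t s₀ ≠ 0 := by
      intro h0
      rw [h0, mul_zero] at f0
      exact zero_ne_one f0
    have hp1 : p 1 = 0 := (mul_eq_zero.mp f1).resolve_right hne
    rw [hp1, zero_smul] at e1
    exact hs₂0 e1.symm
  -- the second element
  have hli2 : LinearIndependent F ![Tn e₀ s₀, Tn e₀ s₂] := by
    obtain ⟨⟨s₃, hs₃⟩, -⟩ := hf₂.nondegenerate s₂ hs₂0
    rw [LinearIndependent.pair_iff]
    intro α β hαβ
    have h1 := congrArg (fun y => pl Q (Tn e₁ s₁) y) hαβ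
    simp only [pl_add_right hQ, pl_smul_right hQ, pl_zero_right hQ, hTT, hs₁₀, hs₁₂, h10] at h1
    have hα : α = 0 := by linear_combination h1
    subst hα
    refine ⟨rfl, ?_⟩
    have h2' := congrArg (fun y => pl Q (Tn e₁ s₃) y) hαβ
    simp only [pl_add_right hQ, pl_smul_right hQ, pl_zero_right hQ, hTT, h10, zero_mul, zero_add, one_mul] at h2'
    exact (mul_eq_zero.mp h2').resolve_right hs₃
  obtain ⟨g₂, hg₂Ω, hg₂⟩ := exists_sieg hQ hn (hQT e₀ s₀) (hQT e₀ s₂) (by rw [hTT, hs₀₂]; ring) hli2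
  have hg₂z : (g₂ : Matrix ι ι F) *ᵥ Tn e₀ s₁ = Tn e₀ s₁ := by
    rw [hg₂, hTT, hTT, h00]
    simp
  have hg₂w : (g₂ : Matrix ι ι F) *ᵥ Tn e₁ s₁ = Tn e₁ s₁ - Tn e₀ s₂ := by
    rw [hg₂, hTT, hTT, h10, hs₁₂, hs₁₀]
    simp
  have hg₂N : g₂ ∉ nrm W := by
    rintro (h | h)
    · have hc' : g₂ * W = W * g₂ := by
        calc g₂ * W = (g₂ * W * g₂⁻¹) * g₂ := by group
          _ = W * g₂ := by rw [h]
      have h4 := congrArg (fun g : GL ι F => (g : Matrix ι ι F) *ᵥ Tn e₀ s₁) hc'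
      simp only [Units.val_mul, ← Matrix.mulVec_mulVec] at h4
      rw [hW, home₀, hg₂w, hg₂z, hW, home₀] at h4
      obtain ⟨⟨s₃, hs₃⟩, -⟩ := hf₂.nondegenerate s₂ hs₂0
      have h5 := congrArg (fun y => pl Q (Tn e₁ s₃) y) h4
      simp only [pl_sub_right hQ, hTT, h10, h11] at h5
      apply hs₃
      linear_combination -h5
    · have hc' : g₂ * W = W⁻¹ * g₂ := by
        calc g₂ * W = (g₂ * W * g₂⁻¹) * g₂ := by group
          _ = W⁻¹ * g₂ := by rw [h]
      have h4 := congrArg (fun g : GL ι F => (g : Matrix ι ι F) *ᵥ Tn e₀ s₁) hc'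
      simp only [Units.val_mul, ← Matrix.mulVec_mulVec] at h4
      rw [hW, home₀, hg₂w, hg₂z, hWi, home₀', hTaddl] at h4
      have h5 := congrArg (fun y => pl Q (Tn e₁ s₀) y) h4
      simp only [pl_sub_right hQ, pl_add_right hQ, hTT, h10, h11, hs₀₂, hs₀₁] at h5
      have : (1 : F) = 0 := by linear_combination -h5
      exact one_ne_zero this
  refine ⟨nrm W ⊓ omegaGL Q, ?_, ?_⟩
  · rw [lt_iff_le_and_ne]
    refine ⟨hle, fun heq => ?_⟩
    have : g₁ ∈ nrm W ⊓ omegaGL Q := ⟨hg₁K, hg₁Ω⟩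
    rw [← heq] at this
    exact hg₁N this
  · rw [lt_iff_le_and_ne]
    refine ⟨inf_le_right, fun heq => ?_⟩
    rw [← heq] at hg₂Ω
    exact hg₂N hg₂Ω.1

end Cfsg.Agent.H27.GO
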