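import Mathlib
import Cfsg.Prelude.Def_GeometricClasses

set_option autoImplicit false

namespace Cfsg.Agent.H27.Tv

open scoped Matrix

variable {ι : Type} [Fintype ι] [DecidableEq ι] {F : Type*} [Field F]

/-- transvection matrix as an element of GL -/
theorem exists_tv (f : Module.Dual F (ι → F)) (v : ι → F) (hfv : f v = 0) :
    ∃ t : Matrix.GeneralLinearGroup ι F, t ∈ Cfsg.Geo.specialLinear ι F ∧
      ∀ x, (t : Matrix ι ι F) *ᵥ x = x + f x • v := by
  let T : (ι → F) →ₗ[F] (ι → F) := LinearMap.transvection f v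
  have hdet : (LinearMap.toMatrix' T).det = 1 := by
    rw [LinearMap.det_toMatrix']
    simp [T, hfv]
  refine ⟨Matrix.GeneralLinearGroup.mkOfDetNeZero (LinearMap.toMatrix' T) (by rw [hdet]; exact one_ne_zero), ?_, ?_⟩
  · rw [Cfsg.Geo.specialLinear, MonoidHom.mem_ker]
    apply Units.ext
    simpa [Matrix.GeneralLinearGroup.val_det_apply] using hdet
  · intro x
    have : ((Matrix.GeneralLinearGroup.mkOfDetNeZero (LinearMap.toMatrix' T) (by rw [hdet]; exact one_ne_zero) :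
        Matrix.GeneralLinearGroup ι F) : Matrix ι ι F) = LinearMap.toMatrix' T := rfl
    rw [this, LinearMap.toMatrix'_mulVec]
    simp [T, LinearMap.transvection.apply]

theorem mem_subspaceStabilizer_iff (W : Submodule F (ι → F)) (t : Matrix.GeneralLinearGroup ι F) :
    t ∈ Cfsg.Geo.subspaceStabilizer W ↔ ∀ v, v ∈ W ↔ (t : Matrix ι ι F) *ᵥ v ∈ W := Iff.rfl

/-- a matrix fixing `W` pointwise stabilises it -/
theorem mem_stab_of_fix (W : Submodule F (ι → F)) (t : Matrix.GeneralLinearGroup ι F)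
    (h : ∀ w ∈ W, (t : Matrix ι ι F) *ᵥ w = w) : t ∈ Cfsg.Geo.subspaceStabilizer W := by
  intro v
  constructor
  · intro hv
    change (t : Matrix ι ι F) *ᵥ v ∈ W
    rw [h v hv]; exact hv
  · intro hv
    have h1 := h _ hv
    have h2 : ((t : Matrix ι ι F)) *ᵥ (((t : Matrix ι ι F)) *ᵥ v) = ((t : Matrix ι ι F)) *ᵥ v := h1
    have hinj : Function.Injective (fun x => (t : Matrix ι ι F) *ᵥ x) := by
      intro a b hab
      have := congrArg (fun y => ((t⁻¹ : Matrix.GeneralLinearGroup ι F) : Matrix ι ι F) *ᵥ y) hab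
      simpa [Matrix.mulVec_mulVec] using this
    have h3 : (t : Matrix ι ι F) *ᵥ v = v := hinj h2
    rw [← h3]; exact hv

/-- Key lemma: a transvection fixing `S` pointwise, moving `x` by `v ∈ S`. -/
theorem exists_tv_fix (S : Submodule F (ι → F)) {x v : ι → F} (hx : x ∉ S) (hv : v ∈ S) :
    ∃ t : Matrix.GeneralLinearGroup ι F, t ∈ Cfsg.Geo.specialLinear ι F ∧
      (∀ s ∈ S, (t : Matrix ι ι F) *ᵥ s = s) ∧ (t : Matrix ι ι F) *ᵥ x = x + v := by
  obtain ⟨f, hfx, hS⟩ := Submodule.exists_le_ker_of_notMem hx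
  let g : Module.Dual F (ι → F) := (f x)⁻¹ • f
  have hg1 : g x = 1 := by simp [g, hfx]
  have hgS : ∀ s ∈ S, g s = 0 := by
    intro s hs
    have : f s = 0 := hS hs
    simp [g, this]
  obtain ⟨t, ht, htx⟩ := exists_tv g v (hgS v hv)
  refine ⟨t, ht, ?_, ?_⟩
  · intro s hs
    rw [htx, hgS s hs]; simp
  · rw [htx, hg1]; simp

/-- a proper nonzero subspace is not stabilised by all of `SL` -/
theorem exists_sl_not_stab (W : Submodule F (ι → F)) (h0 : W ≠ ⊥) (h1 : W ≠ ⊤) :
    ∃ t ∈ Cfsg.Geo.specialLinear ι F, t ∉ Cfsg.Geo.subspaceStabilizer W := by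
  obtain ⟨w, hw, hw0⟩ := W.ne_bot_iff.mp h0
  obtain ⟨v, hv⟩ : ∃ v, v ∉ W := by
    by_contra hc
    push Not at hc
    exact h1 (Submodule.eq_top_iff'.mpr hc)
  have hw' : w ∉ F ∙ v := by
    intro hm
    obtain ⟨c, hc⟩ := Submodule.mem_span_singleton.mp hm
    have hc0 : c ≠ 0 := by
      rintro rfl
      apply hw0
      rw [← hc]; simp
    apply hv
    have : v = c⁻¹ • w := by
      rw [← hc, smul_smul, inv_mul_cancel₀ hc0, one_smul]
    rw [this]
    exact W.smul_mem _ hw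
  obtain ⟨t, ht, -, htw⟩ := exists_tv_fix (F ∙ v) hw' (Submodule.mem_span_singleton_self v)
  refine ⟨t, ht, fun hs => ?_⟩
  have h2 : (t : Matrix ι ι F) *ᵥ w ∈ W := (hs w).mp hw
  rw [htw] at h2
  exact hv ((W.add_mem_iff_right hw).mp h2)

end Cfsg.Agent.H27.Tv
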