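import Mathlib
import Cfsg.Prelude.Def_GeometricClasses
import Cfsg.Agent.Lib.H27.GeoFrame
import Cfsg.Agent.Lib.H27.GeoTens
import Cfsg.Agent.S5667

/-!
# Tensor decompositions with a ternary orthogonal factor over the field with three elements
-/

set_option autoImplicit false
set_option linter.unusedSectionVars false
set_option linter.unusedSimpArgs false

namespace Cfsg.Agent.H27.GO

open scoped MatrixGroups Matrix Kronecker
open Cfsg Cfsg.Geo Cfsg.Agent.H27.GD Cfsg.Agent.H27.GT Cfsg.Agent.S5667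

variable {ι : Type} [Fintype ι] [DecidableEq ι] {F : Type*} [Field F] {Q : (ι → F) → F}

/-- An isometry of a form on `F₃³` with an orthonormal-type frame permutes the frame lines. -/
theorem frame_perm [Fintype F] (hq : Fintype.card F = 3) {f : (Fin 3 → F) → (Fin 3 → F) → F} (hf : IsSymmetricForm f)
    (u : Fin 3 → (Fin 3 → F)) (ν : F) (hν : ν ≠ 0) (hu : ∀ k l, f (u k) (u l) = if k = l then ν else 0)
    (b : GL (Fin 3) F) (hb : ∀ s t, f ((b : Matrix (Fin 3) (Fin 3) F) *ᵥ s) ((b : Matrix (Fin 3) (Fin 3) F) *ᵥ t) = f s t) :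
    ∃ (σ : Equiv.Perm (Fin 3)) (α : Fin 3 → F), (∀ k, α k ≠ 0) ∧
      ∀ k, (b : Matrix (Fin 3) (Fin 3) F) *ᵥ u k = α k • u (σ k) := by
  classical
  have h3 := three_eq_zero' hq
  obtain ⟨w, hw⟩ := frame_basis hf u ν hν hu
  have hframe : ∀ k, ∃ m, ∃ α : F, α ≠ 0 ∧ (b : Matrix (Fin 3) (Fin 3) F) *ᵥ u k = α • u m := by
    intro k
    have hnorm : f ((b : Matrix (Fin 3) (Fin 3) F) *ᵥ u k) ((b : Matrix (Fin 3) (Fin 3) F) *ᵥ u k) = ν := by
      rw [hb, hu, if_pos rfl]
    generalize (b : Matrix (Fin 3) (Fin 3) F) *ᵥ u k = z at hnorm ⊢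
    have hzexp : z = w.repr z 0 • u 0 + w.repr z 1 • u 1 + w.repr z 2 • u 2 := by
      have := w.sum_repr z
      simp only [Fin.sum_univ_three, hw] at this
      exact this.symm
    have hnorm' : f z z = ν * ((w.repr z 0) ^ 2 + (w.repr z 1) ^ 2 + (w.repr z 2) ^ 2) := by
      conv_lhs => rw [hzexp]
      simp only [hf.bilinear.add_left, hf.bilinear.add_right, hf.bilinear.smul_left, hf.bilinear.smul_right, hu]
      simp
      ring
    rw [hnorm] at hnorm'
    have hsum : (w.repr z 0) ^ 2 + (w.repr z 1) ^ 2 + (w.repr z 2) ^ 2 = 1 := by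
      have : ν * ((w.repr z 0) ^ 2 + (w.repr z 1) ^ 2 + (w.repr z 2) ^ 2 - 1) = 0 := by linear_combination -hnorm'
      exact sub_eq_zero.mp ((mul_eq_zero.mp this).resolve_left hν)
    by_cases h0 : w.repr z 0 = 0 <;> by_cases h1 : w.repr z 1 = 0 <;> by_cases h2 : w.repr z 2 = 0
    · rw [h0, h1, h2] at hsum
      simp at hsum
    · refine ⟨2, w.repr z 2, h2, ?_⟩
      rw [h0, h1, zero_smul, zero_smul, zero_add, zero_add] at hzexp
      exact hzexp
    · refine ⟨1, w.repr z 1, h1, ?_⟩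
      rw [h0, h2, zero_smul, zero_smul, zero_add, add_zero] at hzexp
      exact hzexp
    · exfalso
      rw [h0, sq_eq_one' hq h1, sq_eq_one' hq h2] at hsum
      have : (1 : F) = 0 := by linear_combination hsum
      exact one_ne_zero this
    · refine ⟨0, w.repr z 0, h0, ?_⟩
      rw [h1, h2, zero_smul, zero_smul, add_zero, add_zero] at hzexp
      exact hzexp
    · exfalso
      rw [h1, sq_eq_one' hq h0, sq_eq_one' hq h2] at hsum
      have : (1 : F) = 0 := by linear_combination hsum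
      exact one_ne_zero this
    · exfalso
      rw [h2, sq_eq_one' hq h0, sq_eq_one' hq h1] at hsum
      have : (1 : F) = 0 := by linear_combination hsum
      exact one_ne_zero this
    · exfalso
      rw [sq_eq_one' hq h0, sq_eq_one' hq h1, sq_eq_one' hq h2] at hsum
      have : (1 : F) = 0 := by linear_combination h3 - hsum
      exact one_ne_zero this
  choose τ α hα hτ using hframe
  have hinj : Function.Injective τ := by
    intro k l hkl
    by_contra hne
    have hkl' : (b : Matrix (Fin 3) (Fin 3) F) *ᵥ (α l • u k - α k • u l) = 0 := by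
      rw [Matrix.mulVec_sub, Matrix.mulVec_smul, Matrix.mulVec_smul, hτ, hτ, hkl, smul_smul, smul_smul, mul_comm,
        sub_self]
    have h4 := mulVec_eq_zero_iff.mp hkl'
    have h5 : α l • u k = α k • u l := sub_eq_zero.mp h4
    have h6 := congrArg (fun z => f z (u k)) h5
    simp only [hf.bilinear.smul_left, hu] at h6
    simp only [if_true, Ne.symm hne, if_false, mul_zero] at h6
    exact mul_ne_zero (hα l) hν h6
  exact ⟨Equiv.ofBijective τ (Finite.injective_iff_bijective.mp hinj), α, hα, hτ⟩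

/-- Three orthogonal vectors of the same norm. -/
theorem exists_orth_triple [Fintype F] (hq : Fintype.card F = 3) {n : ℕ} (h5 : 5 ≤ n) {f : (Fin n → F) → (Fin n → F) → F}
    (hf : IsSymmetricForm f) :
    ∃ (w₁ w₂ w₃ : Fin n → F) (δ : F), δ ≠ 0 ∧ f w₁ w₁ = δ ∧ f w₂ w₂ = δ ∧ f w₃ w₃ = δ ∧ f w₁ w₂ = 0 ∧ f w₁ w₃ = 0 ∧
      f w₂ w₃ = 0 := by
  classical
  have h2 := two_ne_zero'' hq
  have : Invertible (2 : F) := invertibleOfNonzero h2
  let B : LinearMap.BilinForm F (Fin n → F) :=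
    LinearMap.mk₂ F f hf.bilinear.add_left hf.bilinear.smul_left hf.bilinear.add_right hf.bilinear.smul_right
  have hB : LinearMap.IsSymm B := ⟨fun x y => by
    change f x y = f y x
    exact hf.symm x y⟩
  obtain ⟨v₀, hv₀⟩ := LinearMap.BilinForm.exists_orthogonal_basis hB
  have hrk : Module.finrank F (Fin n → F) = n := by simp
  let w : Module.Basis (Fin n) F (Fin n → F) := v₀.reindex (finCongr hrk)
  have hw : ∀ i j, i ≠ j → f (w i) (w j) = 0 := by
    intro i j hij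
    have : f (v₀ ((finCongr hrk).symm i)) (v₀ ((finCongr hrk).symm j)) = 0 := hv₀ (by
      intro h
      exact hij ((finCongr hrk).symm.injective h))
    simpa [w, Module.Basis.reindex_apply] using this
  have hn : ∀ i, f (w i) (w i) ≠ 0 := by
    intro i h0
    obtain ⟨⟨x, hx⟩, -⟩ := hf.nondegenerate (w i) (w.ne_zero i)
    apply hx
    let L : (Fin n → F) →ₗ[F] F := LinearMap.flip B (w i)
    have hL : L = 0 := by
      apply w.ext
      intro j
      change f (w j) (w i) = 0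
      by_cases hji : j = i
      · rw [hji, h0]
      · exact hw j i hji
    have : L x = 0 := by rw [hL]; rfl
    exact this
  have hval : ∀ i ∈ (Finset.univ : Finset (Fin n)), f (w i) (w i) ∈ ({1, -1} : Finset F) := by
    intro i _
    rcases eq_one_or_neg hq (hn i) with h | h <;> simp [h]
  have hcard : ({1, -1} : Finset F).card * 2 < (Finset.univ : Finset (Fin n)).card := by
    have h1 : ({1, -1} : Finset F).card ≤ 2 := Finset.card_le_two
    simp only [Finset.card_univ, Fintype.card_fin]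
    omega
  obtain ⟨δ, -, hδ⟩ := Finset.exists_lt_card_fiber_of_mul_lt_card_of_maps_to hval hcard
  obtain ⟨a, b, c, ha, hb, hc, hab, hac, hbc⟩ := Finset.two_lt_card_iff.1 hδ
  simp only [Finset.mem_filter, Finset.mem_univ, true_and] at ha hb hc
  refine ⟨w a, w b, w c, δ, ?_, ha, hb, hc, hw a b hab, hw a c hac, hw b c hbc⟩
  rw [← ha]
  exact hn a

/-- Stabilising a family of subspaces of equal dimension is witnessed on images. -/
theorem mem_decomp_of_map {t : ℕ} {D : Fin t → Submodule F (ι → F)} (g : GL ι F) (σ : Equiv.Perm (Fin t))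
    (hfr : ∀ i j, Module.finrank F (D i) = Module.finrank F (D j))
    (h : ∀ i, ∀ x ∈ D i, (g : Matrix ι ι F) *ᵥ x ∈ D (σ i)) : g ∈ decompositionStabilizer D := by
  refine ⟨σ, fun i => ?_⟩
  have hinj : Function.Injective (Matrix.toLin' (g : Matrix ι ι F)) := by
    intro x y hxy
    exact mulVec_inj (g := g) (by simpa [Matrix.toLin'_apply] using hxy)
  apply Submodule.eq_of_le_of_finrank_eq
  · rintro _ ⟨x, hx, rfl⟩
    exact h i x hx
  · rw [hfr (σ i) i]
    exact (Submodule.equivMapOfInjective _ hinj (D i)).finrank_eq.symm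

/-- The main theorem for tensor decompositions with a ternary factor over the field with three elements. -/
theorem tensor3_main [Fintype F] (hq : Fintype.card F = 3) (hQ : IsNondegenerateQuadraticForm Q) {n₂ : ℕ} (h5 : 5 ≤ n₂)
    (e : ι ≃ Fin 3 × Fin n₂) (P : GL ι F) (f₁ : (Fin 3 → F) → (Fin 3 → F) → F) (f₂ : (Fin n₂ → F) → (Fin n₂ → F) → F)
    (hf₁ : IsSymmetricForm f₁) (hf₂ : IsSymmetricForm f₂) (hT : IsTensorFormStructure id (QuadraticMap.polar Q) f₁ f₂ e P) :
    ∃ K : Subgroup (GL ι F), tensorProductSubgroup 3 n₂ e P ⊓ omegaGL Q < K ∧ K < omegaGL Q := by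
  classical
  have h2 := two_ne_zero'' hq
  obtain ⟨c, hc, hcf⟩ := hT
  let Tn : (Fin 3 → F) → (Fin n₂ → F) → ι → F := fun p s => Phi e P (ptens p s)
  have hTT : ∀ p r s t, pl Q (Tn p s) (Tn r t) = c * (f₁ p r * f₂ s t) := by
    intro p r s t
    simp only [Tn, Phi]
    change QuadraticMap.polar Q _ _ = _
    rw [hcf, formOfGram_ptens _ (fun x y => rfl), ← form_eq_formOfGram_id hf₁.bilinear,
      ← form_eq_formOfGram_id hf₂.bilinear]
  have hTadd : ∀ p s s', Tn p (s + s') = Tn p s + Tn p s' := by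
    intro p s s'
    simp only [Tn, ptens_add_right, Phi_add]
  have hTsmul : ∀ (a : F) p s, Tn p (a • s) = a • Tn p s := by
    intro a p s
    simp only [Tn, ptens_smul_right, Phi_smul]
  obtain ⟨u, ν, hν, hu⟩ := exists_frame hq hf₁
  obtain ⟨w₁, w₂, w₃, δ, hδ, h11, h22, h33, h12, h13, h23⟩ := exists_orth_triple hq h5 hf₂
  have h21 : f₂ w₂ w₁ = 0 := by rw [hf₂.symm, h12]
  have h31 : f₂ w₃ w₁ = 0 := by rw [hf₂.symm, h13]
  have h32 : f₂ w₃ w₂ = 0 := by rw [hf₂.symm, h23]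
  have hu0 : ∀ k, u k ≠ 0 := by
    intro k h0
    have h3 := hu k k
    rw [h0, if_pos rfl] at h3
    have h6 := hf₁.bilinear.smul_left 0 0 0
    simp only [smul_zero, zero_mul] at h6
    exact hν (h3.symm.trans h6)
  -- blocks
  let Lk : Fin 3 → ((Fin n₂ → F) →ₗ[F] (ι → F)) := fun k =>
    { toFun := fun s => Tn (u k) s
      map_add' := hTadd (u k)
      map_smul' := fun a s => hTsmul a (u k) s }
  let D : Fin 3 → Submodule F (ι → F) := fun k => LinearMap.range (Lk k)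
  have hmemD : ∀ k s, Tn (u k) s ∈ D k := fun k s => ⟨s, rfl⟩
  have hDex : ∀ k x, x ∈ D k → ∃ s, x = Tn (u k) s := by
    rintro k x ⟨s, rfl⟩
    exact ⟨s, rfl⟩
  have hDfin : ∀ k, Module.finrank F (D k) = n₂ := by
    intro k
    have hinj : Function.Injective (Lk k) := by
      rw [injective_iff_map_eq_zero]
      intro s hs
      by_contra hs0
      obtain ⟨-, t, ht⟩ := hf₂.nondegenerate s hs0
      have h3 := hTT (u k) (u k) s t
      have hs' : Tn (u k) s = 0 := hs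
      rw [hs', pl_zero_left hQ, hu, if_pos rfl] at h3
      exact mul_ne_zero hc (mul_ne_zero hν ht) h3.symm
    simp only [D]
    rw [LinearMap.finrank_range_of_inj hinj]
    simp
  have hDperp : ∀ k l, k ≠ l → ∀ x ∈ D k, ∀ y ∈ D l, pl Q x y = 0 := by
    intro k l hkl x hx y hy
    obtain ⟨s, rfl⟩ := hDex k x hx
    obtain ⟨t, rfl⟩ := hDex l y hy
    rw [hTT, hu, if_neg hkl]
    ring
  -- the containment
  have hact : ∀ g ∈ tensorProductSubgroup 3 n₂ e P, ∃ (a : GL (Fin 3) F) (b : GL (Fin n₂) F),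
      ∀ p s, (g : Matrix ι ι F) *ᵥ Tn p s = Tn ((a : Matrix (Fin 3) (Fin 3) F) *ᵥ p) ((b : Matrix (Fin n₂) (Fin n₂) F) *ᵥ s) := by
    intro g hg
    rw [tensor_eq] at hg
    obtain ⟨g', ⟨a, b, hg'⟩, rfl⟩ := hg
    refine ⟨a, b, fun p s => ?_⟩
    change ((tenIso e P g' : GL ι F) : Matrix ι ι F) *ᵥ Phi e P (ptens p s) = _
    rw [tenIso_mulVec, hg', kron_mulVec_ptens]
  have hle : tensorProductSubgroup 3 n₂ e P ⊓ omegaGL Q ≤ decompositionStabilizer D ⊓ omegaGL Q := by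
    apply le_inf _ inf_le_right
    rintro g ⟨hg, hgΩ⟩
    obtain ⟨a, b, hab⟩ := hact g hg
    have hI := omega_le_isom hgΩ
    have hsim0 : ∀ p r s t, f₁ ((a : Matrix (Fin 3) (Fin 3) F) *ᵥ p) ((a : Matrix (Fin 3) (Fin 3) F) *ᵥ r) *
        f₂ ((b : Matrix (Fin n₂) (Fin n₂) F) *ᵥ s) ((b : Matrix (Fin n₂) (Fin n₂) F) *ᵥ t) = f₁ p r * f₂ s t := by
      intro p r s t
      have := isom_pl hI (Tn p s) (Tn r t)
      rw [hab, hab, hTT, hTT] at this
      exact mul_left_cancel₀ hc this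
    let l := f₂ ((b : Matrix (Fin n₂) (Fin n₂) F) *ᵥ w₁) ((b : Matrix (Fin n₂) (Fin n₂) F) *ᵥ w₁)
    have hl : l ≠ 0 := by
      intro h0
      have := hsim0 (u 0) (u 0) w₁ w₁
      rw [show f₂ _ _ = l from rfl, h0, mul_zero, hu, if_pos rfl, h11] at this
      exact mul_ne_zero hν hδ this.symm
    have hsim : ∀ p r, f₁ ((a : Matrix (Fin 3) (Fin 3) F) *ᵥ p) ((a : Matrix (Fin 3) (Fin 3) F) *ᵥ r) = (δ * l⁻¹) * f₁ p r := by
      intro p r
      have := hsim0 p r w₁ w₁
      rw [show f₂ _ _ = l from rfl, h11] at this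
      field_simp
      linear_combination this
    have hμ : δ * l⁻¹ ≠ 0 := mul_ne_zero hδ (inv_ne_zero hl)
    have hμ1 := mult_eq_one hq hf₁ a (δ * l⁻¹) hμ hsim
    have hsim' : ∀ p r, f₁ ((a : Matrix (Fin 3) (Fin 3) F) *ᵥ p) ((a : Matrix (Fin 3) (Fin 3) F) *ᵥ r) = f₁ p r := by
      intro p r
      rw [hsim, hμ1, one_mul]
    obtain ⟨σ, α, hα, hσ⟩ := frame_perm hq hf₁ u ν hν hu a hsim'
    apply mem_decomp_of_map g σ (fun i j => by rw [hDfin, hDfin])
    intro k x hx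
    obtain ⟨s, rfl⟩ := hDex k x hx
    rw [hab, hσ]
    have : Tn (α k • u (σ k)) ((b : Matrix (Fin n₂) (Fin n₂) F) *ᵥ s) = Tn (u (σ k)) (α k • ((b : Matrix (Fin n₂) (Fin n₂) F) *ᵥ s)) := by
      simp only [Tn, ptens_smul_left, ptens_smul_right]
    rw [this]
    exact hmemD _ _
  -- norms
  have hQT : ∀ p s, 2 * Q (Tn p s) = c * (f₁ p p * f₂ s s) := by
    intro p s
    rw [← pl_self hQ, hTT]
  set c₀ : F := 2⁻¹ * (c * (ν * δ)) with hc₀
  have hc₀0 : c₀ ≠ 0 := mul_ne_zero (inv_ne_zero h2) (mul_ne_zero hc (mul_ne_zero hν hδ))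
  have hQc₀ : ∀ p s, f₁ p p = ν → f₂ s s = δ → Q (Tn p s) = c₀ := by
    intro p s hp hs
    have := hQT p s
    rw [hp, hs] at this
    rw [hc₀, ← this, ← mul_assoc, inv_mul_cancel₀ h2, one_mul]
  have huu : ∀ k, f₁ (u k) (u k) = ν := fun k => by rw [hu, if_pos rfl]
  -- the first element: a 3-cycle in the block 0
  obtain ⟨g₁, hg₁Ω, hg₁1, hg₁3, hg₁2, hg₁z⟩ := exists_3cycle h2 hQ hc₀0 (hQc₀ (u 0) w₁ (huu 0) h11) (hQc₀ (u 0) w₃ (huu 0) h33)
    (hQc₀ (u 0) w₂ (huu 0) h22) (by rw [hTT, h13]; ring) (by rw [hTT, h12]; ring) (by rw [hTT, h32]; ring)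
  have hg₁fixk : ∀ k, k ≠ 0 → ∀ s, (g₁ : Matrix ι ι F) *ᵥ Tn (u k) s = Tn (u k) s := by
    intro k hk s
    apply hg₁z <;> rw [hTT, hu, if_neg hk] <;> ring
  have hg₁st : g₁ ∈ decompositionStabilizer D := by
    apply mem_decomp_of_map g₁ 1 (fun i j => by rw [hDfin, hDfin])
    intro k x hx
    obtain ⟨s, rfl⟩ := hDex k x hx
    by_cases hk : k = 0
    · subst hk
      -- decompose s
      let α₁ := f₂ s w₁ * δ⁻¹
      let α₂ := f₂ s w₂ * δ⁻¹
      let α₃ := f₂ s w₃ * δ⁻¹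
      let s' := s + (-α₁) • w₁ + (-α₂) • w₂ + (-α₃) • w₃
      have hs' : s = s' + α₁ • w₁ + α₂ • w₂ + α₃ • w₃ := by
        ext i
        simp only [s', Pi.add_apply, Pi.smul_apply, smul_eq_mul]
        ring
      have hal := hf₂.bilinear.add_left
      have hsl := hf₂.bilinear.smul_left
      have hs1 : f₂ s' w₁ = 0 := by
        simp only [s', hal, hsl, h11, h21, h31, α₁]
        field_simp
        ring
      have hs2 : f₂ s' w₂ = 0 := by
        simp only [s', hal, hsl, h22, h12, h32, α₂]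
        field_simp
        ring
      have hs3 : f₂ s' w₃ = 0 := by
        simp only [s', hal, hsl, h33, h13, h23, α₃]
        field_simp
        ring
      have hfix : (g₁ : Matrix ι ι F) *ᵥ Tn (u 0) s' = Tn (u 0) s' := by
        apply hg₁z <;> rw [hTT]
        · rw [hs1]; ring
        · rw [hs3]; ring
        · rw [hs2]; ring
      rw [hs', hTadd, hTadd, hTadd, hTsmul, hTsmul, hTsmul, Matrix.mulVec_add, Matrix.mulVec_add, Matrix.mulVec_add,
        Matrix.mulVec_smul, Matrix.mulVec_smul, Matrix.mulVec_smul, hfix, hg₁1, hg₁2, hg₁3]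
      change _ ∈ D 0
      exact (D 0).add_mem ((D 0).add_mem ((D 0).add_mem (hmemD 0 _) ((D 0).smul_mem _ (hmemD 0 _)))
        ((D 0).smul_mem _ (hmemD 0 _))) ((D 0).smul_mem _ (hmemD 0 _))
    · rw [hg₁fixk k hk s]
      exact hmemD k s
  have hg₁n : g₁ ∉ tensorProductSubgroup 3 n₂ e P ⊓ omegaGL Q := by
    rintro ⟨hg, -⟩
    obtain ⟨a, b, hab⟩ := hact g₁ hg
    have ea : ∀ p : Fin 3 → F, p ≠ 0 → (a : Matrix (Fin 3) (Fin 3) F) *ᵥ p ≠ 0 := fun p hp h0 =>
      hp (mulVec_eq_zero_iff.mp h0)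
    have hw₁0 : w₁ ≠ 0 := by
      intro h0
      rw [h0] at h11
      have h6 := hf₂.bilinear.smul_left 0 0 0
      simp only [smul_zero, zero_mul] at h6
      exact hδ (h11.symm.trans h6)
    have e1 : ptens ((a : Matrix (Fin 3) (Fin 3) F) *ᵥ u 0) ((b : Matrix (Fin n₂) (Fin n₂) F) *ᵥ w₁) = ptens (u 0) w₂ := by
      apply Phi_inj e P
      change Tn _ _ = Tn _ _
      rw [← hab, hg₁1]
    have e2 : ptens ((a : Matrix (Fin 3) (Fin 3) F) *ᵥ u 1) ((b : Matrix (Fin n₂) (Fin n₂) F) *ᵥ w₁) = ptens (u 1) w₁ := by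
      apply Phi_inj e P
      change Tn _ _ = Tn _ _
      rw [← hab, hg₁fixk 1 (by decide)]
    obtain ⟨l₁, hl₁⟩ := ptens_eq_right (ea _ (hu0 0)) e1
    obtain ⟨l₂, hl₂⟩ := ptens_eq_right (ea _ (hu0 1)) e2
    have e3 : l₁ • w₂ = l₂ • w₁ := hl₁.symm.trans hl₂
    have e4 := congrArg (fun z => f₂ z w₂) e3
    simp only [hf₂.bilinear.smul_left, h22, h12, mul_zero] at e4
    have hl₁0 : l₁ = 0 := (mul_eq_zero.mp e4).resolve_right hδ
    rw [hl₁0, zero_smul] at hl₁
    exact hw₁0 (mulVec_eq_zero_iff.mp hl₁)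
  -- the second element: a 3-cycle across the blocks
  have h01' : (0 : Fin 3) ≠ 1 := by decide
  have h02' : (0 : Fin 3) ≠ 2 := by decide
  have h12' : (1 : Fin 3) ≠ 2 := by decide
  obtain ⟨g₂, hg₂Ω, hg₂0, -, -, hg₂z⟩ := exists_3cycle h2 hQ hc₀0 (hQc₀ (u 0) w₁ (huu 0) h11) (hQc₀ (u 1) w₁ (huu 1) h11)
    (hQc₀ (u 2) w₁ (huu 2) h11) (by rw [hTT, hu, if_neg h01']; ring) (by rw [hTT, hu, if_neg h02']; ring)
    (by rw [hTT, hu, if_neg h12']; ring)
  have hg₂n : g₂ ∉ decompositionStabilizer D := by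
    rintro ⟨σ, hσ⟩
    have hfix : (g₂ : Matrix ι ι F) *ᵥ Tn (u 0) w₂ = Tn (u 0) w₂ := by
      apply hg₂z <;> rw [hTT, h21] <;> ring
    have hz : Tn (u 0) w₂ ∈ D (σ 0) := by
      rw [← hσ 0]
      exact ⟨_, hmemD 0 w₂, by simpa [Matrix.toLin'_apply] using hfix⟩
    have hσ0 : σ 0 = 0 := by
      by_contra h
      have h3 := hDperp _ _ h _ hz _ (hmemD 0 w₂)
      rw [hTT, hu, if_pos rfl, h22] at h3
      exact mul_ne_zero hc (mul_ne_zero hν hδ) h3
    have hz2 : Tn (u 2) w₁ ∈ D 0 := by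
      have h3 : Tn (u 2) w₁ ∈ D (σ 0) := by
        rw [← hσ 0]
        exact ⟨_, hmemD 0 w₁, by simpa [Matrix.toLin'_apply] using hg₂0⟩
      rwa [hσ0] at h3
    have h3 := hDperp _ _ h02' _ hz2 _ (hmemD 2 w₁)
    rw [hTT, hu, if_pos rfl, h11] at h3
    exact mul_ne_zero hc (mul_ne_zero hν hδ) h3
  refine ⟨decompositionStabilizer D ⊓ omegaGL Q, ?_, ?_⟩
  · rw [lt_iff_le_and_ne]
    refine ⟨hle, fun heq => ?_⟩
    have : g₁ ∈ decompositionStabilizer D ⊓ omegaGL Q := ⟨hg₁st, hg₁Ω⟩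
    rw [← heq] at this
    exact hg₁n this
  · rw [lt_iff_le_and_ne]
    refine ⟨inf_le_right, fun heq => ?_⟩
    rw [← heq] at hg₂Ω
    exact hg₂n hg₂Ω.1

end Cfsg.Agent.H27.GO
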