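import Mathlib
import Cfsg.Prelude.Def_GeometricClasses
import Cfsg.Agent.Lib.H27.GeoSieg
import Cfsg.Agent.Lib.H27.GeoT3

/-!
# Imprimitive stabilisers of small types: hyperbolic planes over small fields and plus-type 4-spaces over `F₂`
-/

set_option autoImplicit false
set_option linter.unusedSectionVars false
set_option linter.unusedSimpArgs false

namespace Cfsg.Agent.H27.GO

open scoped MatrixGroups Matrix
open Cfsg Cfsg.Geo

variable {ι : Type} [Fintype ι] [DecidableEq ι] {F : Type*} [Field F] {Q : (ι → F) → F}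

/-- The transformation of `exists_T` with its full formula. -/
theorem exists_T' (hQ : IsNondegenerateQuadraticForm Q) {ε : F} (hε : ε ≠ 0) {x y : ι → F} (hx : Q x = ε) (hy : Q y = ε)
    (hxy : pl Q x y = ε) :
    ∃ g ∈ omegaGL Q, (g : Matrix ι ι F) *ᵥ x = y - x ∧ ∀ z, (g : Matrix ι ι F) *ᵥ z =
      z - (pl Q z y / ε) • x + ((pl Q z x - pl Q z y) / ε) • (y - x) := by
  obtain ⟨g, hg, hgx, hgy, hgz⟩ := exists_T hQ hε hx hy hxy
  refine ⟨g, hg, hgx, fun z => ?_⟩
  have hxx : pl Q x x = 2 * ε := by rw [pl_self hQ, hx]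
  have hyx : pl Q y x = ε := by rw [pl_symm, hxy]
  set l := pl Q z y / ε with hl
  have h1 : pl Q (z - l • x) y = 0 := by
    rw [pl_sub_left hQ, pl_smul_left hQ, hxy, hl]
    field_simp
    ring
  have h2 := hgz (z - l • x) h1
  have h3 : pl Q (z - l • x) x = pl Q z x - l * (2 * ε) := by
    rw [pl_sub_left hQ, pl_smul_left hQ, hxx]
  rw [Matrix.mulVec_sub, Matrix.mulVec_smul, hgx, h3] at h2
  have h4 : (pl Q z x - l * (2 * ε)) / ε = pl Q z x / ε - 2 * l := by
    field_simp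
  rw [h4] at h2
  have h5 : (pl Q z x - pl Q z y) / ε = pl Q z x / ε - l := by
    rw [hl, sub_div]
  rw [h5]
  ext i
  have := congrFun h2 i
  simp only [Pi.sub_apply, Pi.add_apply, Pi.smul_apply, smul_eq_mul] at this ⊢
  linear_combination this

/-- Prescribing the values of the polar form, within a non-degenerate subspace. -/
theorem exists_dual_in (hQ : IsNondegenerateQuadraticForm Q) {W : Submodule F (ι → F)}
    (hW : IsNondegenerateOn (QuadraticMap.polar Q) W) {k : ℕ} (v : Fin k → ι → F) (hvW : ∀ i, v i ∈ W)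
    (hli : LinearIndependent F v) (c : Fin k → F) : ∃ x ∈ W, ∀ i, pl Q x (v i) = c i := by
  classical
  let L : W →ₗ[F] (Fin k → F) :=
    { toFun := fun x i => pl Q (x : ι → F) (v i)
      map_add' := fun x y => by
        ext i
        exact pl_add_left hQ _ _ (v i)
      map_smul' := fun r x => by
        ext i
        exact pl_smul_left hQ r _ (v i) }
  have hL : ∀ (x : W) i, L x i = pl Q (x : ι → F) (v i) := fun _ _ => rfl
  have hr : LinearMap.range L = ⊤ := by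
    by_contra hne
    obtain ⟨φ, hφ0, hφ⟩ := Submodule.exists_le_ker_of_lt_top _ (lt_top_iff_ne_top.2 hne)
    let d : Fin k → F := fun i => φ (Pi.single i 1)
    have hφd : ∀ y : Fin k → F, φ y = ∑ i, y i * d i := by
      intro y
      have h1 : y = ∑ i, y i • (Pi.single i 1 : Fin k → F) := by
        ext j
        simp [Finset.sum_apply, Pi.single_apply]
      conv_lhs => rw [h1]
      rw [map_sum]
      simp [d]
    have hz : (∑ i, d i • v i) = 0 := by
      by_contra hne0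
      have hmem : (∑ i, d i • v i) ∈ W := W.sum_mem fun i _ => W.smul_mem _ (hvW i)
      obtain ⟨⟨x, hxW, hx⟩, -⟩ := hW _ hmem hne0
      apply hx
      have h2 : φ (L ⟨x, hxW⟩) = 0 := hφ ⟨⟨x, hxW⟩, rfl⟩
      rw [hφd] at h2
      have h3 : ∀ (s : Finset (Fin k)), pl Q x (∑ i ∈ s, d i • v i) = ∑ i ∈ s, L ⟨x, hxW⟩ i * d i := by
        intro s
        induction s using Finset.induction_on with
        | empty => simp [pl_zero_right hQ]
        | insert a s ha ih =>
          rw [Finset.sum_insert ha, Finset.sum_insert ha, pl_add_right hQ, pl_smul_right hQ, ih, hL]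
          ring
      change pl Q x _ = 0
      rw [h3, h2]
    have hd : d = 0 := by
      have := Fintype.linearIndependent_iff.1 hli d hz
      ext i
      exact this i
    apply hφ0
    ext i
    simp only [LinearMap.comp_apply, LinearMap.single_apply]
    have : φ (Pi.single i 1) = d i := rfl
    simp [this, hd]
  have : c ∈ LinearMap.range L := by
    rw [hr]
    trivial
  obtain ⟨x, hx⟩ := this
  exact ⟨x, x.2, fun i => by rw [← hL, hx]⟩

/-- Singular dual vectors inside a non-degenerate subspace. -/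
theorem exists_two_hyp_in (hQ : IsNondegenerateQuadraticForm Q) {W : Submodule F (ι → F)}
    (hW : IsNondegenerateOn (QuadraticMap.polar Q) W) {a d : ι → F} (haW : a ∈ W) (hdW : d ∈ W) (ha : Q a = 0) (hd : Q d = 0)
    (had : pl Q a d = 0) (hli : LinearIndependent F ![a, d]) :
    ∃ a' ∈ W, ∃ d' ∈ W, Q a' = 0 ∧ Q d' = 0 ∧ pl Q a' a = 1 ∧ pl Q d' d = 1 ∧ pl Q a' d = 0 ∧ pl Q d' a = 0 ∧
      pl Q a' d' = 0 := by
  have hv2 : ∀ i, (![a, d] : Fin 2 → ι → F) i ∈ W := by
    intro i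
    fin_cases i
    · exact haW
    · exact hdW
  obtain ⟨x, hxW, hx⟩ := exists_dual_in hQ hW ![a, d] hv2 hli ![1, 0]
  have hx0 : pl Q x a = 1 := by simpa using hx 0
  have hx1 : pl Q x d = 0 := by simpa using hx 1
  let a' : ι → F := x - Q x • a
  have ha'W : a' ∈ W := W.sub_mem hxW (W.smul_mem _ haW)
  have haa : pl Q a a = 0 := by rw [pl_self hQ, ha, mul_zero]
  have hdd : pl Q d d = 0 := by rw [pl_self hQ, hd, mul_zero]
  have hda : pl Q d a = 0 := by rw [pl_symm, had]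
  have hQa' : Q a' = 0 := by
    simp only [a']
    rw [Q_smul_sub hQ, ha, hx0]
    ring
  have ha'a : pl Q a' a = 1 := by
    simp only [a']
    rw [pl_sub_left hQ, pl_smul_left hQ, haa, hx0]
    ring
  have ha'd : pl Q a' d = 0 := by
    simp only [a']
    rw [pl_sub_left hQ, pl_smul_left hQ, had, hx1]
    ring
  have hli3 : LinearIndependent F ![a, d, a'] := by
    rw [Fintype.linearIndependent_iff]
    intro g hg
    rw [Fin.sum_univ_three] at hg
    simp only [Matrix.cons_val_zero, Matrix.cons_val_one, Matrix.cons_val_two, Matrix.head_cons, Matrix.tail_cons] at hg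
    have h2 : g 2 = 0 := by
      have h := congrArg (fun y => pl Q y a) hg
      simp only [pl_add_left hQ, pl_smul_left hQ, pl_zero_left hQ, haa, hda, ha'a] at h
      simpa using h
    have hg' : g 0 • a + g 1 • d = 0 := by
      rw [h2, zero_smul, add_zero] at hg
      exact hg
    have := LinearIndependent.pair_iff.1 hli (g 0) (g 1) (by simpa using hg')
    intro i
    fin_cases i
    · exact this.1
    · exact this.2
    · exact h2
  have hv3 : ∀ i, (![a, d, a'] : Fin 3 → ι → F) i ∈ W := by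
    intro i
    fin_cases i
    · exact haW
    · exact hdW
    · exact ha'W
  obtain ⟨y, hyW, hy⟩ := exists_dual_in hQ hW ![a, d, a'] hv3 hli3 ![0, 1, 0]
  have hy0 : pl Q y a = 0 := by simpa using hy 0
  have hy1 : pl Q y d = 1 := by simpa using hy 1
  have hy2 : pl Q y a' = 0 := by simpa using hy 2
  refine ⟨a', ha'W, y - Q y • d, W.sub_mem hyW (W.smul_mem _ hdW), hQa', ?_, ha'a, ?_, ha'd, ?_, ?_⟩
  · rw [Q_smul_sub hQ, hd, hy1]
    ring
  · rw [pl_sub_left hQ, pl_smul_left hQ, hdd, hy1]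
    ring
  · rw [pl_sub_left hQ, pl_smul_left hQ, hda, hy0]
    ring
  · rw [pl_sub_right hQ, pl_smul_right hQ, ha'd, pl_symm, hy2]
    ring

/-- A hyperbolic basis of a non-degenerate plus-type plane. -/
theorem exists_hyp_basis (hQ : IsNondegenerateQuadraticForm Q) {W : Submodule F (ι → F)} (hdim : Module.finrank F W = 2)
    (hW : IsNondegenerateOn (QuadraticMap.polar Q) W) (hWp : IsPlusTypeOn Q W) :
    ∃ a ∈ W, ∃ b ∈ W, Q a = 0 ∧ Q b = 0 ∧ pl Q a b = 1 ∧ ∀ w ∈ W, ∃ s t : F, w = s • a + t • b := by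
  obtain ⟨U, hUW, hUs, hUd⟩ := hWp
  have hU1 : 0 < Module.finrank F U := by omega
  obtain ⟨⟨a, haU⟩, ha0⟩ : ∃ a : U, a ≠ 0 := Module.finrank_pos_iff_exists_ne_zero (R := F) (M := U) |>.1 hU1
  have ha0' : a ≠ 0 := fun h => ha0 (Subtype.ext h)
  have haW : a ∈ W := hUW haU
  have hQa : Q a = 0 := hUs a haU
  obtain ⟨⟨z, hz, hzn⟩, -⟩ := hW a haW ha0'
  obtain ⟨b, hb, hQb, hab⟩ := exists_hyp_partner hQ W haW hz hQa (by rwa [pl_symm])
  have hba : pl Q b a = 1 := by rw [pl_symm, hab]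
  have haa : pl Q a a = 0 := by rw [pl_self hQ, hQa, mul_zero]
  have hbb : pl Q b b = 0 := by rw [pl_self hQ, hQb, mul_zero]
  have hli : LinearIndependent F ![a, b] := by
    rw [LinearIndependent.pair_iff]
    intro s t hst
    have h1 : pl Q (s • a + t • b) a = 0 := by rw [hst, pl_zero_left hQ]
    have h2 : pl Q (s • a + t • b) b = 0 := by rw [hst, pl_zero_left hQ]
    rw [pl_add_left hQ, pl_smul_left hQ, pl_smul_left hQ, haa, hba] at h1
    rw [pl_add_left hQ, pl_smul_left hQ, pl_smul_left hQ, hbb, hab] at h2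
    constructor
    · simpa using h2
    · simpa using h1
  have hspan : Submodule.span F {a, b} = W := by
    apply Submodule.eq_of_le_of_finrank_eq
    · rw [Submodule.span_le]
      rintro x (rfl | rfl)
      · exact haW
      · exact hb
    · rw [hdim]
      have := finrank_span_eq_card hli
      have h2 : Set.range ![a, b] = {a, b} := by
        simp [Matrix.range_cons, Matrix.range_empty, Set.pair_comm]
      rw [h2] at this
      simpa using this
  refine ⟨a, haW, b, hb, hQa, hQb, hab, ?_⟩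
  intro w hw
  rw [← hspan] at hw
  obtain ⟨s, t, h⟩ := Submodule.mem_span_pair.1 hw
  exact ⟨s, t, h.symm⟩

/-- The family version of the hyperbolic basis. -/
theorem exists_hyp_family (hQ : IsNondegenerateQuadraticForm Q) {t : ℕ} (D : Fin t → Submodule F (ι → F))
    (hD : IsOrthogonalMDecomposition Q 2 D) (hplus : ∀ i, IsPlusTypeOn Q (D i)) :
    ∃ a b : Fin t → ι → F, (∀ i, a i ∈ D i) ∧ (∀ i, b i ∈ D i) ∧ (∀ i, Q (a i) = 0) ∧ (∀ i, Q (b i) = 0) ∧
      (∀ i, pl Q (a i) (b i) = 1) ∧ ∀ i, ∀ w ∈ D i, ∃ s r : F, w = s • a i + r • b i := by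
  choose a ha b hb hQa hQb hab hsp using fun i =>
    exists_hyp_basis hQ (hD.decomp.decomp.finrank_eq i) (hD.decomp.nondegenerate i) (hplus i)
  exact ⟨a, b, ha, hb, hQa, hQb, hab, hsp⟩

/-- Non-maximality of the plus-type imprimitive stabiliser in dimension two over `F₅`. -/
theorem caseq5 [Fintype F] (hq : Fintype.card F = 5) (hQ : IsNondegenerateQuadraticForm Q) {t : ℕ}
    (D : Fin t → Submodule F (ι → F)) (hD : IsOrthogonalMDecomposition Q 2 D) (ht : 3 ≤ t)
    (hplus : ∀ i, IsPlusTypeOn Q (D i)) :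
    ∃ K : Subgroup (GL ι F), decompositionStabilizer D ⊓ omegaGL Q < K ∧ K < omegaGL Q := by
  have h5 : (5 : F) = 0 := by
    have h := FiniteField.cast_card_eq_zero F
    rw [hq] at h
    exact_mod_cast h
  have h2 : (2 : F) ≠ 0 := by
    intro h
    have : (1 : F) = 0 := by linear_combination h5 - 2 * h
    exact one_ne_zero this
  have hp4 : ∀ {x : F}, x ≠ 0 → x ^ 4 = 1 := by
    intro x hx
    have h := FiniteField.pow_card_sub_one_eq_one x hx
    rw [hq] at h
    simpa using h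
  obtain ⟨a, b, ha, hb, hQa, hQb, hab, hsp⟩ := exists_hyp_family hQ D hD hplus
  let u : Fin t → ι → F := fun i => a i + b i
  have hu : ∀ i, u i ∈ D i := fun i => (D i).add_mem (ha i) (hb i)
  have hba : ∀ i, pl Q (b i) (a i) = 1 := fun i => by rw [pl_symm, hab]
  have haa : ∀ i, pl Q (a i) (a i) = 0 := fun i => by rw [pl_self hQ, hQa, mul_zero]
  have hbb : ∀ i, pl Q (b i) (b i) = 0 := fun i => by rw [pl_self hQ, hQb, mul_zero]
  have hQu : ∀ i, Q (u i) = 1 := by
    intro i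
    simp only [u]
    rw [Q_add Q, hQa, hQb, hab]
    ring
  have horth : ∀ i j, i ≠ j → ∀ x ∈ D i, ∀ y ∈ D j, pl Q x y = 0 :=
    fun i j hij x hx y hy => hD.decomp.orthogonal i j hij x hx y hy
  have hfr : ∀ i, ∀ x ∈ D i, Q x = 1 → x = u i ∨ x = -u i ∨ pl Q x (u i) = 0 := by
    intro i x hx hQx
    obtain ⟨s, r, rfl⟩ := hsp i x hx
    rw [Q_add Q, hQ.smul, hQ.smul, hQa, hQb, pl_smul_left hQ, pl_smul_right hQ, hab] at hQx
    have hsr : s * r = 1 := by linear_combination hQx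
    have hs : s ≠ 0 := left_ne_zero_of_mul_eq_one hsr
    have h4 := hp4 hs
    have hsq : (s - r) * (s + r) = 0 := by
      have : s ^ 2 * ((s - r) * (s + r)) = 0 := by
        have e : r ^ 2 * s ^ 2 = 1 := by
          calc r ^ 2 * s ^ 2 = (s * r) ^ 2 := by ring
            _ = 1 := by rw [hsr]; ring
        linear_combination h4 - e
      exact (mul_eq_zero.mp this).resolve_left (pow_ne_zero 2 hs)
    rcases mul_eq_zero.mp hsq with h | h
    · have hrs : r = s := (sub_eq_zero.mp h).symm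
      subst hrs
      have h6 : (r - 1) * (r + 1) = 0 := by linear_combination hsr
      rcases mul_eq_zero.mp h6 with h7 | h7
      · left
        have : r = 1 := sub_eq_zero.mp h7
        rw [this]
        simp [u]
      · right; left
        have : r = -1 := eq_neg_of_add_eq_zero_left h7
        rw [this]
        ext j
        simp [u]
        ring
    · right; right
      simp only [u]
      simp only [pl_add_left hQ, pl_add_right hQ, pl_smul_left hQ, haa, hab, hba, hbb]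
      linear_combination h
  let i₀ : Fin t := ⟨0, by omega⟩
  let i₁ : Fin t := ⟨1, by omega⟩
  let i₂ : Fin t := ⟨2, by omega⟩
  have h01 : i₀ ≠ i₁ := by simp [i₀, i₁, Fin.ext_iff]
  have h02 : i₀ ≠ i₂ := by simp [i₀, i₂, Fin.ext_iff]
  have h12 : i₁ ≠ i₂ := by simp [i₁, i₂, Fin.ext_iff]
  have huo : ∀ i j, i ≠ j → pl Q (u i) (u j) = 0 := fun i j hij => horth i j hij _ (hu i) _ (hu j)
  have huu : ∀ i, pl Q (u i) (u i) = 2 := fun i => by rw [pl_self hQ, hQu]; ring
  have hz : a i₀ - b i₀ ≠ 0 := by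
    intro h0
    have h3 := congrArg (fun y => pl Q y (a i₀)) h0
    simp only [pl_sub_left hQ, pl_zero_left hQ, haa, hba] at h3
    have : (1 : F) = 0 := by linear_combination -h3
    exact one_ne_zero this
  refine frame_core h2 hQ D horth u one_ne_zero hu hQu hfr i₀ i₁ i₂ h01 h02 h12 (z := a i₀ - b i₀)
    ((D i₀).sub_mem (ha _) (hb _)) hz ?_ (hD.decomp.nondegenerate i₀) ?_
  · simp only [u]
    simp only [pl_sub_left hQ, pl_add_right hQ, haa, hab, hba, hbb]
    ring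
  -- the second element
  have hx : Q (u i₀) = 1 := hQu _
  have hy : Q ((3 : F) • u i₀ + u i₁ + u i₂) = 1 := by
    simp only [Q_add Q, hQ.smul, hQu, pl_add_left hQ, pl_smul_left hQ, huo _ _ h01, huo _ _ h02, huo _ _ h12]
    linear_combination 2 * h5
  have hxy : pl Q (u i₀) ((3 : F) • u i₀ + u i₁ + u i₂) = 1 := by
    simp only [pl_add_right hQ, pl_smul_right hQ, huu, huo _ _ h01, huo _ _ h02]
    linear_combination h5
  obtain ⟨g, hg, hgx, -, -⟩ := exists_T hQ one_ne_zero hx hy hxy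
  refine ⟨g, hg, u i₀, ⟨i₀, hu _, hQu _⟩, ?_⟩
  rintro ⟨i, hi, -⟩
  rw [hgx] at hi
  have hne : ∃ j ∈ ({i₁, i₂} : Set (Fin t)), i ≠ j := by
    by_cases h : i = i₁
    · exact ⟨i₂, by simp, by rw [h]; exact h12⟩
    · exact ⟨i₁, by simp, h⟩
  obtain ⟨j, hj, hij⟩ := hne
  have h4 := horth _ _ hij _ hi _ (hu j)
  rcases hj with rfl | hj
  · simp only [pl_sub_left hQ, pl_add_left hQ, pl_smul_left hQ, huu, huo _ _ h01, huo _ _ h12.symm] at h4
    apply h2
    linear_combination h4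
  · have hj' : j = i₂ := hj
    subst hj'
    simp only [pl_sub_left hQ, pl_add_left hQ, pl_smul_left hQ, huu, huo _ _ h02, huo _ _ h12] at h4
    apply h2
    linear_combination h4

/-- Packaging: a subgroup between the stabiliser and Omega from a stabilised set. -/
theorem package_set {t : ℕ} (D : Fin t → Submodule F (ι → F)) (S : Set (ι → F))
    (hle : ∀ g ∈ decompositionStabilizer D ⊓ omegaGL Q, g ∈ stabilizing (glToMat ι F) S) {g₁ g₂ : GL ι F}
    (hg₁ : g₁ ∈ omegaGL Q) (hg₁S : g₁ ∈ stabilizing (glToMat ι F) S) (hg₁D : g₁ ∉ decompositionStabilizer D)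
    (hg₂ : g₂ ∈ omegaGL Q) (hg₂S : g₂ ∉ stabilizing (glToMat ι F) S) :
    ∃ K : Subgroup (GL ι F), decompositionStabilizer D ⊓ omegaGL Q < K ∧ K < omegaGL Q := by
  refine ⟨stabilizing (glToMat ι F) S ⊓ omegaGL Q, ?_, ?_⟩
  · rw [lt_iff_le_and_ne]
    refine ⟨le_inf (fun g hg => hle g hg) inf_le_right, fun heq => ?_⟩
    have : g₁ ∈ stabilizing (glToMat ι F) S ⊓ omegaGL Q := ⟨hg₁S, hg₁⟩
    rw [← heq] at this
    exact hg₁D this.1
  · rw [lt_iff_le_and_ne]
    refine ⟨inf_le_right, fun heq => ?_⟩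
    rw [← heq] at hg₂
    exact hg₂S hg₂.1

/-- Non-maximality of the plus-type imprimitive stabiliser in dimension two over `F₂`. -/
theorem caseq2k2 [Fintype F] (hq : Fintype.card F = 2) (hn : 7 ≤ Fintype.card ι) (hQ : IsNondegenerateQuadraticForm Q) {t : ℕ}
    (D : Fin t → Submodule F (ι → F)) (hD : IsOrthogonalMDecomposition Q 2 D) (ht : 4 ≤ t)
    (hplus : ∀ i, IsPlusTypeOn Q (D i)) :
    ∃ K : Subgroup (GL ι F), decompositionStabilizer D ⊓ omegaGL Q < K ∧ K < omegaGL Q := by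
  have h2 : (2 : F) = 0 := by
    have h := FiniteField.cast_card_eq_zero F
    rw [hq] at h
    exact_mod_cast h
  have hone : ∀ {x : F}, x ≠ 0 → x = 1 := by
    intro x hx
    have h := FiniteField.pow_card_sub_one_eq_one x hx
    rw [hq] at h
    simpa using h
  obtain ⟨a, b, ha, hb, hQa, hQb, hab, hsp⟩ := exists_hyp_family hQ D hD hplus
  let u : Fin t → ι → F := fun i => a i + b i
  have hu : ∀ i, u i ∈ D i := fun i => (D i).add_mem (ha i) (hb i)
  have hba : ∀ i, pl Q (b i) (a i) = 1 := fun i => by rw [pl_symm, hab]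
  have haa : ∀ i, pl Q (a i) (a i) = 0 := fun i => by rw [pl_self hQ, hQa, mul_zero]
  have hbb : ∀ i, pl Q (b i) (b i) = 0 := fun i => by rw [pl_self hQ, hQb, mul_zero]
  have hQu : ∀ i, Q (u i) = 1 := by
    intro i
    simp only [u]
    rw [Q_add Q, hQa, hQb, hab]
    ring
  have horth : ∀ i j, i ≠ j → ∀ x ∈ D i, ∀ y ∈ D j, pl Q x y = 0 :=
    fun i j hij x hx y hy => hD.decomp.orthogonal i j hij x hx y hy
  have hfr : ∀ i, ∀ x ∈ D i, Q x = 1 → x = u i := by
    intro i x hx hQx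
    obtain ⟨s, r, rfl⟩ := hsp i x hx
    rw [Q_add Q, hQ.smul, hQ.smul, hQa, hQb, pl_smul_left hQ, pl_smul_right hQ, hab] at hQx
    have hsr : s * r = 1 := by linear_combination hQx
    rw [hone (left_ne_zero_of_mul_eq_one hsr), hone (right_ne_zero_of_mul_eq_one hsr), one_smul, one_smul]
  let i₀ : Fin t := ⟨0, by omega⟩
  let i₁ : Fin t := ⟨1, by omega⟩
  let i₂ : Fin t := ⟨2, by omega⟩
  let i₃ : Fin t := ⟨3, by omega⟩
  have h01 : i₀ ≠ i₁ := by simp [i₀, i₁, Fin.ext_iff]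
  have h02 : i₀ ≠ i₂ := by simp [i₀, i₂, Fin.ext_iff]
  have h03 : i₀ ≠ i₃ := by simp [i₀, i₃, Fin.ext_iff]
  have h12 : i₁ ≠ i₂ := by simp [i₁, i₂, Fin.ext_iff]
  have h13 : i₁ ≠ i₃ := by simp [i₁, i₃, Fin.ext_iff]
  have h23 : i₂ ≠ i₃ := by simp [i₂, i₃, Fin.ext_iff]
  have huo : ∀ i j, pl Q (u i) (u j) = 0 := by
    intro i j
    by_cases hij : i = j
    · subst hij
      rw [pl_self hQ, hQu, h2, zero_mul]
    · exact horth i j hij _ (hu i) _ (hu j)
  have hao : ∀ i j, i ≠ j → pl Q (a i) (u j) = 0 := fun i j hij => horth i j hij _ (ha i) _ (hu j)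
  have hua : ∀ i j, i ≠ j → pl Q (u i) (a j) = 0 := fun i j hij => horth i j hij _ (hu i) _ (ha j)
  have haui : ∀ i, pl Q (a i) (u i) = 1 := by
    intro i
    simp only [u]
    rw [pl_add_right hQ, haa, hab, zero_add]
  have huai : ∀ i, pl Q (u i) (a i) = 1 := fun i => by rw [pl_symm, haui]
  -- first element
  have hQA : Q (u i₀ + u i₁) = 0 := by
    rw [Q_add Q, hQu, hQu, huo]
    linear_combination h2
  have hQB : Q (u i₂ + u i₃) = 0 := by
    rw [Q_add Q, hQu, hQu, huo]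
    linear_combination h2
  have hAB : pl Q (u i₀ + u i₁) (u i₂ + u i₃) = 0 := by
    simp only [pl_add_left hQ, pl_add_right hQ, huo]
    ring
  have hli : LinearIndependent F ![u i₀ + u i₁, u i₂ + u i₃] := by
    rw [LinearIndependent.pair_iff]
    intro α β hαβ
    have e1 := congrArg (fun y => pl Q y (a i₀)) hαβ
    have e2 := congrArg (fun y => pl Q y (a i₂)) hαβ
    simp only [pl_add_left hQ, pl_smul_left hQ, pl_zero_left hQ, huai, hua _ _ h01.symm, hua _ _ h02.symm, hua _ _ h03.symm,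
      hua _ _ h02, hua _ _ h12, hua _ _ h23.symm] at e1 e2
    constructor
    · linear_combination e1
    · linear_combination e2
  obtain ⟨g₁, hg₁Ω, hg₁⟩ := exists_sieg hQ hn hQA hQB hAB hli
  have hg₁u : ∀ i, (g₁ : Matrix ι ι F) *ᵥ u i = u i := by
    intro i
    rw [hg₁]
    simp only [pl_add_right hQ, huo]
    simp
  have hg₁S : g₁ ∈ stabilizing (glToMat ι F) (frameSet Q D 1) := by
    apply mem_stabilizing_of_map
    rintro v ⟨i, hv, hQv⟩
    rw [hfr i v hv hQv, hg₁u]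
    exact ⟨i, hu i, hQu i⟩
  have hu0 : ∀ i, u i ≠ 0 := by
    intro i h0
    have := hQu i
    rw [h0, Q_zero hQ] at this
    exact zero_ne_one this
  have hg₁D : g₁ ∉ decompositionStabilizer D := by
    rintro ⟨σ, hσ⟩
    have hσ0 : σ i₀ = i₀ := by
      by_contra h
      have h3 : u i₀ ∈ D (σ i₀) := by
        rw [← hσ i₀]
        exact ⟨u i₀, hu _, by simpa [Matrix.toLin'_apply] using hg₁u i₀⟩
      obtain ⟨⟨w, hw, hwn⟩, -⟩ := hD.decomp.nondegenerate i₀ _ (hu i₀) (hu0 i₀)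
      exact hwn (horth _ _ (Ne.symm h) _ hw _ h3)
    have h3 : (g₁ : Matrix ι ι F) *ᵥ a i₀ ∈ D (σ i₀) := by
      rw [← hσ i₀]
      exact ⟨a i₀, ha _, rfl⟩
    rw [hσ0, hg₁] at h3
    have h4 := horth _ _ h02 _ h3 _ (ha i₂)
    simp only [pl_sub_left hQ, pl_add_left hQ, pl_smul_left hQ, pl_add_right hQ, huai, hua _ _ h23.symm, hua _ _ h02, hua _ _ h12,
      haa, hao _ _ h02, hao _ _ h03, haui, hao _ _ h01, horth _ _ h02 _ (ha i₀) _ (ha i₂)] at h4
    have : (1 : F) = 0 := by linear_combination -h4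
    exact one_ne_zero this
  -- second element
  have hy : Q (a i₀ + u i₁) = 1 := by
    rw [Q_add Q, hQa, hQu, hao _ _ h01]
    ring
  have hxy : pl Q (u i₀) (a i₀ + u i₁) = 1 := by
    rw [pl_add_right hQ, huai, huo]
    ring
  obtain ⟨g₂, hg₂Ω, hg₂x, -, -⟩ := exists_T hQ one_ne_zero (hQu i₀) hy hxy
  have hg₂S : g₂ ∉ stabilizing (glToMat ι F) (frameSet Q D 1) := by
    intro h
    have h3 := (h (u i₀)).1 ⟨i₀, hu _, hQu _⟩
    change (g₂ : Matrix ι ι F) *ᵥ u i₀ ∈ _ at h3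
    rw [hg₂x] at h3
    obtain ⟨i, hi, -⟩ := h3
    by_cases h4 : i = i₁
    · subst h4
      have h5 := horth _ _ h01.symm _ hi _ (ha i₀)
      simp only [pl_sub_left hQ, pl_add_left hQ, haa, huai, hua _ _ h01.symm] at h5
      have : (1 : F) = 0 := by linear_combination -h5
      exact one_ne_zero this
    · have h5 := horth _ _ h4 _ hi _ (ha i₁)
      simp only [pl_sub_left hQ, pl_add_left hQ, huai, horth _ _ h01 _ (ha i₀) _ (ha i₁), hua _ _ h01] at h5
      have : (1 : F) = 0 := by linear_combination h5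
      exact one_ne_zero this
  exact package_set D (frameSet Q D 1) (fun g hg => (stab_le_frameSet D 1 hg).1) hg₁Ω hg₁S hg₁D hg₂Ω hg₂S

/-- Non-maximality of the plus-type imprimitive stabiliser in dimension two over `F₄`. -/
theorem caseq4 [Fintype F] (hq : Fintype.card F = 4) (hQ : IsNondegenerateQuadraticForm Q) {t : ℕ}
    (D : Fin t → Submodule F (ι → F)) (hD : IsOrthogonalMDecomposition Q 2 D) (ht : 3 ≤ t)
    (hplus : ∀ i, IsPlusTypeOn Q (D i)) :
    ∃ K : Subgroup (GL ι F), decompositionStabilizer D ⊓ omegaGL Q < K ∧ K < omegaGL Q := by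
  classical
  have h2 : (2 : F) = 0 := by
    have h := FiniteField.cast_card_eq_zero F
    rw [hq] at h
    have h4 : (2 : F) * 2 = 0 := by
      have : ((4 : ℕ) : F) = 0 := h
      push_cast at this
      linear_combination this
    exact mul_self_eq_zero.1 h4
  have hp3 : ∀ {x : F}, x ≠ 0 → x ^ 3 = 1 := by
    intro x hx
    have h := FiniteField.pow_card_sub_one_eq_one x hx
    rw [hq] at h
    simpa using h
  obtain ⟨ω, hω0, hω1⟩ : ∃ ω : F, ω ≠ 0 ∧ ω ≠ 1 := by
    by_contra hcon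
    push Not at hcon
    have h1 : (Finset.univ : Finset F) ⊆ {0, 1} := by
      intro x _
      by_cases hx : x = 0
      · simp [hx]
      · simp [hcon x hx]
    have h3 := Finset.card_le_card h1
    have h4 : ({0, 1} : Finset F).card ≤ 2 := Finset.card_le_two
    rw [Finset.card_univ, hq] at h3
    omega
  have hω : ω ^ 2 + ω + 1 = 0 := by
    have h3 := hp3 hω0
    have h4 : (ω - 1) * (ω ^ 2 + ω + 1) = 0 := by linear_combination h3
    exact (mul_eq_zero.mp h4).resolve_left (sub_ne_zero.2 hω1)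
  have hω3 := hp3 hω0
  obtain ⟨a, b, ha, hb, hQa, hQb, hab, hsp⟩ := exists_hyp_family hQ D hD hplus
  let u : Fin t → ι → F := fun i => a i + b i
  let v : Fin t → ι → F := fun i => ω • a i + ω ^ 2 • b i
  have hu : ∀ i, u i ∈ D i := fun i => (D i).add_mem (ha i) (hb i)
  have hv : ∀ i, v i ∈ D i := fun i => (D i).add_mem ((D i).smul_mem _ (ha i)) ((D i).smul_mem _ (hb i))
  have hba : ∀ i, pl Q (b i) (a i) = 1 := fun i => by rw [pl_symm, hab]
  have haa : ∀ i, pl Q (a i) (a i) = 0 := fun i => by rw [pl_self hQ, hQa, mul_zero]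
  have hbb : ∀ i, pl Q (b i) (b i) = 0 := fun i => by rw [pl_self hQ, hQb, mul_zero]
  have hQu : ∀ i, Q (u i) = 1 := by
    intro i
    simp only [u]
    rw [Q_add Q, hQa, hQb, hab]
    ring
  have hQv : ∀ i, Q (v i) = 1 := by
    intro i
    simp only [v]
    rw [Q_add Q, hQ.smul, hQ.smul, hQa, hQb, pl_smul_left hQ, pl_smul_right hQ, hab]
    linear_combination hω3
  have horth : ∀ i j, i ≠ j → ∀ x ∈ D i, ∀ y ∈ D j, pl Q x y = 0 :=
    fun i j hij x hx y hy => hD.decomp.orthogonal i j hij x hx y hy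
  -- description of the set
  have hsq4 : ∀ x : F, x ^ 4 = x := by
    intro x
    by_cases hx : x = 0
    · simp [hx]
    · have := hp3 hx
      linear_combination x * this
  have hS : ∀ x ∈ frameSet Q D 1, ∃ i, ∃ s : F, s ≠ 0 ∧ x = s • a i + s ^ 2 • b i := by
    rintro x ⟨i, hx, hQx⟩
    obtain ⟨s, r, rfl⟩ := hsp i x hx
    rw [Q_add Q, hQ.smul, hQ.smul, hQa, hQb, pl_smul_left hQ, pl_smul_right hQ, hab] at hQx
    have hsr : s * r = 1 := by linear_combination hQx
    have hs : s ≠ 0 := left_ne_zero_of_mul_eq_one hsr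
    refine ⟨i, s, hs, ?_⟩
    have : r = s ^ 2 := by
      have h3 := hp3 hs
      linear_combination (-r) * h3 + s ^ 2 * hsr
    rw [this]
  have hSmem : ∀ x ∈ frameSet Q D 1, ∃ i, x ∈ D i := fun x ⟨i, hx, _⟩ => ⟨i, hx⟩
  have hF2base : ∀ x ∈ frameSet Q D 1, ∀ y ∈ frameSet Q D 1, (pl Q x y) ^ 2 = pl Q x y := by
    intro x hx y hy
    obtain ⟨i, s, hs, rfl⟩ := hS x hx
    obtain ⟨j, r, hr, rfl⟩ := hS y hy
    by_cases hij : i = j
    · subst hij
      simp only [pl_add_left hQ, pl_add_right hQ, pl_smul_left hQ, pl_smul_right hQ, haa, hab, hba, hbb]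
      have e1 := hsq4 s
      have e2 := hsq4 r
      have e3 := hp3 hs
      have e4 := hp3 hr
      have : (s * (r ^ 2 * 1) + s ^ 2 * (r * 1)) ^ 2 = s ^ 2 * r ^ 4 + s ^ 4 * r ^ 2 + 2 * s ^ 3 * r ^ 3 := by ring
      simp only [mul_zero, add_zero, zero_add, mul_one]
      have h5 : (s * r ^ 2 + s ^ 2 * r) ^ 2 = s ^ 2 * r ^ 4 + s ^ 4 * r ^ 2 + 2 * s ^ 3 * r ^ 3 := by ring
      rw [h5, h2, e1, e2]
      ring
    · rw [horth i j hij _ ((D i).add_mem ((D i).smul_mem _ (ha i)) ((D i).smul_mem _ (hb i))) _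
        ((D j).add_mem ((D j).smul_mem _ (ha j)) ((D j).smul_mem _ (hb j)))]
      ring
  have hsqadd : ∀ x y : F, (x + y) ^ 2 = x ^ 2 + y ^ 2 := fun x y => by
    linear_combination x * y * h2
  have hF2 : ∀ x ∈ AddSubgroup.closure (frameSet Q D 1), ∀ y ∈ AddSubgroup.closure (frameSet Q D 1),
      (pl Q x y) ^ 2 = pl Q x y := by
    intro x hx
    induction hx using AddSubgroup.closure_induction with
    | mem x hx =>
      intro y hy
      induction hy using AddSubgroup.closure_induction with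
      | mem y hy => exact hF2base x hx y hy
      | zero => simp [pl_zero_right hQ]
      | add y₁ y₂ _ _ h₁ h₂ => rw [pl_add_right hQ, hsqadd, h₁, h₂]
      | neg y _ h =>
        rw [pl_neg_right hQ, neg_sq, h]
        linear_combination pl Q x y * h2
    | zero =>
      intro y _
      simp [pl_zero_left hQ]
    | add x₁ x₂ _ _ h₁ h₂ =>
      intro y hy
      rw [pl_add_left hQ, hsqadd, h₁ y hy, h₂ y hy]
    | neg x _ h =>
      intro y hy
      rw [pl_neg_left hQ, neg_sq, h y hy]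
      linear_combination pl Q x y * h2
  let V₀ : AddSubgroup (ι → F) := AddSubgroup.closure (frameSet Q D 1)
  have hmemV : ∀ i, u i ∈ V₀ := fun i => AddSubgroup.subset_closure ⟨i, hu i, hQu i⟩
  have hmemV' : ∀ i, v i ∈ V₀ := fun i => AddSubgroup.subset_closure ⟨i, hv i, hQv i⟩
  have hsmulV : ∀ (c : F) (w : ι → F), c ^ 2 = c → w ∈ V₀ → c • w ∈ V₀ := by
    intro c w hc hw
    have h3 : c * (c - 1) = 0 := by linear_combination hc
    rcases mul_eq_zero.mp h3 with h4 | h4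
    · rw [h4, zero_smul]
      exact V₀.zero_mem
    · rw [sub_eq_zero.mp h4, one_smul]
      exact hw
  let i₀ : Fin t := ⟨0, by omega⟩
  let i₁ : Fin t := ⟨1, by omega⟩
  let i₂ : Fin t := ⟨2, by omega⟩
  have h01 : i₀ ≠ i₁ := by simp [i₀, i₁, Fin.ext_iff]
  have h02 : i₀ ≠ i₂ := by simp [i₀, i₂, Fin.ext_iff]
  have h12 : i₁ ≠ i₂ := by simp [i₁, i₂, Fin.ext_iff]
  have huo : ∀ i j, i ≠ j → pl Q (u i) (u j) = 0 := fun i j hij => horth i j hij _ (hu i) _ (hu j)
  have hvo : ∀ i j, i ≠ j → pl Q (v i) (u j) = 0 := fun i j hij => horth i j hij _ (hv i) _ (hu j)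
  have huv : pl Q (u i₀) (v i₀) = 1 := by
    simp only [u, v, pl_add_left hQ, pl_add_right hQ, pl_smul_right hQ, haa, hab, hba, hbb]
    linear_combination hω + h2 * (-1)
  -- first element
  have hy₁ : Q (v i₀ + u i₁ + u i₂) = 1 := by
    simp only [Q_add Q, hQu, hQv, pl_add_left hQ, hvo _ _ h01, hvo _ _ h02, huo _ _ h12]
    linear_combination h2
  have hxy₁ : pl Q (u i₀) (v i₀ + u i₁ + u i₂) = 1 := by
    simp only [pl_add_right hQ, huv, huo _ _ h01, huo _ _ h02]
    ring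
  obtain ⟨g₁, hg₁Ω, hg₁x, hg₁⟩ := exists_T' hQ one_ne_zero (hQu i₀) hy₁ hxy₁
  have hyV : v i₀ + u i₁ + u i₂ ∈ V₀ := V₀.add_mem (V₀.add_mem (hmemV' _) (hmemV _)) (hmemV _)
  have hg₁S : g₁ ∈ stabilizing (glToMat ι F) (V₀ : Set (ι → F)) := by
    apply mem_stabilizing_of_map
    intro z hz
    rw [hg₁]
    simp only [div_one]
    have e1 := hF2 z hz _ hyV
    have e2 := hF2 z hz _ (hmemV i₀)
    refine V₀.add_mem (V₀.sub_mem hz (hsmulV _ _ e1 (hmemV i₀))) (hsmulV _ _ ?_ (V₀.sub_mem hyV (hmemV i₀)))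
    rw [sub_sq, e1, e2]
    linear_combination (-pl Q z (u i₀) * pl Q z (v i₀ + u i₁ + u i₂)) * h2 + (pl Q z (v i₀ + u i₁ + u i₂)) * h2
  have hau : ∀ i, pl Q (u i) (a i) = 1 := by
    intro i
    simp only [u]
    rw [pl_add_left hQ, haa, hba, zero_add]
  have hg₁D : g₁ ∉ decompositionStabilizer D := by
    rintro ⟨σ, hσ⟩
    have h3 : (g₁ : Matrix ι ι F) *ᵥ u i₀ ∈ D (σ i₀) := by
      rw [← hσ i₀]
      exact ⟨u i₀, hu _, rfl⟩
    rw [hg₁x] at h3
    by_cases h4 : σ i₀ = i₁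
    · have h5 := horth _ _ (by rw [h4]; exact h12) _ h3 _ (ha i₂)
      simp only [pl_sub_left hQ, pl_add_left hQ, hau, horth _ _ h02 _ (hv i₀) _ (ha i₂), horth _ _ h12 _ (hu i₁) _ (ha i₂),
        horth _ _ h02 _ (hu i₀) _ (ha i₂)] at h5
      have : (1 : F) = 0 := by linear_combination h5
      exact one_ne_zero this
    · have h5 := horth _ _ h4 _ h3 _ (ha i₁)
      simp only [pl_sub_left hQ, pl_add_left hQ, hau, horth _ _ h01 _ (hv i₀) _ (ha i₁), horth _ _ h12.symm _ (hu i₂) _ (ha i₁),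
        horth _ _ h01 _ (hu i₀) _ (ha i₁)] at h5
      have : (1 : F) = 0 := by linear_combination h5
      exact one_ne_zero this
  -- second element
  have hy₂ : Q (a i₀ + u i₁) = 1 := by
    rw [Q_add Q, hQa, hQu, horth _ _ h01 _ (ha i₀) _ (hu i₁)]
    ring
  have hxy₂ : pl Q (u i₀) (a i₀ + u i₁) = 1 := by
    rw [pl_add_right hQ, hau, huo _ _ h01]
    ring
  obtain ⟨g₂, hg₂Ω, hg₂x, -, -⟩ := exists_T hQ one_ne_zero (hQu i₀) hy₂ hxy₂
  have hg₂S : g₂ ∉ stabilizing (glToMat ι F) (V₀ : Set (ι → F)) := by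
    intro h
    have h3 := (h (u i₀)).1 (hmemV i₀)
    change (g₂ : Matrix ι ι F) *ᵥ u i₀ ∈ V₀ at h3
    rw [hg₂x] at h3
    have h4 := hF2 _ h3 _ (hmemV' i₀)
    have hv0 : pl Q (a i₀) (v i₀) = ω ^ 2 := by
      simp only [v, pl_add_right hQ, pl_smul_right hQ, haa, hab]
      ring
    simp only [pl_sub_left hQ, pl_add_left hQ, hv0, huv, horth _ _ h01.symm _ (hu i₁) _ (hv i₀)] at h4
    have e1 := hsq4 ω
    have : (1 : F) = 0 := by
      have e2 : (ω ^ 2 + 0 - 1) ^ 2 = ω ^ 4 - 2 * ω ^ 2 + 1 := by ring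
      rw [e2, e1] at h4
      linear_combination hω - h4 - (2 * ω ^ 2 - 1) * h2
    exact one_ne_zero this
  have hle : ∀ g ∈ decompositionStabilizer D ⊓ omegaGL Q, g ∈ stabilizing (glToMat ι F) (V₀ : Set (ι → F)) := by
    intro g hg
    have hgS := (stab_le_frameSet D 1 hg).1
    apply mem_stabilizing_of_map
    intro z hz
    change z ∈ AddSubgroup.closure (frameSet Q D 1) at hz
    induction hz using AddSubgroup.closure_induction with
    | mem x hx => exact AddSubgroup.subset_closure ((hgS x).1 hx)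
    | zero =>
      rw [Matrix.mulVec_zero]
      exact V₀.zero_mem
    | add x y _ _ hx hy =>
      rw [Matrix.mulVec_add]
      exact V₀.add_mem hx hy
    | neg x _ hx =>
      rw [Matrix.mulVec_neg]
      exact V₀.neg_mem hx
  exact package_set D (V₀ : Set (ι → F)) hle hg₁Ω hg₁S hg₁D hg₂Ω hg₂S

/-- The planes in a plus-type space of dimension four over `F₂`. -/
theorem exists_planes4 [Fintype F] (hq : Fintype.card F = 2) (hQ : IsNondegenerateQuadraticForm Q) {W : Submodule F (ι → F)}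
    (hdim : Module.finrank F W = 4) (hW : IsNondegenerateOn (QuadraticMap.polar Q) W) (hWp : IsPlusTypeOn Q W) :
    ∃ X Y X' Y' : ι → F, X ∈ W ∧ Y ∈ W ∧ X' ∈ W ∧ Y' ∈ W ∧ Q X = 1 ∧ Q Y = 1 ∧ Q X' = 1 ∧ Q Y' = 1 ∧ pl Q X Y = 1 ∧ pl Q X' Y' = 1 ∧
      pl Q X X' = 0 ∧ pl Q X Y' = 0 ∧ pl Q Y X' = 0 ∧ pl Q Y Y' = 0 ∧
      ∀ w ∈ W, Q w = 1 → w = X ∨ w = Y ∨ w = X + Y ∨ w = X' ∨ w = Y' ∨ w = X' + Y' := by
  have h2 : (2 : F) = 0 := by
    have h := FiniteField.cast_card_eq_zero F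
    rw [hq] at h
    exact_mod_cast h
  have hzo : ∀ x : F, x = 0 ∨ x = 1 := by
    intro x
    by_cases hx : x = 0
    · exact Or.inl hx
    · right
      have h := FiniteField.pow_card_sub_one_eq_one x hx
      rw [hq] at h
      simpa using h
  obtain ⟨U, hUW, hUs, hUd⟩ := hWp
  obtain ⟨a₁, ha₁, a₂, ha₂, hli⟩ := exists_indep_in (U := U) (by omega)
  obtain ⟨b₁, hb₁, b₂, hb₂, hQb₁, hQb₂, hb₁a₁, hb₂a₂, hb₁a₂, hb₂a₁, hb₁b₂⟩ :=
    exists_two_hyp_in hQ hW (hUW ha₁) (hUW ha₂) (hUs _ ha₁) (hUs _ ha₂) (pl_ts hUs ha₁ ha₂) hli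
  have hQa₁ := hUs _ ha₁
  have hQa₂ := hUs _ ha₂
  have ha₁a₂ := pl_ts hUs ha₁ ha₂
  have ha₂a₁ : pl Q a₂ a₁ = 0 := by rw [pl_symm, ha₁a₂]
  have ha₁b₁ : pl Q a₁ b₁ = 1 := by rw [pl_symm, hb₁a₁]
  have ha₂b₂ : pl Q a₂ b₂ = 1 := by rw [pl_symm, hb₂a₂]
  have ha₂b₁ : pl Q a₂ b₁ = 0 := by rw [pl_symm, hb₁a₂]
  have ha₁b₂ : pl Q a₁ b₂ = 0 := by rw [pl_symm, hb₂a₁]
  have hb₂b₁ : pl Q b₂ b₁ = 0 := by rw [pl_symm, hb₁b₂]
  have ha₁a₁ : pl Q a₁ a₁ = 0 := by rw [pl_self hQ, hQa₁, mul_zero]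
  have ha₂a₂ : pl Q a₂ a₂ = 0 := by rw [pl_self hQ, hQa₂, mul_zero]
  have hb₁b₁ : pl Q b₁ b₁ = 0 := by rw [pl_self hQ, hQb₁, mul_zero]
  have hb₂b₂ : pl Q b₂ b₂ = 0 := by rw [pl_self hQ, hQb₂, mul_zero]
  -- spanning
  have hli4 : LinearIndependent F ![a₁, b₁, a₂, b₂] := by
    rw [Fintype.linearIndependent_iff]
    intro g hg
    rw [Fin.sum_univ_four] at hg
    simp only [Matrix.cons_val_zero, Matrix.cons_val_one, Matrix.cons_val_two, Matrix.head_cons, Matrix.tail_cons,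
      Matrix.cons_val_three] at hg
    have e1 := congrArg (fun y => pl Q y a₁) hg
    have e2 := congrArg (fun y => pl Q y b₁) hg
    have e3 := congrArg (fun y => pl Q y a₂) hg
    have e4 := congrArg (fun y => pl Q y b₂) hg
    simp only [pl_add_left hQ, pl_smul_left hQ, pl_zero_left hQ, ha₁a₁, ha₁b₁, ha₁a₂, ha₁b₂, hb₁a₁, hb₁b₁, hb₁a₂, hb₁b₂, ha₂a₁,
      ha₂b₁, ha₂a₂, ha₂b₂, hb₂a₁, hb₂b₁, hb₂a₂, hb₂b₂] at e1 e2 e3 e4
    intro i
    fin_cases i
    · simpa using e2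
    · simpa using e1
    · simpa using e4
    · simpa using e3
  have hspan : Submodule.span F (Set.range ![a₁, b₁, a₂, b₂]) = W := by
    apply Submodule.eq_of_le_of_finrank_eq
    · rw [Submodule.span_le]
      rintro _ ⟨i, rfl⟩
      fin_cases i
      · exact hUW ha₁
      · exact hb₁
      · exact hUW ha₂
      · exact hb₂
    · rw [finrank_span_eq_card hli4, hdim]
      simp
  refine ⟨a₁ + b₁ + a₂, a₁ + b₁ + b₂, a₁ + b₁, a₂ + b₂ + a₁, ?_, ?_, ?_, ?_, ?_, ?_, ?_, ?_, ?_, ?_, ?_, ?_, ?_, ?_, ?_⟩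
  · exact W.add_mem (W.add_mem (hUW ha₁) hb₁) (hUW ha₂)
  · exact W.add_mem (W.add_mem (hUW ha₁) hb₁) hb₂
  · exact W.add_mem (hUW ha₁) hb₁
  · exact W.add_mem (W.add_mem (hUW ha₂) hb₂) (hUW ha₁)
  · simp only [Q_add Q, pl_add_left hQ, hQa₁, hQa₂, hQb₁, ha₁b₁, ha₁a₂, hb₁a₂]
    ring
  · simp only [Q_add Q, pl_add_left hQ, hQa₁, hQb₁, hQb₂, ha₁b₁, ha₁b₂, hb₁b₂]
    ring
  · simp only [Q_add Q, hQa₁, hQb₁, ha₁b₁]
    ring
  · simp only [Q_add Q, pl_add_left hQ, hQa₁, hQa₂, hQb₂, ha₂b₂, ha₂a₁, hb₂a₁]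
    ring
  · simp only [pl_add_left hQ, pl_add_right hQ, ha₁a₁, ha₁b₁, ha₁b₂, hb₁a₁, hb₁b₁, hb₁b₂, ha₂a₁, ha₂b₁, ha₂b₂]
    linear_combination h2
  · simp only [pl_add_left hQ, pl_add_right hQ, ha₁a₁, ha₁a₂, ha₁b₂, hb₁a₁, hb₁a₂, hb₁b₂]
    ring
  · simp only [pl_add_left hQ, pl_add_right hQ, ha₁a₁, ha₁b₁, hb₁a₁, hb₁b₁, ha₂a₁, ha₂b₁]
    linear_combination h2
  · simp only [pl_add_left hQ, pl_add_right hQ, ha₁a₁, ha₁a₂, ha₁b₂, hb₁a₁, hb₁a₂, hb₁b₂, ha₂a₁, ha₂a₂, ha₂b₂]
    linear_combination h2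
  · simp only [pl_add_left hQ, pl_add_right hQ, ha₁a₁, ha₁b₁, hb₁a₁, hb₁b₁, hb₂a₁, hb₂b₁]
    linear_combination h2
  · simp only [pl_add_left hQ, pl_add_right hQ, ha₁a₁, ha₁a₂, ha₁b₂, hb₁a₁, hb₁a₂, hb₁b₂, hb₂a₁, hb₂a₂, hb₂b₂]
    linear_combination h2
  · intro w hw hQw
    rw [← hspan] at hw
    obtain ⟨c, rfl⟩ := (Submodule.mem_span_range_iff_exists_fun F).1 hw
    rw [Fin.sum_univ_four] at hQw ⊢
    simp only [Matrix.cons_val_zero, Matrix.cons_val_one, Matrix.cons_val_two, Matrix.head_cons, Matrix.tail_cons,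
      Matrix.cons_val_three] at hQw ⊢
    simp only [Q_add Q, hQ.smul, pl_add_left hQ, pl_smul_left hQ, pl_smul_right hQ, hQa₁, hQa₂, hQb₁, hQb₂, ha₁b₁, ha₁a₂, ha₁b₂,
      hb₁a₂, hb₁b₂, ha₂b₂] at hQw
    have h1 : c 0 * c 1 + c 2 * c 3 = 1 := by linear_combination hQw
    generalize c 0 = α at h1 ⊢
    generalize c 1 = β at h1 ⊢
    generalize c 2 = γ at h1 ⊢
    generalize c 3 = δ at h1 ⊢
    have h10 : (1 : F) ≠ 0 := one_ne_zero
    have h11 : (1 : F) + 1 = 0 := by linear_combination h2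
    rcases hzo α with rfl | rfl <;> rcases hzo β with rfl | rfl <;> rcases hzo γ with rfl | rfl <;>
      rcases hzo δ with rfl | rfl <;>
      first
      | (exfalso; revert h1; simp [h11]; done)
      | (right; right; left; ext i; simp only [Pi.add_apply, Pi.smul_apply, smul_eq_mul]; linear_combination (-(a₁ i) - b₁ i) * h2)
      | (right; right; right; left; ext i; simp only [Pi.add_apply, Pi.smul_apply, smul_eq_mul]; ring1)
      | (left; ext i; simp only [Pi.add_apply, Pi.smul_apply, smul_eq_mul]; ring1)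
      | (right; left; ext i; simp only [Pi.add_apply, Pi.smul_apply, smul_eq_mul]; ring1)
      | (right; right; right; right; left; ext i; simp only [Pi.add_apply, Pi.smul_apply, smul_eq_mul]; ring1)
      | (right; right; right; right; right; ext i; simp only [Pi.add_apply, Pi.smul_apply, smul_eq_mul]; linear_combination (-(a₁ i)) * h2)

/-- The core argument for a family of anisotropic planes over `F₂`. -/
theorem aniso_core [Fintype F] (hq : Fintype.card F = 2) (hn : 7 ≤ Fintype.card ι) (hQ : IsNondegenerateQuadraticForm Q) {t : ℕ}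
    (D : Fin t → Submodule F (ι → F)) (horth : ∀ i j, i ≠ j → ∀ x ∈ D i, ∀ y ∈ D j, pl Q x y = 0) {J : Type} [DecidableEq J]
    (X Y : J → ι → F) (idx : J → Fin t) (hXD : ∀ j, X j ∈ D (idx j)) (hYD : ∀ j, Y j ∈ D (idx j)) (hQX : ∀ j, Q (X j) = 1)
    (hQY : ∀ j, Q (Y j) = 1) (hXY : ∀ j, pl Q (X j) (Y j) = 1) (hoXX : ∀ j j', j ≠ j' → pl Q (X j) (X j') = 0)
    (hoXY : ∀ j j', j ≠ j' → pl Q (X j) (Y j') = 0) (hoYY : ∀ j j', j ≠ j' → pl Q (Y j) (Y j') = 0)
    (hfr : ∀ i, ∀ w ∈ D i, Q w = 1 → ∃ j, w = X j ∨ w = Y j ∨ w = X j + Y j)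
    (j₀ j₁ j' : J) (h01 : j₀ ≠ j₁) (h01i : idx j₀ ≠ idx j₁) (h'0 : j' ≠ j₀) (h'1 : j' ≠ j₁) (h'i : idx j' = idx j₀)
    (j₂ j₃ j₄ : J) (h23 : j₂ ≠ j₃) (h24 : j₂ ≠ j₄) (h34 : j₃ ≠ j₄) (h34i : idx j₃ ≠ idx j₄) :
    ∃ K : Subgroup (GL ι F), decompositionStabilizer D ⊓ omegaGL Q < K ∧ K < omegaGL Q := by
  have h2 : (2 : F) = 0 := by
    have h := FiniteField.cast_card_eq_zero F
    rw [hq] at h
    exact_mod_cast h
  have hXX : ∀ j, pl Q (X j) (X j) = 0 := fun j => by rw [pl_self hQ, hQX, h2, zero_mul]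
  have hYY : ∀ j, pl Q (Y j) (Y j) = 0 := fun j => by rw [pl_self hQ, hQY, h2, zero_mul]
  have hYX : ∀ j, pl Q (Y j) (X j) = 1 := fun j => by rw [pl_symm, hXY]
  have hoYX : ∀ j j', j ≠ j' → pl Q (Y j) (X j') = 0 := fun j j' h => by rw [pl_symm, hoXY j' j h.symm]
  have hmemX : ∀ j, X j ∈ frameSet Q D 1 := fun j => ⟨_, hXD j, hQX j⟩
  have hmemY : ∀ j, Y j ∈ frameSet Q D 1 := fun j => ⟨_, hYD j, hQY j⟩
  have hmemXY : ∀ j, X j + Y j ∈ frameSet Q D 1 := fun j => ⟨_, (D _).add_mem (hXD j) (hYD j), by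
    rw [Q_add Q, hQX, hQY, hXY]
    linear_combination h2⟩
  -- first element
  have hQA : Q (X j₀ + X j₁) = 0 := by
    rw [Q_add Q, hQX, hQX, hoXX _ _ h01]
    linear_combination h2
  have hQB : Q (Y j₀ + Y j₁) = 0 := by
    rw [Q_add Q, hQY, hQY, hoYY _ _ h01]
    linear_combination h2
  have hAB : pl Q (X j₀ + X j₁) (Y j₀ + Y j₁) = 0 := by
    simp only [pl_add_left hQ, pl_add_right hQ, hXY, hoXY _ _ h01, hoXY _ _ h01.symm]
    linear_combination h2
  have hli : LinearIndependent F ![X j₀ + X j₁, Y j₀ + Y j₁] := by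
    rw [LinearIndependent.pair_iff]
    intro α β hαβ
    have e1 := congrArg (fun y => pl Q y (X j₀)) hαβ
    have e2 := congrArg (fun y => pl Q y (Y j₀)) hαβ
    simp only [pl_add_left hQ, pl_smul_left hQ, pl_zero_left hQ, hXX, hXY, hYX, hYY, hoXX _ _ h01.symm, hoYX _ _ h01.symm,
      hoXY _ _ h01.symm, hoYY _ _ h01.symm] at e1 e2
    constructor
    · linear_combination e2
    · linear_combination e1
  obtain ⟨g₁, hg₁Ω, hg₁⟩ := exists_sieg hQ hn hQA hQB hAB hli
  let τ : Equiv.Perm J := Equiv.swap j₀ j₁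
  have hg₁X : ∀ j, (g₁ : Matrix ι ι F) *ᵥ X j = X (τ j) := by
    intro j
    by_cases hj0 : j = j₀
    · subst hj0
      rw [hg₁, show τ j = j₁ from Equiv.swap_apply_left _ _]
      simp only [pl_add_right hQ, hXY, hoXY _ _ h01, hXX, hoXX _ _ h01]
      ext i
      simp only [Pi.sub_apply, Pi.add_apply, Pi.smul_apply, smul_eq_mul]
      linear_combination X j i * h2
    by_cases hj1 : j = j₁
    · subst hj1
      rw [hg₁, show τ j = j₀ from Equiv.swap_apply_right _ _]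
      simp only [pl_add_right hQ, hXY, hoXY _ _ h01.symm, hXX, hoXX _ _ h01.symm]
      ext i
      simp only [Pi.sub_apply, Pi.add_apply, Pi.smul_apply, smul_eq_mul]
      linear_combination X j i * h2
    · rw [hg₁, show τ j = j from Equiv.swap_apply_of_ne_of_ne hj0 hj1]
      simp only [pl_add_right hQ, hoXY _ _ hj0, hoXY _ _ hj1, hoXX _ _ hj0, hoXX _ _ hj1]
      simp
  have hg₁Y : ∀ j, (g₁ : Matrix ι ι F) *ᵥ Y j = Y (τ j) := by
    intro j
    by_cases hj0 : j = j₀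
    · subst hj0
      rw [hg₁, show τ j = j₁ from Equiv.swap_apply_left _ _]
      simp only [pl_add_right hQ, hYY, hoYY _ _ h01, hYX, hoYX _ _ h01]
      ext i
      simp only [Pi.sub_apply, Pi.add_apply, Pi.smul_apply, smul_eq_mul]
      linear_combination Y j₁ i * (-1 : F) * h2 + 0 * h2
    by_cases hj1 : j = j₁
    · subst hj1
      rw [hg₁, show τ j = j₀ from Equiv.swap_apply_right _ _]
      simp only [pl_add_right hQ, hYY, hoYY _ _ h01.symm, hYX, hoYX _ _ h01.symm]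
      ext i
      simp only [Pi.sub_apply, Pi.add_apply, Pi.smul_apply, smul_eq_mul]
      linear_combination Y j₀ i * (-1 : F) * h2
    · rw [hg₁, show τ j = j from Equiv.swap_apply_of_ne_of_ne hj0 hj1]
      simp only [pl_add_right hQ, hoYY _ _ hj0, hoYY _ _ hj1, hoYX _ _ hj0, hoYX _ _ hj1]
      simp
  have hg₁S : g₁ ∈ stabilizing (glToMat ι F) (frameSet Q D 1) := by
    apply mem_stabilizing_of_map
    rintro v ⟨i, hv, hQv⟩
    obtain ⟨j, rfl | rfl | rfl⟩ := hfr i v hv hQv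
    · rw [hg₁X]
      exact hmemX _
    · rw [hg₁Y]
      exact hmemY _
    · rw [Matrix.mulVec_add, hg₁X, hg₁Y]
      exact hmemXY _
  have hg₁D : g₁ ∉ decompositionStabilizer D := by
    rintro ⟨σ, hσ⟩
    have hj' : τ j' = j' := Equiv.swap_apply_of_ne_of_ne h'0 h'1
    have hσ0 : σ (idx j₀) = idx j₀ := by
      by_contra h
      have h3 : X j' ∈ D (σ (idx j₀)) := by
        rw [← hσ (idx j₀)]
        refine ⟨X j', by rw [← h'i]; exact hXD j', ?_⟩
        have := hg₁X j'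
        rw [hj'] at this
        simpa [Matrix.toLin'_apply] using this
      have h4 := horth _ _ h _ h3 (Y j') (by rw [← h'i]; exact hYD j')
      rw [hXY] at h4
      exact one_ne_zero h4
    have h3 : X j₁ ∈ D (σ (idx j₀)) := by
      rw [← hσ (idx j₀)]
      refine ⟨X j₀, hXD j₀, ?_⟩
      have := hg₁X j₀
      rw [show τ j₀ = j₁ from Equiv.swap_apply_left _ _] at this
      simpa [Matrix.toLin'_apply] using this
    rw [hσ0] at h3
    have h4 := horth _ _ h01i _ h3 _ (hYD j₁)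
    rw [hXY] at h4
    exact one_ne_zero h4
  -- second element
  have hy : Q (Y j₂ + X j₃ + X j₄) = 1 := by
    simp only [Q_add Q, pl_add_left hQ, hQX, hQY, hoYX _ _ h23, hoYX _ _ h24, hoXX _ _ h34]
    linear_combination h2
  have hxy : pl Q (X j₂) (Y j₂ + X j₃ + X j₄) = 1 := by
    simp only [pl_add_right hQ, hXY, hoXX _ _ h23, hoXX _ _ h24]
    ring
  obtain ⟨g₂, hg₂Ω, hg₂x, -, -⟩ := exists_T hQ one_ne_zero (hQX j₂) hy hxy
  have hg₂S : g₂ ∉ stabilizing (glToMat ι F) (frameSet Q D 1) := by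
    intro h
    have h3 := (h (X j₂)).1 (hmemX j₂)
    change (g₂ : Matrix ι ι F) *ᵥ X j₂ ∈ _ at h3
    rw [hg₂x] at h3
    obtain ⟨i, hi, -⟩ := h3
    by_cases h4 : i = idx j₃
    · have h5 := horth _ _ (by rw [h4]; exact h34i) _ hi _ (hYD j₄)
      simp only [pl_sub_left hQ, pl_add_left hQ, hXY, hoYY _ _ h24, hoXY _ _ h34, hoXY _ _ h24] at h5
      have : (1 : F) = 0 := by linear_combination h5
      exact one_ne_zero this
    · have h5 := horth _ _ h4 _ hi _ (hYD j₃)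
      simp only [pl_sub_left hQ, pl_add_left hQ, hXY, hoYY _ _ h23, hoXY _ _ h34.symm, hoXY _ _ h23] at h5
      have : (1 : F) = 0 := by linear_combination h5
      exact one_ne_zero this
  exact package_set D (frameSet Q D 1) (fun g hg => (stab_le_frameSet D 1 hg).1) hg₁Ω hg₁S hg₁D hg₂Ω hg₂S

/-- Non-maximality of the plus-type imprimitive stabiliser in dimension four over `F₂`. -/
theorem caseq2k4 [Fintype F] (hq : Fintype.card F = 2) (hn : 7 ≤ Fintype.card ι) (hQ : IsNondegenerateQuadraticForm Q) {t : ℕ}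
    (D : Fin t → Submodule F (ι → F)) (hD : IsOrthogonalMDecomposition Q 4 D) (ht : 3 ≤ t)
    (hplus : ∀ i, IsPlusTypeOn Q (D i)) :
    ∃ K : Subgroup (GL ι F), decompositionStabilizer D ⊓ omegaGL Q < K ∧ K < omegaGL Q := by
  have horth : ∀ i j, i ≠ j → ∀ x ∈ D i, ∀ y ∈ D j, pl Q x y = 0 :=
    fun i j hij x hx y hy => hD.decomp.orthogonal i j hij x hx y hy
  choose X₀ Y₀ X₁ Y₁ hX₀ hY₀ hX₁ hY₁ hQX₀ hQY₀ hQX₁ hQY₁ hXY₀ hXY₁ h00 h01 h10 h11 hfr using fun i =>
    exists_planes4 hq hQ (hD.decomp.decomp.finrank_eq i) (hD.decomp.nondegenerate i) (hplus i)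
  let X : Fin t × Bool → ι → F := fun j => if j.2 then X₁ j.1 else X₀ j.1
  let Y : Fin t × Bool → ι → F := fun j => if j.2 then Y₁ j.1 else Y₀ j.1
  have hXD : ∀ j, X j ∈ D j.1 := by
    rintro ⟨i, (_ | _)⟩
    · exact hX₀ i
    · exact hX₁ i
  have hYD : ∀ j, Y j ∈ D j.1 := by
    rintro ⟨i, (_ | _)⟩
    · exact hY₀ i
    · exact hY₁ i
  have hQX : ∀ j, Q (X j) = 1 := by
    rintro ⟨i, (_ | _)⟩
    · exact hQX₀ i
    · exact hQX₁ i
  have hQY : ∀ j, Q (Y j) = 1 := by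
    rintro ⟨i, (_ | _)⟩
    · exact hQY₀ i
    · exact hQY₁ i
  have hXY : ∀ j, pl Q (X j) (Y j) = 1 := by
    rintro ⟨i, (_ | _)⟩
    · exact hXY₀ i
    · exact hXY₁ i
  have hneq : ∀ (j j' : Fin t × Bool), j ≠ j' → j.1 = j'.1 → j.2 ≠ j'.2 := by
    rintro ⟨i, b⟩ ⟨i', b'⟩ h1 h2 h3
    simp only at h2 h3
    subst h2 h3
    exact h1 rfl
  have hoXX : ∀ j j', j ≠ j' → pl Q (X j) (X j') = 0 := by
    intro j j' hjj
    by_cases hi : j.1 = j'.1
    · obtain ⟨i, b⟩ := j
      obtain ⟨i', b'⟩ := j'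
      simp only at hi
      subst hi
      have hb := hneq _ _ hjj rfl
      simp only at hb
      rcases b with _ | _ <;> rcases b' with _ | _
      · exact absurd rfl hb
      · exact h00 i
      · change pl Q (X₁ i) (X₀ i) = 0
        rw [pl_symm]
        exact h00 i
      · exact absurd rfl hb
    · exact horth _ _ hi _ (hXD j) _ (hXD j')
  have hoXY : ∀ j j', j ≠ j' → pl Q (X j) (Y j') = 0 := by
    intro j j' hjj
    by_cases hi : j.1 = j'.1
    · obtain ⟨i, b⟩ := j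
      obtain ⟨i', b'⟩ := j'
      simp only at hi
      subst hi
      have hb := hneq _ _ hjj rfl
      simp only at hb
      rcases b with _ | _ <;> rcases b' with _ | _
      · exact absurd rfl hb
      · exact h01 i
      · change pl Q (X₁ i) (Y₀ i) = 0
        rw [pl_symm]
        exact h10 i
      · exact absurd rfl hb
    · exact horth _ _ hi _ (hXD j) _ (hYD j')
  have hoYY : ∀ j j', j ≠ j' → pl Q (Y j) (Y j') = 0 := by
    intro j j' hjj
    by_cases hi : j.1 = j'.1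
    · obtain ⟨i, b⟩ := j
      obtain ⟨i', b'⟩ := j'
      simp only at hi
      subst hi
      have hb := hneq _ _ hjj rfl
      simp only at hb
      rcases b with _ | _ <;> rcases b' with _ | _
      · exact absurd rfl hb
      · exact h11 i
      · change pl Q (Y₁ i) (Y₀ i) = 0
        rw [pl_symm]
        exact h11 i
      · exact absurd rfl hb
    · exact horth _ _ hi _ (hYD j) _ (hYD j')
  have hfrJ : ∀ i, ∀ w ∈ D i, Q w = 1 → ∃ j, w = X j ∨ w = Y j ∨ w = X j + Y j := by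
    intro i w hw hQw
    rcases hfr i w hw hQw with h | h | h | h | h | h
    · exact ⟨(i, false), Or.inl h⟩
    · exact ⟨(i, false), Or.inr (Or.inl h)⟩
    · exact ⟨(i, false), Or.inr (Or.inr h)⟩
    · exact ⟨(i, true), Or.inl h⟩
    · exact ⟨(i, true), Or.inr (Or.inl h)⟩
    · exact ⟨(i, true), Or.inr (Or.inr h)⟩
  let i₀ : Fin t := ⟨0, by omega⟩
  let i₁ : Fin t := ⟨1, by omega⟩
  let i₂ : Fin t := ⟨2, by omega⟩
  have hi01 : i₀ ≠ i₁ := by simp [i₀, i₁, Fin.ext_iff]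
  have hi02 : i₀ ≠ i₂ := by simp [i₀, i₂, Fin.ext_iff]
  have hi12 : i₁ ≠ i₂ := by simp [i₁, i₂, Fin.ext_iff]
  exact aniso_core hq hn hQ D horth X Y Prod.fst hXD hYD hQX hQY hXY hoXX hoXY hoYY hfrJ (i₀, true) (i₁, false) (i₀, false)
    (by simp [hi01]) hi01 (by simp) (by simp [hi01]) rfl (i₀, false) (i₁, false) (i₂, false) (by simp [hi01]) (by simp [hi02])
    (by simp [hi12]) hi12

end Cfsg.Agent.H27.GO
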