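import Mathlib
import Cfsg.Prelude.Def_GeometricClasses
import Cfsg.Agent.Lib.Lead.SLn
import Cfsg.Agent.Lib.H27.GeoDec
import Cfsg.Agent.Lib.H27.GeoPlane
import Cfsg.Agent.Lib.H27.TvGL

/-!
# The stabiliser of a subspace is maximal in `SL`
-/

set_option autoImplicit false
set_option linter.unusedSectionVars false
set_option linter.unusedSimpArgs false

namespace Cfsg.Agent.H27.ML

open scoped Matrix MatrixGroups
open Cfsg Cfsg.Geo

variable {n : ℕ} {F : Type*} [Field F]

/-- Extending a linearly independent family inside a subspace. -/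
theorem extend_li {a : ℕ} (K : Submodule F (Fin n → F)) (s : Fin a → Fin n → F) (hs : ∀ i, s i ∈ K)
    (hli : LinearIndependent F s) (c : ℕ) (hfin : a + c ≤ Module.finrank F K) :
    ∃ s' : Fin (a + c) → Fin n → F, LinearIndependent F s' ∧ (∀ i, s' i ∈ K) ∧ ∀ i, s' (Fin.castAdd c i) = s i := by
  induction c with
  | zero => exact ⟨s, hli, hs, fun i => rfl⟩
  | succ c ih =>
    obtain ⟨s', h1, h2, h3⟩ := ih (by omega)
    have hlt : ¬ K ≤ Submodule.span F (Set.range s') := by
      intro hle
      have h4 := Submodule.finrank_mono hle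
      have h5 : Module.finrank F (Submodule.span F (Set.range s')) ≤ a + c := by
        have : Set.finrank F (Set.range s') ≤ _ := finrank_range_le_card (R := F) s'
        simpa [Set.finrank] using this
      omega
    obtain ⟨y, hy, hyn⟩ := SetLike.not_le_iff_exists.1 hlt
    refine ⟨Fin.snoc s' y, linearIndependent_finSnoc.2 ⟨h1, hyn⟩, ?_, ?_⟩
    · intro i
      refine Fin.lastCases ?_ (fun j => ?_) i
      · simpa using hy
      · simpa using h2 j
    · intro i
      have : Fin.castAdd (c + 1) i = Fin.castSucc (Fin.castAdd c i) := rfl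
      rw [this, Fin.snoc_castSucc, h3]

/-- A basis adapted to a generic pair. -/
theorem adapted {W : Submodule F (Fin n → F)} {φ : Module.Dual F (Fin n → F)} {v x : Fin n → F} (hxW : x ∈ W)
    (hφx : φ x = 1) (hφv : φ v = 0) (hv : v ∉ W) {k c : ℕ} (hk : Module.finrank F W = k + 1) (hN : n = k + 1 + c + 1) :
    ∃ b : Module.Basis (Fin (k + 1 + c + 1)) F (Fin n → F),
      b (Fin.castSucc (Fin.castAdd c 0)) = v ∧ b (Fin.last _) = x ∧
      (∀ i, i ≠ Fin.last _ → φ (b i) = 0) ∧
      (∀ j : Fin k, b (Fin.castSucc (Fin.castAdd c (Fin.succ j))) ∈ W) ∧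
      W ≤ Submodule.span F (insert x (Set.range fun j : Fin k => b (Fin.castSucc (Fin.castAdd c (Fin.succ j))))) := by
  classical
  have hx0 : x ≠ 0 := by
    rintro rfl
    simp at hφx
  let K₀ : Submodule F (Fin n → F) := W ⊓ LinearMap.ker φ
  have hdecomp : ∀ y ∈ W, y - φ y • x ∈ K₀ := by
    intro y hy
    refine ⟨W.sub_mem hy (W.smul_mem _ hxW), ?_⟩
    simp [hφx]
  have hsup : K₀ ⊔ Submodule.span F {x} = W := by
    apply le_antisymm
    · apply sup_le inf_le_left
      rw [Submodule.span_le]
      simpa using hxW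
    · intro y hy
      have h1 : y = (y - φ y • x) + φ y • x := by simp
      rw [h1]
      exact Submodule.add_mem_sup (hdecomp y hy) (Submodule.smul_mem _ _ (Submodule.mem_span_singleton_self _))
  have hinf : K₀ ⊓ Submodule.span F {x} = ⊥ := by
    rw [eq_bot_iff]
    rintro y ⟨hy, hy2⟩
    obtain ⟨a, rfl⟩ := Submodule.mem_span_singleton.1 hy2
    have h2 : φ (a • x) = 0 := hy.2
    rw [map_smul, hφx] at h2
    have ha : a = 0 := by simpa using h2
    simp [ha]
  have hK₀ : Module.finrank F K₀ = k := by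
    have h1 := Submodule.finrank_sup_add_finrank_inf_eq K₀ (Submodule.span F {x})
    rw [hsup, hinf, hk, finrank_bot, finrank_span_singleton hx0] at h1
    omega
  let b₀ : Module.Basis (Fin k) F K₀ := Module.finBasisOfFinrankEq F _ hK₀
  obtain ⟨s, hsdef⟩ : ∃ s : Fin k → Fin n → F, ∀ i, s i = (b₀ i : Fin n → F) := ⟨_, fun _ => rfl⟩
  have hsW : ∀ i, s i ∈ W := fun i => by
    rw [hsdef]
    exact (b₀ i).2.1
  have hsφ : ∀ i, φ (s i) = 0 := fun i => by
    rw [hsdef]
    exact (b₀ i).2.2
  have hsli : LinearIndependent F s := by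
    have h0 : LinearIndependent F (fun i => b₀ i) := b₀.linearIndependent
    have h2 : LinearIndependent F (fun i => ((b₀ i : K₀) : Fin n → F)) :=
      h0.map' K₀.subtype (Submodule.ker_subtype _)
    have h3 : s = fun i => ((b₀ i : K₀) : Fin n → F) := funext hsdef
    rw [h3]
    exact h2
  have hs₂ : LinearIndependent F (Fin.cons v s : Fin (k + 1) → Fin n → F) := by
    rw [linearIndependent_finCons]
    refine ⟨hsli, fun hmem => hv ?_⟩
    have hle : Submodule.span F (Set.range s) ≤ W := by
      rw [Submodule.span_le]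
      rintro _ ⟨i, rfl⟩
      exact hsW i
    exact hle hmem
  have hφ0 : φ ≠ 0 := by
    rintro rfl
    simp at hφx
  have hkerfin : Module.finrank F (LinearMap.ker φ) = k + 1 + c := by
    have h1 := LinearMap.finrank_range_add_finrank_ker φ
    rw [LinearMap.range_eq_top.2 (LinearMap.surjective hφ0), finrank_top, Module.finrank_self,
      Module.finrank_fintype_fun_eq_card, Fintype.card_fin] at h1
    omega
  obtain ⟨s₃, h31, h32, h33⟩ := extend_li (LinearMap.ker φ) (Fin.cons v s : Fin (k + 1) → Fin n → F) (by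
      intro i
      refine Fin.cases ?_ (fun j => ?_) i
      · simpa using hφv
      · simpa using hsφ j) hs₂ c hkerfin.ge
  have hs₄ : LinearIndependent F (Fin.snoc s₃ x : Fin (k + 1 + c + 1) → Fin n → F) := by
    rw [linearIndependent_finSnoc]
    refine ⟨h31, fun hmem => ?_⟩
    have hle : Submodule.span F (Set.range s₃) ≤ LinearMap.ker φ := by
      rw [Submodule.span_le]
      rintro _ ⟨i, rfl⟩
      exact h32 i
    have h5 : φ x = 0 := hle hmem
    rw [hφx] at h5
    exact one_ne_zero h5
  have hcard : Fintype.card (Fin (k + 1 + c + 1)) = Module.finrank F (Fin n → F) := by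
    rw [Module.finrank_fintype_fun_eq_card, Fintype.card_fin, Fintype.card_fin, hN]
  let b : Module.Basis (Fin (k + 1 + c + 1)) F (Fin n → F) := basisOfLinearIndependentOfCardEqFinrank hs₄ hcard
  have hb : ⇑b = Fin.snoc s₃ x := coe_basisOfLinearIndependentOfCardEqFinrank hs₄ hcard
  have hbJ : ∀ j : Fin k, b (Fin.castSucc (Fin.castAdd c (Fin.succ j))) = s j := by
    intro j
    rw [hb, Fin.snoc_castSucc, h33]
    simp
  refine ⟨b, ?_, ?_, ?_, ?_, ?_⟩
  · rw [hb, Fin.snoc_castSucc, h33]
    simp
  · rw [hb, Fin.snoc_last]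
  · intro i hi
    obtain ⟨j, rfl⟩ := Fin.exists_castSucc_eq.2 hi
    rw [hb, Fin.snoc_castSucc]
    exact h32 j
  · intro j
    rw [hbJ]
    exact hsW j
  · intro y hy
    have h4 := b₀.sum_repr ⟨_, hdecomp y hy⟩
    have h5 : ∑ i, (b₀.repr ⟨_, hdecomp y hy⟩ i) • s i = y - φ y • x := by
      have h5' := congrArg (fun z : K₀ => (z : Fin n → F)) h4
      simp only [Submodule.coe_sum, Submodule.coe_smul] at h5'
      simp only [hsdef]
      exact h5'
    have h6 : y = φ y • x + ∑ i, (b₀.repr ⟨_, hdecomp y hy⟩ i) • s i := by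
      rw [h5]
      simp
    rw [h6]
    apply Submodule.add_mem
    · exact Submodule.smul_mem _ _ (Submodule.subset_span (Set.mem_insert _ _))
    · apply Submodule.sum_mem
      intro i _
      apply Submodule.smul_mem
      apply Submodule.subset_span
      apply Set.mem_insert_of_mem
      exact ⟨i, hbJ i⟩

/-- `P` is transitive on generic pairs. -/
theorem exists_transport {W : Submodule F (Fin n → F)} {φ φ' : Module.Dual F (Fin n → F)} {v v' x x' : Fin n → F}
    (hn : 3 ≤ n) (hW1 : W ≠ ⊤) (hxW : x ∈ W) (hφx : φ x = 1) (hφv : φ v = 0) (hv : v ∉ W)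
    (hxW' : x' ∈ W) (hφx' : φ' x' = 1) (hφv' : φ' v' = 0) (hv' : v' ∉ W) :
    ∃ h : GL (Fin n) F, h ∈ subspaceStabilizer W ⊓ specialLinear (Fin n) F ∧
      (h : Matrix (Fin n) (Fin n) F) *ᵥ v = v' ∧ ∀ y, φ' ((h : Matrix (Fin n) (Fin n) F) *ᵥ y) = φ y := by
  classical
  have hW0 : 0 < Module.finrank F W := by
    apply Module.finrank_pos_iff.2
    apply Submodule.nontrivial_iff_ne_bot.2
    rintro rfl
    have h1 : x = 0 := by simpa using hxW
    rw [h1] at hφx
    simp at hφx
  have hWlt : Module.finrank F W < n := by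
    have h1 : Module.finrank F W ≠ Module.finrank F (Fin n → F) := by
      intro h2
      exact hW1 (Submodule.eq_top_of_finrank_eq h2)
    have h3 := Submodule.finrank_le W
    rw [Module.finrank_fintype_fun_eq_card, Fintype.card_fin] at h1 h3
    omega
  obtain ⟨k, hk⟩ : ∃ k, Module.finrank F W = k + 1 := ⟨Module.finrank F W - 1, by omega⟩
  obtain ⟨c, hc⟩ : ∃ c, n = k + 1 + c + 1 := ⟨n - (k + 2), by omega⟩
  obtain ⟨b, hb1, hb2, hb3, hb4, hb5⟩ := adapted hxW hφx hφv hv hk hc
  obtain ⟨b', hb'1, hb'2, hb'3, hb'4, -⟩ := adapted hxW' hφx' hφv' hv' hk hc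
  let d : F := b.det b'
  have hd : d ≠ 0 := (b.isUnit_det b').ne_zero
  let j₀ : Fin (k + 1 + c + 1) := ⟨1, by omega⟩
  have hj₁ : Fin.castSucc (Fin.castAdd c (0 : Fin (k + 1))) ≠ j₀ := by
    intro h
    have := congrArg Fin.val h
    simp [j₀] at this
  have hj₂ : Fin.last (k + 1 + c) ≠ j₀ := by
    intro h
    have := congrArg Fin.val h
    simp [j₀] at this
    omega
  let b'' : Fin (k + 1 + c + 1) → Fin n → F := Function.update (⇑b') j₀ (d⁻¹ • b' j₀)
  have hb''1 : b'' (Fin.castSucc (Fin.castAdd c 0)) = v' := by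
    simp only [b'']
    rw [Function.update_of_ne hj₁, hb'1]
  have hb''2 : b'' (Fin.last _) = x' := by
    simp only [b'']
    rw [Function.update_of_ne hj₂, hb'2]
  have hb''3 : ∀ i, i ≠ Fin.last _ → φ' (b'' i) = 0 := by
    intro i hi
    by_cases h : i = j₀
    · subst h
      simp only [b'', Function.update_self, map_smul, smul_eq_mul]
      rw [hb'3 _ hj₂.symm, mul_zero]
    · simp only [b'']
      rw [Function.update_of_ne h]
      exact hb'3 i hi
  have hb''4 : ∀ j : Fin k, b'' (Fin.castSucc (Fin.castAdd c (Fin.succ j))) ∈ W := by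
    intro j
    by_cases h : Fin.castSucc (Fin.castAdd c (Fin.succ j)) = j₀
    · simp only [b'']
      rw [h, Function.update_self, ← h]
      exact W.smul_mem _ (hb'4 j)
    · simp only [b'']
      rw [Function.update_of_ne h]
      exact hb'4 j
  let T : (Fin n → F) →ₗ[F] (Fin n → F) := b.constr F b''
  have hTb : ∀ i, T (b i) = b'' i := fun i => b.constr_basis F b'' i
  have hdet : LinearMap.det T = 1 := by
    have h1 := b.det_comp T b
    rw [b.det_self, mul_one] at h1
    rw [← h1]
    have h2 : ⇑T ∘ ⇑b = b'' := funext hTb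
    rw [h2]
    simp only [b'']
    rw [AlternatingMap.map_update_smul, Function.update_eq_self]
    exact inv_mul_cancel₀ hd
  obtain ⟨g, hgSL, hg⟩ := Cfsg.Agent.H27.GD.exists_gl_of_linear T hdet
  refine ⟨g, ⟨?_, hgSL⟩, ?_, ?_⟩
  · apply Cfsg.Agent.H27.GO.mem_stab_of_map
    intro y hy
    rw [hg]
    have h1 : W.map T ≤ W := by
      refine le_trans (Submodule.map_mono hb5) ?_
      rw [Submodule.map_span, Submodule.span_le]
      rintro _ ⟨z, hz, rfl⟩
      rcases hz with rfl | ⟨j, rfl⟩
      · rw [← hb2, hTb, hb''2]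
        exact hxW'
      · rw [hTb]
        exact hb''4 j
    exact h1 ⟨y, hy, rfl⟩
  · rw [hg, ← hb1, hTb, hb''1]
  · intro y
    rw [hg]
    have h : φ' ∘ₗ T = φ := by
      apply b.ext
      intro i
      rw [LinearMap.comp_apply, hTb]
      by_cases hi : i = Fin.last _
      · subst hi
        rw [hb''2, hφx', hb2, hφx]
      · rw [hb''3 i hi, hb3 i hi]
    exact LinearMap.congr_fun h y

/-- A subgroup containing all transvections of `SL` contains `SL`. -/
theorem sl_le_of_tv [NeZero n] (hn : 2 ≤ n) (M : Subgroup (GL (Fin n) F))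
    (h : ∀ (t : GL (Fin n) F) (φ : Module.Dual F (Fin n → F)) (v : Fin n → F), t ∈ specialLinear (Fin n) F → φ v = 0 →
      (∀ x, (t : Matrix (Fin n) (Fin n) F) *ᵥ x = x + φ x • v) → t ∈ M) :
    specialLinear (Fin n) F ≤ M := by
  classical
  intro g hg
  have hgdet : (g : Matrix (Fin n) (Fin n) F).det = 1 := by
    have h1 : Matrix.GeneralLinearGroup.det g = 1 := hg
    have h2 := congrArg Units.val h1
    simpa [Matrix.GeneralLinearGroup.val_det_apply] using h2
  haveI : Nontrivial (Fin n) := Fin.nontrivial_iff_two_le.2 hn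
  have key : ∀ A : Matrix.SpecialLinearGroup (Fin n) F, Matrix.SpecialLinearGroup.toGL A ∈ M := by
    apply Cfsg.Agent.Lead.transvection_induction'
    · intro i j hij c
      apply h _ (c • LinearMap.proj j) (Pi.single i 1)
      · rw [specialLinear, MonoidHom.mem_ker]
        apply Units.ext
        simp [Matrix.GeneralLinearGroup.val_det_apply]
      · simp [hij]
      · intro x
        ext k
        change ((Matrix.transvection i j c) *ᵥ x) k = _
        rw [Matrix.transvection, Matrix.add_mulVec, Matrix.one_mulVec, Matrix.single_mulVec]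
        by_cases hk : i = k
        · subst hk
          simp
        · simp [Pi.single_apply, Ne.symm hk]
    · intro A B hA hB
      rw [map_mul]
      exact M.mul_mem hA hB
  have h2 := key ⟨g, hgdet⟩
  have h3 : Matrix.SpecialLinearGroup.toGL (⟨g, hgdet⟩ : Matrix.SpecialLinearGroup (Fin n) F) = g := Units.ext rfl
  rwa [h3] at h2

/-- The stabiliser of a proper non-zero subspace is maximal in `SL`. -/
theorem stab_max (hn : 3 ≤ n) (W : Submodule F (Fin n → F)) (hW0 : W ≠ ⊥) (hW1 : W ≠ ⊤) :
    IsMaximalIn (specialLinear (Fin n) F) (subspaceStabilizer W ⊓ specialLinear (Fin n) F) := by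
  classical
  haveI : NeZero n := ⟨by omega⟩
  constructor
  · rw [lt_iff_le_and_ne]
    refine ⟨inf_le_right, fun heq => ?_⟩
    obtain ⟨t, ht, hts⟩ := Cfsg.Agent.H27.Tv.exists_sl_not_stab W hW0 hW1
    rw [← heq] at ht
    exact hts ht.1
  · intro M hPM hMG
    by_cases hex : ∃ g ∈ M, g ∉ subspaceStabilizer W
    · right
      apply le_antisymm hMG
      obtain ⟨g, hgM, hgn⟩ := hex
      have hgG := hMG hgM
      have hex2 : ∃ y ∈ W, (g : Matrix (Fin n) (Fin n) F) *ᵥ y ∉ W := by
        by_contra hcon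
        push Not at hcon
        exact hgn (Cfsg.Agent.H27.GO.mem_stab_of_map g W hcon)
      obtain ⟨y, hy, hgy⟩ := hex2
      -- the generic pair
      obtain ⟨w, hw, hw0⟩ := Submodule.exists_mem_ne_zero_of_ne_bot hW0
      have hwn : w ∉ Submodule.span F {(g : Matrix (Fin n) (Fin n) F) *ᵥ y} := by
        intro hmem
        obtain ⟨a, ha⟩ := Submodule.mem_span_singleton.1 hmem
        apply hgy
        have ha0 : a ≠ 0 := by
          rintro rfl
          apply hw0
          rw [← ha]
          simp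
        have h1 := W.smul_mem a⁻¹ hw
        rw [← ha, smul_smul, inv_mul_cancel₀ ha0, one_smul] at h1
        exact h1
      obtain ⟨φ₁, hφ₁, hle⟩ := Submodule.exists_le_ker_of_notMem hwn
      let φ₀ : Module.Dual F (Fin n → F) := (φ₁ w)⁻¹ • φ₁
      have hφ₀w : φ₀ w = 1 := by simp [φ₀, hφ₁]
      have hφ₀v : φ₀ ((g : Matrix (Fin n) (Fin n) F) *ᵥ y) = 0 := by
        have : φ₁ ((g : Matrix (Fin n) (Fin n) F) *ᵥ y) = 0 := hle (Submodule.mem_span_singleton_self _)
        simp [φ₀, this]
      obtain ⟨t₀, ht₀SL, ht₀⟩ := Cfsg.Agent.H27.Tv.exists_tv φ₀ _ hφ₀v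
      have ht₀M : t₀ ∈ M := by
        have hs : g⁻¹ * t₀ * g ∈ M := by
          apply hPM
          refine ⟨?_, (specialLinear (Fin n) F).mul_mem ((specialLinear (Fin n) F).mul_mem
            ((specialLinear (Fin n) F).inv_mem hgG) ht₀SL) hgG⟩
          apply Cfsg.Agent.H27.GO.mem_stab_of_map
          intro z hz
          rw [Units.val_mul, Units.val_mul, ← Matrix.mulVec_mulVec, ← Matrix.mulVec_mulVec, ht₀, Matrix.mulVec_add,
            Matrix.mulVec_smul, Matrix.mulVec_mulVec, Matrix.mulVec_mulVec, ← Units.val_mul, inv_mul_cancel,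
            Units.val_one, Matrix.one_mulVec, Matrix.one_mulVec]
          exact W.add_mem hz (W.smul_mem _ hy)
        have h2 := M.mul_mem (M.mul_mem hgM hs) (M.inv_mem hgM)
        have h3 : g * (g⁻¹ * t₀ * g) * g⁻¹ = t₀ := by group
        rwa [h3] at h2
      apply sl_le_of_tv (by omega)
      intro t φ v htSL hφv ht
      by_cases h1 : v ∈ W
      · apply hPM
        refine ⟨?_, htSL⟩
        apply Cfsg.Agent.H27.GO.mem_stab_of_map
        intro z hz
        rw [ht]
        exact W.add_mem hz (W.smul_mem _ h1)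
      · by_cases h2 : ∀ z ∈ W, φ z = 0
        · apply hPM
          refine ⟨?_, htSL⟩
          apply Cfsg.Agent.H27.Tv.mem_stab_of_fix
          intro z hz
          rw [ht, h2 z hz]
          simp
        · push Not at h2
          obtain ⟨z, hz, hφz⟩ := h2
          -- rescale: `x' = (φ z)⁻¹ • z`
          obtain ⟨h, hh, hhv, hhφ⟩ := exists_transport (W := W) (φ := φ₀) (φ' := φ) (v := (g : Matrix (Fin n) (Fin n) F) *ᵥ y)
            (v' := v) (x := w) (x' := (φ z)⁻¹ • z) hn hW1 hw hφ₀w hφ₀v hgy (W.smul_mem _ hz)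
            (by simp [hφz]) hφv h1
          have h3 := M.mul_mem (M.mul_mem (hPM hh) ht₀M) (M.inv_mem (hPM hh))
          have h4 : h * t₀ * h⁻¹ = t := by
            apply Cfsg.Agent.H27.GO.gl_ext
            intro a
            rw [Units.val_mul, Units.val_mul, ← Matrix.mulVec_mulVec, ← Matrix.mulVec_mulVec, ht₀, Matrix.mulVec_add,
              Matrix.mulVec_smul, Matrix.mulVec_mulVec, ← Units.val_mul, mul_inv_cancel, Units.val_one,
              Matrix.one_mulVec, hhv, ht, ← hhφ, Matrix.mulVec_mulVec, ← Units.val_mul, mul_inv_cancel, Units.val_one,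
              Matrix.one_mulVec]
          rwa [h4] at h3
    · left
      push Not at hex
      exact le_antisymm (fun g hg => ⟨hex g hg, hMG hg⟩) hPM

end Cfsg.Agent.H27.ML
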