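import Mathlib
import Cfsg.Prelude.Def_GeometricClasses
import Cfsg.Agent.Lib.Lead.SpGen
import Cfsg.Agent.Lib.H27.GeoPlane
import Cfsg.Agent.Lib.H27.TvGL
import Cfsg.Agent.Lib.H27.GeoDec

/-!
# Maximality of subspace stabilisers in symplectic groups
-/

set_option autoImplicit false
set_option linter.unusedSectionVars false
set_option linter.unusedSimpArgs false

namespace Cfsg.Agent.H27.MS

open scoped Matrix MatrixGroups
open Cfsg Cfsg.Geo
open Cfsg.Agent.Lead (sympT sympTmat sympTmat_mulVec sympForm_mulVec sympForm_self sympForm_swap sympForm_add_left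
  sympForm_add_right sympForm_smul_left sympForm_smul_right sympForm_sub_right sympForm_nondeg conj_sympT sp_induction
  IsPartial tuple_transitive)

variable {m : ℕ} {F : Type*} [Field F]

local notation "sf" => Cfsg.Agent.Lead.sympForm

/-- Symplectic matrices as invertible matrices. -/
def toGL : Matrix.symplecticGroup (Fin m) F →* GL (Fin m ⊕ Fin m) F where
  toFun A := ⟨A.1, (A⁻¹ : Matrix.symplecticGroup (Fin m) F).1, congrArg Subtype.val (mul_inv_cancel A),
    congrArg Subtype.val (inv_mul_cancel A)⟩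
  map_one' := by
    apply Units.ext
    rfl
  map_mul' a b := by
    apply Units.ext
    rfl

lemma toGL_val (A : Matrix.symplecticGroup (Fin m) F) :
    ((toGL A : GL (Fin m ⊕ Fin m) F) : Matrix (Fin m ⊕ Fin m) (Fin m ⊕ Fin m) F) = A.1 := rfl

lemma mem_spGL_iff {g : GL (Fin m ⊕ Fin m) F} : g ∈ spGL m F ↔
    ∀ x y, sf ((g : Matrix (Fin m ⊕ Fin m) (Fin m ⊕ Fin m) F) *ᵥ x) ((g : Matrix (Fin m ⊕ Fin m) (Fin m ⊕ Fin m) F) *ᵥ y) = sf x y :=
  Iff.rfl

lemma toGL_mem (A : Matrix.symplecticGroup (Fin m) F) : toGL A ∈ spGL m F := by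
  rw [mem_spGL_iff]
  intro x y
  exact sympForm_mulVec A.2 x y

lemma exists_toGL {g : GL (Fin m ⊕ Fin m) F} (hg : g ∈ spGL m F) : ∃ A, toGL A = g := by
  classical
  have hmem : (g : Matrix (Fin m ⊕ Fin m) (Fin m ⊕ Fin m) F) ∈ Matrix.symplecticGroup (Fin m) F := by
    rw [SymplecticGroup.mem_iff']
    ext i j
    have h := (mem_spGL_iff.1 hg) (Pi.single i 1) (Pi.single j 1)
    simp only [Cfsg.Agent.Lead.sympForm] at h
    rw [Matrix.mulVec_mulVec, Matrix.dotProduct_mulVec, Matrix.vecMul_mulVec, ← Matrix.dotProduct_mulVec, ← Matrix.mul_assoc] at h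
    simpa using h
  exact ⟨⟨g, hmem⟩, Units.ext rfl⟩

/-- The transvection as an invertible matrix. -/
def tv (u : Fin m ⊕ Fin m → F) (c : F) : GL (Fin m ⊕ Fin m) F := toGL (sympT u c)

lemma tv_mulVec (u : Fin m ⊕ Fin m → F) (c : F) (x : Fin m ⊕ Fin m → F) :
    ((tv u c : GL (Fin m ⊕ Fin m) F) : Matrix (Fin m ⊕ Fin m) (Fin m ⊕ Fin m) F) *ᵥ x = x + (c * sf x u) • u :=
  sympTmat_mulVec u c x

lemma tv_mem (u : Fin m ⊕ Fin m → F) (c : F) : tv u c ∈ spGL m F := toGL_mem _

lemma conj_tv (A : Matrix.symplecticGroup (Fin m) F) (u : Fin m ⊕ Fin m → F) (c : F) :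
    toGL A * tv u c * (toGL A)⁻¹ = tv ((toGL A : GL (Fin m ⊕ Fin m) F).1 *ᵥ u) c := by
  simp only [tv, ← map_mul, ← map_inv]
  rw [conj_sympT]
  rfl

/-- A subgroup containing the transvections contains the symplectic group. -/
theorem spGL_le_of_tv [Fintype F] (M : Subgroup (GL (Fin m ⊕ Fin m) F)) (h : ∀ u c, tv u c ∈ M) : spGL m F ≤ M := by
  intro g hg
  obtain ⟨A, rfl⟩ := exists_toGL hg
  have h1 : M.comap toGL = ⊤ := sp_induction _ (fun u c => h u c)
  have h2 : A ∈ M.comap toGL := by
    rw [h1]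
    trivial
  exact h2

/-- The criterion for maximality. -/
theorem sp_max_crit [Fintype F] (W : Submodule F (Fin m ⊕ Fin m → F)) (PS : Set (Fin m ⊕ Fin m → F))
    (hP : ∀ u ∈ PS, ∀ c, tv u c ∈ subspaceStabilizer W)
    (htrans : ∀ u₀ ∉ PS, ∀ u ∉ PS, ∃ h ∈ subspaceStabilizer W ⊓ spGL m F,
      (h : Matrix (Fin m ⊕ Fin m) (Fin m ⊕ Fin m) F) *ᵥ u₀ = u)
    (hgen : ∀ g ∈ spGL m F, g ∉ subspaceStabilizer W → ∃ u₀ ∉ PS, ((g⁻¹ : GL (Fin m ⊕ Fin m) F) : Matrix (Fin m ⊕ Fin m) (Fin m ⊕ Fin m) F) *ᵥ u₀ ∈ PS)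
    (hne : ∃ u c, tv u c ∉ subspaceStabilizer W) :
    IsMaximalIn (spGL m F) (subspaceStabilizer W ⊓ spGL m F) := by
  constructor
  · rw [lt_iff_le_and_ne]
    refine ⟨inf_le_right, fun heq => ?_⟩
    obtain ⟨u, c, hn⟩ := hne
    have := tv_mem u c
    rw [← heq] at this
    exact hn this.1
  · intro M hPM hMG
    by_cases hex : ∃ g ∈ M, g ∉ subspaceStabilizer W
    · right
      apply le_antisymm hMG
      obtain ⟨g, hgM, hgn⟩ := hex
      have hgG := hMG hgM
      obtain ⟨u₀, hu₀, hgu⟩ := hgen g hgG hgn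
      obtain ⟨A, rfl⟩ := exists_toGL hgG
      apply spGL_le_of_tv
      have hu₀M : ∀ c, tv u₀ c ∈ M := by
        intro c
        have h1 : tv (((toGL A)⁻¹ : GL (Fin m ⊕ Fin m) F).1 *ᵥ u₀) c ∈ M := hPM ⟨hP _ hgu c, tv_mem _ _⟩
        have h2 := M.mul_mem (M.mul_mem hgM h1) (M.inv_mem hgM)
        rw [conj_tv] at h2
        have h3 : (toGL A : GL (Fin m ⊕ Fin m) F).1 *ᵥ (((toGL A)⁻¹ : GL (Fin m ⊕ Fin m) F).1 *ᵥ u₀) = u₀ := by
          rw [Matrix.mulVec_mulVec, ← Units.val_mul, mul_inv_cancel, Units.val_one, Matrix.one_mulVec]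
        rwa [h3] at h2
      intro u c
      by_cases hu : u ∈ PS
      · exact hPM ⟨hP u hu c, tv_mem _ _⟩
      · obtain ⟨h, hh, hhu⟩ := htrans u₀ hu₀ u hu
        obtain ⟨B, rfl⟩ := exists_toGL hh.2
        have h2 := M.mul_mem (M.mul_mem (hPM hh) (hu₀M c)) (M.inv_mem (hPM hh))
        rw [conj_tv, hhu] at h2
        exact h2
    · left
      push Not at hex
      exact le_antisymm (fun g hg => ⟨hex g hg, hMG hg⟩) hPM

/-- Prescribed values of a non-degenerate bilinear form. -/
theorem exists_dual_bil {ι : Type} [Fintype ι] [DecidableEq ι] {f : (ι → F) → (ι → F) → F} (hb : IsBilinearForm f)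
    (hn : IsNondegenerateForm f) {k : ℕ} (v : Fin k → ι → F) (hli : LinearIndependent F v) (c : Fin k → F) :
    ∃ x, ∀ i, f x (v i) = c i := by
  classical
  let L : (ι → F) →ₗ[F] (Fin k → F) :=
    { toFun := fun x i => f x (v i)
      map_add' := fun x y => by
        ext i
        exact hb.add_left x y (v i)
      map_smul' := fun r x => by
        ext i
        exact hb.smul_left r x (v i) }
  have hL : ∀ x i, L x i = f x (v i) := fun _ _ => rfl
  have hzero : ∀ x, f x 0 = 0 := fun x => by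
    have := hb.smul_right 0 x 0
    simpa using this
  have hr : LinearMap.range L = ⊤ := by
    by_contra hne
    obtain ⟨φ, hφ0, hφ⟩ := Submodule.exists_le_ker_of_lt_top _ (lt_top_iff_ne_top.2 hne)
    let d : Fin k → F := fun i => φ (Pi.single i 1)
    have hφd : ∀ y : Fin k → F, φ y = ∑ i, y i * d i := by
      intro y
      have h1 : y = ∑ i, y i • (Pi.single i 1 : Fin k → F) := by
        ext j
        simp [Finset.sum_apply, Pi.single_apply]
      conv_lhs => rw [h1]
      rw [map_sum]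
      simp [d]
    have hz : (∑ i, d i • v i) = 0 := by
      by_contra hne0
      obtain ⟨⟨x, hx⟩, -⟩ := hn _ hne0
      apply hx
      have h2 : φ (L x) = 0 := hφ ⟨x, rfl⟩
      rw [hφd] at h2
      have h3 : ∀ (s : Finset (Fin k)), f x (∑ i ∈ s, d i • v i) = ∑ i ∈ s, L x i * d i := by
        intro s
        induction s using Finset.induction_on with
        | empty => simpa using hzero x
        | insert a s ha ih =>
          rw [Finset.sum_insert ha, Finset.sum_insert ha, hb.add_right, hb.smul_right, ih, hL]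
          ring
      rw [h3, h2]
    have hd : d = 0 := by
      have := Fintype.linearIndependent_iff.1 hli d hz
      ext i
      exact this i
    apply hφ0
    ext i
    simp only [LinearMap.comp_apply, LinearMap.single_apply]
    have : φ (Pi.single i 1) = d i := rfl
    simp [this, hd]
  have : c ∈ LinearMap.range L := by
    rw [hr]
    trivial
  obtain ⟨x, hx⟩ := this
  exact ⟨x, fun i => by rw [← hL, hx]⟩

lemma sympForm_bil : IsBilinearForm (Cfsg.Agent.Lead.sympForm (l := Fin m) (F := F)) :=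
  ⟨sympForm_add_left, fun c x v => sympForm_smul_left c x v, sympForm_add_right, fun c v x => sympForm_smul_right c v x⟩

lemma sympForm_nd : IsNondegenerateForm (Cfsg.Agent.Lead.sympForm (l := Fin m) (F := F)) := by
  intro v hv
  obtain ⟨z, hz⟩ := sympForm_nondeg hv
  refine ⟨⟨z, ?_⟩, ⟨z, hz⟩⟩
  rw [sympForm_swap]
  simpa using hz

lemma sympForm_sum_left {κ : Type*} (s : Finset κ) (a : κ → F) (v : κ → Fin m ⊕ Fin m → F) (y : Fin m ⊕ Fin m → F) :
    sf (∑ i ∈ s, a i • v i) y = ∑ i ∈ s, a i * sf (v i) y := by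
  classical
  induction s using Finset.induction_on with
  | empty =>
    have := sympForm_smul_left (0 : F) (0 : Fin m ⊕ Fin m → F) y
    simpa using this
  | insert b s hb ih => rw [Finset.sum_insert hb, Finset.sum_insert hb, sympForm_add_left, sympForm_smul_left, ih]

lemma sympForm_sum_right {κ : Type*} (s : Finset κ) (a : κ → F) (v : κ → Fin m ⊕ Fin m → F) (y : Fin m ⊕ Fin m → F) :
    sf y (∑ i ∈ s, a i • v i) = ∑ i ∈ s, a i * sf y (v i) := by
  classical
  induction s using Finset.induction_on with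
  | empty =>
    have := sympForm_smul_right (0 : F) y (0 : Fin m ⊕ Fin m → F)
    simpa using this
  | insert b s hb ih => rw [Finset.sum_insert hb, Finset.sum_insert hb, sympForm_add_right, sympForm_smul_right, ih]

/-- Completing an isotropic family to a partial symplectic basis with a prescribed first partner. -/
theorem exists_partial {k : ℕ} (e : Fin (k + 1) → Fin m ⊕ Fin m → F) (hiso : ∀ i j, sf (e i) (e j) = 0)
    (hli : LinearIndependent F e) (u : Fin m ⊕ Fin m → F) (hu : ∀ j, sf (e j) u = if j = 0 then -1 else 0) :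
    ∃ f' : Fin (k + 1) → Fin m ⊕ Fin m → F, IsPartial e f' ∧ f' 0 = u := by
  classical
  have hx : ∀ i : Fin (k + 1), ∃ x, ∀ j, sf (e j) x = if j = i then -1 else 0 := by
    intro i
    obtain ⟨x, hx⟩ := exists_dual_bil sympForm_bil sympForm_nd e hli (fun j => if j = i then 1 else 0)
    refine ⟨x, fun j => ?_⟩
    rw [sympForm_swap, hx]
    split_ifs <;> simp
  choose x₀ hx₀ using hx
  let x : Fin (k + 1) → Fin m ⊕ Fin m → F := fun i => if i = 0 then u else x₀ i
  have hxe : ∀ i j, sf (e j) (x i) = if j = i then -1 else 0 := by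
    intro i j
    by_cases hi : i = 0
    · subst hi
      simp only [x, if_true]
      exact hu j
    · simp only [x, hi, if_false]
      exact hx₀ i j
  let c : Fin (k + 1) → Fin (k + 1) → F := fun i j => if j < i then sf (x i) (x j) else 0
  let f' : Fin (k + 1) → Fin m ⊕ Fin m → F := fun i => x i + ∑ j, c i j • e j
  refine ⟨f', ⟨hiso, ?_, ?_⟩, ?_⟩
  · intro i j
    have h1 : sf (f' i) (f' j) = sf (x i) (x j) + c j i - c i j := by
      simp only [f']
      rw [sympForm_add_left, sympForm_add_right, sympForm_add_right, sympForm_sum_right, sympForm_sum_left, sympForm_sum_left]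
      have e1 : ∑ a, c j a * sf (x i) (e a) = c j i := by
        rw [Finset.sum_eq_single i]
        · rw [sympForm_swap, hxe]
          simp
        · intro a _ ha
          rw [sympForm_swap, hxe, if_neg ha]
          simp
        · simp
      have e2 : ∑ a, c i a * sf (e a) (x j) = - c i j := by
        rw [Finset.sum_eq_single j]
        · rw [hxe]
          simp
        · intro a _ ha
          rw [hxe, if_neg ha]
          simp
        · simp
      have e3 : ∑ a, c i a * sf (e a) (∑ b, c j b • e b) = 0 := by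
        apply Finset.sum_eq_zero
        intro a _
        rw [sympForm_sum_right]
        rw [Finset.sum_eq_zero]
        · simp
        · intro b _
          rw [hiso]
          simp
      rw [e1, e2, e3]
      ring
    rw [h1]
    simp only [c]
    rcases lt_trichotomy i j with h | h | h
    · simp only [h, if_true, not_lt_of_gt h, if_false]
      rw [sympForm_swap (x j) (x i)]
      ring
    · subst h
      simp
    · simp only [h, if_true, not_lt_of_gt h, if_false]
      ring
  · intro i j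
    simp only [f']
    rw [sympForm_add_right, sympForm_sum_right, hxe, Finset.sum_eq_zero]
    · simp
    · intro a _
      rw [hiso]
      simp
  · simp only [f', c, x]
    simp

/-- Every linear functional is represented by the form. -/
theorem exists_riesz (ψ : Module.Dual F (Fin m ⊕ Fin m → F)) : ∃ u : Fin m ⊕ Fin m → F, ∀ x, sf x u = ψ x := by
  let L : (Fin m ⊕ Fin m → F) →ₗ[F] Module.Dual F (Fin m ⊕ Fin m → F) :=
    { toFun := fun y =>
        { toFun := fun x => sf x y
          map_add' := fun a b => sympForm_add_left a b y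
          map_smul' := fun c a => sympForm_smul_left c a y }
      map_add' := fun a b => LinearMap.ext fun x => sympForm_add_right x a b
      map_smul' := fun c a => LinearMap.ext fun x => sympForm_smul_right c x a }
  have hinj : Function.Injective L := by
    rw [injective_iff_map_eq_zero]
    intro y hy
    by_contra h0
    obtain ⟨⟨x, hx⟩, -⟩ := sympForm_nd y h0
    apply hx
    have := congrArg (fun φ => φ x) hy
    exact this
  have hsurj := (LinearMap.injective_iff_surjective_of_finrank_eq_finrank (f := L) (Subspace.dual_finrank_eq).symm).1 hinj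
  obtain ⟨u, hu⟩ := hsurj ψ
  exact ⟨u, fun x => congrArg (fun φ => φ x) hu⟩

/-- The orthogonal complement. -/
def perpS (W : Submodule F (Fin m ⊕ Fin m → F)) : Submodule F (Fin m ⊕ Fin m → F) where
  carrier := {x | ∀ w ∈ W, sf w x = 0}
  add_mem' {a b} ha hb w hw := by rw [sympForm_add_right, ha w hw, hb w hw, add_zero]
  zero_mem' w _ := by
    have := sympForm_smul_right (0 : F) w (0 : Fin m ⊕ Fin m → F)
    simpa using this
  smul_mem' c x hx w hw := by rw [sympForm_smul_right, hx w hw, mul_zero]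

lemma mem_perpS {W : Submodule F (Fin m ⊕ Fin m → F)} {x : Fin m ⊕ Fin m → F} : x ∈ perpS W ↔ ∀ w ∈ W, sf w x = 0 := Iff.rfl

lemma sf_inv (g : GL (Fin m ⊕ Fin m) F) (hg : g ∈ spGL m F) (x y : Fin m ⊕ Fin m → F) :
    sf x (((g⁻¹ : GL (Fin m ⊕ Fin m) F) : Matrix (Fin m ⊕ Fin m) (Fin m ⊕ Fin m) F) *ᵥ y) =
      sf ((g : Matrix (Fin m ⊕ Fin m) (Fin m ⊕ Fin m) F) *ᵥ x) y := by
  have := (mem_spGL_iff.1 hg) x (((g⁻¹ : GL (Fin m ⊕ Fin m) F) : Matrix (Fin m ⊕ Fin m) (Fin m ⊕ Fin m) F) *ᵥ y)
  rw [Matrix.mulVec_mulVec, ← Units.val_mul, mul_inv_cancel, Units.val_one, Matrix.one_mulVec] at this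
  exact this.symm

/-- A tuple adapted to a totally singular subspace and a vector not orthogonal to it. -/
theorem exists_tuple {W : Submodule F (Fin m ⊕ Fin m → F)} (hW : IsTotallySingularFor (Cfsg.sympForm m F) W) {k : ℕ}
    (hfin : Module.finrank F W = k + 1) {u : Fin m ⊕ Fin m → F} (hu : u ∉ perpS W) :
    ∃ e f' : Fin (k + 1) → Fin m ⊕ Fin m → F, IsPartial e f' ∧ f' 0 = u ∧ (∀ i, e i ∈ W) ∧
      ∀ x ∈ W, ∃ c : Fin (k + 1) → F, x = ∑ i, c i • e i := by
  classical
  have hu' : ∃ w ∈ W, sf w u ≠ 0 := by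
    by_contra hcon
    push Not at hcon
    exact hu hcon
  obtain ⟨w, hw, hwu⟩ := hu'
  let Kv : Submodule F (Fin m ⊕ Fin m → F) :=
    { carrier := {x | sf x u = 0}
      add_mem' := fun {a b} ha hb => by
        change sf (a + b) u = 0
        rw [sympForm_add_left, ha, hb, add_zero]
      zero_mem' := by
        change sf 0 u = 0
        have := sympForm_smul_left (0 : F) (0 : Fin m ⊕ Fin m → F) u
        simpa using this
      smul_mem' := fun c a ha => by
        change sf (c • a) u = 0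
        rw [sympForm_smul_left, ha, mul_zero] }
  have hKv : ∀ x, x ∈ Kv ↔ sf x u = 0 := fun _ => Iff.rfl
  let K : Submodule F (Fin m ⊕ Fin m → F) := W ⊓ Kv
  let e₀ : Fin m ⊕ Fin m → F := (-(sf w u)⁻¹) • w
  have he₀W : e₀ ∈ W := W.smul_mem _ hw
  have he₀u : sf e₀ u = -1 := by
    simp only [e₀]
    rw [sympForm_smul_left]
    field_simp
  have he₀0 : e₀ ≠ 0 := by
    intro h
    rw [h] at he₀u
    have := sympForm_smul_left (0 : F) (0 : Fin m ⊕ Fin m → F) u
    simp only [zero_smul, zero_mul] at this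
    rw [this] at he₀u
    have h1 : (1 : F) = 0 := by
      have := congrArg (fun z => -z) he₀u
      simpa using this.symm
    exact one_ne_zero h1
  have hdecomp : ∀ x ∈ W, x + (sf x u) • e₀ ∈ K := by
    intro x hx
    refine ⟨W.add_mem hx (W.smul_mem _ he₀W), ?_⟩
    rw [SetLike.mem_coe, hKv, sympForm_add_left, sympForm_smul_left, he₀u]
    ring
  have hsup : K ⊔ Submodule.span F {e₀} = W := by
    apply le_antisymm
    · apply sup_le inf_le_left
      rw [Submodule.span_le]
      simpa using he₀W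
    · intro x hx
      have h1 : x = (x + (sf x u) • e₀) + (-(sf x u)) • e₀ := by
        ext i
        simp
      rw [h1]
      exact Submodule.add_mem_sup (hdecomp x hx) (Submodule.smul_mem _ _ (Submodule.mem_span_singleton_self _))
  have hinf : K ⊓ Submodule.span F {e₀} = ⊥ := by
    rw [eq_bot_iff]
    rintro y ⟨hy, hy2⟩
    obtain ⟨c, rfl⟩ := Submodule.mem_span_singleton.1 hy2
    have h2 : sf (c • e₀) u = 0 := hy.2
    rw [sympForm_smul_left, he₀u] at h2
    have hc : c = 0 := by simpa using h2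
    simp [hc]
  have hKfin : Module.finrank F K = k := by
    have h1 := Submodule.finrank_sup_add_finrank_inf_eq K (Submodule.span F {e₀})
    rw [hsup, hinf, hfin, finrank_bot, finrank_span_singleton he₀0] at h1
    omega
  let b : Module.Basis (Fin k) F K := Module.finBasisOfFinrankEq F _ hKfin
  obtain ⟨v, hvdef⟩ : ∃ v : Fin k → Fin m ⊕ Fin m → F, ∀ i, v i = (b i : Fin m ⊕ Fin m → F) :=
    ⟨_, fun _ => rfl⟩
  have hvW : ∀ i, v i ∈ W := fun i => by
    rw [hvdef]
    exact (b i).2.1
  have hvu : ∀ i, sf (v i) u = 0 := fun i => by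
    rw [hvdef]
    exact (b i).2.2
  have hvli : LinearIndependent F v := by
    have h0 : LinearIndependent F (fun i => b i) := b.linearIndependent
    have h2 : LinearIndependent F (fun i => ((b i : K) : Fin m ⊕ Fin m → F)) :=
      h0.map' K.subtype (Submodule.ker_subtype _)
    have h3 : v = fun i => ((b i : K) : Fin m ⊕ Fin m → F) := funext hvdef
    rw [h3]
    exact h2
  let e : Fin (k + 1) → Fin m ⊕ Fin m → F := Fin.cons e₀ v
  have heW : ∀ i, e i ∈ W := by
    intro i
    refine Fin.cases ?_ (fun j => ?_) i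
    · exact he₀W
    · exact hvW j
  have heli : LinearIndependent F e := by
    rw [linearIndependent_finCons]
    refine ⟨hvli, fun hmem => ?_⟩
    have hle : Submodule.span F (Set.range v) ≤ Kv := by
      rw [Submodule.span_le]
      rintro _ ⟨i, rfl⟩
      exact hvu i
    have h3 : sf e₀ u = 0 := hle hmem
    rw [he₀u] at h3
    simp at h3
  have heu : ∀ j, sf (e j) u = if j = 0 then -1 else 0 := by
    intro j
    refine Fin.cases ?_ (fun i => ?_) j
    · simpa [e] using he₀u
    · simpa [e, Fin.succ_ne_zero] using hvu i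
  obtain ⟨f', hf', hf'0⟩ := exists_partial e (fun i j => hW _ (heW i) _ (heW j)) heli u heu
  refine ⟨e, f', hf', hf'0, heW, ?_⟩
  intro x hx
  have hx' := hdecomp x hx
  have h4 := b.sum_repr ⟨_, hx'⟩
  have h5 : ∑ i, (b.repr ⟨_, hx'⟩ i) • v i = x + (sf x u) • e₀ := by
    have h5' := congrArg (fun y : K => (y : Fin m ⊕ Fin m → F)) h4
    simp only [Submodule.coe_sum, Submodule.coe_smul] at h5'
    simp only [hvdef]
    exact h5'
  refine ⟨Fin.cons (-(sf x u)) (fun i => b.repr ⟨_, hx'⟩ i), ?_⟩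
  rw [Fin.sum_univ_succ]
  simp only [Fin.cons_zero, Fin.cons_succ, e]
  rw [h5]
  ext i
  simp

/-- The stabiliser of a non-zero totally singular subspace is maximal in the symplectic group. -/
theorem parabolic_max [Fintype F] (W : Submodule F (Fin m ⊕ Fin m → F)) (hW0 : W ≠ ⊥)
    (hW : IsTotallySingularFor (Cfsg.sympForm m F) W) :
    IsMaximalIn (spGL m F) (subspaceStabilizer W ⊓ spGL m F) := by
  classical
  have hW' : ∀ a ∈ W, ∀ b ∈ W, sf a b = 0 := hW
  apply sp_max_crit W (perpS W : Set (Fin m ⊕ Fin m → F))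
  · intro u hu c
    apply Cfsg.Agent.H27.Tv.mem_stab_of_fix
    intro w hw
    rw [tv_mulVec, hu w hw]
    simp
  · intro u₀ hu₀ u hu
    obtain ⟨k, hk⟩ : ∃ k, Module.finrank F W = k + 1 := by
      have : 0 < Module.finrank F W := Module.finrank_pos_iff.2 (Submodule.nontrivial_iff_ne_bot.2 hW0)
      exact ⟨Module.finrank F W - 1, by omega⟩
    obtain ⟨e₁, f₁, hp₁, hf₁, he₁, hs₁⟩ := exists_tuple hW hk hu₀
    obtain ⟨e₂, f₂, hp₂, hf₂, he₂, -⟩ := exists_tuple hW hk hu
    obtain ⟨A, -, hA₁, hA₂⟩ := tuple_transitive (k + 1) e₁ f₁ e₂ f₂ hp₁ hp₂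
    refine ⟨toGL A, ⟨?_, toGL_mem A⟩, ?_⟩
    · apply Cfsg.Agent.H27.GO.mem_stab_of_map
      intro x hx
      obtain ⟨c, rfl⟩ := hs₁ x hx
      rw [Matrix.mulVec_sum]
      apply W.sum_mem
      intro i _
      rw [Matrix.mulVec_smul]
      apply W.smul_mem
      have := hA₁ i
      change (A.1 *ᵥ e₁ i) ∈ W
      rw [this]
      exact he₂ i
    · change A.1 *ᵥ u₀ = u
      rw [← hf₁, ← hf₂]
      exact hA₂ 0
  · intro g hg hgn
    have hex : ∃ x ∈ W, (g : Matrix (Fin m ⊕ Fin m) (Fin m ⊕ Fin m) F) *ᵥ x ∉ W := by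
      by_contra hcon
      push Not at hcon
      exact hgn (Cfsg.Agent.H27.GO.mem_stab_of_map g W hcon)
    obtain ⟨x, hx, hgx⟩ := hex
    let L : (Fin m ⊕ Fin m → F) →ₗ[F] (Fin m ⊕ Fin m → F) := Matrix.toLin' (g : Matrix (Fin m ⊕ Fin m) (Fin m ⊕ Fin m) F)
    have hLinj : Function.Injective L := by
      intro a b hab
      exact Cfsg.Agent.H27.GD.mulVec_inj (g := g) (by simpa [L, Matrix.toLin'_apply] using hab)
    have hnle : ¬ W ≤ W.map L := by
      intro hle
      have heq : W = W.map L := Submodule.eq_of_le_of_finrank_eq hle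
        (Submodule.equivMapOfInjective L hLinj W).finrank_eq
      apply hgx
      rw [heq]
      exact ⟨x, hx, by simp [L, Matrix.toLin'_apply]⟩
    obtain ⟨w, hw, hwn⟩ := SetLike.not_le_iff_exists.1 hnle
    obtain ⟨ψ, hψ, hψle⟩ := Submodule.exists_le_ker_of_notMem hwn
    obtain ⟨u₀, hu₀⟩ := exists_riesz ψ
    refine ⟨u₀, ?_, ?_⟩
    · intro hmem
      apply hψ
      rw [← hu₀]
      exact hmem w hw
    · intro y hy
      rw [sf_inv g hg, hu₀]
      exact hψle ⟨y, hy, by simp [L, Matrix.toLin'_apply]⟩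
  · obtain ⟨w, hw, hw0⟩ := Submodule.exists_mem_ne_zero_of_ne_bot hW0
    obtain ⟨-, u, hu⟩ := sympForm_nd w hw0
    refine ⟨u, 1, fun hst => ?_⟩
    have h1 := (hst w).1 hw
    change ((tv u 1 : GL (Fin m ⊕ Fin m) F) : Matrix (Fin m ⊕ Fin m) (Fin m ⊕ Fin m) F) *ᵥ w ∈ W at h1
    rw [tv_mulVec, one_mul] at h1
    have h2 := W.sub_mem h1 hw
    rw [add_sub_cancel_left] at h2
    have h3 := W.smul_mem (sf w u)⁻¹ h2
    rw [smul_smul, inv_mul_cancel₀ hu, one_smul] at h3
    exact hu (hW' w hw u h3)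

end Cfsg.Agent.H27.MS
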