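import Mathlib
import Cfsg.Prelude.Def_GeometricClasses
import Cfsg.Agent.Lib.H27.GeoMaxSp

/-!
# Stabilisers of non-degenerate subspaces in symplectic groups are maximal
-/

set_option autoImplicit false
set_option linter.unusedSectionVars false
set_option linter.unusedSimpArgs false

namespace Cfsg.Agent.H27.MS

open scoped Matrix MatrixGroups
open Cfsg Cfsg.Geo
open Cfsg.Agent.Lead (sympT sympTmat sympTmat_mulVec sympForm_mulVec sympForm_self sympForm_swap sympForm_add_left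
  sympForm_add_right sympForm_smul_left sympForm_smul_right sympForm_sub_right sympForm_nondeg conj_sympT sp_induction
  IsPartial tuple_transitive)

variable {m : ℕ} {F : Type*} [Field F]

local notation "sf" => Cfsg.Agent.Lead.sympForm
local notation "VV" => (Fin m ⊕ Fin m → F)

lemma sf_zero_right (x : Fin m ⊕ Fin m → F) : sf x 0 = 0 := by
  have := sympForm_smul_right (0 : F) x (0 : Fin m ⊕ Fin m → F)
  simpa using this

lemma sf_zero_left (x : Fin m ⊕ Fin m → F) : sf 0 x = 0 := by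
  have := sympForm_smul_left (0 : F) (0 : Fin m ⊕ Fin m → F) x
  simpa using this

/-- Non-degeneracy in the form used below. -/
def NdOn (U : Submodule F (Fin m ⊕ Fin m → F)) : Prop := ∀ a ∈ U, a ≠ 0 → ∃ z ∈ U, sf a z ≠ 0

/-- Isometries preserving `U` and fixing its perp pointwise. -/
def Mover (U : Submodule F (Fin m ⊕ Fin m → F)) (h : GL (Fin m ⊕ Fin m) F) : Prop :=
  h ∈ spGL m F ∧ (∀ x ∈ U, (h : Matrix (Fin m ⊕ Fin m) (Fin m ⊕ Fin m) F) *ᵥ x ∈ U) ∧
    ∀ y ∈ perpS U, (h : Matrix (Fin m ⊕ Fin m) (Fin m ⊕ Fin m) F) *ᵥ y = y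

lemma Mover.mul {U : Submodule F (Fin m ⊕ Fin m → F)} {h k : GL (Fin m ⊕ Fin m) F} (hh : Mover U h) (hk : Mover U k) :
    Mover U (h * k) := by
  refine ⟨(spGL m F).mul_mem hh.1 hk.1, fun x hx => ?_, fun y hy => ?_⟩
  · rw [Units.val_mul, ← Matrix.mulVec_mulVec]
    exact hh.2.1 _ (hk.2.1 _ hx)
  · rw [Units.val_mul, ← Matrix.mulVec_mulVec, hk.2.2 y hy, hh.2.2 y hy]

lemma tv_mover {U : Submodule F (Fin m ⊕ Fin m → F)} {x : Fin m ⊕ Fin m → F} (hx : x ∈ U) (c : F) : Mover U (tv x c) := by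
  refine ⟨tv_mem _ _, fun y hy => ?_, fun y hy => ?_⟩
  · rw [tv_mulVec]
    exact U.add_mem hy (U.smul_mem _ hx)
  · rw [tv_mulVec, sympForm_swap, hy x hx]
    simp

lemma move_step {a a' : Fin m ⊕ Fin m → F} (h : sf a a' ≠ 0) :
    ((tv (a' - a) (sf a a')⁻¹ : GL (Fin m ⊕ Fin m) F) : Matrix (Fin m ⊕ Fin m) (Fin m ⊕ Fin m) F) *ᵥ a = a' := by
  rw [tv_mulVec, sympForm_sub_right, sympForm_self, sub_zero, inv_mul_cancel₀ h, one_smul]
  abel

theorem exists_mover {U : Submodule F (Fin m ⊕ Fin m → F)} (hU : NdOn U) {a a' : Fin m ⊕ Fin m → F} (ha : a ∈ U)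
    (ha' : a' ∈ U) (h0 : a ≠ 0) (h0' : a' ≠ 0) :
    ∃ h, Mover U h ∧ (h : Matrix (Fin m ⊕ Fin m) (Fin m ⊕ Fin m) F) *ᵥ a = a' := by
  have hz : ∃ z ∈ U, sf a z ≠ 0 ∧ sf z a' ≠ 0 := by
    obtain ⟨z₁, hz₁, h₁⟩ := hU a ha h0
    obtain ⟨z₂, hz₂, h₂⟩ := hU a' ha' h0'
    have h₂' : sf z₂ a' ≠ 0 := by
      rw [sympForm_swap]
      simpa using h₂
    by_cases h3 : sf z₁ a' = 0
    · by_cases h4 : sf a z₂ = 0
      · refine ⟨z₁ + z₂, U.add_mem hz₁ hz₂, ?_, ?_⟩
        · rw [sympForm_add_right, h4, add_zero]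
          exact h₁
        · rw [sympForm_add_left, h3, zero_add]
          exact h₂'
      · exact ⟨z₂, hz₂, h4, h₂'⟩
    · exact ⟨z₁, hz₁, h₁, h3⟩
  obtain ⟨z, hz, h1, h2⟩ := hz
  refine ⟨tv (a' - z) (sf z a')⁻¹ * tv (z - a) (sf a z)⁻¹,
    (tv_mover (U.sub_mem ha' hz) _).mul (tv_mover (U.sub_mem hz ha) _), ?_⟩
  rw [Units.val_mul, ← Matrix.mulVec_mulVec, move_step h1, move_step h2]

/-- The Riesz representation inside a non-degenerate subspace: the decomposition `V = W ⊕ W^⊥`. -/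
theorem exists_decomp {W : Submodule F (Fin m ⊕ Fin m → F)} (hW : NdOn W) (u : Fin m ⊕ Fin m → F) :
    ∃ a ∈ W, ∃ b ∈ perpS W, u = a + b := by
  let L : W →ₗ[F] Module.Dual F W :=
    { toFun := fun y =>
        { toFun := fun x => sf (x : Fin m ⊕ Fin m → F) y
          map_add' := fun a b => sympForm_add_left (a : Fin m ⊕ Fin m → F) (b : Fin m ⊕ Fin m → F) (y : Fin m ⊕ Fin m → F)
          map_smul' := fun c a => sympForm_smul_left c (a : Fin m ⊕ Fin m → F) (y : Fin m ⊕ Fin m → F) }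
      map_add' := fun a b => LinearMap.ext fun x => sympForm_add_right (x : Fin m ⊕ Fin m → F) (a : Fin m ⊕ Fin m → F) (b : Fin m ⊕ Fin m → F)
      map_smul' := fun c a => LinearMap.ext fun x => sympForm_smul_right c (x : Fin m ⊕ Fin m → F) (a : Fin m ⊕ Fin m → F) }
  have hinj : Function.Injective L := by
    rw [injective_iff_map_eq_zero]
    intro y hy
    by_contra h0
    have hy0 : (y : Fin m ⊕ Fin m → F) ≠ 0 := fun h => h0 (Subtype.ext h)
    obtain ⟨z, hz, hzz⟩ := hW y y.2 hy0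
    apply hzz
    have h1 : sf (z : Fin m ⊕ Fin m → F) y = 0 := congrArg (fun φ => φ (⟨z, hz⟩ : W)) hy
    rw [sympForm_swap, h1]
    simp
  have hsurj := (LinearMap.injective_iff_surjective_of_finrank_eq_finrank (f := L) (Subspace.dual_finrank_eq).symm).1 hinj
  let ψ : Module.Dual F W :=
    { toFun := fun x => sf (x : Fin m ⊕ Fin m → F) u
      map_add' := fun a b => sympForm_add_left (a : Fin m ⊕ Fin m → F) (b : Fin m ⊕ Fin m → F) u
      map_smul' := fun c a => sympForm_smul_left c (a : Fin m ⊕ Fin m → F) u }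
  obtain ⟨a, ha⟩ := hsurj ψ
  refine ⟨a, a.2, u - a, ?_, by simp⟩
  intro w hw
  rw [sympForm_sub_right]
  have h1 : sf w (a : Fin m ⊕ Fin m → F) = sf w u := congrArg (fun φ => φ (⟨w, hw⟩ : W)) ha
  rw [h1]
  simp

lemma inf_perp_of_nd {W : Submodule F (Fin m ⊕ Fin m → F)} (hW : NdOn W) : W ⊓ perpS W = ⊥ := by
  rw [eq_bot_iff]
  rintro x ⟨hx, hx'⟩
  by_contra h0
  obtain ⟨z, hz, hzz⟩ := hW x hx h0
  apply hzz
  rw [sympForm_swap, hx' z hz]
  simp

lemma sup_perp_of_nd {W : Submodule F (Fin m ⊕ Fin m → F)} (hW : NdOn W) : W ⊔ perpS W = ⊤ := by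
  rw [eq_top_iff]
  intro x _
  obtain ⟨a, ha, b, hb, rfl⟩ := exists_decomp hW x
  exact Submodule.add_mem_sup ha hb

lemma perp_nd {W : Submodule F (Fin m ⊕ Fin m → F)} (hW : NdOn W) : NdOn (perpS W) := by
  intro b hb hb0
  obtain ⟨y, hy⟩ := sympForm_nondeg hb0
  obtain ⟨a, ha, c, hc, rfl⟩ := exists_decomp hW y
  refine ⟨c, hc, ?_⟩
  rw [sympForm_add_right, sympForm_swap, hb a ha] at hy
  simpa using hy

lemma le_perp_perp (W : Submodule F (Fin m ⊕ Fin m → F)) : W ≤ perpS (perpS W) := by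
  intro w hw y hy
  rw [sympForm_swap, hy w hw]
  simp

lemma finrank_V : Module.finrank F (Fin m ⊕ Fin m → F) = 2 * m := by
  rw [Module.finrank_fintype_fun_eq_card]
  simp
  ring

lemma union_sub {U A B : Submodule F (Fin m ⊕ Fin m → F)} (h : ∀ x ∈ U, x ∈ A ∨ x ∈ B) : U ≤ A ∨ U ≤ B := by
  by_contra hcon
  push Not at hcon
  obtain ⟨h1, h2⟩ := hcon
  obtain ⟨x, hx, hxA⟩ := SetLike.not_le_iff_exists.1 h1
  obtain ⟨y, hy, hyB⟩ := SetLike.not_le_iff_exists.1 h2
  have hxB : x ∈ B := (h x hx).resolve_left hxA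
  have hyA : y ∈ A := (h y hy).resolve_right hyB
  rcases h (x + y) (U.add_mem hx hy) with h3 | h3
  · apply hxA
    have := A.sub_mem h3 hyA
    simpa using this
  · apply hyB
    have := B.sub_mem h3 hxB
    simpa using this

/-- The stabiliser of a non-degenerate subspace of dimension less than `m` is maximal. -/
theorem nondeg_max [Fintype F] (W : Submodule F (Fin m ⊕ Fin m → F)) (hW0 : W ≠ ⊥)
    (hW : IsNondegenerateOn (Cfsg.sympForm m F) W) (hdim : Module.finrank F W < m) :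
    IsMaximalIn (spGL m F) (subspaceStabilizer W ⊓ spGL m F) := by
  classical
  have hN : NdOn W := fun a ha h0 => (hW a ha h0).2
  have hP : NdOn (perpS W) := perp_nd hN
  have hfr : Module.finrank F W + Module.finrank F (perpS W) = 2 * m := by
    have h1 := Submodule.finrank_sup_add_finrank_inf_eq W (perpS W)
    rw [sup_perp_of_nd hN, inf_perp_of_nd hN, finrank_top, finrank_bot, finrank_V] at h1
    omega
  have hPne : perpS W ≠ ⊥ := by
    intro h
    rw [h, finrank_bot] at hfr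
    omega
  apply sp_max_crit W ({u | u ∈ W ∨ u ∈ perpS W})
  · rintro u (hu | hu) c
    · apply Cfsg.Agent.H27.GO.mem_stab_of_map
      intro x hx
      rw [tv_mulVec]
      exact W.add_mem hx (W.smul_mem _ hu)
    · apply Cfsg.Agent.H27.Tv.mem_stab_of_fix
      intro w hw
      rw [tv_mulVec, hu w hw]
      simp
  · intro u₀ hu₀ u hu
    simp only [Set.mem_ofPred_eq, not_or] at hu₀ hu
    obtain ⟨a₀, ha₀, b₀, hb₀, rfl⟩ := exists_decomp hN u₀
    obtain ⟨a, ha, b, hb, rfl⟩ := exists_decomp hN u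
    have ha₀0 : a₀ ≠ 0 := by
      rintro rfl
      apply hu₀.2
      simpa using hb₀
    have hb₀0 : b₀ ≠ 0 := by
      rintro rfl
      apply hu₀.1
      simpa using ha₀
    have ha0 : a ≠ 0 := by
      rintro rfl
      apply hu.2
      simpa using hb
    have hb0 : b ≠ 0 := by
      rintro rfl
      apply hu.1
      simpa using ha
    obtain ⟨h₁, hh₁, h₁a⟩ := exists_mover hN ha₀ ha ha₀0 ha0
    obtain ⟨h₂, hh₂, h₂b⟩ := exists_mover hP hb₀ hb hb₀0 hb0
    refine ⟨h₂ * h₁, ⟨?_, (spGL m F).mul_mem hh₂.1 hh₁.1⟩, ?_⟩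
    · apply Cfsg.Agent.H27.GO.mem_stab_of_map
      intro x hx
      rw [Units.val_mul, ← Matrix.mulVec_mulVec, hh₂.2.2 _ (le_perp_perp W (hh₁.2.1 x hx))]
      exact hh₁.2.1 x hx
    · rw [Units.val_mul, ← Matrix.mulVec_mulVec, Matrix.mulVec_add, h₁a, hh₁.2.2 b₀ hb₀, Matrix.mulVec_add, h₂b,
        hh₂.2.2 a (le_perp_perp W ha)]
  · intro g hg hgn
    by_contra hcon
    push Not at hcon
    have hmap : ∀ x, (x ∈ W ∨ x ∈ perpS W) →
        ((g : Matrix (Fin m ⊕ Fin m) (Fin m ⊕ Fin m) F) *ᵥ x ∈ W ∨ (g : Matrix (Fin m ⊕ Fin m) (Fin m ⊕ Fin m) F) *ᵥ x ∈ perpS W) := by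
      intro x hx
      by_contra h5
      have h6 := hcon ((g : Matrix (Fin m ⊕ Fin m) (Fin m ⊕ Fin m) F) *ᵥ x) h5
      rw [Matrix.mulVec_mulVec, ← Units.val_mul, inv_mul_cancel, Units.val_one, Matrix.one_mulVec] at h6
      exact h6 hx
    let L : (Fin m ⊕ Fin m → F) →ₗ[F] (Fin m ⊕ Fin m → F) := Matrix.toLin' (g : Matrix (Fin m ⊕ Fin m) (Fin m ⊕ Fin m) F)
    have hLapp : ∀ x, L x = (g : Matrix (Fin m ⊕ Fin m) (Fin m ⊕ Fin m) F) *ᵥ x := fun x => by
      simp [L, Matrix.toLin'_apply]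
    have hLinj : Function.Injective L := by
      intro a b hab
      rw [hLapp, hLapp] at hab
      exact Cfsg.Agent.H27.GD.mulVec_inj (g := g) hab
    have hfr' : ∀ U : Submodule F (Fin m ⊕ Fin m → F), Module.finrank F (U.map L) = Module.finrank F U := fun U =>
      (Submodule.equivMapOfInjective L hLinj U).finrank_eq.symm
    rcases union_sub (U := W.map L) (A := W) (B := perpS W) (by
        rintro _ ⟨x, hx, rfl⟩
        rw [hLapp]
        exact hmap x (Or.inl hx)) with h1 | h1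
    · apply hgn
      apply Cfsg.Agent.H27.GO.mem_stab_of_map
      intro x hx
      rw [← hLapp]
      exact h1 ⟨x, hx, rfl⟩
    · rcases union_sub (U := (perpS W).map L) (A := W) (B := perpS W) (by
          rintro _ ⟨x, hx, rfl⟩
          rw [hLapp]
          exact hmap x (Or.inr hx)) with h2 | h2
      · have := Submodule.finrank_mono h2
        rw [hfr'] at this
        omega
      · -- `L` has range in the perp, so the whole space is in the perp
        have h3 : ∀ x, L x ∈ perpS W := by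
          intro x
          obtain ⟨a, ha, b, hb, rfl⟩ := exists_decomp hN x
          rw [map_add]
          exact (perpS W).add_mem (h1 ⟨a, ha, rfl⟩) (h2 ⟨b, hb, rfl⟩)
        have hsurj : Function.Surjective L := LinearMap.injective_iff_surjective.1 hLinj
        obtain ⟨w, hw, hw0⟩ := Submodule.exists_mem_ne_zero_of_ne_bot hW0
        obtain ⟨z, hz, hzz⟩ := hN w hw hw0
        obtain ⟨x, rfl⟩ := hsurj z
        exact hzz (h3 x w hw)
  · obtain ⟨a, ha, ha0⟩ := Submodule.exists_mem_ne_zero_of_ne_bot hW0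
    obtain ⟨b, hb, hb0⟩ := Submodule.exists_mem_ne_zero_of_ne_bot hPne
    obtain ⟨w, hw, hwa⟩ := hN a ha ha0
    refine ⟨a + b, 1, fun hst => ?_⟩
    have h1 := (hst w).1 hw
    change ((tv (a + b) 1 : GL (Fin m ⊕ Fin m) F) : Matrix (Fin m ⊕ Fin m) (Fin m ⊕ Fin m) F) *ᵥ w ∈ W at h1
    rw [tv_mulVec, one_mul] at h1
    have h2 := W.sub_mem h1 hw
    rw [add_sub_cancel_left, sympForm_add_right, hb w hw, add_zero] at h2
    have hwa' : sf w a ≠ 0 := by
      rw [sympForm_swap]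
      intro h9
      apply hwa
      rwa [neg_eq_zero] at h9
    have h3 := W.smul_mem (sf w a)⁻¹ h2
    rw [smul_smul, inv_mul_cancel₀ hwa', one_smul] at h3
    have h4 := W.sub_mem h3 ha
    rw [add_sub_cancel_left] at h4
    have h5 : b ∈ W ⊓ perpS W := ⟨h4, hb⟩
    rw [inf_perp_of_nd hN] at h5
    exact hb0 h5

end Cfsg.Agent.H27.MS
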