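import Mathlib
import Cfsg.Prelude.Def_GeometricClasses
import Cfsg.Agent.Lib.H27.GeoONd2

/-!
# A pair of non-isometric orthogonal subspaces of half the dimension
-/

set_option autoImplicit false
set_option linter.unusedSectionVars false
set_option linter.unusedSimpArgs false
set_option linter.unusedVariables false

namespace Cfsg.Agent.H27.GO

open scoped MatrixGroups Matrix commutatorElement
open Cfsg Cfsg.Geo

variable {ι : Type} [Fintype ι] [DecidableEq ι] {F : Type*} [Field F] {Q : (ι → F) → F} [Fintype F]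

/-- An isometry mapping one subspace into another of the same dimension makes them isometric. -/
theorem isometric_of_maps {A Y : Submodule F (ι → F)} {g : GL ι F} (hgO : g ∈ isometryGroup F Q)
    (hg : ∀ y ∈ Y, (g : Matrix ι ι F) *ᵥ y ∈ A) (hd : Module.finrank F Y = Module.finrank F A) :
    AreIsometricFor Q Y A := by
  let L : (ι → F) →ₗ[F] (ι → F) := Matrix.toLin' (g : Matrix ι ι F)
  have hL : ∀ y, L y = (g : Matrix ι ι F) *ᵥ y := fun y => by simp [L]
  have hLY : ∀ y ∈ Y, L y ∈ A := fun y hy => by rw [hL]; exact hg y hy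
  let R : Y →ₗ[F] A := (L.domRestrict Y).codRestrict A (fun y => hLY y y.2)
  have hR : ∀ y : Y, ((R y : A) : ι → F) = (g : Matrix ι ι F) *ᵥ (y : ι → F) := fun y => hL y
  have hinj : Function.Injective R := by
    intro x y hxy
    have h1 : (g : Matrix ι ι F) *ᵥ (x : ι → F) = (g : Matrix ι ι F) *ᵥ (y : ι → F) := by
      rw [← hR, ← hR, hxy]
    have h2 := congrArg (fun w => ((g⁻¹ : GL ι F) : Matrix ι ι F) *ᵥ w) h1
    apply Subtype.ext
    simpa [Matrix.mulVec_mulVec] using h2
  refine ⟨LinearMap.linearEquivOfInjective R hinj hd, fun w => ?_⟩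
  have : ((LinearMap.linearEquivOfInjective R hinj hd w : A) : ι → F) = (g : Matrix ι ι F) *ᵥ (w : ι → F) := by
    rw [LinearMap.linearEquivOfInjective_apply, hR]
  rw [this, mem_isom_iff.1 hgO]

theorem isom_symm {A Y : Submodule F (ι → F)} (h : AreIsometricFor Q Y A) : AreIsometricFor Q A Y := by
  obtain ⟨e, he⟩ := h
  refine ⟨e.symm, fun w => ?_⟩
  have := he (e.symm w)
  rw [LinearEquiv.apply_symm_apply] at this
  exact this.symm

/-- The stabiliser of a pair of non-isometric orthogonal subspaces. -/
theorem pair_max (hQ : IsNondegenerateQuadraticForm Q) (hn : 7 ≤ Fintype.card ι) {k : ℕ} (hk : 7 ≤ k)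
    {D : Fin 2 → Submodule F (ι → F)}
    (hD : IsNondegenerateMDecomposition (QuadraticMap.polar Q) k D) (hni : ¬ AreIsometricFor Q (D 0) (D 1)) :
    IsMaximalIn (omegaGL Q) (decompositionStabilizer D ⊓ omegaGL Q) := by
  have hOD : OD Q (D 0) (D 1) := by
    refine ⟨ndg_of_on (hD.nondegenerate 0), ndg_of_on (hD.nondegenerate 1), fun a ha y hy => hD.orthogonal 0 1 (by decide) a ha y hy, ?_⟩
    intro x
    have h1 := hD.decomp.iSup_eq_top
    have h2 : iSup D = D 0 ⊔ D 1 := by
      apply le_antisymm
      · refine iSup_le fun i => ?_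
        fin_cases i
        · exact le_sup_left
        · exact le_sup_right
      · exact sup_le (le_iSup D 0) (le_iSup D 1)
    rw [h2] at h1
    have h3 : x ∈ D 0 ⊔ D 1 := by rw [h1]; trivial
    obtain ⟨a, ha, y, hy, rfl⟩ := Submodule.mem_sup.1 h3
    exact ⟨a, ha, y, hy, rfl⟩
  have hf0 : Module.finrank F (D 0) = k := hD.decomp.finrank_eq 0
  have hf1 : Module.finrank F (D 1) = k := hD.decomp.finrank_eq 1
  have hA0 : D 0 ≠ ⊥ := by
    intro h0
    rw [h0, finrank_bot] at hf0
    omega
  have hmax := nd_max hQ hn hOD (by omega) hA0 (by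
    rintro ⟨-, h2, -⟩
    omega) (by
    rintro ⟨g, hgO, hg⟩
    exact hni (isom_symm (isometric_of_maps hgO hg (by omega))))
  have e : decompositionStabilizer D ⊓ omegaGL Q = subspaceStabilizer (D 0) ⊓ omegaGL Q := by
    apply le_antisymm
    · rintro g ⟨⟨σ, hσ⟩, hgΩ⟩
      refine ⟨?_, hgΩ⟩
      have hgO := omega_le_isom hgΩ
      by_cases h0 : σ 0 = 0
      · refine mem_stab_of_map g _ fun v hv => ?_
        have h1 := hσ 0
        rw [h0] at h1
        rw [← h1]
        exact ⟨v, hv, by simp⟩
      · exfalso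
        have h1 : σ 1 = 0 := by
          have h2 : σ 0 = 1 := by
            have := (σ 0).2
            omega
          have h3 : σ 1 ≠ 1 := fun h => by
            have := σ.injective (h2.trans h.symm)
            exact absurd this (by decide)
          have := (σ 1).2
          omega
        have h2 := hσ 1
        rw [h1] at h2
        apply hni
        refine isom_symm (isometric_of_maps (A := D 0) (Y := D 1) hgO (fun y hy => ?_) (by omega))
        rw [← h2]
        exact ⟨y, hy, by simp⟩
    · rintro g ⟨hg, hgΩ⟩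
      refine ⟨⟨1, fun i => ?_⟩, hgΩ⟩
      have hg1 := stab_swap hQ hOD (omega_le_isom hgΩ) hg
      have key : ∀ {Z : Submodule F (ι → F)}, g ∈ subspaceStabilizer Z → Z.map (Matrix.toLin' (g : Matrix ι ι F)) = Z := by
        intro Z hZ
        ext x
        constructor
        · rintro ⟨y, hy, rfl⟩
          have : (g : Matrix ι ι F) *ᵥ y ∈ Z := (hZ y).1 hy
          simpa using this
        · intro hx
          have h2 : g⁻¹ ∈ subspaceStabilizer Z := Subgroup.inv_mem _ hZ
          have h3 : ((g⁻¹ : GL ι F) : Matrix ι ι F) *ᵥ x ∈ Z := (h2 x).1 hx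
          refine ⟨_, h3, ?_⟩
          simp [Matrix.mulVec_mulVec]
      fin_cases i
      · exact key hg
      · exact key hg1
  rwa [e]

end Cfsg.Agent.H27.GO
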