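import Mathlib
import Cfsg.Prelude.Def_GeometricClasses
import Cfsg.Agent.Lib.H28.Proper

/-!
# Rational structures
-/

set_option autoImplicit false
set_option linter.unusedSectionVars false
set_option linter.unusedSimpArgs false
set_option linter.unusedVariables false

namespace Cfsg.Agent.H27.RS

open scoped Matrix MatrixGroups
open Cfsg Cfsg.Geo

variable {ι : Type} [Fintype ι] [DecidableEq ι] {F : Type*} [Field F] {F₀ : Subfield F} {P : GL ι F}

local notation "GG" => GL ι F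
local notation "Mat" => Matrix ι ι F

/-- Coordinates. -/
def co (u : ι → F₀) : ι → F := fun i => (u i : F)

@[simp] lemma co_apply (u : ι → F₀) (i : ι) : co u i = (u i : F) := rfl

lemma co_add (u v : ι → F₀) : co (u + v) = co u + co v := by
  ext i
  simp [co]

lemma co_sub (u v : ι → F₀) : co (u - v) = co u - co v := by
  ext i
  simp [co]

lemma co_neg (u : ι → F₀) : co (-u) = - co u := by
  ext i
  simp [co]

lemma co_smul (c : F₀) (u : ι → F₀) : co (c • u) = (c : F) • co u := by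
  ext i
  simp [co]

lemma co_zero : co (0 : ι → F₀) = 0 := by
  ext i
  simp [co]

lemma co_inj {u v : ι → F₀} (h : co u = co v) : u = v := by
  ext i
  have := congrFun h i
  simpa using this

/-- The rational vectors. -/
def rr (P : GL ι F) (u : ι → F₀) : ι → F := (P : Mat) *ᵥ co u

lemma rr_add (u v : ι → F₀) : rr P (u + v) = rr P u + rr P v := by
  rw [rr, co_add, Matrix.mulVec_add]
  rfl

lemma rr_sub (u v : ι → F₀) : rr P (u - v) = rr P u - rr P v := by
  rw [rr, co_sub, Matrix.mulVec_sub]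
  rfl

lemma rr_neg (u : ι → F₀) : rr P (-u) = - rr P u := by
  rw [rr, co_neg, Matrix.mulVec_neg]
  rfl

lemma rr_smul (c : F₀) (u : ι → F₀) : rr P (c • u) = (c : F) • rr P u := by
  rw [rr, co_smul, Matrix.mulVec_smul]
  rfl

lemma rr_zero : rr P (0 : ι → F₀) = 0 := by
  rw [rr, co_zero, Matrix.mulVec_zero]

lemma inv_rr (u : ι → F₀) : ((P⁻¹ : GG) : Mat) *ᵥ rr P u = co u := by
  rw [rr, Matrix.mulVec_mulVec]
  simp

lemma rr_inj {u v : ι → F₀} (h : rr P u = rr P v) : u = v := by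
  apply co_inj
  rw [← inv_rr (P := P) u, ← inv_rr (P := P) v, h]

lemma rr_ne_zero {u : ι → F₀} (h : u ≠ 0) : rr P u ≠ 0 := fun h0 => h (rr_inj (h0.trans rr_zero.symm))

/-- The lift of an invertible matrix over the subfield. -/
def lift (P : GL ι F) (t : GL ι F₀) : GG :=
  P * Matrix.GeneralLinearGroup.map (F₀.subtype : F₀ →+* F) t * P⁻¹

lemma lift_mem (t : GL ι F₀) : lift P t ∈ subfieldSubgroup F₀ P :=
  ⟨Matrix.GeneralLinearGroup.map (F₀.subtype : F₀ →+* F) t, Subgroup.mem_sup_left ⟨t, rfl⟩, rfl⟩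

lemma lift_rr (t : GL ι F₀) (u : ι → F₀) : (lift P t : Mat) *ᵥ rr P u = rr P ((t : Matrix ι ι F₀) *ᵥ u) := by
  have h1 : ((Matrix.GeneralLinearGroup.map (F₀.subtype : F₀ →+* F) t : GG) : Mat) *ᵥ co u = co ((t : Matrix ι ι F₀) *ᵥ u) := by
    ext i
    simp [co, Matrix.mulVec, dotProduct, Matrix.GeneralLinearGroup.map_apply]
  rw [lift, Units.val_mul, Units.val_mul, ← Matrix.mulVec_mulVec, ← Matrix.mulVec_mulVec, inv_rr, h1]
  rfl

lemma lift_det (t : GL ι F₀) (ht : (t : Matrix ι ι F₀).det = 1) : lift P t ∈ specialLinear ι F := by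
  have h1 : ((lift P t : GG) : Mat).det = 1 := by
    rw [lift, Units.val_mul, Units.val_mul, Matrix.det_mul, Matrix.det_mul]
    have h2 : ((Matrix.GeneralLinearGroup.map (F₀.subtype : F₀ →+* F) t : GG) : Mat).det = 1 := by
      have : ((Matrix.GeneralLinearGroup.map (F₀.subtype : F₀ →+* F) t : GG) : Mat) = (t : Matrix ι ι F₀).map F₀.subtype := rfl
      rw [this]
      have h3 := RingHom.map_det (F₀.subtype : F₀ →+* F) (t : Matrix ι ι F₀)
      rw [ht, map_one] at h3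
      exact h3.symm
    rw [h2, mul_one, ← Matrix.det_mul]
    simp
  change (Matrix.GeneralLinearGroup.det (lift P t) : Fˣ) = 1
  ext
  simpa using h1

/-- Elements of the subfield group send rational vectors to multiples of rational vectors, uniformly. -/
lemma rat_of_mem {g : GG} (hg : g ∈ subfieldSubgroup F₀ P) : ∃ μ : Fˣ, ∀ a : ι → F₀, ∃ u : ι → F₀, (g : Mat) *ᵥ rr P a = (μ : F) • rr P u := by
  obtain ⟨μ, hμ⟩ := Cfsg.Agent.H28.mem_subfieldSubgroup.1 hg
  refine ⟨μ⁻¹, fun a => ?_⟩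
  set N : Mat := ((P⁻¹ : GG) : Mat) * (g : Mat) * (P : Mat) with hN
  have h1 : ∀ i, (μ : F) * (N *ᵥ co a) i ∈ F₀ := by
    intro i
    have : (μ : F) * (N *ᵥ co a) i = ∑ j, ((μ : F) * N i j) * (a j : F) := by
      simp only [Matrix.mulVec, dotProduct, co, Finset.mul_sum]
      refine Finset.sum_congr rfl fun j _ => ?_
      ring
    rw [this]
    exact sum_mem fun j _ => mul_mem (hμ i j) (a j).2
  refine ⟨fun i => ⟨_, h1 i⟩, ?_⟩
  have h2 : co (fun i => (⟨_, h1 i⟩ : F₀)) = (μ : F) • (N *ᵥ co a) := by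
    ext i
    simp [co]
  have h3 : (g : Mat) *ᵥ rr P a = (P : Mat) *ᵥ (N *ᵥ co a) := by
    rw [rr, hN, Matrix.mulVec_mulVec, Matrix.mulVec_mulVec]
    congr 1
    rw [← Matrix.mul_assoc, ← Matrix.mul_assoc]
    simp
  rw [h3, rr, h2, Matrix.mulVec_smul, smul_smul]
  simp

lemma mem_of_rat {g : GG} {μ : F} (hμ : μ ≠ 0) (h : ∀ a : ι → F₀, ∃ u : ι → F₀, (g : Mat) *ᵥ rr P a = μ • rr P u) :
    g ∈ subfieldSubgroup F₀ P := by
  classical
  rw [Cfsg.Agent.H28.mem_subfieldSubgroup]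
  refine ⟨Units.mk0 μ⁻¹ (inv_ne_zero hμ), fun i j => ?_⟩
  obtain ⟨u, hu⟩ := h (Pi.single j (1 : F₀) : ι → F₀)
  have h1 : co (Pi.single j (1 : F₀) : ι → F₀) = Pi.single j (1 : F) := by
    ext k
    by_cases hk : k = j
    · subst hk
      simp [co]
    · simp [co, hk]
  have h2 : (((P⁻¹ : GG) : Mat) * (g : Mat) * (P : Mat)) i j = (((P⁻¹ : GG) : Mat) *ᵥ ((g : Mat) *ᵥ rr P (Pi.single j (1 : F₀) : ι → F₀))) i := by
    rw [rr, h1, Matrix.mulVec_mulVec, Matrix.mulVec_mulVec]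
    simp
  rw [Units.val_mk0, h2, hu, Matrix.mulVec_smul, inv_rr]
  simp only [Pi.smul_apply, smul_eq_mul, co_apply]
  rw [inv_mul_cancel_left₀ hμ]
  exact (u i).2

/-- A rational point. -/
def RatPt (P : GL ι F) (F₀ : Subfield F) (x : ι → F) : Prop := ∃ (c : F) (u : ι → F₀), x = c • rr P u

lemma exists_fun {u u₀ : ι → F₀} (h : u ∉ Submodule.span F₀ {u₀}) :
    ∃ θ : ι → F₀, ∑ i, θ i * u i = 1 ∧ ∑ i, θ i * u₀ i = 0 := by
  classical
  obtain ⟨φ, hφ, hS⟩ := Submodule.exists_le_ker_of_notMem h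
  have h0 : φ u₀ = 0 := hS (Submodule.mem_span_singleton_self u₀)
  have hexp : ∀ v : ι → F₀, φ v = ∑ i, φ (Pi.single i 1) * v i := by
    intro v
    have hv : v = ∑ i, v i • (Pi.single i 1 : ι → F₀) := by
      ext j
      simp [Finset.sum_apply, Pi.single_apply]
    conv_lhs => rw [hv]
    rw [map_sum]
    refine Finset.sum_congr rfl fun i _ => ?_
    rw [map_smul, smul_eq_mul, mul_comm]
  refine ⟨fun i => (φ u)⁻¹ * φ (Pi.single i 1), ?_, ?_⟩
  · have : ∑ i, (φ u)⁻¹ * φ (Pi.single i 1) * u i = (φ u)⁻¹ * φ u := by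
      rw [hexp u, Finset.mul_sum]
      simp only [← hexp u, mul_assoc]
    rw [this, inv_mul_cancel₀ hφ]
  · have : ∑ i, (φ u)⁻¹ * φ (Pi.single i 1) * u₀ i = (φ u)⁻¹ * φ u₀ := by
      rw [hexp u₀, Finset.mul_sum]
      simp only [mul_assoc]
    rw [this, h0, mul_zero]

/-- Extension of a functional to scalars: value on a multiple of a rational vector. -/
lemma fun_ext (θ : ι → F₀) (u : ι → F₀) (c : F) : ∑ i, (θ i : F) * (c • co u) i = c * ((∑ i, θ i * u i : F₀) : F) := by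
  have h : ((∑ i, θ i * u i : F₀) : F) = ∑ i, (θ i : F) * (u i : F) := by
    rw [AddSubmonoidClass.coe_finsetSum]
    rfl
  rw [h, Finset.mul_sum]
  refine Finset.sum_congr rfl fun i _ => ?_
  simp only [Pi.smul_apply, smul_eq_mul, co_apply]
  ring

/-- Ratios of coefficients are rational. -/
lemma ratio_mem {c₁ c₂ c₃ : F} {u₁ u₂ u₃ : ι → F₀} (hc₂ : c₂ ≠ 0)
    (h : c₁ • rr P u₁ + c₂ • rr P u₂ = c₃ • rr P u₃) (hn : u₁ ∉ Submodule.span F₀ {u₂}) (hn' : u₂ ∉ Submodule.span F₀ {u₁}) :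
    c₁ / c₂ ∈ F₀ := by
  have h' : c₁ • co u₁ + c₂ • co u₂ = c₃ • co u₃ := by
    have := congrArg (fun w => ((P⁻¹ : GG) : Mat) *ᵥ w) h
    simp only [Matrix.mulVec_add, Matrix.mulVec_smul, inv_rr] at this
    exact this
  obtain ⟨θ, hθ1, hθ2⟩ := exists_fun hn
  obtain ⟨θ', hθ'1, hθ'2⟩ := exists_fun hn'
  have key : ∀ θ : ι → F₀, c₁ * ((∑ i, θ i * u₁ i : F₀) : F) + c₂ * ((∑ i, θ i * u₂ i : F₀) : F) =
      c₃ * ((∑ i, θ i * u₃ i : F₀) : F) := by
    intro θ
    rw [← fun_ext, ← fun_ext, ← fun_ext, ← h', ← Finset.sum_add_distrib]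
    refine Finset.sum_congr rfl fun i _ => ?_
    simp only [Pi.add_apply, Pi.smul_apply, smul_eq_mul, co_apply]
    ring
  have h1 := key θ
  have h2 := key θ'
  rw [hθ1, hθ2] at h1
  rw [hθ'1, hθ'2] at h2
  simp only [Subfield.coe_one, Subfield.coe_zero, mul_one, mul_zero, add_zero, zero_add] at h1 h2
  have h3 : ((∑ i, θ' i * u₃ i : F₀) : F) ≠ 0 := by
    intro h0
    rw [h0, mul_zero] at h2
    exact hc₂ h2
  have hc₃ : c₃ ≠ 0 := by
    rintro rfl
    rw [zero_mul] at h2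
    exact hc₂ h2
  have e : c₁ / c₂ = ((∑ i, θ i * u₃ i : F₀) : F) / ((∑ i, θ' i * u₃ i : F₀) : F) := by
    rw [h1, h2]
    field_simp
  rw [e]
  exact div_mem (SetLike.coe_mem _) (SetLike.coe_mem _)

/-- Ratios of coefficients at two independent points with rational sum. -/
theorem ratio_of_points {g : GG} {a a₀ u u₀ u' : ι → F₀} {c c₀ c' : F} (ha₀ : a₀ ≠ 0) (hdep : a ∉ Submodule.span F₀ {a₀})
    (h₀ : (g : Mat) *ᵥ rr P a₀ = c₀ • rr P u₀) (hu : (g : Mat) *ᵥ rr P a = c • rr P u)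
    (hu' : (g : Mat) *ᵥ rr P (a + a₀) = c' • rr P u') : c / c₀ ∈ F₀ ∧ c₀ ≠ 0 ∧ c ≠ 0 := by
  have hinj : ∀ {x : ι → F}, x ≠ 0 → (g : Mat) *ᵥ x ≠ 0 := by
    intro x hx h0
    apply hx
    have := congrArg (fun w => ((g⁻¹ : GG) : Mat) *ᵥ w) h0
    simpa [Matrix.mulVec_mulVec] using this
  have hgr₀ : (g : Mat) *ᵥ rr P a₀ ≠ 0 := hinj (rr_ne_zero ha₀)
  have hc₀ : c₀ ≠ 0 := by
    rintro rfl
    rw [zero_smul] at h₀
    exact hgr₀ h₀
  have hu₀ : u₀ ≠ 0 := by
    rintro rfl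
    rw [rr_zero, smul_zero] at h₀
    exact hgr₀ h₀
  have ha0 : a ≠ 0 := by
    rintro rfl
    exact hdep (Submodule.zero_mem _)
  have hc : c ≠ 0 := by
    rintro rfl
    rw [zero_smul] at hu
    exact hinj (rr_ne_zero ha0) hu
  have huu₀ : u ≠ 0 := by
    rintro rfl
    rw [rr_zero, smul_zero] at hu
    exact hinj (rr_ne_zero ha0) hu
  -- independence
  have hind : u ∉ Submodule.span F₀ {u₀} := by
    intro hm
    obtain ⟨t, ht⟩ := Submodule.mem_span_singleton.1 hm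
    have ht0 : t ≠ 0 := by
      rintro rfl
      rw [zero_smul] at ht
      exact huu₀ ht.symm
    have e1 : (g : Mat) *ᵥ rr P a = (c * t / c₀) • ((g : Mat) *ᵥ rr P a₀) := by
      rw [hu, h₀, smul_smul, ← ht, rr_smul, smul_smul]
      congr 1
      field_simp
    have e2 : rr P a = (c * t / c₀) • rr P a₀ := by
      have := congrArg (fun w => ((g⁻¹ : GG) : Mat) *ᵥ w) e1
      simpa [Matrix.mulVec_mulVec, Matrix.mulVec_smul] using this
    have e3 : co a = (c * t / c₀) • co a₀ := by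
      have := congrArg (fun w => ((P⁻¹ : GG) : Mat) *ᵥ w) e2
      simp only [Matrix.mulVec_smul, inv_rr] at this
      exact this
    obtain ⟨j, hj⟩ : ∃ j, a₀ j ≠ 0 := by
      by_contra hcon
      push Not at hcon
      exact ha₀ (funext hcon)
    have hj' : (a₀ j : F) ≠ 0 := by simpa using hj
    have e4 : c * t / c₀ = (a j : F) / (a₀ j : F) := by
      have := congrFun e3 j
      simp only [co_apply, Pi.smul_apply, smul_eq_mul] at this
      rw [this]
      field_simp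
    have e5 : c * t / c₀ ∈ F₀ := by
      rw [e4]
      exact div_mem (a j).2 (a₀ j).2
    apply hdep
    rw [Submodule.mem_span_singleton]
    refine ⟨⟨_, e5⟩, ?_⟩
    apply co_inj
    rw [co_smul, ← e3]
  have hind' : u₀ ∉ Submodule.span F₀ {u} := by
    intro hm
    obtain ⟨t, ht⟩ := Submodule.mem_span_singleton.1 hm
    have ht0 : t ≠ 0 := by
      rintro rfl
      rw [zero_smul] at ht
      exact hu₀ ht.symm
    apply hind
    rw [Submodule.mem_span_singleton]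
    exact ⟨t⁻¹, by rw [← ht, smul_smul, inv_mul_cancel₀ ht0, one_smul]⟩
  have hsum : c • rr P u + c₀ • rr P u₀ = c' • rr P u' := by
    rw [← hu, ← h₀, ← hu', rr_add, Matrix.mulVec_add]
  exact ⟨ratio_mem hc₀ hsum hind hind', hc₀, hc⟩

/-- If all rational vectors go to rational points then the element is in the subfield group. -/
theorem mem_of_points (hne : ∃ a : ι → F₀, a ≠ 0) {g : GG} (h : ∀ a : ι → F₀, RatPt P F₀ ((g : Mat) *ᵥ rr P a)) :
    g ∈ subfieldSubgroup F₀ P := by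
  obtain ⟨a₀, ha₀⟩ := hne
  have hinj : ∀ {x : ι → F}, x ≠ 0 → (g : Mat) *ᵥ x ≠ 0 := by
    intro x hx h0
    apply hx
    have := congrArg (fun w => ((g⁻¹ : GG) : Mat) *ᵥ w) h0
    simpa [Matrix.mulVec_mulVec] using this
  obtain ⟨c₀, u₀, h₀⟩ := h a₀
  have hgr₀ : (g : Mat) *ᵥ rr P a₀ ≠ 0 := hinj (rr_ne_zero ha₀)
  have hc₀ : c₀ ≠ 0 := by
    rintro rfl
    rw [zero_smul] at h₀
    exact hgr₀ h₀
  refine mem_of_rat hc₀ fun a => ?_
  by_cases hdep : a ∈ Submodule.span F₀ {a₀}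
  · obtain ⟨t, rfl⟩ := Submodule.mem_span_singleton.1 hdep
    refine ⟨t • u₀, ?_⟩
    rw [rr_smul, rr_smul, Matrix.mulVec_smul, h₀, smul_comm]
  obtain ⟨c, u, hu⟩ := h a
  obtain ⟨c', u', hu'⟩ := h (a + a₀)
  obtain ⟨hr, -, hc⟩ := ratio_of_points ha₀ hdep h₀ hu hu'
  refine ⟨(⟨_, hr⟩ : F₀) • u, ?_⟩
  rw [hu, rr_smul, smul_smul]
  congr 1
  simp only
  try field_simp

end Cfsg.Agent.H27.RS
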