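import Mathlib
import Cfsg.Prelude.Def_GeometricClasses
import Cfsg.Agent.Lib.H27.GeoRS
import Cfsg.Agent.Lib.H27.GeoOGen2

/-!
# Rational structures for quadratic forms: basic geometry
-/

set_option autoImplicit false
set_option linter.unusedSectionVars false
set_option linter.unusedSimpArgs false
set_option linter.unusedVariables false

namespace Cfsg.Agent.H27.OS

open scoped Matrix MatrixGroups
open Cfsg Cfsg.Geo
open Cfsg.Agent.H27.RS (rr rr_add rr_sub rr_neg rr_smul rr_zero rr_inj rr_ne_zero mem_of_rat RatPt co)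
open Cfsg.Agent.H27.GO

variable {ι : Type} [Fintype ι] [DecidableEq ι] {F : Type*} [Field F] {Q : (ι → F) → F} {F₀ : Subfield F} {P : GL ι F}

/-- `Q` is `F₀`-valued on the rational vectors. -/
def RatQ (Q : (ι → F) → F) (F₀ : Subfield F) (P : GL ι F) : Prop := ∀ u : ι → F₀, Q (rr P u) ∈ F₀

/-- The rational form. -/
def Q0 (hP : RatQ Q F₀ P) (u : ι → F₀) : F₀ := ⟨Q (rr P u), hP u⟩

lemma Q0_coe (hP : RatQ Q F₀ P) (u : ι → F₀) : (Q0 hP u : F) = Q (rr P u) := rfl

lemma pl_coe (hP : RatQ Q F₀ P) (u v : ι → F₀) : ((pl (Q0 hP) u v : F₀) : F) = pl Q (rr P u) (rr P v) := by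
  simp only [pl, QuadraticMap.polar, Subfield.coe_sub, Q0_coe, rr_add]

lemma expand (x : ι → F) : x = ∑ i, (((P⁻¹ : GL ι F) : Matrix ι ι F) *ᵥ x) i • rr P (Pi.single i (1 : F₀)) := by
  have h1 : ∀ i, rr P (Pi.single i (1 : F₀)) = (P : Matrix ι ι F) *ᵥ (Pi.single i (1 : F)) := by
    intro i
    rw [rr]
    congr 1
    ext k
    by_cases hk : k = i
    · subst hk
      simp [co]
    · simp [co, hk]
  simp only [h1, ← Matrix.mulVec_smul]
  rw [← Matrix.mulVec_sum]
  have h2 : ∑ i, (((P⁻¹ : GL ι F) : Matrix ι ι F) *ᵥ x) i • (Pi.single i (1 : F) : ι → F) = ((P⁻¹ : GL ι F) : Matrix ι ι F) *ᵥ x := by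
    ext j
    simp [Finset.sum_apply, Pi.single_apply]
  rw [h2, Matrix.mulVec_mulVec]
  simp

lemma pl_sum_right (hQ : IsNondegenerateQuadraticForm Q) {α : Type*} (s : Finset α) (x : ι → F) (f : α → ι → F) :
    pl Q x (∑ i ∈ s, f i) = ∑ i ∈ s, pl Q x (f i) := by
  classical
  induction s using Finset.induction_on with
  | empty => simp [pl_zero_right hQ]
  | insert a s ha ih => rw [Finset.sum_insert ha, Finset.sum_insert ha, pl_add_right hQ, ih]

/-- The rational vectors separate. -/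
lemma nd_rat (hQ : IsNondegenerateQuadraticForm Q) {x : ι → F} (h : ∀ v : ι → F₀, pl Q x (rr P v) = 0) : x = 0 := by
  by_contra hx
  obtain ⟨-, z, hz⟩ := hQ.nondegenerate x hx
  apply hz
  change pl Q x z = 0
  rw [expand (P := P) (F₀ := F₀) z, pl_sum_right hQ]
  refine Finset.sum_eq_zero fun i _ => ?_
  rw [pl_smul_right hQ, h, mul_zero]

theorem Q0_nondeg (hQ : IsNondegenerateQuadraticForm Q) (hP : RatQ Q F₀ P) : IsNondegenerateQuadraticForm (Q0 hP) := by
  refine ⟨fun c v => ?_, ⟨fun x y v => ?_, fun c x v => ?_, fun v x y => ?_, fun c v x => ?_⟩, fun v hv => ?_⟩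
  · apply Subtype.ext
    change Q (rr P (c • v)) = (c : F) ^ 2 * Q (rr P v)
    rw [rr_smul, hQ.smul]
  · apply Subtype.ext
    change ((pl (Q0 hP) (x + y) v : F₀) : F) = ((pl (Q0 hP) x v : F₀) : F) + ((pl (Q0 hP) y v : F₀) : F)
    rw [pl_coe, pl_coe, pl_coe, rr_add, pl_add_left hQ]
  · apply Subtype.ext
    change ((pl (Q0 hP) (c • x) v : F₀) : F) = (c : F) * ((pl (Q0 hP) x v : F₀) : F)
    rw [pl_coe, pl_coe, rr_smul, pl_smul_left hQ]
  · apply Subtype.ext
    change ((pl (Q0 hP) v (x + y) : F₀) : F) = ((pl (Q0 hP) v x : F₀) : F) + ((pl (Q0 hP) v y : F₀) : F)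
    rw [pl_coe, pl_coe, pl_coe, rr_add, pl_add_right hQ]
  · apply Subtype.ext
    change ((pl (Q0 hP) v (c • x) : F₀) : F) = (c : F) * ((pl (Q0 hP) v x : F₀) : F)
    rw [pl_coe, pl_coe, rr_smul, pl_smul_right hQ]
  · have key : ∃ x : ι → F₀, pl (Q0 hP) v x ≠ 0 := by
      by_contra hcon
      push Not at hcon
      apply hv
      apply rr_inj (P := P)
      rw [rr_zero]
      apply nd_rat hQ (F₀ := F₀)
      intro w
      rw [← pl_coe hP, hcon w]
      rfl
    obtain ⟨x, hx⟩ := key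
    exact ⟨⟨x, fun h => hx (by rw [pl_symm]; exact h)⟩, ⟨x, hx⟩⟩

/-! ### Generic helper lemmas over a finite field (used for the rational form) -/

section gen

variable {K : Type*} [Field K] {R : (ι → K) → K}

theorem hyp_top [Fintype K] (hR : IsNondegenerateQuadraticForm R) (S : Submodule K (ι → K))
    (hd : 2 * Module.finrank K S + 3 ≤ Fintype.card ι) :
    ∃ p p', R p = 0 ∧ R p' = 0 ∧ pl R p p' = 1 ∧ (∀ s ∈ S, pl R p s = 0) ∧ (∀ s ∈ S, pl R p' s = 0) := by
  have hf : Module.finrank K (⊤ : Submodule K (ι → K)) = Fintype.card ι := by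
    rw [finrank_top]
    simp
  obtain ⟨p, -, p', -, h1, h2, h3, h4, h5⟩ := exists_hyp_rel (Y := ⊤) (S := S) hR (ndg_top hR) le_top (by rw [hf]; exact hd)
  exact ⟨p, p', h1, h2, h3, h4, h5⟩

theorem sep_top (hR : IsNondegenerateQuadraticForm R) {S : Submodule K (ι → K)} {p : ι → K} (hp : p ∉ S) (c : K) :
    ∃ y, (∀ s ∈ S, pl R y s = 0) ∧ pl R y p = c := by
  obtain ⟨y, -, h1, h2⟩ := exists_sep (Y := ⊤) hR (ndg_top hR) (Submodule.mem_top) hp c
  exact ⟨y, fun s hs => h1 s ⟨hs, trivial⟩, h2⟩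

theorem partner_top (hR : IsNondegenerateQuadraticForm R) {S : Submodule K (ι → K)} {a : ι → K} (hQa : R a = 0)
    (haS : a ∉ S) (haP : ∀ s ∈ S, pl R a s = 0) : ∃ a', R a' = 0 ∧ pl R a' a = 1 ∧ ∀ s ∈ S, pl R a' s = 0 := by
  obtain ⟨a', -, h1, h2, h3⟩ := exists_partner_rel (Y := ⊤) hR (ndg_top hR) le_top (Submodule.mem_top) hQa haS haP
  exact ⟨a', h1, h2, h3⟩

theorem sing_top [Fintype K] (hR : IsNondegenerateQuadraticForm R) {S : Submodule K (ι → K)}
    (hd : 2 * Module.finrank K S + 3 ≤ Fintype.card ι) (x : ι → K) :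
    ∃ y, R y = 0 ∧ ∀ s ∈ S, pl R y s = pl R x s := by
  have hf : Module.finrank K (⊤ : Submodule K (ι → K)) = Fintype.card ι := by
    rw [finrank_top]
    simp
  obtain ⟨y, -, h1, h2⟩ := singularize (Y := ⊤) (S := S) hR (ndg_top hR) le_top (by rw [hf]; exact hd) (Submodule.mem_top (x := x))
  exact ⟨y, h1, h2⟩

end gen

end Cfsg.Agent.H27.OS
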