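import Mathlib
import Cfsg.Prelude.Def_GeometricClasses
import Cfsg.Agent.Lib.H27.GeoOS

/-!
# Rational structures for quadratic forms: separation and rational points
-/

set_option autoImplicit false
set_option linter.unusedSectionVars false
set_option linter.unusedSimpArgs false
set_option linter.unusedVariables false

namespace Cfsg.Agent.H27.OS

open scoped Matrix MatrixGroups
open Cfsg Cfsg.Geo
open Cfsg.Agent.H27.RS (rr rr_add rr_sub rr_neg rr_smul rr_zero rr_inj rr_ne_zero mem_of_rat RatPt co)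
open Cfsg.Agent.H27.GO

variable {ι : Type} [Fintype ι] [DecidableEq ι] {F : Type*} [Field F] {Q : (ι → F) → F} {F₀ : Subfield F} {P : GL ι F}

section gen

variable {K : Type*} [Field K] {R : (ι → K) → K}

lemma perp_span2 (hR : IsNondegenerateQuadraticForm R) {x u v : ι → K} (hu : pl R x u = 0) (hv : pl R x v = 0) :
    ∀ s ∈ Submodule.span K {u, v}, pl R x s = 0 := by
  intro s hs
  obtain ⟨a, b, rfl⟩ := Submodule.mem_span_pair.1 hs
  rw [pl_add_right hR, pl_smul_right hR, pl_smul_right hR, hu, hv]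
  ring

lemma Q_span2 (hR : IsNondegenerateQuadraticForm R) {u v : ι → K} (hu : R u = 0) (hv : R v = 0) (huv : pl R u v = 0) :
    ∀ s ∈ Submodule.span K {u, v}, R s = 0 := by
  intro s hs
  obtain ⟨a, b, rfl⟩ := Submodule.mem_span_pair.1 hs
  rw [Q_add R, hR.smul, hR.smul, pl_smul_left hR, pl_smul_right hR, hu, hv, huv]
  ring

lemma finrank_span_four (a b c d : ι → K) : Module.finrank K (Submodule.span K {a, b, c, d}) ≤ 4 := by
  classical
  have h := finrank_span_finset_le_card (R := K) ({a, b, c, d} : Finset (ι → K))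
  have h2 : (({a, b, c, d} : Finset (ι → K)) : Set (ι → K)) = {a, b, c, d} := by simp
  rw [h2] at h
  refine h.trans ?_
  exact Finset.card_le_four

end gen

section main

variable (hQ : IsNondegenerateQuadraticForm Q) (hP : RatQ Q F₀ P)
include hQ hP

theorem perp2_mem {u v : ι → F₀} (hu : u ∉ Submodule.span F₀ {v}) (hv : v ∉ Submodule.span F₀ {u}) {w : ι → F}
    (h : ∀ r : ι → F₀, pl (Q0 hP) r u = 0 → pl (Q0 hP) r v = 0 → pl Q w (rr P r) = 0) :
    ∃ α β : F, w = α • rr P u + β • rr P v := by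
  have hQ₀ := Q0_nondeg hQ hP
  obtain ⟨a₁, ha₁, ha₁u⟩ := sep_top hQ₀ hu 1
  obtain ⟨a₂, ha₂, ha₂v⟩ := sep_top hQ₀ hv 1
  have ha₁v : pl (Q0 hP) a₁ v = 0 := ha₁ v (Submodule.mem_span_singleton_self v)
  have ha₂u : pl (Q0 hP) a₂ u = 0 := ha₂ u (Submodule.mem_span_singleton_self u)
  refine ⟨pl Q w (rr P a₁), pl Q w (rr P a₂), ?_⟩
  rw [← sub_eq_zero]
  apply nd_rat hQ (F₀ := F₀)
  intro r
  have h1 := h (r - pl (Q0 hP) r u • a₁ - pl (Q0 hP) r v • a₂) (by
      rw [pl_sub_left hQ₀, pl_sub_left hQ₀, pl_smul_left hQ₀, pl_smul_left hQ₀, ha₁u, ha₂u]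
      ring) (by
      rw [pl_sub_left hQ₀, pl_sub_left hQ₀, pl_smul_left hQ₀, pl_smul_left hQ₀, ha₁v, ha₂v]
      ring)
  rw [rr_sub, rr_sub, rr_smul, rr_smul, pl_sub_right hQ, pl_sub_right hQ, pl_smul_right hQ, pl_smul_right hQ] at h1
  have e1 : pl Q (rr P u) (rr P r) = ((pl (Q0 hP) r u : F₀) : F) := by rw [pl_coe hP, pl_symm]
  have e2 : pl Q (rr P v) (rr P r) = ((pl (Q0 hP) r v : F₀) : F) := by rw [pl_coe hP, pl_symm]
  rw [pl_sub_left hQ, pl_add_left hQ, pl_smul_left hQ, pl_smul_left hQ, e1, e2]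
  linear_combination h1

/-- Singular vectors span relative orthogonal complements, modulo a submodule of values. -/
theorem sing_span [Fintype F₀] (hd : 9 ≤ Fintype.card ι) {u v : ι → F₀} (hQu : Q0 hP u = 0) (hQv : Q0 hP v = 0)
    (huv : pl (Q0 hP) u v = 0) {w : ι → F} (A : Submodule F₀ F)
    (h : ∀ t : ι → F₀, Q0 hP t = 0 → pl (Q0 hP) t u = 0 → pl (Q0 hP) t v = 0 → t ∉ Submodule.span F₀ {u, v} →
      pl Q w (rr P t) ∈ A)
    (r : ι → F₀) (hru : pl (Q0 hP) r u = 0) (hrv : pl (Q0 hP) r v = 0) : pl Q w (rr P r) ∈ A := by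
  have hQ₀ := Q0_nondeg hQ hP
  have hS2 := finrank_span_two (F := F₀) u v
  have hS3 := finrank_span_three (F := F₀) u v r
  have hperp := perp_span2 hQ₀ hru hrv
  by_cases hrS : r ∈ Submodule.span F₀ {u, v}
  · obtain ⟨p, p', hQp, hQp', hpp', hpS, hp'S⟩ := hyp_top hQ₀ (Submodule.span F₀ {u, v}) (by omega)
    have hQr := Q_span2 hQ₀ hQu hQv huv r hrS
    have hpu := hpS u (mem_span_two_l u v)
    have hpv := hpS v (mem_span_two_r u v)
    have hpr := hpS r hrS
    have hpnS : p ∉ Submodule.span F₀ {u, v} := fun hm => by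
      have := hp'S p hm
      rw [pl_symm, hpp'] at this
      exact one_ne_zero this
    have h1 := h p hQp hpu hpv hpnS
    have h2 := h (r + p) (by rw [Q_add (Q0 hP), hQr, hQp, pl_symm, hpr]; ring)
      (by rw [pl_add_left hQ₀, hru, hpu, add_zero]) (by rw [pl_add_left hQ₀, hrv, hpv, add_zero]) (fun hm => hpnS (by
        have := Submodule.sub_mem _ hm hrS
        simpa using this))
    rw [rr_add, pl_add_right hQ] at h2
    have := A.sub_mem h2 h1
    simpa using this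
  · by_cases hQr : Q0 hP r = 0
    · exact h r hQr hru hrv hrS
    obtain ⟨x₀, hx₀, hx₀r⟩ := sep_top hQ₀ hrS 1
    obtain ⟨d, hQd, hdS⟩ := sing_top hQ₀ (S := Submodule.span F₀ {u, v, r}) (by omega) x₀
    have hdu : pl (Q0 hP) d u = 0 := by
      rw [hdS u (mem_span_three_1 u v r)]
      exact hx₀ u (mem_span_two_l u v)
    have hdv : pl (Q0 hP) d v = 0 := by
      rw [hdS v (mem_span_three_2 u v r)]
      exact hx₀ v (mem_span_two_r u v)
    have hdr : pl (Q0 hP) d r = 1 := by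
      rw [hdS r (mem_span_three_3 u v r), hx₀r]
    have hdnS : d ∉ Submodule.span F₀ {u, v} := fun hm => by
      have := hperp d hm
      rw [pl_symm, hdr] at this
      exact one_ne_zero this
    have h1 := h d hQd hdu hdv hdnS
    have hQr' : Q0 hP (r - Q0 hP r • d) = 0 := by
      rw [Q_smul_sub hQ₀, hQd, pl_symm, hdr]
      ring
    have h2 := h (r - Q0 hP r • d) hQr'
      (by rw [pl_sub_left hQ₀, pl_smul_left hQ₀, hru, hdu]; ring)
      (by rw [pl_sub_left hQ₀, pl_smul_left hQ₀, hrv, hdv]; ring) (fun hm => by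
        have := hperp _ hm
        rw [pl_sub_right hQ₀, pl_smul_right hQ₀, pl_self hQ₀, pl_symm, hdr] at this
        apply hQr
        linear_combination this)
    rw [rr_sub, rr_smul, pl_sub_right hQ, pl_smul_right hQ] at h2
    have h3 : pl Q w (rr P r) = (pl Q w (rr P r) - ((Q0 hP r : F₀) : F) * pl Q w (rr P d)) + Q0 hP r • pl Q w (rr P d) := by
      rw [Subfield.smul_def, smul_eq_mul]
      ring
    rw [h3]
    exact A.add_mem h2 (A.smul_mem _ h1)

theorem sing_sep2 [Fintype F₀] (hd : 9 ≤ Fintype.card ι) {u v : ι → F₀} (hQu : Q0 hP u = 0) (hQv : Q0 hP v = 0)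
    (huv : pl (Q0 hP) u v = 0) (hu : u ∉ Submodule.span F₀ {v}) (hv : v ∉ Submodule.span F₀ {u}) {w : ι → F}
    (hw : ¬ ∃ α β : F, w = α • rr P u + β • rr P v) :
    ∃ t : ι → F₀, Q0 hP t = 0 ∧ pl (Q0 hP) t u = 0 ∧ pl (Q0 hP) t v = 0 ∧ t ∉ Submodule.span F₀ {u, v} ∧
      pl Q w (rr P t) ≠ 0 := by
  by_contra hcon
  push Not at hcon
  apply hw
  apply perp2_mem hQ hP hu hv
  intro r hr1 hr2
  have := sing_span hQ hP hd hQu hQv huv (w := w) (⊥ : Submodule F₀ F) (fun t h1 h2 h3 h4 => by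
    rw [Submodule.mem_bot]
    exact hcon t h1 h2 h3 h4) r hr1 hr2
  simpa using this

/-- If a point lies on two rational lines, it is rational if the lines differ. -/
theorem pt_of_two {u v u' v' : ι → F₀} {α β α' β' : F} (h : α • rr P u + β • rr P v = α' • rr P u' + β' • rr P v')
    (hn : u' ∉ Submodule.span F₀ {u, v}) : ∃ (c : F) (t : ι → F₀), α' • rr P u' + β' • rr P v' = c • rr P t := by
  have hQ₀ := Q0_nondeg hQ hP
  obtain ⟨r, hr, hr1⟩ := sep_top hQ₀ hn 1
  have hru := hr u (mem_span_two_l u v)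
  have hrv := hr v (mem_span_two_r u v)
  have h1 := congrArg (fun z => pl Q (rr P r) z) h
  simp only [pl_add_right hQ, pl_smul_right hQ, ← pl_coe hP, hru, hrv, hr1] at h1
  simp only [Subfield.coe_zero, Subfield.coe_one, mul_zero, add_zero, mul_one] at h1
  refine ⟨β', v' - pl (Q0 hP) r v' • u', ?_⟩
  rw [rr_sub, rr_smul]
  ext i
  simp only [Pi.add_apply, Pi.smul_apply, Pi.sub_apply, smul_eq_mul]
  linear_combination (-rr P u' i) * h1

/-- A nonzero vector pairs non-trivially with a rational singular vector. -/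
theorem exists_sing_ne [Fintype F₀] (hd : 5 ≤ Fintype.card ι) {w : ι → F} (hw : w ≠ 0) :
    ∃ t : ι → F₀, Q0 hP t = 0 ∧ pl Q w (rr P t) ≠ 0 := by
  have hQ₀ := Q0_nondeg hQ hP
  obtain ⟨r, hr⟩ : ∃ r : ι → F₀, pl Q w (rr P r) ≠ 0 := by
    by_contra hcon
    push Not at hcon
    exact hw (nd_rat hQ hcon)
  by_cases hQr : Q0 hP r = 0
  · exact ⟨r, hQr, hr⟩
  have hr0 : r ∉ (⊥ : Submodule F₀ (ι → F₀)) := by
    rw [Submodule.mem_bot]
    rintro rfl
    apply hr
    rw [rr_zero, pl_zero_right hQ]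
  obtain ⟨x₀, -, hx₀r⟩ := sep_top hQ₀ hr0 1
  have hS1 := finrank_span_one (F := F₀) r
  obtain ⟨d, hQd, hdS⟩ := sing_top hQ₀ (S := Submodule.span F₀ {r}) (by omega) x₀
  have hdr : pl (Q0 hP) d r = 1 := by
    rw [hdS r (Submodule.mem_span_singleton_self r), hx₀r]
  by_cases h1 : pl Q w (rr P d) = 0
  · refine ⟨r - Q0 hP r • d, ?_, ?_⟩
    · rw [Q_smul_sub hQ₀, hQd, pl_symm, hdr]
      ring
    · rw [rr_sub, rr_smul, pl_sub_right hQ, pl_smul_right hQ, h1, mul_zero, sub_zero]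
      exact hr
  · exact ⟨d, hQd, h1⟩

lemma ind_of_rat {a d : ι → F₀} (ha : a ∉ Submodule.span F₀ {d}) (hd : d ∉ Submodule.span F₀ {a}) {α β : F}
    (h : α • rr P a + β • rr P d = 0) : α = 0 ∧ β = 0 := by
  have hQ₀ := Q0_nondeg hQ hP
  obtain ⟨r₁, hr₁, hr₁a⟩ := sep_top hQ₀ ha 1
  obtain ⟨r₂, hr₂, hr₂d⟩ := sep_top hQ₀ hd 1
  have hr₁d := hr₁ d (Submodule.mem_span_singleton_self d)
  have hr₂a := hr₂ a (Submodule.mem_span_singleton_self a)
  have h1 := congrArg (fun z => pl Q (rr P r₁) z) h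
  have h2 := congrArg (fun z => pl Q (rr P r₂) z) h
  simp only [pl_add_right hQ, pl_smul_right hQ, ← pl_coe hP, hr₁a, hr₁d, pl_zero_right hQ] at h1
  simp only [pl_add_right hQ, pl_smul_right hQ, ← pl_coe hP, hr₂a, hr₂d, pl_zero_right hQ] at h2
  simp only [Subfield.coe_zero, Subfield.coe_one, mul_zero, add_zero, zero_add, mul_one] at h1 h2
  exact ⟨h1, h2⟩

end main

end Cfsg.Agent.H27.OS
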