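import Mathlib
import Cfsg.Prelude.Def_GeometricClasses
import Cfsg.Agent.Lib.H27.GeoOS2

/-!
# Rational structures for quadratic forms: non-rational lines
-/

set_option autoImplicit false
set_option linter.unusedSectionVars false
set_option linter.unusedSimpArgs false
set_option linter.unusedVariables false

namespace Cfsg.Agent.H27.OS

open scoped Matrix MatrixGroups
open Cfsg Cfsg.Geo
open Cfsg.Agent.H27.RS (rr rr_add rr_sub rr_neg rr_smul rr_zero rr_inj rr_ne_zero mem_of_rat RatPt co)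
open Cfsg.Agent.H27.GO

variable {ι : Type} [Fintype ι] [DecidableEq ι] {F : Type*} [Field F] {Q : (ι → F) → F} {F₀ : Subfield F} {P : GL ι F}

/-- The point of the line through `x, y` orthogonal to `u`. -/
def zz (Q : (ι → F) → F) (x y u : ι → F) : ι → F := pl Q x u • y - pl Q y u • x

lemma zz_pl (hQ : IsNondegenerateQuadraticForm Q) (x y u v : ι → F) :
    pl Q (zz Q x y u) v = pl Q x u * pl Q y v - pl Q y u * pl Q x v := by
  rw [zz, pl_sub_left hQ, pl_smul_left hQ, pl_smul_left hQ]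

lemma Q_zz (hQ : IsNondegenerateQuadraticForm Q) {x y : ι → F} (hx : Q x = 0) (hy : Q y = 0) (hxy : pl Q x y = 0) (u : ι → F) :
    Q (zz Q x y u) = 0 := by
  have hyx : pl Q y x = 0 := by rw [pl_symm, hxy]
  rw [zz, Q_smul_sub hQ, hQ.smul, hx, hy, pl_smul_left hQ, hyx]
  ring

lemma zz_swap (x y u : ι → F) : zz Q y x u = - zz Q x y u := by
  simp only [zz]
  abel

/-- The vector `z` is not rational modulo the rational vector `u`. -/
def NR (P : GL ι F) (z : ι → F) (u : ι → F₀) : Prop :=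
  ¬ ∃ (c α : F) (v : ι → F₀), z = c • rr P v + α • rr P u

lemma NR_neg {z : ι → F} {u : ι → F₀} (h : ¬ NR P z u) : ¬ NR P (-z) u := by
  unfold NR at h ⊢
  push Not at h ⊢
  obtain ⟨c, α, v, rfl⟩ := h
  refine ⟨-c, -α, v, ?_⟩
  simp only [neg_add, neg_smul]

section main

variable (hQ : IsNondegenerateQuadraticForm Q) (hP : RatQ Q F₀ P)
include hQ hP

theorem claim1 [Fintype F₀] (hd : 9 ≤ Fintype.card ι) {x y : ι → F} (hx : Q x = 0) (hy : Q y = 0) (hxy : pl Q x y = 0)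
    (bad : ∀ u : ι → F₀, u ≠ 0 → Q0 hP u = 0 → ¬ NR P (zz Q x y (rr P u)) u) {u : ι → F₀} (hQu : Q0 hP u = 0)
    (ha : pl Q x (rr P u) ≠ 0) :
    (∃ (c : F) (t : ι → F₀), zz Q x y (rr P u) = c • rr P t) ∨
      (∃ (v₁ v₂ : ι → F₀) (p q p' q' : F), x = p • rr P v₁ + q • rr P v₂ ∧ y = p' • rr P v₁ + q' • rr P v₂) := by
  have hQ₀ := Q0_nondeg hQ hP
  have hu0 : u ≠ 0 := by
    rintro rfl
    apply ha
    rw [rr_zero, pl_zero_right hQ]
  have hb := bad u hu0 hQu
  unfold NR at hb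
  push Not at hb
  obtain ⟨c, α, v, hz⟩ := hb
  by_cases hvu : v ∈ Submodule.span F₀ {u}
  · left
    obtain ⟨κ, rfl⟩ := Submodule.mem_span_singleton.1 hvu
    refine ⟨c * κ + α, u, ?_⟩
    rw [hz, rr_smul]
    ext i
    simp only [Pi.add_apply, Pi.smul_apply, smul_eq_mul]
    ring
  by_cases hc : c = 0
  · left
    refine ⟨α, u, ?_⟩
    rw [hz, hc, zero_smul, zero_add]
  have huu : pl Q (rr P u) (rr P u) = 0 := by
    rw [← pl_coe hP, pl_self hQ₀, hQu]
    simp
  have hQu' : Q (rr P u) = 0 := by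
    rw [← Q0_coe hP, hQu]
    rfl
  have h1 : pl Q (zz Q x y (rr P u)) (rr P u) = 0 := by
    rw [zz_pl hQ]
    ring
  have hvu' : pl Q (rr P v) (rr P u) = 0 := by
    rw [hz, pl_add_left hQ, pl_smul_left hQ, pl_smul_left hQ, huu, mul_zero, add_zero] at h1
    exact (mul_eq_zero.1 h1).resolve_left hc
  have hvu₀ : pl (Q0 hP) v u = 0 := by
    apply Subtype.ext
    rw [pl_coe hP, hvu']
    rfl
  have hQv : Q0 hP v = 0 := by
    have h2 := Q_zz hQ hx hy hxy (rr P u)
    rw [hz, Q_add Q, hQ.smul, hQ.smul, pl_smul_left hQ, pl_smul_right hQ, hvu', hQu'] at h2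
    have h3 : c ^ 2 * Q (rr P v) = 0 := by
      linear_combination h2
    apply Subtype.ext
    rw [Q0_coe hP]
    exact (mul_eq_zero.1 h3).resolve_left (pow_ne_zero 2 hc)
  have huv : u ∉ Submodule.span F₀ {v} := by
    intro hm
    obtain ⟨κ, hκ⟩ := Submodule.mem_span_singleton.1 hm
    apply hvu
    have hκ0 : κ ≠ 0 := by
      rintro rfl
      rw [zero_smul] at hκ
      exact hu0 hκ.symm
    rw [Submodule.mem_span_singleton]
    exact ⟨κ⁻¹, by rw [← hκ, smul_smul, inv_mul_cancel₀ hκ0, one_smul]⟩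
  by_cases hxT : ∃ α β : F, x = α • rr P u + β • rr P v
  · right
    obtain ⟨p, q, hpq⟩ := hxT
    refine ⟨u, v, p, q, (pl Q y (rr P u) * p + α) / pl Q x (rr P u), (pl Q y (rr P u) * q + c) / pl Q x (rr P u), hpq, ?_⟩
    have e : pl Q x (rr P u) • y = (pl Q y (rr P u) * p + α) • rr P u + (pl Q y (rr P u) * q + c) • rr P v := by
      have e2 : pl Q x (rr P u) • y = zz Q x y (rr P u) + pl Q y (rr P u) • x := by
        rw [zz]
        abel
      have e4 : pl Q y (rr P u) • x = pl Q y (rr P u) • (p • rr P u + q • rr P v) := by rw [← hpq]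
      rw [e2, hz, e4]
      ext i
      simp only [Pi.add_apply, Pi.smul_apply, smul_eq_mul]
      ring
    ext i
    have e5 := congrFun e i
    simp only [Pi.add_apply, Pi.smul_apply, smul_eq_mul] at e5 ⊢
    field_simp
    linear_combination e5
  · left
    obtain ⟨t, hQt, htu, htv, htS, hxt⟩ := sing_sep2 hQ hP hd hQu hQv (by rw [pl_symm]; exact hvu₀) huv hvu hxT
    have ht0 : t ≠ 0 := by
      rintro rfl
      exact htS (Submodule.zero_mem _)
    have hb' := bad t ht0 hQt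
    unfold NR at hb'
    push Not at hb'
    obtain ⟨c', α', v', hz'⟩ := hb'
    have htu' : pl Q (rr P u) (rr P t) = 0 := by
      rw [← pl_coe hP, pl_symm, htu]
      rfl
    have htv' : pl Q (rr P v) (rr P t) = 0 := by
      rw [← pl_coe hP, pl_symm, htv]
      rfl
    have h3 : pl Q (zz Q x y (rr P u)) (rr P t) = 0 := by
      rw [hz, pl_add_left hQ, pl_smul_left hQ, pl_smul_left hQ, htu', htv']
      ring
    rw [zz_pl hQ] at h3
    have h4 : zz Q x y (rr P u) = (pl Q x (rr P u) / pl Q x (rr P t)) • zz Q x y (rr P t) := by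
      simp only [zz]
      ext i
      simp only [Pi.sub_apply, Pi.smul_apply, smul_eq_mul]
      field_simp
      linear_combination (x i) * h3
    set κ := pl Q x (rr P u) / pl Q x (rr P t) with hκ
    have h5 : c • rr P v + α • rr P u = α • rr P u + c • rr P v := add_comm _ _
    have h6 : α • rr P u + c • rr P v = (κ * α') • rr P t + (κ * c') • rr P v' := by
      rw [← h5, ← hz, h4, hz']
      ext i
      simp only [Pi.add_apply, Pi.smul_apply, smul_eq_mul]
      ring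
    obtain ⟨e, s, hes⟩ := pt_of_two hQ hP h6 htS
    refine ⟨e, s, ?_⟩
    rw [← hes, ← h6, ← h5, ← hz]

/-- If the line is bad at every rational singular vector then it is rational. -/
theorem line_rat [Fintype F₀] (hd : 9 ≤ Fintype.card ι) {x y : ι → F} (hx : Q x = 0) (hy : Q y = 0) (hxy : pl Q x y = 0)
    (hind : ∀ α β : F, α • x + β • y = 0 → α = 0 ∧ β = 0)
    (bad : ∀ u : ι → F₀, u ≠ 0 → Q0 hP u = 0 → ¬ NR P (zz Q x y (rr P u)) u) :
    ∃ (v₁ v₂ : ι → F₀) (p q p' q' : F), x = p • rr P v₁ + q • rr P v₂ ∧ y = p' • rr P v₁ + q' • rr P v₂ := by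
  have hx0 : x ≠ 0 := by
    rintro rfl
    have := hind 1 0 (by simp)
    exact one_ne_zero this.1
  obtain ⟨u₁, hu₁, ha₁⟩ := exists_sing_ne hQ hP (by omega) hx0
  have hz₁ : zz Q x y (rr P u₁) ≠ 0 := by
    intro h0
    rw [zz] at h0
    have := hind (- pl Q y (rr P u₁)) (pl Q x (rr P u₁)) (by
      rw [← h0, neg_smul]
      abel)
    exact ha₁ this.2
  obtain ⟨u₂, hu₂, hD⟩ := exists_sing_ne hQ hP (by omega) hz₁
  rw [zz_pl hQ] at hD
  have c1 := claim1 hQ hP hd hx hy hxy bad hu₁ ha₁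
  have bad' : ∀ u : ι → F₀, u ≠ 0 → Q0 hP u = 0 → ¬ NR P (zz Q y x (rr P u)) u := by
    intro u h1 h2
    rw [zz_swap]
    exact NR_neg (bad u h1 h2)
  have hyx : pl Q y x = 0 := by rw [pl_symm, hxy]
  have c2 : (∃ (c : F) (t : ι → F₀), zz Q x y (rr P u₂) = c • rr P t) ∨
      (∃ (v₁ v₂ : ι → F₀) (p q p' q' : F), x = p • rr P v₁ + q • rr P v₂ ∧ y = p' • rr P v₁ + q' • rr P v₂) := by
    by_cases ha₂ : pl Q x (rr P u₂) = 0
    · have hb₂ : pl Q y (rr P u₂) ≠ 0 := by
        intro h0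
        apply hD
        rw [ha₂, h0]
        ring
      rcases claim1 hQ hP hd hy hx hyx bad' hu₂ hb₂ with ⟨c, t, h⟩ | ⟨v₁, v₂, p, q, p', q', h1, h2⟩
      · left
        refine ⟨-c, t, ?_⟩
        rw [neg_smul, ← h, zz_swap]
      · right
        exact ⟨v₁, v₂, p', q', p, q, h2, h1⟩
    · exact claim1 hQ hP hd hx hy hxy bad hu₂ ha₂
  rcases c1 with ⟨c₁, t₁, h₁⟩ | h
  swap
  · exact h
  rcases c2 with ⟨c₂, t₂, h₂⟩ | h
  swap
  · exact h
  set a₁ := pl Q x (rr P u₁) with ha₁d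
  set b₁ := pl Q y (rr P u₁) with hb₁d
  set a₂ := pl Q x (rr P u₂) with ha₂d
  set b₂ := pl Q y (rr P u₂) with hb₂d
  have e₁ : a₁ • y - b₁ • x = c₁ • rr P t₁ := h₁
  have e₂ : a₂ • y - b₂ • x = c₂ • rr P t₂ := h₂
  obtain ⟨D, hDd⟩ : ∃ D, D = a₁ * b₂ - b₁ * a₂ := ⟨_, rfl⟩
  rw [← hDd] at hD
  refine ⟨t₁, t₂, a₂ * c₁ / D, - (a₁ * c₂) / D, b₂ * c₁ / D, - (b₁ * c₂) / D, ?_, ?_⟩
  · ext i
    have h3 := congrFun e₁ i
    have h4 := congrFun e₂ i
    simp only [Pi.sub_apply, Pi.smul_apply, smul_eq_mul] at h3 h4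
    simp only [Pi.add_apply, Pi.smul_apply, smul_eq_mul]
    have e5 : D * x i = a₂ * c₁ * rr P t₁ i - a₁ * c₂ * rr P t₂ i := by
      rw [hDd]
      linear_combination a₂ * h3 - a₁ * h4
    field_simp
    linear_combination e5
  · ext i
    have h3 := congrFun e₁ i
    have h4 := congrFun e₂ i
    simp only [Pi.sub_apply, Pi.smul_apply, smul_eq_mul] at h3 h4
    simp only [Pi.add_apply, Pi.smul_apply, smul_eq_mul]
    have e5 : D * y i = b₂ * c₁ * rr P t₁ i - b₁ * c₂ * rr P t₂ i := by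
      rw [hDd]
      linear_combination b₂ * h3 - b₁ * h4
    field_simp
    linear_combination e5

end main

end Cfsg.Agent.H27.OS
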