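import Mathlib
import Cfsg.Prelude.Def_GeometricClasses
import Cfsg.Agent.Lib.H27.GeoOS3

/-!
# Rational structures for quadratic forms: elements of the subfield group; a good triple
-/

set_option autoImplicit false
set_option linter.unusedSectionVars false
set_option linter.unusedSimpArgs false
set_option linter.unusedVariables false

namespace Cfsg.Agent.H27.OS

open scoped Matrix MatrixGroups
open Cfsg Cfsg.Geo
open Cfsg.Agent.H27.RS (rr rr_add rr_sub rr_neg rr_smul rr_zero rr_inj rr_ne_zero mem_of_rat RatPt co ratio_of_points)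
open Cfsg.Agent.H27.GO

variable {ι : Type} [Fintype ι] [DecidableEq ι] {F : Type*} [Field F] {Q : (ι → F) → F} {F₀ : Subfield F} {P : GL ι F}

omit [DecidableEq ι] in
theorem no_three {x₁ x₂ x₃ s₁ s₂ : ι → F} (h1 : x₁ ∈ Submodule.span F {s₁, s₂}) (h2 : x₂ ∈ Submodule.span F {s₁, s₂})
    (h3 : x₃ ∈ Submodule.span F {s₁, s₂})
    (hind : ∀ l₁ l₂ l₃ : F, l₁ • x₁ + l₂ • x₂ + l₃ • x₃ = 0 → l₁ = 0 ∧ l₂ = 0 ∧ l₃ = 0) : False := by
  classical
  have li : LinearIndependent F ![x₁, x₂, x₃] := by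
    rw [Fintype.linearIndependent_iff]
    intro g hg i
    simp only [Fin.sum_univ_three, Matrix.cons_val_zero, Matrix.cons_val_one, Matrix.cons_val] at hg
    obtain ⟨a, b, c⟩ := hind _ _ _ hg
    fin_cases i
    · exact a
    · exact b
    · exact c
  have e := finrank_span_eq_card li
  have h4 : Submodule.span F (Set.range ![x₁, x₂, x₃]) ≤ Submodule.span F {s₁, s₂} := by
    rw [Submodule.span_le]
    rintro _ ⟨i, rfl⟩
    fin_cases i
    · exact h1
    · exact h2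
    · exact h3
  have h5 := Submodule.finrank_mono h4
  have h6 : Module.finrank F (Submodule.span F {s₁, s₂}) ≤ 2 := by
    have h := finrank_span_finset_le_card (R := F) ({s₁, s₂} : Finset (ι → F))
    have h2 : (({s₁, s₂} : Finset (ι → F)) : Set (ι → F)) = {s₁, s₂} := by simp
    rw [h2] at h
    exact h.trans Finset.card_le_two
  rw [e] at h5
  simp at h5
  omega

lemma rr_span {v v₁ v₂ : ι → F₀} (h : v ∈ Submodule.span F₀ {v₁, v₂}) : rr P v ∈ Submodule.span F {rr P v₁, rr P v₂} := by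
  obtain ⟨a, b, rfl⟩ := Submodule.mem_span_pair.1 h
  rw [rr_add, rr_smul, rr_smul]
  exact Submodule.mem_span_pair.2 ⟨a, b, rfl⟩

section main

variable (hQ : IsNondegenerateQuadraticForm Q) (hP : RatQ Q F₀ P)
include hQ hP

theorem mem_of_lines [Fintype F₀] (hd : 11 ≤ Fintype.card ι) {g : GL ι F} (hg : g ∈ isometryGroup F Q)
    (h : ∀ a d : ι → F₀, Q0 hP a = 0 → Q0 hP d = 0 → pl (Q0 hP) a d = 0 → a ∉ Submodule.span F₀ {d} →
      d ∉ Submodule.span F₀ {a} → ∃ (v₁ v₂ : ι → F₀) (p q p' q' : F),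
        (g : Matrix ι ι F) *ᵥ rr P a = p • rr P v₁ + q • rr P v₂ ∧ (g : Matrix ι ι F) *ᵥ rr P d = p' • rr P v₁ + q' • rr P v₂) :
    g ∈ subfieldSubgroup F₀ P := by
  have hQ₀ := Q0_nondeg hQ hP
  have hinj : ∀ {x : ι → F}, x ≠ 0 → (g : Matrix ι ι F) *ᵥ x ≠ 0 := by
    intro x hx h0
    apply hx
    have := congrArg (fun w => ((g⁻¹ : GL ι F) : Matrix ι ι F) *ᵥ w) h0
    simpa [Matrix.mulVec_mulVec] using this
  have hpt : ∀ a : ι → F₀, a ≠ 0 → Q0 hP a = 0 → ∃ (c : F) (t : ι → F₀), (g : Matrix ι ι F) *ᵥ rr P a = c • rr P t := by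
    intro a ha0 hQa
    have haB : a ∉ (⊥ : Submodule F₀ (ι → F₀)) := by
      rwa [Submodule.mem_bot]
    obtain ⟨a', hQa', ha'a, -⟩ := partner_top hQ₀ hQa haB (fun s hs => by
      rw [(Submodule.mem_bot _).1 hs, pl_zero_right hQ₀])
    have hS2 := finrank_span_two (F := F₀) a a'
    obtain ⟨p, p', hQp, hQp', hpp', hpS, hp'S⟩ := hyp_top hQ₀ (Submodule.span F₀ {a, a'}) (by omega)
    have hS4 := finrank_span_four (K := F₀) a a' p p'
    obtain ⟨q, q', hQq, hQq', hqq', hqS, hq'S⟩ := hyp_top hQ₀ (Submodule.span F₀ {a, a', p, p'}) (by omega)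
    have m1 : a ∈ Submodule.span F₀ {a, a', p, p'} := Submodule.subset_span (by simp)
    have m2 : a' ∈ Submodule.span F₀ {a, a', p, p'} := Submodule.subset_span (by simp)
    have m3 : p ∈ Submodule.span F₀ {a, a', p, p'} := Submodule.subset_span (by simp)
    have m4 : p' ∈ Submodule.span F₀ {a, a', p, p'} := Submodule.subset_span (by simp)
    have hpa := hpS a (mem_span_two_l a a')
    have hpa' := hpS a' (mem_span_two_r a a')
    have hp'a := hp'S a (mem_span_two_l a a')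
    have hp'a' := hp'S a' (mem_span_two_r a a')
    have hqa := hqS a m1
    have hqa' := hqS a' m2
    have hqp := hqS p m3
    have hqp' := hqS p' m4
    have hq'a := hq'S a m1
    have hq'a' := hq'S a' m2
    have hq'p := hq'S p m3
    have hq'p' := hq'S p' m4
    have i1 : a ∉ Submodule.span F₀ {p} := fun hm => by
      obtain ⟨κ, hκ⟩ := Submodule.mem_span_singleton.1 hm
      rw [← hκ, pl_smul_right hQ₀, pl_symm, hpa'] at ha'a
      simp at ha'a
    have i2 : p ∉ Submodule.span F₀ {a} := fun hm => by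
      obtain ⟨κ, hκ⟩ := Submodule.mem_span_singleton.1 hm
      rw [← hκ, pl_smul_left hQ₀, pl_symm, hp'a] at hpp'
      simp at hpp'
    have i3 : a ∉ Submodule.span F₀ {q} := fun hm => by
      obtain ⟨κ, hκ⟩ := Submodule.mem_span_singleton.1 hm
      rw [← hκ, pl_smul_right hQ₀, pl_symm, hqa'] at ha'a
      simp at ha'a
    have i4 : q ∉ Submodule.span F₀ {a} := fun hm => by
      obtain ⟨κ, hκ⟩ := Submodule.mem_span_singleton.1 hm
      rw [← hκ, pl_smul_left hQ₀, pl_symm, hq'a] at hqq'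
      simp at hqq'
    obtain ⟨v₁, v₂, P₁, Q₁, P₁', Q₁', e₁, e₂⟩ := h a p hQa hQp (by rw [pl_symm, hpa]) i1 i2
    obtain ⟨v₃, v₄, P₂, Q₂, P₂', Q₂', e₃, e₄⟩ := h a q hQa hQq (by rw [pl_symm, hqa]) i3 i4
    by_cases h3 : v₃ ∉ Submodule.span F₀ {v₁, v₂}
    · obtain ⟨c, t, hct⟩ := pt_of_two hQ hP (e₁.symm.trans e₃) h3
      exact ⟨c, t, e₃.trans hct⟩
    by_cases h4 : v₄ ∉ Submodule.span F₀ {v₁, v₂}
    · have e₃' : (g : Matrix ι ι F) *ᵥ rr P a = Q₂ • rr P v₄ + P₂ • rr P v₃ := by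
        rw [e₃, add_comm]
      obtain ⟨c, t, hct⟩ := pt_of_two hQ hP (e₁.symm.trans e₃') h4
      exact ⟨c, t, e₃'.trans hct⟩
    exfalso
    push Not at h3 h4
    have m5 := rr_span (P := P) h3
    have m6 := rr_span (P := P) h4
    refine no_three (x₁ := (g : Matrix ι ι F) *ᵥ rr P a) (x₂ := (g : Matrix ι ι F) *ᵥ rr P p)
      (x₃ := (g : Matrix ι ι F) *ᵥ rr P q) (s₁ := rr P v₁) (s₂ := rr P v₂) ?_ ?_ ?_ ?_
    · rw [e₁]
      exact Submodule.mem_span_pair.2 ⟨_, _, rfl⟩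
    · rw [e₂]
      exact Submodule.mem_span_pair.2 ⟨_, _, rfl⟩
    · rw [e₄]
      exact Submodule.add_mem _ (Submodule.smul_mem _ _ m5) (Submodule.smul_mem _ _ m6)
    · intro l₁ l₂ l₃ hl
      have key : ∀ r : ι → F₀, l₁ * ((pl (Q0 hP) r a : F₀) : F) + l₂ * ((pl (Q0 hP) r p : F₀) : F) + l₃ * ((pl (Q0 hP) r q : F₀) : F) = 0 := by
        intro r
        have h1 := congrArg (fun z => pl Q ((g : Matrix ι ι F) *ᵥ rr P r) z) hl
        simp only [pl_add_right hQ, pl_smul_right hQ, pl_zero_right hQ, isom_pl hg, ← pl_coe hP] at h1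
        exact h1
      have k1 := key a'
      have k2 := key p'
      have k3 := key q'
      rw [ha'a, pl_symm a' p, hpa', pl_symm a' q, hqa'] at k1
      rw [hp'a, pl_symm p' p, hpp', pl_symm p' q, hqp'] at k2
      rw [hq'a, hq'p, pl_symm q' q, hqq'] at k3
      simp only [Subfield.coe_zero, Subfield.coe_one, mul_zero, add_zero, zero_add, mul_one] at k1 k2 k3
      exact ⟨k1, k2, k3⟩
  -- scaling
  obtain ⟨a₀, a₀', hQa₀, -, ha₀a₀', -, -⟩ := hyp_top hQ₀ (⊥ : Submodule F₀ (ι → F₀)) (by simp; omega)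
  have ha₀0 : a₀ ≠ 0 := by
    rintro rfl
    rw [pl_zero_left hQ₀] at ha₀a₀'
    exact zero_ne_one ha₀a₀'
  obtain ⟨c₀, e₀, he₀⟩ := hpt a₀ ha₀0 hQa₀
  have hc₀ : c₀ ≠ 0 := by
    rintro rfl
    rw [zero_smul] at he₀
    exact hinj (rr_ne_zero ha₀0) he₀
  have hstep : ∀ a s : ι → F₀, Q0 hP a = 0 → Q0 hP s = 0 → pl (Q0 hP) a s = 0 → s ≠ 0 → a ∉ Submodule.span F₀ {s} →
      (∃ e : ι → F₀, (g : Matrix ι ι F) *ᵥ rr P s = c₀ • rr P e) → ∃ e : ι → F₀, (g : Matrix ι ι F) *ᵥ rr P a = c₀ • rr P e := by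
    intro a s hQa hQs has hs0 has' ⟨e, he⟩
    have ha0 : a ≠ 0 := by
      rintro rfl
      exact has' (Submodule.zero_mem _)
    obtain ⟨c, u, hu⟩ := hpt a ha0 hQa
    have hne : a + s ≠ 0 := by
      intro h0
      apply has'
      rw [Submodule.mem_span_singleton]
      refine ⟨-1, ?_⟩
      rw [neg_smul, one_smul]
      exact (eq_neg_of_add_eq_zero_left h0).symm
    obtain ⟨c', u', hu'⟩ := hpt (a + s) hne (by rw [Q_add (Q0 hP), hQa, hQs, has]; ring)
    have hr := (ratio_of_points hs0 has' he hu hu').1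
    refine ⟨(⟨c / c₀, hr⟩ : F₀) • u, ?_⟩
    rw [hu, rr_smul, smul_smul]
    congr 1
    change c = c₀ * (c / c₀)
    field_simp
  have hall : ∀ a : ι → F₀, Q0 hP a = 0 → ∃ e : ι → F₀, (g : Matrix ι ι F) *ᵥ rr P a = c₀ • rr P e := by
    intro a hQa
    by_cases h1 : a ∈ Submodule.span F₀ {a₀}
    · obtain ⟨κ, rfl⟩ := Submodule.mem_span_singleton.1 h1
      refine ⟨κ • e₀, ?_⟩
      rw [rr_smul, rr_smul, Matrix.mulVec_smul, he₀, smul_smul, smul_smul, mul_comm]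
    by_cases h2 : pl (Q0 hP) a a₀ = 0
    · exact hstep a a₀ hQa hQa₀ h2 ha₀0 h1 ⟨e₀, he₀⟩
    have hS2 := finrank_span_two (F := F₀) a a₀
    obtain ⟨s, s', hQs, hQs', hss', hsS, hs'S⟩ := hyp_top hQ₀ (Submodule.span F₀ {a, a₀}) (by omega)
    have hsa := hsS a (mem_span_two_l a a₀)
    have hsa₀ := hsS a₀ (mem_span_two_r a a₀)
    have hs'a₀ := hs'S a₀ (mem_span_two_r a a₀)
    have hs0 : s ≠ 0 := by
      rintro rfl
      rw [pl_zero_left hQ₀] at hss'
      exact zero_ne_one hss'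
    have i1 : s ∉ Submodule.span F₀ {a₀} := fun hm => by
      obtain ⟨κ, hκ⟩ := Submodule.mem_span_singleton.1 hm
      rw [← hκ, pl_smul_left hQ₀, pl_symm, hs'a₀] at hss'
      simp at hss'
    have i2 : a ∉ Submodule.span F₀ {s} := fun hm => by
      obtain ⟨κ, hκ⟩ := Submodule.mem_span_singleton.1 hm
      apply h2
      rw [← hκ, pl_smul_left hQ₀, hsa₀, mul_zero]
    exact hstep a s hQa hQs (by rw [pl_symm, hsa]) hs0 i2 (hstep s a₀ hQs hQa₀ hsa₀ ha₀0 i1 ⟨e₀, he₀⟩)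
  refine mem_of_rat hc₀ fun r => ?_
  by_cases hQr : Q0 hP r = 0
  · exact hall r hQr
  have hr0 : r ∉ (⊥ : Submodule F₀ (ι → F₀)) := by
    rw [Submodule.mem_bot]
    rintro rfl
    apply hQr
    exact Q_zero hQ₀
  obtain ⟨x₀, -, hx₀r⟩ := sep_top hQ₀ hr0 1
  have hS1 := finrank_span_one (F := F₀) r
  obtain ⟨d, hQd, hdS⟩ := sing_top hQ₀ (S := Submodule.span F₀ {r}) (by omega) x₀
  have hdr : pl (Q0 hP) d r = 1 := by
    rw [hdS r (Submodule.mem_span_singleton_self r), hx₀r]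
  obtain ⟨e₁, he₁⟩ := hall d hQd
  obtain ⟨e₂, he₂⟩ := hall (r - Q0 hP r • d) (by
    rw [Q_smul_sub hQ₀, hQd, pl_symm, hdr]
    ring)
  refine ⟨e₂ + Q0 hP r • e₁, ?_⟩
  have e3 : rr P r = rr P (r - Q0 hP r • d) + ((Q0 hP r : F₀) : F) • rr P d := by
    rw [rr_sub, rr_smul]
    abel
  rw [e3, Matrix.mulVec_add, Matrix.mulVec_smul, he₁, he₂, rr_add, rr_smul]
  ext i
  simp only [Pi.add_apply, Pi.smul_apply, smul_eq_mul]
  ring

/-- A non-rational isometry sends a rational totally singular line to a line that is not rational at some point. -/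
theorem exists_nr [Fintype F₀] (hd : 11 ≤ Fintype.card ι) {g : GL ι F} (hg : g ∈ isometryGroup F Q)
    (hn : g ∉ subfieldSubgroup F₀ P) :
    ∃ a d : ι → F₀, Q0 hP a = 0 ∧ Q0 hP d = 0 ∧ pl (Q0 hP) a d = 0 ∧ ∃ u : ι → F₀, u ≠ 0 ∧ Q0 hP u = 0 ∧
      NR P (zz Q ((g : Matrix ι ι F) *ᵥ rr P a) ((g : Matrix ι ι F) *ᵥ rr P d) (rr P u)) u := by
  by_contra hcon
  push Not at hcon
  apply hn
  apply mem_of_lines hQ hP hd hg
  intro a d hQa hQd had h1 h2
  have hQg : ∀ r : ι → F₀, Q0 hP r = 0 → Q ((g : Matrix ι ι F) *ᵥ rr P r) = 0 := by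
    intro r hr
    rw [(mem_isom_iff.1 hg), ← Q0_coe hP, hr]
    rfl
  refine line_rat hQ hP (by omega) (hQg a hQa) (hQg d hQd) ?_ ?_ ?_
  · rw [isom_pl hg, ← pl_coe hP, had]
    rfl
  · intro α β hαβ
    apply ind_of_rat hQ hP h1 h2
    have := congrArg (fun w => ((g⁻¹ : GL ι F) : Matrix ι ι F) *ᵥ w) hαβ
    simpa [Matrix.mulVec_add, Matrix.mulVec_smul, Matrix.mulVec_mulVec] using this
  · intro u hu0 hQu
    exact hcon a d hQa hQd had u hu0 hQu

/-- Given a singular vector, non-rational modulo the rational singular vector `u₁`, a rational totally singular triple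
detects this. -/
theorem ts_rel [Fintype F₀] (hd : 9 ≤ Fintype.card ι) {z : ι → F} (hQz : Q z = 0) {u₁ : ι → F₀} (hu₁0 : u₁ ≠ 0)
    (hQu₁ : Q0 hP u₁ = 0) (hz : pl Q z (rr P u₁) = 0) (hNR : NR P z u₁) :
    ∃ u₂ u₃ : ι → F₀, Q0 hP u₂ = 0 ∧ Q0 hP u₃ = 0 ∧ pl (Q0 hP) u₂ u₁ = 0 ∧ pl (Q0 hP) u₃ u₁ = 0 ∧ pl (Q0 hP) u₃ u₂ = 0 ∧
      pl Q z (rr P u₂) ≠ 0 ∧ pl Q z (rr P u₃) / pl Q z (rr P u₂) ∉ F₀ := by
  have hQ₀ := Q0_nondeg hQ hP
  have hu₁B : u₁ ∉ (⊥ : Submodule F₀ (ι → F₀)) := by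
    rwa [Submodule.mem_bot]
  obtain ⟨a₁, -, ha₁u₁, -⟩ := partner_top hQ₀ hQu₁ hu₁B (fun s hs => by
    rw [(Submodule.mem_bot _).1 hs, pl_zero_right hQ₀])
  have hS2 := finrank_span_two (F := F₀) u₁ a₁
  obtain ⟨p, p', hQp, hQp', hpp', hpS, hp'S⟩ := hyp_top hQ₀ (Submodule.span F₀ {u₁, a₁}) (by omega)
  have hpu₁ := hpS u₁ (mem_span_two_l u₁ a₁)
  have hpa₁ := hpS a₁ (mem_span_two_r u₁ a₁)
  have hp'u₁ := hp'S u₁ (mem_span_two_l u₁ a₁)
  have i1 : u₁ ∉ Submodule.span F₀ {p} := fun hm => by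
    obtain ⟨κ, hκ⟩ := Submodule.mem_span_singleton.1 hm
    rw [← hκ, pl_smul_right hQ₀, pl_symm, hpa₁] at ha₁u₁
    simp at ha₁u₁
  have i2 : p ∉ Submodule.span F₀ {u₁} := fun hm => by
    obtain ⟨κ, hκ⟩ := Submodule.mem_span_singleton.1 hm
    rw [← hκ, pl_smul_left hQ₀, pl_symm, hp'u₁] at hpp'
    simp at hpp'
  obtain ⟨u₂, hQu₂, hu₂u₁, hu₂p, hu₂S, hc⟩ := sing_sep2 hQ hP hd hQu₁ hQp (by rw [pl_symm]; exact hpu₁) i1 i2 (w := z) (by
    rintro ⟨α, β, h⟩
    exact hNR ⟨β, α, p, by rw [h, add_comm]⟩)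
  have i3 : u₂ ∉ Submodule.span F₀ {u₁} := fun hm => hu₂S (by
    obtain ⟨κ, hκ⟩ := Submodule.mem_span_singleton.1 hm
    rw [← hκ]
    exact Submodule.smul_mem _ _ (mem_span_two_l u₁ p))
  have i4 : u₁ ∉ Submodule.span F₀ {u₂} := fun hm => by
    obtain ⟨κ, hκ⟩ := Submodule.mem_span_singleton.1 hm
    have hκ0 : κ ≠ 0 := by
      rintro rfl
      rw [zero_smul] at hκ
      exact hu₁0 hκ.symm
    apply i3
    rw [Submodule.mem_span_singleton]
    exact ⟨κ⁻¹, by rw [← hκ, smul_smul, inv_mul_cancel₀ hκ0, one_smul]⟩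
  have hu₁₂ : pl (Q0 hP) u₁ u₂ = 0 := by rw [pl_symm]; exact hu₂u₁
  obtain ⟨c, hcd⟩ : ∃ c, c = pl Q z (rr P u₂) := ⟨_, rfl⟩
  rw [← hcd] at hc
  -- main claim
  have key : ∃ t : ι → F₀, Q0 hP t = 0 ∧ pl (Q0 hP) t u₁ = 0 ∧ pl (Q0 hP) t u₂ = 0 ∧
      pl Q z (rr P t) ∉ Submodule.span F₀ {c} := by
    by_contra hcon
    push Not at hcon
    have hspan := sing_span hQ hP hd hQu₁ hQu₂ hu₁₂ (w := z) (Submodule.span F₀ {c}) (fun t h1 h2 h3 _ => hcon t h1 h2 h3)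
    have hval : ∀ r : ι → F₀, pl (Q0 hP) r u₁ = 0 → pl (Q0 hP) r u₂ = 0 → pl Q z (rr P r) / c ∈ F₀ := by
      intro r h1 h2
      obtain ⟨κ, hκ⟩ := Submodule.mem_span_singleton.1 (hspan r h1 h2)
      rw [← hκ, Subfield.smul_def, smul_eq_mul, mul_div_assoc, div_self hc, mul_one]
      exact κ.2
    obtain ⟨e₁, he₁, he₁u⟩ := sep_top hQ₀ i4 1
    obtain ⟨e₂, he₂, he₂u⟩ := sep_top hQ₀ i3 1
    have he₁u₂ := he₁ u₂ (Submodule.mem_span_singleton_self u₂)
    have he₂u₁ := he₂ u₁ (Submodule.mem_span_singleton_self u₁)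
    let π : (ι → F₀) → (ι → F₀) := fun r => r - pl (Q0 hP) r u₁ • e₁ - pl (Q0 hP) r u₂ • e₂
    have hπ1 : ∀ r, pl (Q0 hP) (π r) u₁ = 0 := by
      intro r
      simp only [π]
      rw [pl_sub_left hQ₀, pl_sub_left hQ₀, pl_smul_left hQ₀, pl_smul_left hQ₀, he₁u, he₂u₁]
      ring
    have hπ2 : ∀ r, pl (Q0 hP) (π r) u₂ = 0 := by
      intro r
      simp only [π]
      rw [pl_sub_left hQ₀, pl_sub_left hQ₀, pl_smul_left hQ₀, pl_smul_left hQ₀, he₂u, he₁u₂]
      ring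
    have hπadd : ∀ r s, π (r + s) = π r + π s := by
      intro r s
      simp only [π, pl_add_left hQ₀]
      ext i
      simp only [Pi.add_apply, Pi.sub_apply, Pi.smul_apply, smul_eq_mul]
      ring
    have hπsmul : ∀ (κ : F₀) r, π (κ • r) = κ • π r := by
      intro κ r
      simp only [π, pl_smul_left hQ₀]
      ext i
      simp only [Pi.sub_apply, Pi.smul_apply, smul_eq_mul]
      ring
    have hπid : ∀ r, pl (Q0 hP) r u₁ = 0 → pl (Q0 hP) r u₂ = 0 → π r = r := by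
      intro r h1 h2
      simp only [π, h1, h2, zero_smul, sub_zero]
    let f : (ι → F₀) →ₗ[F₀] F₀ :=
      { toFun := fun r => ⟨pl Q z (rr P (π r)) / c, hval _ (hπ1 r) (hπ2 r)⟩
        map_add' := fun r s => by
          apply Subtype.ext
          simp only [hπadd, rr_add, pl_add_right hQ, Subfield.coe_add, add_div]
        map_smul' := fun κ r => by
          apply Subtype.ext
          simp only [hπsmul, rr_smul, pl_smul_right hQ, RingHom.id_apply, Subfield.coe_mul, smul_eq_mul, mul_div_assoc] }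
    obtain ⟨v, -, hv⟩ := exists_rep hQ₀ (ndg_top hQ₀) (f.comp (⊤ : Submodule F₀ (ι → F₀)).subtype)
    have hv' : ∀ r : ι → F₀, pl (Q0 hP) r u₁ = 0 → pl (Q0 hP) r u₂ = 0 → pl Q (rr P v) (rr P r) = pl Q z (rr P r) / c := by
      intro r h1 h2
      have := hv ⟨r, trivial⟩
      have e3 := congrArg (fun w : F₀ => (w : F)) this
      simp only [pl_coe hP] at e3
      rw [e3]
      change pl Q z (rr P (π r)) / c = _
      rw [hπid r h1 h2]
    obtain ⟨α, β, hαβ⟩ := perp2_mem hQ hP i4 i3 (w := z - c • rr P v) (fun r h1 h2 => by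
      rw [pl_sub_left hQ, pl_smul_left hQ, hv' r h1 h2]
      field_simp
      ring)
    have hz' : z = c • rr P v + (α • rr P u₁ + β • rr P u₂) := by
      rw [← hαβ]
      abel
    have e₁₁ : pl Q (rr P u₁) (rr P u₁) = 0 := by
      rw [← pl_coe hP, pl_self hQ₀, hQu₁]
      simp
    have e₁₂ : pl Q (rr P u₁) (rr P u₂) = 0 := by
      rw [← pl_coe hP, hu₁₂]
      rfl
    have e₂₁ : pl Q (rr P u₂) (rr P u₁) = 0 := by
      rw [pl_symm, e₁₂]
    have e₂₂ : pl Q (rr P u₂) (rr P u₂) = 0 := by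
      rw [← pl_coe hP, pl_self hQ₀, hQu₂]
      simp
    have h1 : pl Q (rr P v) (rr P u₁) = 0 := by
      have := hz
      rw [hz', pl_add_left hQ, pl_add_left hQ, pl_smul_left hQ, pl_smul_left hQ, pl_smul_left hQ, e₁₁, e₂₁] at this
      simp only [mul_zero, add_zero] at this
      exact (mul_eq_zero.1 this).resolve_left hc
    have h2 : pl Q (rr P v) (rr P u₂) = 1 := by
      have h3 := hcd
      rw [hz', pl_add_left hQ, pl_add_left hQ, pl_smul_left hQ, pl_smul_left hQ, pl_smul_left hQ, e₁₂, e₂₂] at h3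
      simp only [mul_zero, add_zero] at h3
      have h4 : c * (pl Q (rr P v) (rr P u₂) - 1) = 0 := by
        linear_combination -h3
      have h5 := (mul_eq_zero.1 h4).resolve_left hc
      linear_combination h5
    have hQu₁' : Q (rr P u₁) = 0 := by
      rw [← Q0_coe hP, hQu₁]
      rfl
    have hQu₂' : Q (rr P u₂) = 0 := by
      rw [← Q0_coe hP, hQu₂]
      rfl
    have h3 : Q z = c ^ 2 * Q (rr P v) + c * β := by
      rw [hz', Q_add Q, Q_add Q, hQ.smul, hQ.smul, hQ.smul, hQu₁', hQu₂', pl_smul_left hQ, pl_smul_right hQ, e₁₂,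
        pl_smul_left hQ, pl_add_right hQ, pl_smul_right hQ, pl_smul_right hQ, h1, h2]
      ring
    rw [hQz] at h3
    have h4 : β = - (c * Q (rr P v)) := by
      have h5 : c * (β + c * Q (rr P v)) = 0 := by
        linear_combination -h3
      have h6 := (mul_eq_zero.1 h5).resolve_left hc
      linear_combination h6
    apply hNR
    refine ⟨c, α, v - Q0 hP v • u₂, ?_⟩
    rw [rr_sub, rr_smul, hz', h4, Q0_coe hP]
    ext i
    simp only [Pi.add_apply, Pi.sub_apply, Pi.smul_apply, smul_eq_mul]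
    ring
  obtain ⟨t, hQt, htu₁, htu₂, htA⟩ := key
  refine ⟨u₂, t, hQu₂, hQt, hu₂u₁, htu₁, htu₂, by rw [← hcd]; exact hc, ?_⟩
  rw [← hcd]
  intro hm
  apply htA
  rw [Submodule.mem_span_singleton]
  refine ⟨⟨_, hm⟩, ?_⟩
  rw [Subfield.smul_def, smul_eq_mul]
  change pl Q z (rr P t) / c * c = _
  field_simp

end main

end Cfsg.Agent.H27.OS
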