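import Mathlib
import Cfsg.Prelude.Def_GeometricClasses
import Cfsg.Agent.Lib.H27.GeoRS
import Cfsg.Agent.Lib.H27.GeoOrth
import Cfsg.Agent.Lib.H27.GeoDC4

/-!
# Plane subgroups of `SL₂` attached to a subgroup of `GL`, modulo a vector
-/

set_option autoImplicit false
set_option linter.unusedSectionVars false
set_option linter.unusedSimpArgs false
set_option linter.unusedVariables false
set_option linter.style.haveILetI false

namespace Cfsg.Agent.H27.TC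

open scoped Matrix MatrixGroups
open Cfsg Cfsg.Geo
open Cfsg.Agent.H14 (e00 e01 e10 e11 sl_det sl_ext e00_mul e01_mul e10_mul e11_mul e00_inv e01_inv
  e10_inv e11_inv e00_one e01_one e10_one e11_one)
open Cfsg.Agent.Lead.DicksonSL (xE yE e00_xE e01_xE e10_xE e11_xE e00_yE e01_yE e10_yE e11_yE)

variable {ι : Type} [Fintype ι] [DecidableEq ι] {F : Type*} [Field F]

lemma inv_act (g : GL ι F) (y : ι → F) : ((g⁻¹ : GL ι F) : Matrix ι ι F) *ᵥ ((g : Matrix ι ι F) *ᵥ y) = y := by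
  rw [Matrix.mulVec_mulVec, ← Units.val_mul, inv_mul_cancel, Units.val_one, Matrix.one_mulVec]

lemma act_inv (g : GL ι F) (y : ι → F) : (g : Matrix ι ι F) *ᵥ (((g⁻¹ : GL ι F) : Matrix ι ι F) *ᵥ y) = y := by
  rw [Matrix.mulVec_mulVec, ← Units.val_mul, mul_inv_cancel, Units.val_one, Matrix.one_mulVec]

/-- The image of the elements of `M` acting on a plane modulo a fixed vector, as a subgroup of `SL₂`. -/
def planeR (M : Subgroup (GL ι F)) (w₁ w₂ r₀ : ι → F) : Subgroup SL(2, F) where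
  carrier := {s | ∃ y ∈ M, (∀ v, ∃ α β γ : F, (y : Matrix ι ι F) *ᵥ v = v + α • w₁ + β • w₂ + γ • r₀) ∧
    (y : Matrix ι ι F) *ᵥ r₀ = r₀ ∧
    (∃ γ : F, (y : Matrix ι ι F) *ᵥ w₁ = e00 s • w₁ + e10 s • w₂ + γ • r₀) ∧
    (∃ γ : F, (y : Matrix ι ι F) *ᵥ w₂ = e01 s • w₁ + e11 s • w₂ + γ • r₀)}
  mul_mem' := by
    rintro s s' ⟨y, hy, h1, h0, ⟨c2, h2⟩, ⟨c3, h3⟩⟩ ⟨y', hy', h1', h0', ⟨c2', h2'⟩, ⟨c3', h3'⟩⟩
    refine ⟨y * y', M.mul_mem hy hy', fun v => ?_, ?_, ⟨?_, ?_⟩, ⟨?_, ?_⟩⟩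
    · obtain ⟨α', β', γ', e'⟩ := h1' v
      obtain ⟨α, β, γ, e⟩ := h1 v
      refine ⟨α + α' * e00 s + β' * e01 s, β + α' * e10 s + β' * e11 s, γ + α' * c2 + β' * c3 + γ', ?_⟩
      rw [Units.val_mul, ← Matrix.mulVec_mulVec, e', Matrix.mulVec_add, Matrix.mulVec_add, Matrix.mulVec_add, Matrix.mulVec_smul, Matrix.mulVec_smul,
        Matrix.mulVec_smul, e, h2, h3, h0]
      ext i
      simp only [Pi.add_apply, Pi.smul_apply, smul_eq_mul]
      ring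
    · rw [Units.val_mul, ← Matrix.mulVec_mulVec, h0', h0]
    · exact e00 s' * c2 + e10 s' * c3 + c2'
    · rw [Units.val_mul, ← Matrix.mulVec_mulVec, h2', Matrix.mulVec_add, Matrix.mulVec_add, Matrix.mulVec_smul, Matrix.mulVec_smul, Matrix.mulVec_smul, h2, h3, h0,
        e00_mul, e10_mul]
      ext i
      simp only [Pi.add_apply, Pi.smul_apply, smul_eq_mul]
      ring
    · exact e01 s' * c2 + e11 s' * c3 + c3'
    · rw [Units.val_mul, ← Matrix.mulVec_mulVec, h3', Matrix.mulVec_add, Matrix.mulVec_add, Matrix.mulVec_smul, Matrix.mulVec_smul, Matrix.mulVec_smul, h2, h3, h0,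
        e01_mul, e11_mul]
      ext i
      simp only [Pi.add_apply, Pi.smul_apply, smul_eq_mul]
      ring
  one_mem' := by
    refine ⟨1, M.one_mem, fun v => ⟨0, 0, 0, by simp⟩, by simp, ⟨0, ?_⟩, ⟨0, ?_⟩⟩ <;> simp [e00_one, e01_one, e10_one, e11_one]
  inv_mem' := by
    rintro s ⟨y, hy, h1, h0, ⟨c2, h2⟩, ⟨c3, h3⟩⟩
    have hd := sl_det s
    have hr : ((y⁻¹ : GL ι F) : Matrix ι ι F) *ᵥ r₀ = r₀ := by
      have h5 := inv_act y r₀
      rwa [h0] at h5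
    have e1 : ((y⁻¹ : GL ι F) : Matrix ι ι F) *ᵥ w₁ = e11 s • w₁ + (- e10 s) • w₂ + (-(e11 s * c2 - e10 s * c3)) • r₀ := by
      have h4 : (y : Matrix ι ι F) *ᵥ (e11 s • w₁ + (- e10 s) • w₂ + (-(e11 s * c2 - e10 s * c3)) • r₀) = w₁ := by
        rw [Matrix.mulVec_add, Matrix.mulVec_add, Matrix.mulVec_smul, Matrix.mulVec_smul, Matrix.mulVec_smul, h2, h3, h0]
        ext i
        simp only [Pi.add_apply, Pi.smul_apply, smul_eq_mul]
        linear_combination (w₁ i) * hd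
      have h5 := inv_act y (e11 s • w₁ + (- e10 s) • w₂ + (-(e11 s * c2 - e10 s * c3)) • r₀)
      rwa [h4] at h5
    have e2 : ((y⁻¹ : GL ι F) : Matrix ι ι F) *ᵥ w₂ = (- e01 s) • w₁ + e00 s • w₂ + (-(-e01 s * c2 + e00 s * c3)) • r₀ := by
      have h4 : (y : Matrix ι ι F) *ᵥ ((- e01 s) • w₁ + e00 s • w₂ + (-(-e01 s * c2 + e00 s * c3)) • r₀) = w₂ := by
        rw [Matrix.mulVec_add, Matrix.mulVec_add, Matrix.mulVec_smul, Matrix.mulVec_smul, Matrix.mulVec_smul, h2, h3, h0]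
        ext i
        simp only [Pi.add_apply, Pi.smul_apply, smul_eq_mul]
        linear_combination (w₂ i) * hd
      have h5 := inv_act y ((- e01 s) • w₁ + e00 s • w₂ + (-(-e01 s * c2 + e00 s * c3)) • r₀)
      rwa [h4] at h5
    refine ⟨y⁻¹, M.inv_mem hy, fun v => ?_, hr, ⟨-(e11 s * c2 - e10 s * c3), ?_⟩, ⟨-(-e01 s * c2 + e00 s * c3), ?_⟩⟩
    · obtain ⟨α, β, γ, e⟩ := h1 (((y⁻¹ : GL ι F) : Matrix ι ι F) *ᵥ v)
      rw [act_inv] at e
      refine ⟨-α, -β, -γ, ?_⟩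
      rw [neg_smul, neg_smul, neg_smul]
      conv_rhs => rw [e]
      abel
    · rw [e1, e00_inv, e10_inv]
    · rw [e2, e01_inv, e11_inv]

/-- Lifts of the Weyl elements. -/
theorem exists_weyl [Fintype F] {F₀ : Subfield F} {r : ℕ} (hr : r.Prime) (hcard : Fintype.card F = Nat.card F₀ ^ r) {G : Subgroup SL(2, F)}
    {a₁ a₂ : F} (ha₁ : a₁ ≠ 0) (hind : a₂ / a₁ ∉ F₀) (h1 : ∀ f ∈ F₀, xE (f * a₁) ∈ G) (h2 : ∀ f ∈ F₀, xE (f * a₂) ∈ G)
    {b : F} (hb : b ≠ 0) (hyb : yE b ∈ G) {a : F} (ha : a ≠ 0) :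
    ∃ s ∈ G, e00 s = 0 ∧ e01 s = a ∧ e10 s = - a⁻¹ ∧ e11 s = 0 := by
  have hall := Cfsg.Agent.H27.DC.all_x hr hcard ha₁ hind h1 h2 hb hyb
  have h4 : 4 ≤ Nat.card {a : F // xE a ∈ G} := by
    have hc : 4 ≤ Fintype.card F := by
      rw [hcard]
      have h6 : 2 ≤ Nat.card F₀ := by
        haveI : Fintype F₀ := Fintype.ofFinite _
        rw [Nat.card_eq_fintype_card]
        exact Fintype.one_lt_card
      calc 4 = 2 ^ 2 := rfl
        _ ≤ Nat.card F₀ ^ 2 := Nat.pow_le_pow_left h6 2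
        _ ≤ Nat.card F₀ ^ r := Nat.pow_le_pow_right (by omega) hr.two_le
    have e : Nat.card {a : F // xE a ∈ G} = Fintype.card F := by
      rw [← Nat.card_eq_fintype_card]
      exact Nat.card_congr (Equiv.subtypeUnivEquiv hall)
    rw [e]
    exact hc
  have hy := (Cfsg.Agent.H27.DC.inv_F G h4 ha (hall a) hb hyb).2
  refine ⟨xE a * yE (-a⁻¹) * xE a, G.mul_mem (G.mul_mem (hall a) ?_) (hall a), ?_, ?_, ?_, ?_⟩
  · rw [← Cfsg.Agent.H27.DC.yE_inv]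
    exact G.inv_mem hy
  all_goals
    simp only [e00_mul, e01_mul, e10_mul, e11_mul, e00_xE, e01_xE, e10_xE, e11_xE, e00_yE, e01_yE, e10_yE, e11_yE]
    field_simp
    try ring

end Cfsg.Agent.H27.TC
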