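import Mathlib
import Cfsg.Prelude.Def_GeometricClasses
import Cfsg.Agent.Lib.H27.GeoOS4
import Cfsg.Agent.Lib.H27.GeoTC

/-!
# Rational structures for quadratic forms: double planes
-/

set_option autoImplicit false
set_option linter.unusedSectionVars false
set_option linter.unusedSimpArgs false
set_option linter.unusedVariables false

namespace Cfsg.Agent.H27.OS

open scoped Matrix MatrixGroups
open Cfsg Cfsg.Geo
open Cfsg.Agent.H27.GO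
open Cfsg.Agent.H14 (e00 e01 e10 e11 sl_det sl_ext e00_mul e01_mul e10_mul e11_mul e00_inv e01_inv
  e10_inv e11_inv e00_one e01_one e10_one e11_one)
open Cfsg.Agent.Lead.DicksonSL (xE yE e00_xE e01_xE e10_xE e11_xE e00_yE e01_yE e10_yE e11_yE)
open Cfsg.Agent.H27.TC (inv_act act_inv)

variable {ι : Type} [Fintype ι] [DecidableEq ι] {F : Type*} [Field F] {Q : (ι → F) → F}

/-- The matrix element `y` acts on the plane `w₁, w₂` modulo `r₀` as `s`. -/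
def Act (y : GL ι F) (w₁ w₂ r₀ : ι → F) (s : SL(2, F)) : Prop :=
  (∃ γ : F, (y : Matrix ι ι F) *ᵥ w₁ = e00 s • w₁ + e10 s • w₂ + γ • r₀) ∧
    (∃ γ : F, (y : Matrix ι ι F) *ᵥ w₂ = e01 s • w₁ + e11 s • w₂ + γ • r₀)

lemma Act.mul {y y' : GL ι F} {w₁ w₂ r₀ : ι → F} {s s' : SL(2, F)} (h : Act y w₁ w₂ r₀ s) (h' : Act y' w₁ w₂ r₀ s')
    (h0 : (y : Matrix ι ι F) *ᵥ r₀ = r₀) : Act (y * y') w₁ w₂ r₀ (s * s') := by
  obtain ⟨⟨c2, h2⟩, ⟨c3, h3⟩⟩ := h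
  obtain ⟨⟨c2', h2'⟩, ⟨c3', h3'⟩⟩ := h'
  refine ⟨⟨e00 s' * c2 + e10 s' * c3 + c2', ?_⟩, ⟨e01 s' * c2 + e11 s' * c3 + c3', ?_⟩⟩
  · rw [Units.val_mul, ← Matrix.mulVec_mulVec, h2', Matrix.mulVec_add, Matrix.mulVec_add, Matrix.mulVec_smul, Matrix.mulVec_smul, Matrix.mulVec_smul, h2, h3, h0,
      e00_mul, e10_mul]
    ext i
    simp only [Pi.add_apply, Pi.smul_apply, smul_eq_mul]
    ring
  · rw [Units.val_mul, ← Matrix.mulVec_mulVec, h3', Matrix.mulVec_add, Matrix.mulVec_add, Matrix.mulVec_smul, Matrix.mulVec_smul, Matrix.mulVec_smul, h2, h3, h0,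
      e01_mul, e11_mul]
    ext i
    simp only [Pi.add_apply, Pi.smul_apply, smul_eq_mul]
    ring

lemma Act.inv {y : GL ι F} {w₁ w₂ r₀ : ι → F} {s : SL(2, F)} (h : Act y w₁ w₂ r₀ s)
    (h0 : (y : Matrix ι ι F) *ᵥ r₀ = r₀) : Act y⁻¹ w₁ w₂ r₀ s⁻¹ := by
  obtain ⟨⟨c2, h2⟩, ⟨c3, h3⟩⟩ := h
  have hd := sl_det s
  have e1 : ((y⁻¹ : GL ι F) : Matrix ι ι F) *ᵥ w₁ = e11 s • w₁ + (- e10 s) • w₂ + (-(e11 s * c2 - e10 s * c3)) • r₀ := by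
    have h4 : (y : Matrix ι ι F) *ᵥ (e11 s • w₁ + (- e10 s) • w₂ + (-(e11 s * c2 - e10 s * c3)) • r₀) = w₁ := by
      rw [Matrix.mulVec_add, Matrix.mulVec_add, Matrix.mulVec_smul, Matrix.mulVec_smul, Matrix.mulVec_smul, h2, h3, h0]
      ext i
      simp only [Pi.add_apply, Pi.smul_apply, smul_eq_mul]
      linear_combination (w₁ i) * hd
    have h5 := inv_act y (e11 s • w₁ + (- e10 s) • w₂ + (-(e11 s * c2 - e10 s * c3)) • r₀)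
    rwa [h4] at h5
  have e2 : ((y⁻¹ : GL ι F) : Matrix ι ι F) *ᵥ w₂ = (- e01 s) • w₁ + e00 s • w₂ + (-(-e01 s * c2 + e00 s * c3)) • r₀ := by
    have h4 : (y : Matrix ι ι F) *ᵥ ((- e01 s) • w₁ + e00 s • w₂ + (-(-e01 s * c2 + e00 s * c3)) • r₀) = w₂ := by
      rw [Matrix.mulVec_add, Matrix.mulVec_add, Matrix.mulVec_smul, Matrix.mulVec_smul, Matrix.mulVec_smul, h2, h3, h0]
      ext i
      simp only [Pi.add_apply, Pi.smul_apply, smul_eq_mul]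
      linear_combination (w₂ i) * hd
    have h5 := inv_act y ((- e01 s) • w₁ + e00 s • w₂ + (-(-e01 s * c2 + e00 s * c3)) • r₀)
    rwa [h4] at h5
  refine ⟨⟨-(e11 s * c2 - e10 s * c3), ?_⟩, ⟨-(-e01 s * c2 + e00 s * c3), ?_⟩⟩
  · rw [e1, e00_inv, e10_inv]
  · rw [e2, e01_inv, e11_inv]

lemma Act.one {w₁ w₂ r₀ : ι → F} : Act (1 : GL ι F) w₁ w₂ r₀ 1 := by
  refine ⟨⟨0, ?_⟩, ⟨0, ?_⟩⟩ <;> simp [e00_one, e01_one, e10_one, e11_one]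

/-- The image of the elements of `M` acting on a double plane modulo a fixed vector, as a subgroup of `SL₂`. -/
def planeD (M : Subgroup (GL ι F)) (w₁ w₂ w₃ w₄ r₀ : ι → F) : Subgroup SL(2, F) where
  carrier := {s | ∃ y ∈ M, (y : Matrix ι ι F) *ᵥ r₀ = r₀ ∧ Act y w₁ w₂ r₀ s ∧ Act y w₃ w₄ r₀ s}
  mul_mem' := by
    rintro s s' ⟨y, hy, h0, h1, h2⟩ ⟨y', hy', h0', h1', h2'⟩
    refine ⟨y * y', M.mul_mem hy hy', ?_, h1.mul h1' h0, h2.mul h2' h0⟩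
    rw [Units.val_mul, ← Matrix.mulVec_mulVec, h0', h0]
  one_mem' := ⟨1, M.one_mem, by simp, Act.one, Act.one⟩
  inv_mem' := by
    rintro s ⟨y, hy, h0, h1, h2⟩
    refine ⟨y⁻¹, M.inv_mem hy, ?_, h1.inv h0, h2.inv h0⟩
    have h5 := inv_act y r₀
    rwa [h0] at h5

/-- Torus elements in the double plane. -/
theorem exists_torus [Fintype F] {F₀ : Subfield F} {r : ℕ} (hr : r.Prime) (hcard : Fintype.card F = Nat.card F₀ ^ r)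
    {M : Subgroup (GL ι F)} {w₁ w₂ w₃ w₄ r₀ : ι → F} {p' b : F} (hp' : p' ∉ F₀)
    (h1 : ∀ f ∈ F₀, xE f ∈ planeD M w₁ w₂ w₃ w₄ r₀) (h2 : ∀ f ∈ F₀, xE (f * p') ∈ planeD M w₁ w₂ w₃ w₄ r₀)
    (hb : b ≠ 0) (hy : yE b ∈ planeD M w₁ w₂ w₃ w₄ r₀) {τ : F} (hτ : τ ≠ 0) :
    ∃ h ∈ M, (h : Matrix ι ι F) *ᵥ r₀ = r₀ ∧ (∃ γ : F, (h : Matrix ι ι F) *ᵥ w₁ = τ • w₁ + γ • r₀) ∧
      (∃ γ : F, (h : Matrix ι ι F) *ᵥ w₃ = τ • w₃ + γ • r₀) := by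
  obtain ⟨s, hs, s00, s01, s10, s11⟩ := TC.exists_weyl hr hcard (a₁ := 1) (a₂ := p') one_ne_zero (by simpa using hp')
    (fun f hf => by simpa using h1 f hf) h2 hb hy hτ
  obtain ⟨t, ht, t00, t01, t10, t11⟩ := TC.exists_weyl hr hcard (a₁ := 1) (a₂ := p') one_ne_zero (by simpa using hp')
    (fun f hf => by simpa using h1 f hf) h2 hb hy (a := 1) one_ne_zero
  obtain ⟨y, hyM, h0, ⟨⟨c, hc⟩, -⟩, ⟨⟨c', hc'⟩, -⟩⟩ := (planeD M w₁ w₂ w₃ w₄ r₀).mul_mem hs ((planeD M w₁ w₂ w₃ w₄ r₀).inv_mem ht)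
  have e0 : e00 (s * t⁻¹) = τ := by
    rw [e00_mul, e00_inv, e10_inv, s00, s01, t11, t10]
    simp
  have e1 : e10 (s * t⁻¹) = 0 := by
    rw [e10_mul, e00_inv, e10_inv, s10, s11, t11, t10]
    simp
  rw [e0, e1, zero_smul, add_zero] at hc hc'
  exact ⟨y, hyM, h0, ⟨c, hc⟩, ⟨c', hc'⟩⟩

/-- The abstract plane lemma. -/
theorem plane_core [Fintype F] (hQ : IsNondegenerateQuadraticForm Q) {F₀ : Subfield F} {r : ℕ} (hr : r.Prime)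
    (hcard : Fintype.card F = Nat.card F₀ ^ r) {M : Subgroup (GL ι F)} {X Y U₁ U₂ U₃ : ι → F} {p p' A : F}
    (hQX : Q X = 0) (hQY : Q Y = 0) (hXY : pl Q X Y = 0)
    (hU₁ : Q U₁ = 0) (hU₂ : Q U₂ = 0) (hU₃ : Q U₃ = 0) (h12 : pl Q U₁ U₂ = 0) (h13 : pl Q U₁ U₃ = 0) (h23 : pl Q U₂ U₃ = 0)
    (hX1 : pl Q X U₁ = 1) (hX2 : pl Q X U₂ = 0) (hY1 : pl Q Y U₁ = 0) (hY2 : pl Q Y U₂ = 1) (hX3 : pl Q X U₃ = p)
    (hY3 : pl Q Y U₃ = p') (hp' : p' ∉ F₀) (hA : A ≠ 0) (hR : RI Q M X (A • Y))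
    (hM1 : ∀ f ∈ F₀, RI Q M U₁ (f • U₂)) (hM2 : ∀ f ∈ F₀, RI Q M U₁ (f • U₃)) {τ : F} (hτ : τ ≠ 0) :
    ∃ h ∈ M, (h : Matrix ι ι F) *ᵥ (U₃ - p • U₁ - p' • U₂) = U₃ - p • U₁ - p' • U₂ ∧
      (∃ γ : F, (h : Matrix ι ι F) *ᵥ U₁ = τ • U₁ + γ • (U₃ - p • U₁ - p' • U₂)) ∧
      (∃ γ : F, (h : Matrix ι ι F) *ᵥ U₂ = τ • U₂ + γ • (U₃ - p • U₁ - p' • U₂)) := by
  obtain ⟨r₀, hr₀⟩ : ∃ r₀, r₀ = U₃ - p • U₁ - p' • U₂ := ⟨_, rfl⟩
  rw [← hr₀]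
  have pself : ∀ {a : ι → F}, Q a = 0 → pl Q a a = 0 := fun {a} ha => by rw [pl_self hQ, ha, mul_zero]
  have h11 := pself hU₁
  have h22 := pself hU₂
  have h33 := pself hU₃
  have hXX := pself hQX
  have hYY := pself hQY
  have h21 : pl Q U₂ U₁ = 0 := by rw [pl_symm, h12]
  have h31 : pl Q U₃ U₁ = 0 := by rw [pl_symm, h13]
  have h32 : pl Q U₃ U₂ = 0 := by rw [pl_symm, h23]
  have hYX : pl Q Y X = 0 := by rw [pl_symm, hXY]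
  have h1X : pl Q U₁ X = 1 := by rw [pl_symm, hX1]
  have h2X : pl Q U₂ X = 0 := by rw [pl_symm, hX2]
  have h3X : pl Q U₃ X = p := by rw [pl_symm, hX3]
  have h1Y : pl Q U₁ Y = 0 := by rw [pl_symm, hY1]
  have h2Y : pl Q U₂ Y = 1 := by rw [pl_symm, hY2]
  have h3Y : pl Q U₃ Y = p' := by rw [pl_symm, hY3]
  have hr1 : pl Q r₀ U₁ = 0 := by
    rw [hr₀, pl_sub_left hQ, pl_sub_left hQ, pl_smul_left hQ, pl_smul_left hQ, h31, h11, h21]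
    ring
  have hr2 : pl Q r₀ U₂ = 0 := by
    rw [hr₀, pl_sub_left hQ, pl_sub_left hQ, pl_smul_left hQ, pl_smul_left hQ, h32, h12, h22]
    ring
  have hrX : pl Q r₀ X = 0 := by
    rw [hr₀, pl_sub_left hQ, pl_sub_left hQ, pl_smul_left hQ, pl_smul_left hQ, h3X, h1X, h2X]
    ring
  have hrY : pl Q r₀ Y = 0 := by
    rw [hr₀, pl_sub_left hQ, pl_sub_left hQ, pl_smul_left hQ, pl_smul_left hQ, h3Y, h1Y, h2Y]
    ring
  have hr3 : pl Q r₀ U₃ = 0 := by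
    rw [hr₀, pl_sub_left hQ, pl_sub_left hQ, pl_smul_left hQ, pl_smul_left hQ, h33, h13, h23]
    ring
  have hU₃r : U₃ = r₀ + p • U₁ + p' • U₂ := by
    rw [hr₀]
    abel
  refine exists_torus (w₂ := Y) (w₄ := -X) (p' := p') (b := -A) hr hcard hp' ?_ ?_ (neg_ne_zero.2 hA) ?_ hτ
  · intro f hf
    obtain ⟨g, hg, hgx⟩ := hM1 f hf
    refine ⟨g, hg, ?_, ⟨⟨0, ?_⟩, ⟨0, ?_⟩⟩, ⟨⟨0, ?_⟩, ⟨0, ?_⟩⟩⟩
    · rw [hgx, pl_smul_right hQ, hr1, hr2]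
      simp
    · rw [hgx, pl_smul_right hQ, h11, h12, e00_xE, e10_xE]
      simp
    · rw [hgx, pl_smul_right hQ, hY1, hY2, e01_xE, e11_xE]
      ext i
      simp only [Pi.add_apply, Pi.sub_apply, Pi.smul_apply, smul_eq_mul]
      ring
    · rw [hgx, pl_smul_right hQ, h21, h22, e00_xE, e10_xE]
      simp
    · rw [hgx, pl_smul_right hQ, pl_neg_left hQ, pl_neg_left hQ, hX1, hX2, e01_xE, e11_xE]
      ext i
      simp only [Pi.add_apply, Pi.sub_apply, Pi.smul_apply, smul_eq_mul, Pi.neg_apply]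
      ring
  · intro f hf
    obtain ⟨g, hg, hgx⟩ := hM2 f hf
    refine ⟨g, hg, ?_, ⟨⟨0, ?_⟩, ⟨0, ?_⟩⟩, ⟨⟨0, ?_⟩, ⟨f, ?_⟩⟩⟩
    · rw [hgx, pl_smul_right hQ, hr1, hr3]
      simp
    · rw [hgx, pl_smul_right hQ, h11, h13, e00_xE, e10_xE]
      simp
    · rw [hgx, pl_smul_right hQ, hY1, hY3, e01_xE, e11_xE]
      ext i
      simp only [Pi.add_apply, Pi.sub_apply, Pi.smul_apply, smul_eq_mul]
      ring
    · rw [hgx, pl_smul_right hQ, h21, h23, e00_xE, e10_xE]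
      simp
    · rw [hgx, pl_smul_right hQ, pl_neg_left hQ, pl_neg_left hQ, hX1, hX3, e01_xE, e11_xE, hU₃r]
      ext i
      simp only [Pi.add_apply, Pi.sub_apply, Pi.smul_apply, smul_eq_mul, Pi.neg_apply]
      ring
  · obtain ⟨g, hg, hgx⟩ := hR
    refine ⟨g, hg, ?_, ⟨⟨0, ?_⟩, ⟨0, ?_⟩⟩, ⟨⟨0, ?_⟩, ⟨0, ?_⟩⟩⟩
    · rw [hgx, pl_smul_right hQ, hrX, hrY]
      simp
    · rw [hgx, pl_smul_right hQ, h1X, h1Y, e00_yE, e10_yE]
      ext i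
      simp only [Pi.add_apply, Pi.sub_apply, Pi.smul_apply, smul_eq_mul]
      ring
    · rw [hgx, pl_smul_right hQ, hYX, hYY, e01_yE, e11_yE]
      simp
    · rw [hgx, pl_smul_right hQ, h2X, h2Y, e00_yE, e10_yE]
      ext i
      simp only [Pi.add_apply, Pi.sub_apply, Pi.smul_apply, smul_eq_mul, Pi.neg_apply]
      ring
    · rw [hgx, pl_smul_right hQ, pl_neg_left hQ, pl_neg_left hQ, hXX, hXY, e01_yE, e11_yE]
      simp

/-- Extraction of a single coefficient by a commutator. -/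
theorem extract (hQ : IsNondegenerateQuadraticForm Q) {M : Subgroup (GL ι F)} (hMO : M ≤ isometryGroup F Q)
    {U₁ U₂ U₃ a : ι → F} (hU₁ : Q U₁ = 0) (hU₂ : Q U₂ = 0) (hU₃ : Q U₃ = 0) (h12 : pl Q U₁ U₂ = 0) (h13 : pl Q U₁ U₃ = 0)
    (h23 : pl Q U₂ U₃ = 0) (ha1 : pl Q a U₁ = 0) (ha2 : pl Q a U₂ = 1) (ha3 : pl Q a U₃ = 0)
    (hL : RI Q M U₁ a) {p₁ p₂ p₃ q₁ q₂ q₃ : F}
    (hpq : RI Q M (p₁ • U₁ + p₂ • U₂ + p₃ • U₃) (q₁ • U₁ + q₂ • U₂ + q₃ • U₃)) :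
    RI Q M U₁ ((p₂ * q₃ - q₂ * p₃) • U₃) := by
  have pself : ∀ {a : ι → F}, Q a = 0 → pl Q a a = 0 := fun {a} ha => by rw [pl_self hQ, ha, mul_zero]
  have h11 := pself hU₁
  have h22 := pself hU₂
  have h33 := pself hU₃
  have h21 : pl Q U₂ U₁ = 0 := by rw [pl_symm, h12]
  have h31 : pl Q U₃ U₁ = 0 := by rw [pl_symm, h13]
  have h32 : pl Q U₃ U₂ = 0 := by rw [pl_symm, h23]
  have h1a : pl Q U₁ a = 0 := by rw [pl_symm, ha1]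
  have h2a : pl Q U₂ a = 1 := by rw [pl_symm, ha2]
  have h3a : pl Q U₃ a = 0 := by rw [pl_symm, ha3]
  obtain ⟨p, hpd⟩ : ∃ p, p = p₁ • U₁ + p₂ • U₂ + p₃ • U₃ := ⟨_, rfl⟩
  obtain ⟨q, hqd⟩ : ∃ q, q = q₁ • U₁ + q₂ • U₂ + q₃ • U₃ := ⟨_, rfl⟩
  rw [← hpd, ← hqd] at hpq
  have hp1 : pl Q p U₁ = 0 := by
    rw [hpd, pl_add_left hQ, pl_add_left hQ, pl_smul_left hQ, pl_smul_left hQ, pl_smul_left hQ, h11, h21, h31]
    ring
  have hp2 : pl Q p U₂ = 0 := by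
    rw [hpd, pl_add_left hQ, pl_add_left hQ, pl_smul_left hQ, pl_smul_left hQ, pl_smul_left hQ, h12, h22, h32]
    ring
  have hp3 : pl Q p U₃ = 0 := by
    rw [hpd, pl_add_left hQ, pl_add_left hQ, pl_smul_left hQ, pl_smul_left hQ, pl_smul_left hQ, h13, h23, h33]
    ring
  have hq1 : pl Q q U₁ = 0 := by
    rw [hqd, pl_add_left hQ, pl_add_left hQ, pl_smul_left hQ, pl_smul_left hQ, pl_smul_left hQ, h11, h21, h31]
    ring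
  have hq2 : pl Q q U₂ = 0 := by
    rw [hqd, pl_add_left hQ, pl_add_left hQ, pl_smul_left hQ, pl_smul_left hQ, pl_smul_left hQ, h12, h22, h32]
    ring
  have hq3 : pl Q q U₃ = 0 := by
    rw [hqd, pl_add_left hQ, pl_add_left hQ, pl_smul_left hQ, pl_smul_left hQ, pl_smul_left hQ, h13, h23, h33]
    ring
  have hpa : pl Q p a = p₂ := by
    rw [hpd, pl_add_left hQ, pl_add_left hQ, pl_smul_left hQ, pl_smul_left hQ, pl_smul_left hQ, h1a, h2a, h3a]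
    ring
  have hqa : pl Q q a = q₂ := by
    rw [hqd, pl_add_left hQ, pl_add_left hQ, pl_smul_left hQ, pl_smul_left hQ, pl_smul_left hQ, h1a, h2a, h3a]
    ring
  have hpp : pl Q p p = 0 := by
    rw [pl_symm]
    nth_rewrite 1 [hpd]
    rw [pl_add_left hQ, pl_add_left hQ, pl_smul_left hQ, pl_smul_left hQ, pl_smul_left hQ, pl_symm U₁, pl_symm U₂, pl_symm U₃, hp1, hp2, hp3]
    ring
  have hqq : pl Q q q = 0 := by
    rw [pl_symm]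
    nth_rewrite 1 [hqd]
    rw [pl_add_left hQ, pl_add_left hQ, pl_smul_left hQ, pl_smul_left hQ, pl_smul_left hQ, pl_symm U₁, pl_symm U₂, pl_symm U₃, hq1, hq2, hq3]
    ring
  have hpq0 : pl Q p q = 0 := by
    rw [pl_symm]
    nth_rewrite 1 [hqd]
    rw [pl_add_left hQ, pl_add_left hQ, pl_smul_left hQ, pl_smul_left hQ, pl_smul_left hQ, pl_symm U₁, pl_symm U₂, pl_symm U₃, hp1, hp2, hp3]
    ring
  have hqp0 : pl Q q p = 0 := by rw [pl_symm, hpq0]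
  have h1p : pl Q U₁ p = 0 := by rw [pl_symm, hp1]
  have h1q : pl Q U₁ q = 0 := by rw [pl_symm, hq1]
  have hQp : Q p = 0 := by
    rw [hpd, Q_add Q, Q_add Q, hQ.smul, hQ.smul, hQ.smul, hU₁, hU₂, hU₃, pl_smul_left hQ, pl_smul_right hQ, pl_add_left hQ,
      pl_smul_left hQ, pl_smul_left hQ, pl_smul_right hQ, pl_smul_right hQ, h12, h13, h23]
    ring
  have hQq : Q q = 0 := by
    rw [hqd, Q_add Q, Q_add Q, hQ.smul, hQ.smul, hQ.smul, hU₁, hU₂, hU₃, pl_smul_left hQ, pl_smul_right hQ, pl_add_left hQ,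
      pl_smul_left hQ, pl_smul_left hQ, pl_smul_right hQ, pl_smul_right hQ, h12, h13, h23]
    ring
  have hinv := hpq.symm hQ hQp hQq hpq0
  obtain ⟨L, hLM, hLx⟩ := hL
  have hconj := RI.conj hQ hLM (hMO hLM) hpq
  have eLp : (L : Matrix ι ι F) *ᵥ p = p + p₂ • U₁ := by
    rw [hLx, hpa, hp1]
    simp
  have eLq : (L : Matrix ι ι F) *ᵥ q = q + q₂ • U₁ := by
    rw [hLx, hqa, hq1]
    simp
  rw [eLp, eLq] at hconj
  obtain ⟨g₁, hg₁, hg₁x⟩ := hconj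
  obtain ⟨g₂, hg₂, hg₂x⟩ := hinv
  refine ⟨g₁ * g₂, M.mul_mem hg₁ hg₂, fun x => ?_⟩
  rw [Units.val_mul, ← Matrix.mulVec_mulVec, hg₂x, hg₁x]
  simp only [pl_add_left hQ, pl_sub_left hQ, pl_smul_left hQ, pl_add_right hQ, pl_smul_right hQ, hqq, hpq0, hqp0, hpp, hq1, hp1, h11]
  have ep : pl Q x p = p₁ * pl Q x U₁ + p₂ * pl Q x U₂ + p₃ * pl Q x U₃ := by
    rw [hpd, pl_add_right hQ, pl_add_right hQ, pl_smul_right hQ, pl_smul_right hQ, pl_smul_right hQ]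
  have eq : pl Q x q = q₁ * pl Q x U₁ + q₂ * pl Q x U₂ + q₃ * pl Q x U₃ := by
    rw [hqd, pl_add_right hQ, pl_add_right hQ, pl_smul_right hQ, pl_smul_right hQ, pl_smul_right hQ]
  ext i
  have pi : p i = p₁ * U₁ i + p₂ * U₂ i + p₃ * U₃ i := by
    rw [hpd]
    simp
  have qi : q i = q₁ * U₁ i + q₂ * U₂ i + q₃ * U₃ i := by
    rw [hqd]
    simp
  simp only [Pi.add_apply, Pi.sub_apply, Pi.smul_apply, smul_eq_mul, ep, eq, pi, qi]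
  ring

end Cfsg.Agent.H27.OS
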