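import Mathlib
import Cfsg.Prelude.Def_GeometricClasses
import Cfsg.Agent.Lib.H27.GeoTC
import Cfsg.Agent.Lib.H27.GeoMaxSp

/-!
# Subfield subgroups of symplectic groups: the rational structure
-/

set_option autoImplicit false
set_option linter.unusedSectionVars false
set_option linter.unusedSimpArgs false
set_option linter.unusedVariables false
set_option linter.style.haveILetI false

namespace Cfsg.Agent.H27.SQ

open scoped Matrix MatrixGroups
open Cfsg Cfsg.Geo
open Cfsg.Agent.H27.RS (rr co lift inv_rr rr_add rr_sub rr_neg rr_smul rr_zero rr_inj rr_ne_zero lift_mem lift_rr lift_det RatPt)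
open Cfsg.Agent.H27.MS (tv tv_mulVec tv_mem mem_spGL_iff)
open Cfsg.Agent.H27.TC (inv_act act_inv)
open Cfsg.Agent.Lead (sympForm_self sympForm_swap sympForm_add_left sympForm_add_right sympForm_smul_left sympForm_smul_right sympForm_sub_right sympForm_nondeg)

variable {m : ℕ} {F : Type*} [Field F] {F₀ : Subfield F} {P : GL (Fin m ⊕ Fin m) F} {ζ : F}

local notation "sf" => Cfsg.Agent.Lead.sympForm
local notation "VV" => (Fin m ⊕ Fin m → F)
local notation "GG" => GL (Fin m ⊕ Fin m) F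
local notation "MM" => Matrix (Fin m ⊕ Fin m) (Fin m ⊕ Fin m) F
local notation "V₀" => (Fin m ⊕ Fin m → F₀)

/-- The scaled form. -/
def ff (ζ : F) (x y : Fin m ⊕ Fin m → F) : F := ζ * sf x y

lemma ff_add_left (x y v : VV) : ff ζ (x + y) v = ff ζ x v + ff ζ y v := by
  simp only [ff, sympForm_add_left]
  ring

lemma ff_add_right (v x y : VV) : ff ζ v (x + y) = ff ζ v x + ff ζ v y := by
  simp only [ff, sympForm_add_right]
  ring

lemma ff_smul_left (c : F) (x v : VV) : ff ζ (c • x) v = c * ff ζ x v := by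
  simp only [ff, sympForm_smul_left]
  ring

lemma ff_smul_right (c : F) (v x : VV) : ff ζ v (c • x) = c * ff ζ v x := by
  simp only [ff, sympForm_smul_right]
  ring

lemma ff_skew (x y : VV) : ff ζ x y = - ff ζ y x := by
  simp only [ff]
  rw [sympForm_swap]
  ring

lemma ff_self (x : VV) : ff ζ x x = 0 := by
  simp [ff, sympForm_self]

lemma ff_zero_left (v : VV) : ff ζ 0 v = 0 := by
  have := ff_smul_left (ζ := ζ) 0 0 v
  simpa using this

lemma ff_zero_right (v : VV) : ff ζ v 0 = 0 := by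
  have := ff_smul_right (ζ := ζ) 0 v 0
  simpa using this

lemma ff_neg_right (v x : VV) : ff ζ v (-x) = - ff ζ v x := by
  have := ff_smul_right (ζ := ζ) (-1) v x
  simpa using this

lemma ff_neg_left (v x : VV) : ff ζ (-v) x = - ff ζ v x := by
  have := ff_smul_left (ζ := ζ) (-1) v x
  simpa using this

lemma ff_sub_right (v x y : VV) : ff ζ v (x - y) = ff ζ v x - ff ζ v y := by
  rw [sub_eq_add_neg, ff_add_right, ff_neg_right]
  ring

lemma ff_sub_left (v x y : VV) : ff ζ (x - y) v = ff ζ x v - ff ζ y v := by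
  rw [sub_eq_add_neg, ff_add_left, ff_neg_left]
  ring

lemma ff_nd (hζ : ζ ≠ 0) {x : VV} (hx : x ≠ 0) : ∃ y, ff ζ x y ≠ 0 := by
  obtain ⟨y, hy⟩ := sympForm_nondeg hx
  exact ⟨y, mul_ne_zero hζ hy⟩

lemma ff_mem (g : GG) (hg : g ∈ spGL m F) (x y : VV) : ff ζ ((g : MM) *ᵥ x) ((g : MM) *ᵥ y) = ff ζ x y := by
  simp only [ff]
  rw [(mem_spGL_iff.1 hg) x y]

lemma ff_inv (g : GG) (hg : g ∈ spGL m F) (x y : VV) : ff ζ (((g⁻¹ : GG) : MM) *ᵥ x) y = ff ζ x ((g : MM) *ᵥ y) := by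
  have := ff_mem (ζ := ζ) g hg (((g⁻¹ : GG) : MM) *ᵥ x) y
  rw [act_inv] at this
  exact this.symm

/-- The scaled transvection. -/
def τ (ζ : F) (w : VV) (c : F) : GG := tv w (ζ * c)

lemma τ_act (w : VV) (c : F) (x : VV) : ((τ ζ w c : GG) : MM) *ᵥ x = x + (c * ff ζ x w) • w := by
  rw [τ, tv_mulVec]
  congr 2
  simp only [ff]
  ring

lemma τ_mem (w : VV) (c : F) : τ ζ w c ∈ spGL m F := tv_mem _ _

lemma τ_conj {g : GG} (hg : g ∈ spGL m F) (w : VV) (c : F) : g * τ ζ w c * g⁻¹ = τ ζ ((g : MM) *ᵥ w) c := by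
  apply Cfsg.Agent.H27.GO.gl_ext
  intro x
  rw [Units.val_mul, Units.val_mul, ← Matrix.mulVec_mulVec, ← Matrix.mulVec_mulVec, τ_act, τ_act, Matrix.mulVec_add, Matrix.mulVec_smul,
    act_inv, ff_inv g hg]

lemma τ_smul (a : F) (w : VV) (c : F) : τ ζ (a • w) c = τ ζ w (a * a * c) := by
  apply Cfsg.Agent.H27.GO.gl_ext
  intro x
  rw [τ_act, τ_act, ff_smul_right, smul_smul]
  congr 2
  ring

lemma τ_add (w : VV) (c c' : F) : τ ζ w c * τ ζ w c' = τ ζ w (c + c') := by
  apply Cfsg.Agent.H27.GO.gl_ext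
  intro x
  rw [Units.val_mul, ← Matrix.mulVec_mulVec, τ_act, τ_act, τ_act, ff_add_left, ff_smul_left, ff_self]
  ext i
  simp only [Pi.add_apply, Pi.smul_apply, smul_eq_mul]
  ring

lemma τ_zero (w : VV) : τ ζ w 0 = 1 := by
  apply Cfsg.Agent.H27.GO.gl_ext
  intro x
  rw [τ_act]
  simp

lemma τ_inv (w : VV) (c : F) : (τ ζ w c)⁻¹ = τ ζ w (-c) := by
  apply inv_eq_of_mul_eq_one_right
  rw [τ_add, add_neg_cancel, τ_zero]

section rational

variable (hζ : ζ ≠ 0) (hP : IsFormRationalStructure (Cfsg.sympForm m F) F₀ ζ P)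

include hP in
lemma ff_rr_mem (u v : V₀) : ff ζ (rr P u) (rr P v) ∈ F₀ :=
  hP (co u) (co v) (fun i => (u i).2) (fun i => (v i).2)

/-- The form on rational vectors. -/
def ν (hP : IsFormRationalStructure (Cfsg.sympForm m F) F₀ ζ P) (u v : V₀) : F₀ := ⟨_, ff_rr_mem hP u v⟩

@[simp] lemma ν_coe (u v : V₀) : ((ν hP u v : F₀) : F) = ff ζ (rr P u) (rr P v) := rfl

lemma ν_add_left (x y v : V₀) : ν hP (x + y) v = ν hP x v + ν hP y v := by
  apply Subtype.ext
  simp [rr_add, ff_add_left]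

lemma ν_add_right (x y v : V₀) : ν hP v (x + y) = ν hP v x + ν hP v y := by
  apply Subtype.ext
  simp [rr_add, ff_add_right]

lemma ν_smul_left (c : F₀) (x v : V₀) : ν hP (c • x) v = c * ν hP x v := by
  apply Subtype.ext
  simp [rr_smul, ff_smul_left]

lemma ν_smul_right (c : F₀) (x v : V₀) : ν hP v (c • x) = c * ν hP v x := by
  apply Subtype.ext
  simp [rr_smul, ff_smul_right]

lemma ν_skew (x y : V₀) : ν hP x y = - ν hP y x := by
  apply Subtype.ext
  simp only [ν_coe, Subfield.coe_neg]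
  exact ff_skew _ _

lemma ν_self (x : V₀) : ν hP x x = 0 := by
  apply Subtype.ext
  simp [ff_self]

lemma expand_rat (x : VV) : x = ∑ i, (((P⁻¹ : GG) : MM) *ᵥ x) i • rr P (Pi.single i (1 : F₀)) := by
  have h1 : ∀ i, rr P (Pi.single i (1 : F₀)) = (P : MM) *ᵥ Pi.single i (1 : F) := by
    intro i
    have e : co (Pi.single i (1 : F₀) : V₀) = Pi.single i (1 : F) := by
      ext k
      by_cases hk : k = i
      · subst hk
        simp [co]
      · simp [co, hk]
    rw [rr, e]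
  simp only [h1]
  simp only [← Matrix.mulVec_smul]
  rw [← Matrix.mulVec_sum]
  have h2 : ∑ i, (((P⁻¹ : GG) : MM) *ᵥ x) i • (Pi.single i (1 : F) : VV) = ((P⁻¹ : GG) : MM) *ᵥ x := by
    ext k
    simp [Finset.sum_apply, Pi.single_apply]
  rw [h2, act_inv]

lemma expand_rr (u : V₀) : rr P u = ∑ i, (u i : F) • rr P (Pi.single i (1 : F₀)) := by
  have e : ((P⁻¹ : GG) : MM) *ᵥ rr P u = co u := inv_rr u
  conv_lhs => rw [expand_rat (F₀ := F₀) (P := P) (rr P u), e]
  rfl

lemma ff_sum_right (x : VV) (a : (Fin m ⊕ Fin m) → F) (v : (Fin m ⊕ Fin m) → VV) :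
    ff ζ x (∑ i, a i • v i) = ∑ i, a i * ff ζ x (v i) := by
  rw [ff, Cfsg.Agent.H27.MS.sympForm_sum_right, Finset.mul_sum]
  refine Finset.sum_congr rfl fun i _ => ?_
  simp only [ff]
  ring

include hζ in
/-- A vector orthogonal to the rational vectors is zero. -/
lemma eq_zero_of_rat {y : VV} (h : ∀ u : V₀, ff ζ y (rr P u) = 0) : y = 0 := by
  by_contra h0
  obtain ⟨z, hz⟩ := ff_nd hζ h0
  apply hz
  rw [expand_rat (F₀ := F₀) (P := P) z, ff_sum_right]
  exact Finset.sum_eq_zero fun i _ => by rw [h, mul_zero]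

include hζ hP in
/-- The Riesz lemma on the rational vectors. -/
theorem rat_riesz [Finite F] (θ : V₀) : ∃ z : V₀, ∀ u : V₀, ff ζ (rr P u) (rr P z) = ((θ ⬝ᵥ u : F₀) : F) := by
  let Φ : V₀ →ₗ[F₀] V₀ :=
    { toFun := fun z i => ν hP (Pi.single i 1) z
      map_add' := fun a b => by
        ext i
        simp only [ν_add_right, Pi.add_apply]
      map_smul' := fun c a => by
        ext i
        simp only [ν_smul_right, Pi.smul_apply, RingHom.id_apply, smul_eq_mul] }
  have hinj : Function.Injective Φ := by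
    rw [injective_iff_map_eq_zero]
    intro z hz
    have h1 : rr P z = 0 := by
      apply eq_zero_of_rat hζ (F₀ := F₀) (P := P)
      intro u
      rw [expand_rr u, ff_sum_right]
      refine Finset.sum_eq_zero fun i _ => ?_
      have h2 : ν hP (Pi.single i 1) z = 0 := congrFun hz i
      have h4 : ff ζ (rr P (Pi.single i (1 : F₀))) (rr P z) = 0 := by
        have := congrArg Subtype.val h2
        simpa using this
      rw [ff_skew, h4]
      simp
    exact rr_inj (h1.trans rr_zero.symm)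
  obtain ⟨z, hz⟩ := LinearMap.injective_iff_surjective.1 hinj θ
  refine ⟨z, fun u => ?_⟩
  have h1 : ∀ i, ff ζ (rr P (Pi.single i (1 : F₀))) (rr P z) = (θ i : F) := by
    intro i
    have := congrFun hz i
    rw [← this]
    rfl
  have h2 : ff ζ (rr P u) (rr P z) = ∑ i, (u i : F) * ff ζ (rr P (Pi.single i (1 : F₀))) (rr P z) := by
    rw [ff_skew, expand_rr u, ff_sum_right, ← Finset.sum_neg_distrib]
    refine Finset.sum_congr rfl fun i _ => ?_
    rw [ff_skew (rr P z)]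
    ring
  rw [h2]
  simp only [h1, dotProduct]
  rw [AddSubmonoidClass.coe_finsetSum]
  refine Finset.sum_congr rfl fun i _ => ?_
  simp only [MulMemClass.coe_mul]
  ring

/-- The row of a rational vector. -/
def rowv (hP : IsFormRationalStructure (Cfsg.sympForm m F) F₀ ζ P) (a : V₀) : V₀ := fun i => ν hP a (Pi.single i 1)

lemma rowv_dot (a c : V₀) : rowv hP a ⬝ᵥ c = ν hP a c := by
  apply Subtype.ext
  rw [ν_coe, expand_rr c, ff_sum_right]
  simp only [dotProduct, rowv]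
  rw [AddSubmonoidClass.coe_finsetSum]
  refine Finset.sum_congr rfl fun i _ => ?_
  simp only [MulMemClass.coe_mul, ν_coe]
  ring

include hζ in
lemma ν_nd {a : V₀} (ha : a ≠ 0) : ∃ b, ν hP a b ≠ 0 := by
  by_contra hcon
  push Not at hcon
  apply rr_ne_zero ha
  apply eq_zero_of_rat hζ (F₀ := F₀) (P := P)
  intro u
  have := congrArg Subtype.val (hcon u)
  simpa using this

include hζ in
lemma ν_one {a : V₀} (ha : a ≠ 0) : ∃ b, ν hP a b = 1 := by
  obtain ⟨b, hb⟩ := ν_nd hζ hP ha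
  refine ⟨(ν hP a b)⁻¹ • b, ?_⟩
  rw [ν_smul_right, inv_mul_cancel₀ hb]

include hP in
/-- Rational transvections belong to the group. -/
lemma τ_rat {M : Subgroup GG} (hH : subfieldSubgroup F₀ P ⊓ spGL m F ≤ M) (u : V₀) {c : F} (hc : c ∈ F₀) : τ ζ (rr P u) c ∈ M := by
  refine hH ⟨RS.mem_of_rat one_ne_zero (fun a => ⟨a + ((⟨c, hc⟩ : F₀) * ν hP a u) • u, ?_⟩), τ_mem _ _⟩
  rw [τ_act, one_smul, rr_add, rr_smul]
  rfl

include hζ hP in
/-- Values on a non-rational point span at least a plane. -/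
theorem exists_ind [Finite F] {x : VV} (hx : ¬ RatPt P F₀ x) :
    ∃ a b : V₀, ff ζ x (rr P a) ≠ 0 ∧ ff ζ x (rr P b) / ff ζ x (rr P a) ∉ F₀ := by
  have hx0 : x ≠ 0 := by
    rintro rfl
    apply hx
    exact ⟨0, 0, by simp [rr_zero]⟩
  obtain ⟨a, ha⟩ : ∃ a : V₀, ff ζ x (rr P a) ≠ 0 := by
    by_contra hcon
    push Not at hcon
    exact hx0 (eq_zero_of_rat hζ hcon)
  refine ⟨a, ?_⟩
  by_contra hcon
  push Not at hcon
  obtain ⟨κ, hκ⟩ : ∃ κ, κ = ff ζ x (rr P a) := ⟨_, rfl⟩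
  rw [← hκ] at hcon ha
  have hb : ∀ b : V₀, ff ζ x (rr P b) / κ ∈ F₀ := fun b => hcon b ha
  obtain ⟨z, hz⟩ := rat_riesz hζ hP (fun i => (⟨_, hb (Pi.single i 1)⟩ : F₀))
  have h1 : x + κ • rr P z = 0 := by
    apply eq_zero_of_rat hζ (F₀ := F₀) (P := P)
    intro u
    have h2 : ff ζ x (rr P u) = κ * ff ζ (rr P u) (rr P z) := by
      rw [hz, expand_rr u, ff_sum_right]
      simp only [dotProduct]
      rw [AddSubmonoidClass.coe_finsetSum, Finset.mul_sum]
      refine Finset.sum_congr rfl fun i _ => ?_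
      simp only [MulMemClass.coe_mul]
      field_simp
    rw [ff_add_left, ff_smul_left, h2, ff_skew (rr P z)]
    ring
  apply hx
  refine ⟨-κ, z, ?_⟩
  rw [neg_smul]
  exact eq_neg_of_add_eq_zero_left h1

include hζ hP in
/-- A totally singular rational pair with independent values. -/
theorem exists_ts [Finite F] (hm : 3 ≤ Fintype.card (Fin m ⊕ Fin m)) {x : VV} (hx : ¬ RatPt P F₀ x) :
    ∃ u₁ u₂ : V₀, ν hP u₁ u₂ = 0 ∧ ff ζ x (rr P u₁) ≠ 0 ∧ ff ζ x (rr P u₂) / ff ζ x (rr P u₁) ∉ F₀ := by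
  classical
  obtain ⟨a, b, hA, hind⟩ := exists_ind hζ hP hx
  by_cases hg : ν hP a b = 0
  · exact ⟨a, b, hg, hA, hind⟩
  obtain ⟨A, hAdef⟩ : ∃ A, A = ff ζ x (rr P a) := ⟨_, rfl⟩
  obtain ⟨B, hBdef⟩ : ∃ B, B = ff ζ x (rr P b) := ⟨_, rfl⟩
  rw [← hAdef, ← hBdef] at hind
  rw [← hAdef] at hA
  have hB : B ≠ 0 := by
    rintro rfl
    apply hind
    rw [zero_div]
    exact F₀.zero_mem
  by_contra hcon
  push Not at hcon
  have key : ∀ c : V₀, ν hP a c = 0 → ν hP b c = 0 → ff ζ x (rr P c) = 0 := by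
    intro c h1 h2
    by_contra hc
    have h3 : ff ζ x (rr P c) / A ∈ F₀ := by
      have := hcon a c h1
      rw [← hAdef] at this
      exact this hA
    have h4 : ff ζ x (rr P c) / B ∈ F₀ := by
      have := hcon b c h2
      rw [← hBdef] at this
      exact this hB
    apply hind
    have e : B / A = (ff ζ x (rr P c) / A) / (ff ζ x (rr P c) / B) := by
      field_simp
    rw [e]
    exact div_mem h3 h4
  obtain ⟨c, hc0, hc1, hc2⟩ := Cfsg.Agent.H28.exists_common_zero (rowv hP a) (rowv hP b) hm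
  rw [rowv_dot] at hc1 hc2
  obtain ⟨d₀, hd₀⟩ := ν_one hζ hP hc0
  obtain ⟨g, hgdef⟩ : ∃ g, g = ν hP a b := ⟨_, rfl⟩
  rw [← hgdef] at hg
  have hba : ν hP b a = -g := by
    rw [ν_skew, hgdef]
  obtain ⟨d, hd⟩ : ∃ d, d = d₀ - (-(ν hP b d₀) / g) • a - (ν hP a d₀ / g) • b := ⟨_, rfl⟩
  have hsub : ∀ p q r : V₀, ν hP p (q - r) = ν hP p q - ν hP p r := by
    intro p q r
    rw [sub_eq_add_neg, ν_add_right, ← neg_one_smul F₀ r, ν_smul_right]
    ring
  have hcaa : ν hP c a = 0 := by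
    rw [ν_skew, hc1, neg_zero]
  have hcbb : ν hP c b = 0 := by
    rw [ν_skew, hc2, neg_zero]
  have hd1 : ν hP a d = 0 := by
    rw [hd, hsub, hsub, ν_smul_right, ν_smul_right, ν_self, ← hgdef]
    field_simp
    ring
  have hd2 : ν hP b d = 0 := by
    rw [hd, hsub, hsub, ν_smul_right, ν_smul_right, ν_self, hba]
    field_simp
    ring
  have hd3 : ν hP c d = 1 := by
    rw [hd, hsub, hsub, ν_smul_right, ν_smul_right, hd₀, hcaa, hcbb]
    ring
  have hLc := key c hc1 hc2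
  have hLd := key d hd1 hd2
  have h1 := hcon (a + c) (b - g • d) (by
    rw [hsub, ν_smul_right, ν_add_left, ν_add_left, ← hgdef, hcbb, hd3, hd1]
    simp) (by
    rw [rr_add, ff_add_right, hLc, add_zero, ← hAdef]
    exact hA)
  apply hind
  rw [rr_add, ff_add_right, hLc, add_zero, ← hAdef, rr_sub, ff_sub_right, rr_smul, ff_smul_right, hLd, mul_zero, sub_zero, ← hBdef] at h1
  exact h1

include hζ hP in
/-- A totally singular rational pair whose ratio has square outside the subfield. -/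
theorem exists_ts2 [Fintype F] (hm : 3 ≤ Fintype.card (Fin m ⊕ Fin m)) {x : VV} (hx : ¬ RatPt P F₀ x) :
    ∃ u₁ u₂ : V₀, ν hP u₁ u₂ = 0 ∧ ff ζ x (rr P u₁) ≠ 0 ∧
      (ff ζ x (rr P u₂) / ff ζ x (rr P u₁)) * (ff ζ x (rr P u₂) / ff ζ x (rr P u₁)) ∉ F₀ := by
  obtain ⟨u₁, u₂, h1, h2, h3⟩ := exists_ts hζ hP hm hx
  obtain ⟨θ, hθ⟩ : ∃ θ, θ = ff ζ x (rr P u₂) / ff ζ x (rr P u₁) := ⟨_, rfl⟩
  rw [← hθ] at h3
  by_cases h4 : θ * θ ∈ F₀
  · refine ⟨u₁, u₁ + u₂, ?_, h2, ?_⟩
    · rw [ν_add_right, ν_self, h1, add_zero]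
    · have e : ff ζ x (rr P (u₁ + u₂)) / ff ζ x (rr P u₁) = 1 + θ := by
        rw [rr_add, ff_add_right, hθ]
        field_simp
      rw [e]
      intro h5
      have h6 : 2 * θ ∈ F₀ := by
        have e2 : 2 * θ = (1 + θ) * (1 + θ) - 1 - θ * θ := by ring
        rw [e2]
        exact sub_mem (sub_mem h5 F₀.one_mem) h4
      by_cases h7 : (2 : F) = 0
      · -- characteristic two
        haveI : CharP F 2 := CharTwo.of_one_ne_zero_of_two_eq_zero one_ne_zero h7
        obtain ⟨n, hp, hn⟩ := FiniteField.card F 2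
        obtain ⟨k, hk⟩ : ∃ k, (n : ℕ) = k + 1 := ⟨n - 1, by have := n.pos; omega⟩
        have h8 := FiniteField.pow_card θ
        rw [hn, hk, pow_succ 2 k, mul_comm, pow_mul, sq] at h8
        rw [← h8] at h3
        exact h3 (pow_mem h4 _)
      · apply h3
        have h2mem : (2 : F) ∈ F₀ := by
          have : (2 : F) = 1 + 1 := by norm_num
          rw [this]
          exact add_mem F₀.one_mem F₀.one_mem
        have e3 : θ = (2 * θ) / 2 := by
          field_simp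
        rw [e3]
        exact div_mem h6 h2mem
  · refine ⟨u₁, u₂, h1, h2, ?_⟩
    rwa [← hθ]

end rational

end Cfsg.Agent.H27.SQ
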