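import Mathlib
import Cfsg.Agent.Lib.H27.GeoSQ

/-!
# Subfield subgroups of symplectic groups: from a non-rational point to a non-rational isotropic vector
-/

set_option autoImplicit false
set_option linter.unusedSectionVars false
set_option linter.unusedSimpArgs false
set_option linter.unusedVariables false
set_option linter.style.haveILetI false

namespace Cfsg.Agent.H27.SQ

open scoped Matrix MatrixGroups
open Cfsg Cfsg.Geo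
open Cfsg.Agent.H14 (e00 e01 e10 e11)
open Cfsg.Agent.Lead.DicksonSL (xE yE e00_xE e01_xE e10_xE e11_xE e00_yE e01_yE e10_yE e11_yE)
open Cfsg.Agent.H27.RS (rr co lift inv_rr rr_add rr_sub rr_neg rr_smul rr_zero rr_inj rr_ne_zero lift_mem lift_rr lift_det RatPt)
open Cfsg.Agent.H27.TC (inv_act act_inv planeR)

variable {m : ℕ} {F : Type*} [Field F] {F₀ : Subfield F} {P : GL (Fin m ⊕ Fin m) F} {ζ : F}

local notation "VV" => (Fin m ⊕ Fin m → F)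
local notation "GG" => GL (Fin m ⊕ Fin m) F
local notation "MM" => Matrix (Fin m ⊕ Fin m) (Fin m ⊕ Fin m) F
local notation "V₀" => (Fin m ⊕ Fin m → F₀)

lemma τ_of_conj {M : Subgroup GG} (hMs : M ≤ spGL m F) {y : GG} (hy : y ∈ M) {z : VV} {c : F} (h : τ ζ z c ∈ M) :
    τ ζ ((y : MM) *ᵥ z) c ∈ M := by
  rw [← τ_conj (hMs hy)]
  exact M.mul_mem (M.mul_mem hy h) (M.inv_mem hy)

/-- The monomials of a pair are all in the subfield. -/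
def Bad (F₀ : Subfield F) (p q : F) : Prop := p * p ∈ F₀ ∧ p * q ∈ F₀ ∧ q * q ∈ F₀

lemma Bad.det_sq {p q p' q' : F} (h : Bad F₀ p q) (h' : Bad F₀ p' q') : (p * q' - q * p') * (p * q' - q * p') ∈ F₀ := by
  have e : (p * q' - q * p') * (p * q' - q * p') = (p * p) * (q' * q') - (p * q) * (p' * q') - (p * q) * (p' * q') + (q * q) * (p' * p') := by
    ring
  rw [e]
  exact add_mem (sub_mem (sub_mem (mul_mem h.1 h'.2.2) (mul_mem h.2.1 h'.2.1)) (mul_mem h.2.1 h'.2.1)) (mul_mem h.2.2 h'.1)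

section main

variable [Fintype F] {r : ℕ} (hr : r.Prime) (hcard : Fintype.card F = Nat.card F₀ ^ r) (hζ : ζ ≠ 0)
  (hP : IsFormRationalStructure (Cfsg.sympForm m F) F₀ ζ P) {M : Subgroup (GL (Fin m ⊕ Fin m) F)} (hMs : M ≤ spGL m F)
  (hH : subfieldSubgroup F₀ P ⊓ spGL m F ≤ M)

include hr hcard hP hMs hH in
/-- Using the analysis of subgroups of `SL₂`. -/
theorem exists_nonbad {x : VV} (hx : ∀ c ∈ F₀, τ ζ x c ∈ M) {u₁ u₂ : V₀} (hν : ν hP u₁ u₂ = 0)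
    (hβ : ff ζ x (rr P u₁) ≠ 0)
    (hθ : (ff ζ x (rr P u₂) / ff ζ x (rr P u₁)) * (ff ζ x (rr P u₂) / ff ζ x (rr P u₁)) ∉ F₀) :
    ∃ γ₁ γ₂ : F, (∀ c ∈ F₀, τ ζ (γ₁ • rr P u₁ + γ₂ • rr P u₂) c ∈ M) ∧ ¬ Bad F₀ γ₁ γ₂ := by
  obtain ⟨w, hw⟩ : ∃ w, w = rr P u₁ := ⟨_, rfl⟩
  obtain ⟨w', hw'⟩ : ∃ w', w' = rr P u₂ := ⟨_, rfl⟩
  obtain ⟨β₁, hβ₁⟩ : ∃ b, b = ff ζ x w := ⟨_, rfl⟩
  obtain ⟨β₂, hβ₂⟩ : ∃ b, b = ff ζ x w' := ⟨_, rfl⟩
  rw [← hw, ← hw', ← hβ₁, ← hβ₂] at hθ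
  rw [← hw, ← hw']
  rw [← hw, ← hβ₁] at hβ
  obtain ⟨θ, hθdef⟩ : ∃ θ, θ = β₂ / β₁ := ⟨_, rfl⟩
  rw [← hθdef] at hθ
  have hww : ff ζ w w = 0 := ff_self _
  have hw'w' : ff ζ w' w' = 0 := ff_self _
  have hww' : ff ζ w w' = 0 := by
    have := congrArg Subtype.val hν
    simpa [← hw, ← hw'] using this
  have hw'w : ff ζ w' w = 0 := by
    rw [ff_skew, hww', neg_zero]
  obtain ⟨r₀, hr₀⟩ : ∃ r₀, r₀ = β₂ • w - β₁ • w' := ⟨_, rfl⟩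
  have hxr : ff ζ x r₀ = 0 := by
    rw [hr₀, ff_sub_right, ff_smul_right, ff_smul_right, ← hβ₁, ← hβ₂]
    ring
  have hrx : ff ζ r₀ x = 0 := by
    rw [ff_skew, hxr, neg_zero]
  have hrw : ff ζ r₀ w = 0 := by
    rw [hr₀, ff_sub_left, ff_smul_left, ff_smul_left, hww, hw'w]
    ring
  have hrw' : ff ζ r₀ w' = 0 := by
    rw [hr₀, ff_sub_left, ff_smul_left, ff_smul_left, hww', hw'w']
    ring
  have hxw' : ∀ c : F, c • w' = (c * θ) • w + (-(c * β₁⁻¹)) • r₀ := by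
    intro c
    rw [hr₀, hθdef]
    ext i
    simp only [Pi.add_apply, Pi.smul_apply, Pi.sub_apply, smul_eq_mul]
    field_simp
    ring
  have h1 : ∀ f ∈ F₀, xE (f * β₁) ∈ planeR M w x r₀ := by
    intro f hf
    refine ⟨τ ζ w f, hw ▸ τ_rat hP hH u₁ hf, fun v => ⟨f * ff ζ v w, 0, 0, ?_⟩, ?_, ⟨0, ?_⟩, ⟨0, ?_⟩⟩
    · rw [τ_act]
      simp
    · rw [τ_act, hrw]
      simp
    · rw [τ_act, hww, e00_xE, e10_xE]
      simp
    · rw [τ_act, ← hβ₁, e01_xE, e11_xE]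
      simp [add_comm]
  have h2 : ∀ f ∈ F₀, xE (f * (θ * θ * β₁)) ∈ planeR M w x r₀ := by
    intro f hf
    refine ⟨τ ζ w' f, hw' ▸ τ_rat hP hH u₂ hf, fun v => ⟨f * ff ζ v w' * θ, 0, -(f * ff ζ v w' * β₁⁻¹), ?_⟩, ?_, ⟨0, ?_⟩, ⟨-(f * β₂ * β₁⁻¹), ?_⟩⟩
    · rw [τ_act, hxw']
      simp only [zero_smul, add_zero, add_assoc]
    · rw [τ_act, hrw']
      simp
    · rw [τ_act, hww', e00_xE, e10_xE]
      simp
    · rw [τ_act, ← hβ₂, hxw', e01_xE, e11_xE]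
      have e : f * β₂ * θ = f * (θ * θ * β₁) := by
        rw [hθdef]
        field_simp
      rw [e]
      simp only [one_smul]
      abel
  have h3 : yE (-β₁) ∈ planeR M w x r₀ := by
    have h0 : τ ζ x 1 ∈ M := hx 1 F₀.one_mem
    refine ⟨τ ζ x 1, h0, fun v => ⟨0, 1 * ff ζ v x, 0, ?_⟩, ?_, ⟨0, ?_⟩, ⟨0, ?_⟩⟩
    · rw [τ_act]
      simp
    · rw [τ_act, hrx]
      simp
    · rw [τ_act, e00_yE, e10_yE, ff_skew, ← hβ₁]
      simp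
    · rw [τ_act, ff_self, e01_yE, e11_yE]
      simp
  have hlift : ∀ a : F, a ≠ 0 → ∃ y ∈ M, (y : MM) *ᵥ r₀ = r₀ ∧ ∃ t : F, (y : MM) *ᵥ x = a • w + t • r₀ := by
    intro a ha
    obtain ⟨s, hs, h00, h01, h10, h11⟩ := Cfsg.Agent.H27.TC.exists_weyl hr hcard hβ (a₂ := θ * θ * β₁)
      (by
        have e : θ * θ * β₁ / β₁ = θ * θ := by field_simp
        rwa [e]) h1 h2 (neg_ne_zero.2 hβ) h3 ha
    obtain ⟨y, hy, -, h0, -, ⟨t, ht⟩⟩ := hs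
    refine ⟨y, hy, h0, t, ?_⟩
    rw [ht, h01, h11]
    simp
  have hθ0 : θ ≠ 0 := by
    rintro rfl
    apply hθ
    rw [zero_mul]
    exact F₀.zero_mem
  obtain ⟨y₁, hy₁, hy₁r, t₁, hy₁x⟩ := hlift 1 one_ne_zero
  obtain ⟨y₂, hy₂, hy₂r, t₂, hy₂x⟩ := hlift θ hθ0
  rw [one_smul] at hy₁x
  have hT₁ : ∀ c ∈ F₀, τ ζ (w + t₁ • r₀) c ∈ M := by
    intro c hc
    rw [← hy₁x]
    exact τ_of_conj hMs hy₁ (hx c hc)
  have hT₂ : ∀ c ∈ F₀, τ ζ (θ • w + t₂ • r₀) c ∈ M := by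
    intro c hc
    rw [← hy₂x]
    exact τ_of_conj hMs hy₂ (hx c hc)
  have hyinv : ((y₁⁻¹ : GG) : MM) *ᵥ r₀ = r₀ := by
    have h5 := inv_act y₁ r₀
    rwa [hy₁r] at h5
  obtain ⟨κ, hκ⟩ : ∃ κ, κ = t₂ - θ * t₁ := ⟨_, rfl⟩
  have hy3 : ((y₂ * y₁⁻¹ : GG) : MM) *ᵥ (θ • w + t₂ • r₀) = θ • (θ • w + t₂ • r₀) + κ • r₀ := by
    have e1 : θ • w + t₂ • r₀ = θ • (w + t₁ • r₀) + κ • r₀ := by
      rw [hκ]
      ext i
      simp only [Pi.add_apply, Pi.smul_apply, smul_eq_mul]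
      ring
    rw [Units.val_mul, ← Matrix.mulVec_mulVec]
    conv_lhs => rw [e1]
    rw [Matrix.mulVec_add, Matrix.mulVec_smul, Matrix.mulVec_smul, ← hy₁x, inv_act, hyinv, Matrix.mulVec_add, Matrix.mulVec_smul,
      Matrix.mulVec_smul, hy₂x, hy₂r]
  have hT₃ : ∀ c ∈ F₀, τ ζ (θ • (θ • w + t₂ • r₀) + κ • r₀) c ∈ M := by
    intro c hc
    rw [← hy3]
    exact τ_of_conj hMs (M.mul_mem hy₂ (M.inv_mem hy₁)) (hT₂ c hc)
  by_contra hcon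
  push Not at hcon
  have hcoord : ∀ A B : F, A • w + B • r₀ = (A + B * β₂) • w + (-(B * β₁)) • w' := by
    intro A B
    rw [hr₀]
    ext i
    simp only [Pi.add_apply, Pi.smul_apply, Pi.sub_apply, smul_eq_mul]
    ring
  have hB₁ : Bad F₀ (1 + t₁ * β₂) (-(t₁ * β₁)) := by
    apply hcon
    intro c hc
    have e : (1 + t₁ * β₂) • w + (-(t₁ * β₁)) • w' = w + t₁ • r₀ := by
      rw [← hcoord, one_smul]
    rw [e]
    exact hT₁ c hc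
  have hB₂ : Bad F₀ (θ + t₂ * β₂) (-(t₂ * β₁)) := by
    apply hcon
    intro c hc
    rw [← hcoord]
    exact hT₂ c hc
  have hB₃ : Bad F₀ (θ * θ + (θ * t₂ + κ) * β₂) (-((θ * t₂ + κ) * β₁)) := by
    apply hcon
    intro c hc
    rw [← hcoord]
    have e : θ • (θ • w + t₂ • r₀) + κ • r₀ = (θ * θ) • w + (θ * t₂ + κ) • r₀ := by
      ext i
      simp only [Pi.add_apply, Pi.smul_apply, smul_eq_mul]
      ring
    rw [← e]
    exact hT₃ c hc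
  have hD₁ := hB₁.det_sq hB₂
  have hD₂ := hB₂.det_sq hB₃
  have eD₁ : (1 + t₁ * β₂) * (-(t₂ * β₁)) - (-(t₁ * β₁)) * (θ + t₂ * β₂) = - (β₁ * κ) := by
    rw [hκ]
    ring
  have eD₂ : (θ + t₂ * β₂) * (-((θ * t₂ + κ) * β₁)) - (-(t₂ * β₁)) * (θ * θ + (θ * t₂ + κ) * β₂) = - (κ * β₁ * θ) := by
    ring
  rw [eD₁] at hD₁
  rw [eD₂] at hD₂
  by_cases hκ0 : κ = 0
  · have ht : t₂ = θ * t₁ := by
      rw [hκ0] at hκ
      linear_combination - hκ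
    rw [ht] at hB₂
    have hnz : (1 + t₁ * β₂) ≠ 0 ∨ (-(t₁ * β₁)) ≠ 0 := by
      by_contra h0
      push Not at h0
      obtain ⟨h5, h6⟩ := h0
      have h7 : β₁ = β₁ * (1 + t₁ * β₂) + β₂ * (-(t₁ * β₁)) := by ring
      rw [h5, h6] at h7
      apply hβ
      rw [h7]
      ring
    apply hθ
    rcases hnz with h5 | h5
    · have e : θ * θ = ((θ + θ * t₁ * β₂) * (θ + θ * t₁ * β₂)) / ((1 + t₁ * β₂) * (1 + t₁ * β₂)) := by
        field_simp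
      rw [e]
      exact div_mem hB₂.1 hB₁.1
    · have e : θ * θ = ((-(θ * t₁ * β₁)) * (-(θ * t₁ * β₁))) / ((-(t₁ * β₁)) * (-(t₁ * β₁))) := by
        have h6 : t₁ * β₁ ≠ 0 := by
          intro h0
          apply h5
          rw [h0, neg_zero]
        have h7 : t₁ ≠ 0 := left_ne_zero_of_mul h6
        field_simp
      rw [e]
      exact div_mem hB₂.2.2 hB₁.2.2
  · apply hθ
    have h5 : β₁ * κ ≠ 0 := mul_ne_zero hβ hκ0
    have e : θ * θ = ((-(κ * β₁ * θ)) * (-(κ * β₁ * θ))) / ((-(β₁ * κ)) * (-(β₁ * κ))) := by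
      field_simp
    rw [e]
    exact div_mem hD₂ hD₁

end main

end Cfsg.Agent.H27.SQ
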