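import Mathlib
import Cfsg.Agent.Lib.H27.GeoSQ2

/-!
# Subfield subgroups of symplectic groups: Siegel elements on a rational totally isotropic `3`-space
-/

set_option autoImplicit false
set_option linter.unusedSectionVars false
set_option linter.unusedSimpArgs false
set_option linter.unusedVariables false
set_option linter.style.haveILetI false

namespace Cfsg.Agent.H27.SQ

open scoped Matrix MatrixGroups
open Cfsg Cfsg.Geo
open Cfsg.Agent.H27.RS (rr co lift inv_rr rr_add rr_sub rr_neg rr_smul rr_zero rr_inj rr_ne_zero lift_mem lift_rr lift_det RatPt)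
open Cfsg.Agent.H27.TC (inv_act act_inv)

variable {m : ℕ} {F : Type*} [Field F] {F₀ : Subfield F} {P : GL (Fin m ⊕ Fin m) F} {ζ : F}

local notation "VV" => (Fin m ⊕ Fin m → F)
local notation "GG" => GL (Fin m ⊕ Fin m) F
local notation "MM" => Matrix (Fin m ⊕ Fin m) (Fin m ⊕ Fin m) F
local notation "V₀" => (Fin m ⊕ Fin m → F₀)

/-- The product of three transvections acting as a Siegel element. -/
lemma E_act {p q : VV} (hpq : ff ζ p q = 0) (κ : F) (v : VV) :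
    ((τ ζ (p + q) κ * τ ζ p (-κ) * τ ζ q (-κ) : GG) : MM) *ᵥ v = v + (κ * ff ζ v p) • q + (κ * ff ζ v q) • p := by
  have hqp : ff ζ q p = 0 := by rw [ff_skew, hpq, neg_zero]
  rw [Units.val_mul, Units.val_mul, ← Matrix.mulVec_mulVec, ← Matrix.mulVec_mulVec, τ_act, τ_act, τ_act]
  simp only [ff_add_left, ff_add_right, ff_smul_left, ff_smul_right, ff_self, hpq, hqp, mul_zero, add_zero, zero_add]
  ext i
  simp only [Pi.add_apply, Pi.smul_apply, smul_eq_mul]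
  ring

lemma sum_id (G C : Matrix (Fin 3) (Fin 3) F) (A : Fin 3 → F) (U : Fin 3 → VV) :
    ∑ i, ∑ j, (C i j * (∑ l, G l i * A l)) • (∑ q, G q j • U q) = ∑ p, ∑ q, ((G * C * G.transpose) p q * A p) • U q := by
  ext k
  simp only [Fin.sum_univ_three, Finset.sum_apply, Pi.add_apply, Pi.smul_apply, smul_eq_mul, Matrix.mul_apply, Matrix.transpose_apply]
  ring

/-- The Siegel element with matrix `C` lies in `M`. -/
def CC (M : Subgroup (GL (Fin m ⊕ Fin m) F)) (ζ : F) (U : Fin 3 → Fin m ⊕ Fin m → F) (C : Matrix (Fin 3) (Fin 3) F) : Prop :=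
  ∃ t ∈ M, ∀ v, ((t : GL (Fin m ⊕ Fin m) F) : Matrix (Fin m ⊕ Fin m) (Fin m ⊕ Fin m) F) *ᵥ v = v + ∑ i, ∑ j, (C i j * ff ζ v (U i)) • U j

section Siegel

variable {M : Subgroup (GL (Fin m ⊕ Fin m) F)} {U : Fin 3 → Fin m ⊕ Fin m → F} {C C' : Matrix (Fin 3) (Fin 3) F}

lemma ff_sum_U (hU : ∀ i j, ff ζ (U i) (U j) = 0) (C : Matrix (Fin 3) (Fin 3) F) (v : VV) (k : Fin 3) :
    ff ζ (∑ i, ∑ j, (C i j * ff ζ v (U i)) • U j) (U k) = 0 := by
  simp only [Fin.sum_univ_three, ff_add_left, ff_smul_left, hU, mul_zero, add_zero]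

lemma CC.add (hU : ∀ i j, ff ζ (U i) (U j) = 0) (h : CC M ζ U C) (h' : CC M ζ U C') : CC M ζ U (C + C') := by
  obtain ⟨t, ht, ha⟩ := h
  obtain ⟨t', ht', ha'⟩ := h'
  refine ⟨t * t', M.mul_mem ht ht', fun v => ?_⟩
  rw [Units.val_mul, ← Matrix.mulVec_mulVec, ha', ha]
  have e : ∀ i, ff ζ (v + ∑ i, ∑ j, (C' i j * ff ζ v (U i)) • U j) (U i) = ff ζ v (U i) := by
    intro i
    rw [ff_add_left, ff_sum_U hU, add_zero]
  simp only [e, Matrix.add_apply, add_mul, add_smul, Finset.sum_add_distrib]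
  abel

lemma CC.neg (hU : ∀ i j, ff ζ (U i) (U j) = 0) (h : CC M ζ U C) : CC M ζ U (-C) := by
  obtain ⟨t, ht, ha⟩ := h
  refine ⟨t⁻¹, M.inv_mem ht, fun v => ?_⟩
  have h1 : ((t : GG) : MM) *ᵥ (v + ∑ i, ∑ j, ((-C) i j * ff ζ v (U i)) • U j) = v := by
    rw [ha]
    have e : ∀ i, ff ζ (v + ∑ i, ∑ j, ((-C) i j * ff ζ v (U i)) • U j) (U i) = ff ζ v (U i) := by
      intro i
      rw [ff_add_left, ff_sum_U hU, add_zero]
    simp only [e]
    simp only [Matrix.neg_apply, neg_mul, neg_smul, Finset.sum_neg_distrib]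
    abel
  have h2 := inv_act t (v + ∑ i, ∑ j, ((-C) i j * ff ζ v (U i)) • U j)
  rw [h1] at h2
  exact h2

lemma CC.sub (hU : ∀ i j, ff ζ (U i) (U j) = 0) (h : CC M ζ U C) (h' : CC M ζ U C') : CC M ζ U (C - C') := by
  rw [sub_eq_add_neg]
  exact h.add hU (h'.neg hU)

lemma CC.conj (h : CC M ζ U C) {g : GG} (hg : g ∈ M) (hgs : g ∈ spGL m F) {G : Matrix (Fin 3) (Fin 3) F}
    (hG : ∀ k, (g : MM) *ᵥ U k = ∑ l, G l k • U l) : CC M ζ U (G * C * G.transpose) := by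
  obtain ⟨t, ht, ha⟩ := h
  refine ⟨g * t * g⁻¹, M.mul_mem (M.mul_mem hg ht) (M.inv_mem hg), fun v => ?_⟩
  rw [Units.val_mul, Units.val_mul, ← Matrix.mulVec_mulVec, ← Matrix.mulVec_mulVec, ha, Matrix.mulVec_add, act_inv]
  congr 1
  have hff : ∀ (a : Fin 3 → F), ff ζ v (∑ l, a l • U l) = ∑ l, a l * ff ζ v (U l) := by
    intro a
    simp only [Fin.sum_univ_three, ff_add_right, ff_smul_right]
  simp only [Matrix.mulVec_sum, Matrix.mulVec_smul, ff_inv g hgs, hG, hff]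
  exact sum_id G C (fun p => ff ζ v (U p)) U

end Siegel

/-- Elementary matrices. -/
def Gm (i j : Fin 3) (κ : F) : Matrix (Fin 3) (Fin 3) F := 1 + Matrix.single i j κ

section elem

variable [Finite F] (hζ : ζ ≠ 0) (hP : IsFormRationalStructure (Cfsg.sympForm m F) F₀ ζ P) {M : Subgroup (GL (Fin m ⊕ Fin m) F)} (hMs : M ≤ spGL m F)
  (hH : subfieldSubgroup F₀ P ⊓ spGL m F ≤ M) {u a : Fin 3 → Fin m ⊕ Fin m → F₀}
  (hu : ∀ i j, ν hP (u i) (u j) = 0) (ha : ∀ k j, ν hP (u k) (a j) = if k = j then 1 else 0)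

include hP hMs hH hu ha in
lemma CC_elem {C : Matrix (Fin 3) (Fin 3) F} (h : CC M ζ (fun i => rr P (u i)) C) {i j : Fin 3} (hij : i ≠ j) {κ : F} (hκ : κ ∈ F₀) :
    CC M ζ (fun i => rr P (u i)) (Gm i j κ * C * (Gm i j κ).transpose) := by
  have hmem : ∀ (p : Fin m ⊕ Fin m → F₀) {c : F}, c ∈ F₀ → τ ζ (rr P p) c ∈ M := fun p c hc => τ_rat hP hH p hc
  have hg : τ ζ (rr P (u i) + rr P (a j)) κ * τ ζ (rr P (u i)) (-κ) * τ ζ (rr P (a j)) (-κ) ∈ M := by
    refine M.mul_mem (M.mul_mem ?_ (hmem _ (neg_mem hκ))) (hmem _ (neg_mem hκ))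
    rw [← rr_add]
    exact hmem _ hκ
  have hν : ff ζ (rr P (u i)) (rr P (a j)) = 0 := by
    have := congrArg Subtype.val (ha i j)
    rw [if_neg hij] at this
    simpa using this
  refine h.conj hg (hMs hg) fun k => ?_
  rw [E_act hν]
  have h1 : ff ζ (rr P (u k)) (rr P (u i)) = 0 := by
    have := congrArg Subtype.val (hu k i)
    simpa using this
  have h2 : ff ζ (rr P (u k)) (rr P (a j)) = if k = j then 1 else 0 := by
    have := congrArg Subtype.val (ha k j)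
    rw [ν_coe] at this
    rw [this]
    split_ifs <;> simp
  rw [h1, h2]
  simp only [Gm, Fin.sum_univ_three, Matrix.add_apply, Matrix.one_apply, Matrix.single_apply]
  fin_cases i <;> fin_cases j <;> fin_cases k <;> simp at hij ⊢ <;> simp [add_comm]

/-- The matrices occurring in the reduction. -/
def EE (x y w : F) : Matrix (Fin 3) (Fin 3) F := !![0, 0, x; 0, 0, y; x, y, w]

lemma EE_step1 (x y w : F) : Gm 0 1 1 * EE x y w * (Gm 0 1 1).transpose - EE x y w = EE y 0 0 := by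
  ext i j
  fin_cases i <;> fin_cases j <;>
    simp [Gm, EE, Matrix.mul_apply, Matrix.one_apply, Matrix.single_apply, Fin.sum_univ_three, Matrix.transpose_apply]

lemma EE_step2 (x y w : F) : Gm 1 0 1 * EE x y w * (Gm 1 0 1).transpose - EE x y w = EE 0 x 0 := by
  ext i j
  fin_cases i <;> fin_cases j <;>
    simp [Gm, EE, Matrix.mul_apply, Matrix.one_apply, Matrix.single_apply, Fin.sum_univ_three, Matrix.transpose_apply]

lemma EE_split (x y w : F) : EE x y w - EE 0 y 0 - EE x 0 0 = Matrix.single 2 2 w := by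
  ext i j
  fin_cases i <;> fin_cases j <;> simp [EE, Matrix.single_apply]

/-- The initial matrix. -/
def C0 (f γ₁ γ₂ : F) : Matrix (Fin 3) (Fin 3) F := !![f * γ₁ * γ₁, f * γ₁ * γ₂, 0; f * γ₂ * γ₁, f * γ₂ * γ₂, 0; 0, 0, 0]

lemma C0_step (f γ₁ γ₂ g₁ g₂ : F) :
    Gm 2 1 g₂ * (Gm 2 0 g₁ * C0 f γ₁ γ₂ * (Gm 2 0 g₁).transpose) * (Gm 2 1 g₂).transpose - C0 f γ₁ γ₂ =
      EE (f * γ₁ * (g₁ * γ₁ + g₂ * γ₂)) (f * γ₂ * (g₁ * γ₁ + g₂ * γ₂)) (f * ((g₁ * γ₁ + g₂ * γ₂) * (g₁ * γ₁ + g₂ * γ₂))) := by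
  ext i j
  fin_cases i <;> fin_cases j <;>
    simp [Gm, EE, C0, Matrix.mul_apply, Matrix.one_apply, Matrix.single_apply, Fin.sum_univ_three, Matrix.transpose_apply] <;> ring

include hP hMs hH hu ha in
/-- From an isotropic vector in the span of two rational vectors to a rational transvection with new coefficient. -/
theorem rank1 {γ₁ γ₂ g₁ g₂ f : F} (hz : τ ζ (γ₁ • rr P (u 0) + γ₂ • rr P (u 1)) f ∈ M) (hg₁ : g₁ ∈ F₀) (hg₂ : g₂ ∈ F₀) :
    τ ζ (rr P (u 2)) (f * ((g₁ * γ₁ + g₂ * γ₂) * (g₁ * γ₁ + g₂ * γ₂))) ∈ M := by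
  have hU : ∀ i j, ff ζ (rr P (u i)) (rr P (u j)) = 0 := by
    intro i j
    have := congrArg Subtype.val (hu i j)
    simpa using this
  have h0 : CC M ζ (fun i => rr P (u i)) (C0 f γ₁ γ₂) := by
    refine ⟨_, hz, fun v => ?_⟩
    rw [τ_act, ff_add_right, ff_smul_right, ff_smul_right]
    congr 1
    simp only [C0, Fin.sum_univ_three]
    simp
    ext k
    simp only [Pi.add_apply, Pi.smul_apply, smul_eq_mul]
    ring
  have h01 : (2 : Fin 3) ≠ 0 := by decide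
  have h21 : (2 : Fin 3) ≠ 1 := by decide
  have h1 : CC M ζ (fun i => rr P (u i)) _ := (CC_elem hP hMs hH hu ha (CC_elem hP hMs hH hu ha h0 h01 hg₁) h21 hg₂).sub hU h0
  rw [C0_step] at h1
  have hstep1 : ∀ x y w : F, CC M ζ (fun i => rr P (u i)) (EE x y w) → CC M ζ (fun i => rr P (u i)) (EE y 0 0) := by
    intro x y w h
    have := (CC_elem hP hMs hH hu ha h (by decide : (0 : Fin 3) ≠ 1) F₀.one_mem).sub hU h
    rwa [EE_step1] at this
  have hstep2 : ∀ x y w : F, CC M ζ (fun i => rr P (u i)) (EE x y w) → CC M ζ (fun i => rr P (u i)) (EE 0 x 0) := by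
    intro x y w h
    have := (CC_elem hP hMs hH hu ha h (by decide : (1 : Fin 3) ≠ 0) F₀.one_mem).sub hU h
    rwa [EE_step2] at this
  have h2 := hstep2 _ _ _ (hstep1 _ _ _ h1)
  have h3 := hstep1 _ _ _ (hstep2 _ _ _ h1)
  have h4 := (h1.sub hU h2).sub hU h3
  rw [EE_split] at h4
  obtain ⟨t, ht, hta⟩ := h4
  convert ht using 1
  apply Cfsg.Agent.H27.GO.gl_ext
  intro v
  rw [τ_act, hta]
  congr 1
  simp [Fin.sum_univ_three, Matrix.single_apply]

end elem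

/-- In characteristic two, a square root of an element of a subfield lies in the subfield. -/
lemma mem_of_sq_two [Fintype F] (h2 : (2 : F) = 0) {x : F} (h : x * x ∈ F₀) : x ∈ F₀ := by
  haveI : CharP F 2 := CharTwo.of_one_ne_zero_of_two_eq_zero one_ne_zero h2
  obtain ⟨n, hp, hn⟩ := FiniteField.card F 2
  obtain ⟨k, hk⟩ : ∃ k, (n : ℕ) = k + 1 := ⟨n - 1, by have := n.pos; omega⟩
  have h8 := FiniteField.pow_card x
  rw [hn, hk, pow_succ 2 k, mul_comm, pow_mul, sq] at h8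
  rw [← h8]
  exact pow_mem h _

/-- A non-bad pair has a rational combination with square outside the subfield. -/
lemma exists_l [Fintype F] {γ₁ γ₂ : F} (h : ¬ Bad F₀ γ₁ γ₂) :
    ∃ g₁ ∈ F₀, ∃ g₂ ∈ F₀, (g₁ * γ₁ + g₂ * γ₂) * (g₁ * γ₁ + g₂ * γ₂) ∉ F₀ := by
  by_contra hcon
  push Not at hcon
  apply h
  have h1 : γ₁ * γ₁ ∈ F₀ := by
    have := hcon 1 F₀.one_mem 0 F₀.zero_mem
    simpa using this
  have h2 : γ₂ * γ₂ ∈ F₀ := by
    have := hcon 0 F₀.zero_mem 1 F₀.one_mem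
    simpa using this
  have h3 : (γ₁ + γ₂) * (γ₁ + γ₂) ∈ F₀ := by
    have := hcon 1 F₀.one_mem 1 F₀.one_mem
    simpa using this
  refine ⟨h1, ?_, h2⟩
  by_cases h4 : (2 : F) = 0
  · apply mem_of_sq_two h4
    have e : γ₁ * γ₂ * (γ₁ * γ₂) = (γ₁ * γ₁) * (γ₂ * γ₂) := by ring
    rw [e]
    exact mul_mem h1 h2
  · have h2mem : (2 : F) ∈ F₀ := by
      have : (2 : F) = 1 + 1 := by norm_num
      rw [this]
      exact add_mem F₀.one_mem F₀.one_mem
    have e : γ₁ * γ₂ = ((γ₁ + γ₂) * (γ₁ + γ₂) - γ₁ * γ₁ - γ₂ * γ₂) / 2 := by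
      field_simp
      ring
    rw [e]
    exact div_mem (sub_mem (sub_mem h3 h1) h2) h2mem

end Cfsg.Agent.H27.SQ
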