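import Mathlib
import Cfsg.Prelude.Def_GeometricClasses
import Cfsg.Agent.Lib.H27.GeoOS5
import Cfsg.Agent.Lib.H27.GeoSQ3

/-!
# Rational structures for quadratic forms: a non-rational coefficient on a rational line
-/

set_option autoImplicit false
set_option linter.unusedSectionVars false
set_option linter.unusedSimpArgs false
set_option linter.unusedVariables false

namespace Cfsg.Agent.H27.OS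

open scoped Matrix MatrixGroups
open Cfsg Cfsg.Geo
open Cfsg.Agent.H27.RS (rr rr_add rr_sub rr_neg rr_smul rr_zero rr_inj rr_ne_zero mem_of_rat RatPt co)
open Cfsg.Agent.H27.GO

variable {ι : Type} [Fintype ι] [DecidableEq ι] {F : Type*} [Field F] {Q : (ι → F) → F} {F₀ : Subfield F} {P : GL ι F}

theorem exists_rho [Fintype F] {F₀ : Subfield F} {p' : F} (hp' : p' ∉ F₀) : ∃ ρ : F, ρ ^ 2 ∉ F₀ := by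
  by_cases h1 : p' ^ 2 ∈ F₀
  · by_cases h2 : (2 : F) = 0
    · exact absurd (Cfsg.Agent.H27.SQ.mem_of_sq_two h2 (by rwa [← sq])) hp'
    · refine ⟨1 + p', fun h3 => hp' ?_⟩
      have h4 : 2 * p' = (1 + p') ^ 2 - 1 - p' ^ 2 := by ring
      have h5 : 2 * p' ∈ F₀ := by
        rw [h4]
        exact sub_mem (sub_mem h3 (one_mem _)) h1
      have h6 : (2 : F) ∈ F₀ := by
        have : (2 : F) = 1 + 1 := by norm_num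
        rw [this]
        exact add_mem (one_mem _) (one_mem _)
      have h7 : p' = (2 : F)⁻¹ * (2 * p') := by
        field_simp
      rw [h7]
      exact mul_mem (inv_mem h6) h5
  · exact ⟨p', h1⟩

theorem exists_coeff [Fintype F] [Fintype F₀] (hQ : IsNondegenerateQuadraticForm Q) (hP : RatQ Q F₀ P) {r : ℕ} (hr : r.Prime)
    (hcard : Fintype.card F = Nat.card F₀ ^ r) {M : Subgroup (GL ι F)} (hMO : M ≤ isometryGroup F Q)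
    (hrat : ∀ a d : ι → F₀, Q0 hP a = 0 → Q0 hP d = 0 → pl (Q0 hP) a d = 0 → RI Q M (rr P a) (rr P d))
    {x y : ι → F} (hx : Q x = 0) (hy : Q y = 0) (hxy : pl Q x y = 0) (hR : RI Q M x y)
    {u₁ u₂ u₃ : ι → F₀} (hu₁0 : u₁ ≠ 0) (hQ₁ : Q0 hP u₁ = 0) (hQ₂ : Q0 hP u₂ = 0) (hQ₃ : Q0 hP u₃ = 0)
    (h21₀ : pl (Q0 hP) u₂ u₁ = 0) (h31₀ : pl (Q0 hP) u₃ u₁ = 0) (h32₀ : pl (Q0 hP) u₃ u₂ = 0)
    (hφ2 : pl Q (zz Q x y (rr P u₁)) (rr P u₂) ≠ 0)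
    (hφ3 : pl Q (zz Q x y (rr P u₁)) (rr P u₃) / pl Q (zz Q x y (rr P u₁)) (rr P u₂) ∉ F₀) :
    ∃ s t : ι → F₀, Q0 hP s = 0 ∧ Q0 hP t = 0 ∧ pl (Q0 hP) s t = 0 ∧ s ∉ Submodule.span F₀ {t} ∧ t ∉ Submodule.span F₀ {s} ∧
      ∃ c₀ : F, c₀ ∉ F₀ ∧ RI Q M (rr P s) (c₀ • rr P t) := by
  have hQ₀ := Q0_nondeg hQ hP
  have hF : ∀ a b : ι → F₀, pl (Q0 hP) a b = 0 → pl Q (rr P a) (rr P b) = 0 := by
    intro a b h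
    rw [← pl_coe hP, h]
    rfl
  have hFQ : ∀ a : ι → F₀, Q0 hP a = 0 → Q (rr P a) = 0 := by
    intro a h
    rw [← Q0_coe hP, h]
    rfl
  have h12₀ : pl (Q0 hP) u₁ u₂ = 0 := by rw [pl_symm, h21₀]
  have h13₀ : pl (Q0 hP) u₁ u₃ = 0 := by rw [pl_symm, h31₀]
  have h23₀ : pl (Q0 hP) u₂ u₃ = 0 := by rw [pl_symm, h32₀]
  obtain ⟨U₁, hU₁⟩ : ∃ U, U = rr P u₁ := ⟨_, rfl⟩
  obtain ⟨U₂, hU₂⟩ : ∃ U, U = rr P u₂ := ⟨_, rfl⟩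
  obtain ⟨U₃, hU₃⟩ : ∃ U, U = rr P u₃ := ⟨_, rfl⟩
  have hQU₁ : Q U₁ = 0 := by rw [hU₁]; exact hFQ _ hQ₁
  have hQU₂ : Q U₂ = 0 := by rw [hU₂]; exact hFQ _ hQ₂
  have hQU₃ : Q U₃ = 0 := by rw [hU₃]; exact hFQ _ hQ₃
  have h12 : pl Q U₁ U₂ = 0 := by rw [hU₁, hU₂]; exact hF _ _ h12₀
  have h13 : pl Q U₁ U₃ = 0 := by rw [hU₁, hU₃]; exact hF _ _ h13₀
  have h23 : pl Q U₂ U₃ = 0 := by rw [hU₂, hU₃]; exact hF _ _ h23₀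
  have h21 : pl Q U₂ U₁ = 0 := by rw [pl_symm, h12]
  have h31 : pl Q U₃ U₁ = 0 := by rw [pl_symm, h13]
  have h32 : pl Q U₃ U₂ = 0 := by rw [pl_symm, h23]
  rw [← hU₁] at hφ2 hφ3
  rw [zz_pl hQ, ← hU₂] at hφ2
  rw [zz_pl hQ, zz_pl hQ, ← hU₂, ← hU₃] at hφ3
  obtain ⟨a₁₁, ha₁₁⟩ : ∃ a, a = pl Q x U₁ := ⟨_, rfl⟩
  obtain ⟨a₁₂, ha₁₂⟩ : ∃ a, a = pl Q x U₂ := ⟨_, rfl⟩
  obtain ⟨a₁₃, ha₁₃⟩ : ∃ a, a = pl Q x U₃ := ⟨_, rfl⟩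
  obtain ⟨a₂₁, ha₂₁⟩ : ∃ a, a = pl Q y U₁ := ⟨_, rfl⟩
  obtain ⟨a₂₂, ha₂₂⟩ : ∃ a, a = pl Q y U₂ := ⟨_, rfl⟩
  obtain ⟨a₂₃, ha₂₃⟩ : ∃ a, a = pl Q y U₃ := ⟨_, rfl⟩
  rw [← ha₁₁, ← ha₁₂, ← ha₂₁, ← ha₂₂] at hφ2
  rw [← ha₁₁, ← ha₁₂, ← ha₂₁, ← ha₂₂, ← ha₁₃, ← ha₂₃] at hφ3
  obtain ⟨A, hAd⟩ : ∃ A, A = a₁₁ * a₂₂ - a₂₁ * a₁₂ := ⟨_, rfl⟩
  rw [← hAd] at hφ2 hφ3
  -- independence
  have hφ : ∀ v : ι → F₀, ∃ (c : F), c = a₁₁ * pl Q y (rr P v) - a₂₁ * pl Q x (rr P v) := fun v => ⟨_, rfl⟩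
  have hlin : ∀ (α β : F₀) (v w : ι → F₀), a₁₁ * pl Q y (rr P (α • v + β • w)) - a₂₁ * pl Q x (rr P (α • v + β • w)) =
      (α : F) * (a₁₁ * pl Q y (rr P v) - a₂₁ * pl Q x (rr P v)) + (β : F) * (a₁₁ * pl Q y (rr P w) - a₂₁ * pl Q x (rr P w)) := by
    intro α β v w
    rw [rr_add, rr_smul, rr_smul, pl_add_right hQ, pl_add_right hQ, pl_smul_right hQ, pl_smul_right hQ, pl_smul_right hQ,
      pl_smul_right hQ]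
    ring
  have hφ1 : a₁₁ * pl Q y (rr P u₁) - a₂₁ * pl Q x (rr P u₁) = 0 := by
    rw [← hU₁, ← ha₂₁, ← ha₁₁]
    ring
  have hφ2' : a₁₁ * pl Q y (rr P u₂) - a₂₁ * pl Q x (rr P u₂) = A := by
    rw [← hU₂, ← ha₂₂, ← ha₁₂, hAd]
  have hφ3' : a₁₁ * pl Q y (rr P u₃) - a₂₁ * pl Q x (rr P u₃) = a₁₁ * a₂₃ - a₂₁ * a₁₃ := by
    rw [← hU₃, ← ha₂₃, ← ha₁₃]
  have i1 : u₁ ∉ Submodule.span F₀ {u₂, u₃} := by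
    intro hm
    obtain ⟨α, β, hαβ⟩ := Submodule.mem_span_pair.1 hm
    have h1 := hlin α β u₂ u₃
    rw [hαβ, hφ1, hφ2', hφ3'] at h1
    by_cases hβ : (β : F) = 0
    · have hβ0 : β = 0 := by exact_mod_cast hβ
      rw [hβ, zero_mul, add_zero] at h1
      have hα : (α : F) = 0 := ((mul_eq_zero.1 h1.symm).resolve_right hφ2)
      have hα0 : α = 0 := by exact_mod_cast hα
      apply hu₁0
      rw [← hαβ, hα0, hβ0, zero_smul, zero_smul, add_zero]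
    · apply hφ3
      have e : (a₁₁ * a₂₃ - a₂₁ * a₁₃) / A = - ((α : F) / (β : F)) := by
        field_simp
        linear_combination -h1
      rw [e]
      exact neg_mem (div_mem α.2 β.2)
  have i2 : u₂ ∉ Submodule.span F₀ {u₁, u₃} := by
    intro hm
    obtain ⟨α, β, hαβ⟩ := Submodule.mem_span_pair.1 hm
    have h1 := hlin α β u₁ u₃
    rw [hαβ, hφ1, hφ2', hφ3', mul_zero, zero_add] at h1
    have hβ : (β : F) ≠ 0 := by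
      intro h0
      rw [h0, zero_mul] at h1
      exact hφ2 h1
    apply hφ3
    have e : (a₁₁ * a₂₃ - a₂₁ * a₁₃) / A = (β : F)⁻¹ := by
      rw [h1]
      have : a₁₁ * a₂₃ - a₂₁ * a₁₃ ≠ 0 := by
        intro h0
        rw [h0, mul_zero] at h1
        exact hφ2 h1
      field_simp
    rw [e]
    exact inv_mem β.2
  have i3 : u₃ ∉ Submodule.span F₀ {u₁, u₂} := by
    intro hm
    obtain ⟨α, β, hαβ⟩ := Submodule.mem_span_pair.1 hm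
    have h1 := hlin α β u₁ u₂
    rw [hαβ, hφ1, hφ2', hφ3', mul_zero, zero_add] at h1
    apply hφ3
    rw [h1, mul_div_assoc, div_self hφ2, mul_one]
    exact β.2
  -- the adapted basis
  obtain ⟨X, hXd⟩ : ∃ X, X = (a₂₂ / A) • x - (a₁₂ / A) • y := ⟨_, rfl⟩
  obtain ⟨Y, hYd⟩ : ∃ Y, Y = (a₁₁ / A) • y - (a₂₁ / A) • x := ⟨_, rfl⟩
  have hyx : pl Q y x = 0 := by rw [pl_symm, hxy]
  have hxx : pl Q x x = 0 := by rw [pl_self hQ, hx, mul_zero]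
  have hyy : pl Q y y = 0 := by rw [pl_self hQ, hy, mul_zero]
  have hQX : Q X = 0 := by
    rw [hXd, Q_smul_sub hQ, hQ.smul, hx, hy, pl_smul_left hQ, hxy]
    ring
  have hQY : Q Y = 0 := by
    rw [hYd, Q_smul_sub hQ, hQ.smul, hx, hy, pl_smul_left hQ, hyx]
    ring
  have hXY : pl Q X Y = 0 := by
    rw [hXd, hYd, pl_sub_left hQ, pl_smul_left hQ, pl_smul_left hQ, pl_sub_right hQ, pl_sub_right hQ, pl_smul_right hQ,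
      pl_smul_right hQ, pl_smul_right hQ, pl_smul_right hQ, hxx, hyy, hxy, hyx]
    ring
  have hX1 : pl Q X U₁ = 1 := by
    rw [hXd, pl_sub_left hQ, pl_smul_left hQ, pl_smul_left hQ, ← ha₁₁, ← ha₂₁]
    field_simp
    rw [hAd]
    ring
  have hX2 : pl Q X U₂ = 0 := by
    rw [hXd, pl_sub_left hQ, pl_smul_left hQ, pl_smul_left hQ, ← ha₁₂, ← ha₂₂]
    field_simp
    ring
  have hY1 : pl Q Y U₁ = 0 := by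
    rw [hYd, pl_sub_left hQ, pl_smul_left hQ, pl_smul_left hQ, ← ha₁₁, ← ha₂₁]
    field_simp
    ring
  have hY2 : pl Q Y U₂ = 1 := by
    rw [hYd, pl_sub_left hQ, pl_smul_left hQ, pl_smul_left hQ, ← ha₁₂, ← ha₂₂]
    field_simp
    rw [hAd]
  have hY3 : pl Q Y U₃ = (a₁₁ * a₂₃ - a₂₁ * a₁₃) / A := by
    rw [hYd, pl_sub_left hQ, pl_smul_left hQ, pl_smul_left hQ, ← ha₁₃, ← ha₂₃]
    field_simp
  have hR' : RI Q M X (A • Y) := hR.congr fun v => by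
    rw [pl_smul_right hQ, hXd, hYd, pl_sub_right hQ, pl_sub_right hQ, pl_smul_right hQ, pl_smul_right hQ, pl_smul_right hQ,
      pl_smul_right hQ]
    ext i
    simp only [Pi.add_apply, Pi.sub_apply, Pi.smul_apply, smul_eq_mul]
    field_simp
    rw [hAd]
    ring
  have hM1 : ∀ f ∈ F₀, RI Q M U₁ (f • U₂) := by
    intro f hf
    have := hrat u₁ ((⟨f, hf⟩ : F₀) • u₂) hQ₁ (by rw [hQ₀.smul, hQ₂]; ring) (by rw [pl_smul_right hQ₀, h12₀]; ring)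
    rw [rr_smul, ← hU₁, ← hU₂] at this
    exact this
  have hM2 : ∀ f ∈ F₀, RI Q M U₁ (f • U₃) := by
    intro f hf
    have := hrat u₁ ((⟨f, hf⟩ : F₀) • u₃) hQ₁ (by rw [hQ₀.smul, hQ₃]; ring) (by rw [pl_smul_right hQ₀, h13₀]; ring)
    rw [rr_smul, ← hU₁, ← hU₃] at this
    exact this
  obtain ⟨ρ, hρ⟩ := exists_rho hφ3
  have hτ : ρ - 1 ≠ 0 := by
    intro h0
    have : ρ = 1 := by linear_combination h0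
    apply hρ
    rw [this, one_pow]
    exact one_mem _
  rw [← hY3] at hφ3
  obtain ⟨h, hM, hr₀, ⟨γ₁, hγ₁⟩, ⟨γ₂, hγ₂⟩⟩ := plane_core hQ hr hcard hQX hQY hXY hQU₁ hQU₂ hQU₃ h12 h13 h23 hX1 hX2 hY1 hY2 rfl rfl hφ3
    hφ2 hR' hM1 hM2 hτ
  obtain ⟨p, hp⟩ : ∃ p, p = pl Q X U₃ := ⟨_, rfl⟩
  obtain ⟨p', hp'⟩ : ∃ p', p' = pl Q Y U₃ := ⟨_, rfl⟩
  rw [← hp, ← hp'] at hr₀ hγ₁ hγ₂
  obtain ⟨τ, hτd⟩ : ∃ τ, τ = ρ - 1 := ⟨_, rfl⟩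
  rw [← hτd] at hγ₁ hγ₂
  -- matrix coefficients
  obtain ⟨m₁₁, hm₁₁⟩ : ∃ m, m = τ - γ₁ * p := ⟨_, rfl⟩
  obtain ⟨m₂₁, hm₂₁⟩ : ∃ m, m = - γ₁ * p' := ⟨_, rfl⟩
  obtain ⟨m₃₁, hm₃₁⟩ : ∃ m, m = γ₁ := ⟨_, rfl⟩
  obtain ⟨m₁₂, hm₁₂⟩ : ∃ m, m = - γ₂ * p := ⟨_, rfl⟩
  obtain ⟨m₂₂, hm₂₂⟩ : ∃ m, m = τ - γ₂ * p' := ⟨_, rfl⟩
  obtain ⟨m₃₂, hm₃₂⟩ : ∃ m, m = γ₂ := ⟨_, rfl⟩
  obtain ⟨m₁₃, hm₁₃⟩ : ∃ m, m = - p + p * m₁₁ + p' * m₁₂ := ⟨_, rfl⟩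
  obtain ⟨m₂₃, hm₂₃⟩ : ∃ m, m = - p' + p * m₂₁ + p' * m₂₂ := ⟨_, rfl⟩
  obtain ⟨m₃₃, hm₃₃⟩ : ∃ m, m = 1 + p * m₃₁ + p' * m₃₂ := ⟨_, rfl⟩
  have hU1f : (h : Matrix ι ι F) *ᵥ U₁ = m₁₁ • U₁ + m₂₁ • U₂ + m₃₁ • U₃ := by
    rw [hγ₁, hm₁₁, hm₂₁, hm₃₁]
    ext i
    simp only [Pi.add_apply, Pi.sub_apply, Pi.smul_apply, smul_eq_mul]
    ring
  have hU2f : (h : Matrix ι ι F) *ᵥ U₂ = m₁₂ • U₁ + m₂₂ • U₂ + m₃₂ • U₃ := by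
    rw [hγ₂, hm₁₂, hm₂₂, hm₃₂]
    ext i
    simp only [Pi.add_apply, Pi.sub_apply, Pi.smul_apply, smul_eq_mul]
    ring
  have hU3f : (h : Matrix ι ι F) *ᵥ U₃ = m₁₃ • U₁ + m₂₃ • U₂ + m₃₃ • U₃ := by
    have e : U₃ = (U₃ - p • U₁ - p' • U₂) + p • U₁ + p' • U₂ := by abel
    rw [e, Matrix.mulVec_add, Matrix.mulVec_add, Matrix.mulVec_smul, Matrix.mulVec_smul, hr₀, hU1f, hU2f, hm₁₃, hm₂₃, hm₃₃, ← e]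
    ext i
    simp only [Pi.add_apply, Pi.sub_apply, Pi.smul_apply, smul_eq_mul]
    ring
  have hI := hMO hM
  have hc12 := RI.conj hQ hM hI (hrat u₁ u₂ hQ₁ hQ₂ h12₀)
  have hc13 := RI.conj hQ hM hI (hrat u₁ u₃ hQ₁ hQ₃ h13₀)
  have hc23 := RI.conj hQ hM hI (hrat u₂ u₃ hQ₂ hQ₃ h23₀)
  rw [← hU₁, ← hU₂, hU1f, hU2f] at hc12
  rw [← hU₁, ← hU₃, hU1f, hU3f] at hc13
  rw [← hU₂, ← hU₃, hU2f, hU3f] at hc23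
  -- duals
  obtain ⟨a₁, hQa₁, ha₁1, ha₁S⟩ := partner_top hQ₀ hQ₁ i1 (perp_span2 hQ₀ h12₀ h13₀)
  obtain ⟨a₂, hQa₂, ha₂2, ha₂S⟩ := partner_top hQ₀ hQ₂ i2 (perp_span2 hQ₀ h21₀ h23₀)
  have ha₁2 := ha₁S u₂ (mem_span_two_l u₂ u₃)
  have ha₁3 := ha₁S u₃ (mem_span_two_r u₂ u₃)
  have ha₂1 := ha₂S u₁ (mem_span_two_l u₁ u₃)
  have ha₂3 := ha₂S u₃ (mem_span_two_r u₁ u₃)
  have hpair : ∀ a b : ι → F₀, pl (Q0 hP) a b = 1 → pl Q (rr P a) (rr P b) = 1 := by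
    intro a b hab
    rw [← pl_coe hP, hab]
    rfl
  have e1 : pl Q (rr P a₁) U₁ = 1 := by rw [hU₁]; exact hpair _ _ ha₁1
  have e2 : pl Q (rr P a₁) U₂ = 0 := by rw [hU₂]; exact hF _ _ ha₁2
  have e3 : pl Q (rr P a₁) U₃ = 0 := by rw [hU₃]; exact hF _ _ ha₁3
  have e4 : pl Q (rr P a₂) U₁ = 0 := by rw [hU₁]; exact hF _ _ ha₂1
  have e5 : pl Q (rr P a₂) U₂ = 1 := by rw [hU₂]; exact hpair _ _ ha₂2
  have e6 : pl Q (rr P a₂) U₃ = 0 := by rw [hU₃]; exact hF _ _ ha₂3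
  have ex23 := extract hQ hMO hQU₁ hQU₂ hQU₃ h12 h13 h23 e4 e5 e6 (by
    rw [hU₁]
    exact hrat u₁ a₂ hQ₁ hQa₂ (by rw [pl_symm]; exact ha₂1)) hc23
  have hc13' : RI Q M (m₂₁ • U₂ + m₁₁ • U₁ + m₃₁ • U₃) (m₂₃ • U₂ + m₁₃ • U₁ + m₃₃ • U₃) := by
    have e7 : m₂₁ • U₂ + m₁₁ • U₁ + m₃₁ • U₃ = m₁₁ • U₁ + m₂₁ • U₂ + m₃₁ • U₃ := by abel
    have e8 : m₂₃ • U₂ + m₁₃ • U₁ + m₃₃ • U₃ = m₁₃ • U₁ + m₂₃ • U₂ + m₃₃ • U₃ := by abel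
    rw [e7, e8]
    exact hc13
  have ex13 := extract hQ hMO hQU₂ hQU₁ hQU₃ h21 h23 h13 e2 e1 e3 (by
    rw [hU₂]
    exact hrat u₂ a₁ hQ₂ hQa₁ (by rw [pl_symm]; exact ha₁2)) hc13'
  have hc12' : RI Q M (m₃₁ • U₃ + m₁₁ • U₁ + m₂₁ • U₂) (m₃₂ • U₃ + m₁₂ • U₁ + m₂₂ • U₂) := by
    have e7 : m₃₁ • U₃ + m₁₁ • U₁ + m₂₁ • U₂ = m₁₁ • U₁ + m₂₁ • U₂ + m₃₁ • U₃ := by abel
    have e8 : m₃₂ • U₃ + m₁₂ • U₁ + m₂₂ • U₂ = m₁₂ • U₁ + m₂₂ • U₂ + m₃₂ • U₃ := by abel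
    rw [e7, e8]
    exact hc12
  have ex12 := extract hQ hMO hQU₃ hQU₁ hQU₂ h31 h32 h12 e3 e1 e2 (by
    rw [hU₃]
    exact hrat u₃ a₁ hQ₃ hQa₁ (by rw [pl_symm]; exact ha₁3)) hc12'
  have hsum : (m₁₁ * m₂₂ - m₁₂ * m₂₁) + (m₁₁ * m₃₃ - m₁₃ * m₃₁) + (m₂₂ * m₃₃ - m₂₃ * m₃₂) = ρ ^ 2 - 1 := by
    rw [hm₁₃, hm₂₃, hm₃₃, hm₁₁, hm₂₁, hm₃₁, hm₁₂, hm₂₂, hm₃₂, hτd]
    ring
  by_cases c12 : m₁₁ * m₂₂ - m₁₂ * m₂₁ ∈ F₀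
  swap
  · refine ⟨u₃, u₂, hQ₃, hQ₂, h32₀, fun hm => i3 ?_, fun hm => i2 ?_, _, c12, ?_⟩
    · obtain ⟨κ, hκ⟩ := Submodule.mem_span_singleton.1 hm
      rw [← hκ]
      exact Submodule.smul_mem _ _ (mem_span_two_r u₁ u₂)
    · obtain ⟨κ, hκ⟩ := Submodule.mem_span_singleton.1 hm
      rw [← hκ]
      exact Submodule.smul_mem _ _ (mem_span_two_r u₁ u₃)
    · rw [← hU₃, ← hU₂]
      exact ex12
  by_cases c13 : m₁₁ * m₃₃ - m₁₃ * m₃₁ ∈ F₀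
  swap
  · refine ⟨u₂, u₃, hQ₂, hQ₃, h23₀, fun hm => i2 ?_, fun hm => i3 ?_, _, c13, ?_⟩
    · obtain ⟨κ, hκ⟩ := Submodule.mem_span_singleton.1 hm
      rw [← hκ]
      exact Submodule.smul_mem _ _ (mem_span_two_r u₁ u₃)
    · obtain ⟨κ, hκ⟩ := Submodule.mem_span_singleton.1 hm
      rw [← hκ]
      exact Submodule.smul_mem _ _ (mem_span_two_r u₁ u₂)
    · rw [← hU₂, ← hU₃]
      exact ex13
  by_cases c23 : m₂₂ * m₃₃ - m₂₃ * m₃₂ ∈ F₀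
  swap
  · refine ⟨u₁, u₃, hQ₁, hQ₃, h13₀, fun hm => i1 ?_, fun hm => i3 ?_, _, c23, ?_⟩
    · obtain ⟨κ, hκ⟩ := Submodule.mem_span_singleton.1 hm
      rw [← hκ]
      exact Submodule.smul_mem _ _ (mem_span_two_r u₂ u₃)
    · obtain ⟨κ, hκ⟩ := Submodule.mem_span_singleton.1 hm
      rw [← hκ]
      exact Submodule.smul_mem _ _ (mem_span_two_l u₁ u₂)
    · rw [← hU₁, ← hU₃]
      exact ex23
  exfalso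
  apply hρ
  have e9 : ρ ^ 2 = ((m₁₁ * m₂₂ - m₁₂ * m₂₁) + (m₁₁ * m₃₃ - m₁₃ * m₃₁) + (m₂₂ * m₃₃ - m₂₃ * m₃₂)) + 1 := by
    rw [hsum]
    ring
  rw [e9]
  exact add_mem (add_mem (add_mem c12 c13) c23) (one_mem _)

end Cfsg.Agent.H27.OS
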