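import Mathlib
import Cfsg.Prelude.Def_GeometricClasses
import Cfsg.Agent.Lib.H27.GeoOS6

/-!
# Rational structures for quadratic forms: all coefficients on all rational lines
-/

set_option autoImplicit false
set_option linter.unusedSectionVars false
set_option linter.unusedSimpArgs false
set_option linter.unusedVariables false

namespace Cfsg.Agent.H27.OS

open scoped Matrix MatrixGroups
open Cfsg Cfsg.Geo
open Cfsg.Agent.H27.RS (rr rr_add rr_sub rr_neg rr_smul rr_zero rr_inj rr_ne_zero mem_of_rat RatPt co)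
open Cfsg.Agent.H27.GO

variable {ι : Type} [Fintype ι] [DecidableEq ι] {F : Type*} [Field F] {Q : (ι → F) → F} {F₀ : Subfield F} {P : GL ι F}

/-- A rational totally singular pair of independent vectors. -/
structure Ts (hP : RatQ Q F₀ P) (u v : ι → F₀) : Prop where
  Qu : Q0 hP u = 0
  Qv : Q0 hP v = 0
  uv : pl (Q0 hP) u v = 0
  iu : u ∉ Submodule.span F₀ {v}
  iv : v ∉ Submodule.span F₀ {u}

section main

variable (hQ : IsNondegenerateQuadraticForm Q) (hP : RatQ Q F₀ P)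
include hQ hP

theorem Ts.symm {u v : ι → F₀} (h : Ts hP u v) : Ts hP v u :=
  ⟨h.Qv, h.Qu, by rw [pl_symm]; exact h.uv, h.iv, h.iu⟩

lemma FQ {a : ι → F₀} (h : Q0 hP a = 0) : Q (rr P a) = 0 := by
  rw [← Q0_coe hP, h]
  rfl

lemma Fpl {a b : ι → F₀} (h : pl (Q0 hP) a b = 0) : pl Q (rr P a) (rr P b) = 0 := by
  rw [← pl_coe hP, h]
  rfl

lemma Fpl1 {a b : ι → F₀} (h : pl (Q0 hP) a b = 1) : pl Q (rr P a) (rr P b) = 1 := by
  rw [← pl_coe hP, h]
  rfl

/-- Transfer of a coefficient along a rational singular vector. -/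
theorem transfer {M : Subgroup (GL ι F)} {u v t v' : ι → F₀} {c c' : F} (hQu : Q0 hP u = 0) (hQv : Q0 hP v = 0) (hQt : Q0 hP t = 0)
    (hQv' : Q0 hP v' = 0) (huv : pl (Q0 hP) u v = 0) (hut : pl (Q0 hP) u t = 0) (hvt : pl (Q0 hP) v t = 0)
    (hv'v : pl (Q0 hP) v' v = 1) (hv'u : pl (Q0 hP) v' u = 0) (hv't : pl (Q0 hP) v' t = 0)
    (h : RI Q M (rr P u) (c • rr P v)) (h' : RI Q M (rr P v') (c' • rr P t)) : RI Q M (rr P u) ((c * c') • rr P t) := by
  have hQ₀ := Q0_nondeg hQ hP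
  have h1 := RI.smul_left hQ c h
  have h2 := RI.comm hQ (a := c • rr P u) (b := rr P v) (c := rr P v') (d := c' • rr P t)
    (by rw [hQ.smul, FQ hQ hP hQu]; ring) (FQ hQ hP hQv) (FQ hQ hP hQv') (by rw [hQ.smul, FQ hQ hP hQt]; ring)
    (by rw [pl_smul_left hQ, Fpl hQ hP huv, mul_zero])
    (by rw [pl_smul_left hQ, pl_symm, Fpl hQ hP hv'u, mul_zero])
    (by rw [pl_smul_left hQ, pl_smul_right hQ, Fpl hQ hP hut]; ring)
    (by rw [pl_smul_right hQ, Fpl hQ hP hvt, mul_zero])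
    (by rw [pl_smul_right hQ, Fpl hQ hP hv't, mul_zero])
    (by rw [pl_symm, Fpl1 hQ hP hv'v]) h1 h'
  have h3 := RI.smul_right hQ c h2
  rw [smul_smul] at h3
  exact h3

/-- Moving within a rational totally singular plane. -/
theorem move {M : Subgroup (GL ι F)} (hrat : ∀ a d : ι → F₀, Q0 hP a = 0 → Q0 hP d = 0 → pl (Q0 hP) a d = 0 → RI Q M (rr P a) (rr P d))
    {u v t : ι → F₀} {c : F} (hQu : Q0 hP u = 0) (hQv : Q0 hP v = 0) (hQt : Q0 hP t = 0)
    (huv : pl (Q0 hP) u v = 0) (hut : pl (Q0 hP) u t = 0) (hvt : pl (Q0 hP) v t = 0) (hind : v ∉ Submodule.span F₀ {u, t})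
    (h : RI Q M (rr P u) (c • rr P v)) : RI Q M (rr P u) (c • rr P t) := by
  have hQ₀ := Q0_nondeg hQ hP
  obtain ⟨v', hQv', hv'v, hv'S⟩ := partner_top hQ₀ hQv hind (perp_span2 hQ₀ (by rw [pl_symm]; exact huv) hvt)
  have hv'u := hv'S u (mem_span_two_l u t)
  have hv't := hv'S t (mem_span_two_r u t)
  have h' : RI Q M (rr P v') (((1 : F₀) : F) • rr P t) := by
    have := hrat v' t hQv' hQt hv't
    simpa using this
  have := transfer hQ hP hQu hQv hQt hQv' huv hut hvt hv'v hv'u hv't h h'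
  simpa using this

theorem RI_swap {M : Subgroup (GL ι F)} {u v : ι → F₀} {c : F} (hQu : Q0 hP u = 0) (hQv : Q0 hP v = 0) (huv : pl (Q0 hP) u v = 0)
    (h : RI Q M (rr P u) (c • rr P v)) : RI Q M (rr P v) (c • rr P u) := by
  have h1 := RI.smul_left hQ c h
  have h2 := RI.symm hQ (a := c • rr P u) (d := rr P v) (by rw [hQ.smul, FQ hQ hP hQu]; ring) (FQ hQ hP hQv)
    (by rw [pl_smul_left hQ, Fpl hQ hP huv, mul_zero]) h1
  exact h2

/-- All rational totally singular pairs carry the same coefficients. -/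
theorem connect [Fintype F₀] (hd : 11 ≤ Fintype.card ι) {M : Subgroup (GL ι F)}
    (hrat : ∀ a d : ι → F₀, Q0 hP a = 0 → Q0 hP d = 0 → pl (Q0 hP) a d = 0 → RI Q M (rr P a) (rr P d))
    {u v u' v' : ι → F₀} {c : F} (h1 : Ts hP u v) (h2 : Ts hP u' v') (h : RI Q M (rr P u) (c • rr P v)) :
    RI Q M (rr P u') (c • rr P v') := by
  have hQ₀ := Q0_nondeg hQ hP
  have hS4 := finrank_span_four (K := F₀) u v u' v'
  obtain ⟨s, s', hQs, hQs', hss', hsS, hs'S⟩ := hyp_top hQ₀ (Submodule.span F₀ {u, v, u', v'}) (by omega)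
  have m1 : u ∈ Submodule.span F₀ {u, v, u', v'} := Submodule.subset_span (by simp)
  have m2 : v ∈ Submodule.span F₀ {u, v, u', v'} := Submodule.subset_span (by simp)
  have m3 : u' ∈ Submodule.span F₀ {u, v, u', v'} := Submodule.subset_span (by simp)
  have m4 : v' ∈ Submodule.span F₀ {u, v, u', v'} := Submodule.subset_span (by simp)
  have hsu := hsS u m1
  have hsv := hsS v m2
  have hsu' := hsS u' m3
  have hsv' := hsS v' m4
  have hs'u := hs'S u m1
  have hs'v := hs'S v m2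
  have hs'u' := hs'S u' m3
  have hs'v' := hs'S v' m4
  have hS3 := finrank_span_three (F := F₀) s u u'
  obtain ⟨t, t', hQt, hQt', htt', htS, ht'S⟩ := hyp_top hQ₀ (Submodule.span F₀ {s, u, u'}) (by omega)
  have hts := htS s (mem_span_three_1 s u u')
  have htu := htS u (mem_span_three_2 s u u')
  have htu' := htS u' (mem_span_three_3 s u u')
  have ht's := ht'S s (mem_span_three_1 s u u')
  have ht'u := ht'S u (mem_span_three_2 s u u')
  have ht'u' := ht'S u' (mem_span_three_3 s u u')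
  -- step 1: (u, v) to (u, s)
  have i1 : v ∉ Submodule.span F₀ {u, s} := by
    intro hm
    obtain ⟨α, β, hαβ⟩ := Submodule.mem_span_pair.1 hm
    have e := hs'v
    rw [← hαβ, pl_add_right hQ₀, pl_smul_right hQ₀, pl_smul_right hQ₀, hs'u, pl_symm s' s, hss'] at e
    have hβ : β = 0 := by simpa using e
    apply h1.iv
    rw [Submodule.mem_span_singleton]
    refine ⟨α, ?_⟩
    rw [← hαβ, hβ, zero_smul, add_zero]
  have a1 := move hQ hP hrat (t := s) h1.Qu h1.Qv hQs h1.uv (by rw [pl_symm]; exact hsu) (by rw [pl_symm]; exact hsv) i1 h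
  have a2 := RI_swap hQ hP h1.Qu hQs (by rw [pl_symm]; exact hsu) a1
  -- step 2: (s, u) to (s, t)
  have hu0 : u ≠ 0 := by
    rintro rfl
    exact h1.iu (Submodule.zero_mem _)
  have i2 : u ∉ Submodule.span F₀ {s, t} := by
    intro hm
    obtain ⟨α, β, hαβ⟩ := Submodule.mem_span_pair.1 hm
    have e := ht'u
    rw [← hαβ, pl_add_right hQ₀, pl_smul_right hQ₀, pl_smul_right hQ₀, ht's, pl_symm t' t, htt'] at e
    have hβ : β = 0 := by simpa using e
    have e2 := hs'u
    rw [← hαβ, hβ, zero_smul, add_zero, pl_smul_right hQ₀, pl_symm s' s, hss'] at e2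
    have hα : α = 0 := by simpa using e2
    apply hu0
    rw [← hαβ, hα, hβ, zero_smul, zero_smul, add_zero]
  have a3 := move hQ hP hrat (t := t) hQs h1.Qu hQt hsu (by rw [pl_symm]; exact hts) (by rw [pl_symm]; exact htu) i2 a2
  -- step 3: (s, t) to (s, u')
  have i3 : t ∉ Submodule.span F₀ {s, u'} := by
    intro hm
    obtain ⟨α, β, hαβ⟩ := Submodule.mem_span_pair.1 hm
    have e := htt'
    rw [← hαβ, pl_add_left hQ₀, pl_smul_left hQ₀, pl_smul_left hQ₀, pl_symm s t', ht's, pl_symm u' t', ht'u'] at e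
    simp at e
  have a4 := move hQ hP hrat (t := u') hQs hQt h2.Qu (by rw [pl_symm]; exact hts) hsu' (by exact htu') i3 a3
  have a5 := RI_swap hQ hP hQs h2.Qu hsu' a4
  -- step 4: (u', s) to (u', v')
  have i4 : s ∉ Submodule.span F₀ {u', v'} := by
    intro hm
    obtain ⟨α, β, hαβ⟩ := Submodule.mem_span_pair.1 hm
    have e := hss'
    rw [← hαβ, pl_add_left hQ₀, pl_smul_left hQ₀, pl_smul_left hQ₀, pl_symm u' s', hs'u', pl_symm v' s', hs'v'] at e
    simp at e
  exact move hQ hP hrat (t := v') h2.Qu hQs h2.Qv (by rw [pl_symm]; exact hsu') h2.uv hsv' i4 a5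

/-- From one non-rational coefficient to all coefficients. -/
theorem all_c [Fintype F] [Fintype F₀] (hd : 11 ≤ Fintype.card ι) {r : ℕ} (hr : r.Prime)
    (hcard : Fintype.card F = Nat.card F₀ ^ r) {M : Subgroup (GL ι F)}
    (hrat : ∀ a d : ι → F₀, Q0 hP a = 0 → Q0 hP d = 0 → pl (Q0 hP) a d = 0 → RI Q M (rr P a) (rr P d))
    {s₀ t₀ : ι → F₀} (hst : Ts hP s₀ t₀) {c₀ : F} (hc₀ : c₀ ∉ F₀) (h0 : RI Q M (rr P s₀) (c₀ • rr P t₀))
    {u v : ι → F₀} (huv : Ts hP u v) (c : F) : RI Q M (rr P u) (c • rr P v) := by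
  have hQ₀ := Q0_nondeg hQ hP
  have hs0 : s₀ ≠ 0 := by
    rintro rfl
    exact hst.iu (Submodule.zero_mem _)
  -- an auxiliary pair
  have hS2 := finrank_span_two (F := F₀) s₀ t₀
  obtain ⟨t, t', hQt, hQt', htt', htS, ht'S⟩ := hyp_top hQ₀ (Submodule.span F₀ {s₀, t₀}) (by omega)
  have hts₀ := htS s₀ (mem_span_two_l s₀ t₀)
  have htt₀ := htS t₀ (mem_span_two_r s₀ t₀)
  have ht's₀ := ht'S s₀ (mem_span_two_l s₀ t₀)
  have ht't₀ := ht'S t₀ (mem_span_two_r s₀ t₀)
  have ht0 : t ≠ 0 := by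
    rintro rfl
    rw [pl_zero_left hQ₀] at htt'
    exact zero_ne_one htt'
  have i1 : t₀ ∉ Submodule.span F₀ {s₀, t} := by
    intro hm
    obtain ⟨α, β, hαβ⟩ := Submodule.mem_span_pair.1 hm
    have e := ht't₀
    rw [← hαβ, pl_add_right hQ₀, pl_smul_right hQ₀, pl_smul_right hQ₀, ht's₀, pl_symm t' t, htt'] at e
    have hβ : β = 0 := by simpa using e
    apply hst.iv
    rw [Submodule.mem_span_singleton]
    refine ⟨α, ?_⟩
    rw [← hαβ, hβ, zero_smul, add_zero]
  obtain ⟨w, hQw, hwt₀, hwS⟩ := partner_top hQ₀ hst.Qv i1 (perp_span2 hQ₀ (by rw [pl_symm]; exact hst.uv) (by rw [pl_symm]; exact htt₀))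
  have hws₀ := hwS s₀ (mem_span_two_l s₀ t)
  have hwt := hwS t (mem_span_two_r s₀ t)
  have hTs₁ : Ts hP s₀ t := ⟨hst.Qu, hQt, by rw [pl_symm]; exact hts₀, fun hm => by
      obtain ⟨κ, hκ⟩ := Submodule.mem_span_singleton.1 hm
      have e := ht's₀
      rw [← hκ, pl_smul_right hQ₀, pl_symm t' t, htt', mul_one] at e
      apply hs0
      rw [← hκ, e, zero_smul], fun hm => by
      obtain ⟨κ, hκ⟩ := Submodule.mem_span_singleton.1 hm
      have e := htt'
      rw [← hκ, pl_smul_left hQ₀, pl_symm s₀ t', ht's₀, mul_zero] at e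
      exact zero_ne_one e⟩
  have hw0 : w ∉ Submodule.span F₀ {t} := fun hm => by
    obtain ⟨κ, hκ⟩ := Submodule.mem_span_singleton.1 hm
    have e := hwt₀
    rw [← hκ, pl_smul_left hQ₀, htt₀, mul_zero] at e
    exact zero_ne_one e
  have hTs₂ : Ts hP w t := ⟨hQw, hQt, hwt, hw0, fun hm => by
      obtain ⟨κ, hκ⟩ := Submodule.mem_span_singleton.1 hm
      have hκ0 : κ ≠ 0 := by
        rintro rfl
        rw [zero_smul] at hκ
        exact ht0 hκ.symm
      apply hw0
      rw [Submodule.mem_span_singleton]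
      exact ⟨κ⁻¹, by rw [← hκ, smul_smul, inv_mul_cancel₀ hκ0, one_smul]⟩⟩
  -- the subfield of coefficients
  have hadd : ∀ a b : F, RI Q M (rr P s₀) (a • rr P t₀) → RI Q M (rr P s₀) (b • rr P t₀) → RI Q M (rr P s₀) ((a + b) • rr P t₀) := by
    intro a b ha hb
    have h₁ : pl Q (rr P s₀) (rr P t₀) = 0 := Fpl hQ hP hst.uv
    have h₂ : pl Q (rr P t₀) (rr P t₀) = 0 := by rw [pl_self hQ, FQ hQ hP hst.Qv, mul_zero]
    have := RI.add hQ (FQ hQ hP hst.Qu) (d := a • rr P t₀) (d' := b • rr P t₀)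
      (by rw [pl_smul_right hQ, h₁, mul_zero]) (by rw [pl_smul_right hQ, h₁, mul_zero])
      (by rw [pl_smul_left hQ, pl_smul_right hQ, h₂]; ring) ha hb
    rwa [← add_smul] at this
  have hmul : ∀ a b : F, RI Q M (rr P s₀) (a • rr P t₀) → RI Q M (rr P s₀) (b • rr P t₀) → RI Q M (rr P s₀) ((a * b) • rr P t₀) := by
    intro a b ha hb
    have h₁ := connect hQ hP hd hrat hst hTs₂ hb
    have h₂ := transfer hQ hP hst.Qu hst.Qv hQt hQw hst.uv (by rw [pl_symm]; exact hts₀) (by rw [pl_symm]; exact htt₀) hwt₀ hws₀ hwt ha h₁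
    exact connect hQ hP hd hrat hTs₁ hst h₂
  have hbase : ∀ f ∈ F₀, RI Q M (rr P s₀) (f • rr P t₀) := by
    intro f hf
    have := hrat s₀ ((⟨f, hf⟩ : F₀) • t₀) hst.Qu (by rw [hQ₀.smul, hst.Qv]; ring) (by rw [pl_smul_right hQ₀, hst.uv]; ring)
    rwa [rr_smul] at this
  have hpow : ∀ (a : F) (n : ℕ), RI Q M (rr P s₀) (a • rr P t₀) → RI Q M (rr P s₀) ((a ^ n) • rr P t₀) := by
    intro a n ha
    induction n with
    | zero =>
      rw [pow_zero]
      exact hbase 1 (one_mem _)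
    | succ n ih =>
      rw [pow_succ]
      exact hmul _ _ ih ha
  let E : Subfield F :=
    { carrier := {a | RI Q M (rr P s₀) (a • rr P t₀)}
      mul_mem' := fun {a b} ha hb => hmul a b ha hb
      one_mem' := hbase 1 (one_mem _)
      add_mem' := fun {a b} ha hb => hadd a b ha hb
      zero_mem' := hbase 0 (zero_mem _)
      neg_mem' := fun {a} ha => by
        have := hmul (-1) a (hbase (-1) (neg_mem (one_mem _))) ha
        simpa using this
      inv_mem' := fun a ha => by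
        by_cases h0 : a = 0
        · rw [h0, inv_zero]
          exact hbase 0 (zero_mem _)
        · have h1 : a ^ (Fintype.card F - 1) = 1 := FiniteField.pow_card_sub_one_eq_one a h0
          have h2 : 2 ≤ Fintype.card F := Fintype.one_lt_card
          have h3 : a⁻¹ = a ^ (Fintype.card F - 2) := by
            have e : Fintype.card F - 1 = (Fintype.card F - 2) + 1 := by omega
            rw [e, pow_succ] at h1
            field_simp
            linear_combination -h1
          rw [h3]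
          exact hpow a _ ha }
  have hle : F₀ ≤ E := fun f hf => hbase f hf
  have hc₀E : c₀ ∈ E := h0
  have := Cfsg.Agent.H27.DC.subfield_eq_top (F₀ := F₀) (E := E) hr (by rwa [Nat.card_eq_fintype_card]) hle hc₀E hc₀ c
  exact connect hQ hP hd hrat hst huv this

end main

end Cfsg.Agent.H27.OS
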