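import Mathlib
import Cfsg.Prelude.Def_GeometricClasses
import Cfsg.Agent.Lib.H27.GeoOS7

/-!
# Rational structures for quadratic forms: generation, and maximality of the subfield group
-/

set_option autoImplicit false
set_option linter.unusedSectionVars false
set_option linter.unusedSimpArgs false
set_option linter.unusedVariables false
set_option linter.style.haveILetI false

namespace Cfsg.Agent.H27.OS

open scoped Matrix MatrixGroups
open Cfsg Cfsg.Geo
open Cfsg.Agent.H27.RS (rr rr_add rr_sub rr_neg rr_smul rr_zero rr_inj rr_ne_zero mem_of_rat RatPt co rat_of_mem)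
open Cfsg.Agent.H27.GO

variable {ι : Type} [Fintype ι] [DecidableEq ι] {F : Type*} [Field F] {Q : (ι → F) → F} {F₀ : Subfield F} {P : GL ι F}

/-- `M` contains the Siegel element. -/
def EI (hQ : IsNondegenerateQuadraticForm Q) (M : Subgroup (GL ι F)) (u v : ι → F) : Prop :=
  ∃ g ∈ M, ∀ x, (g : Matrix ι ι F) *ᵥ x = siegLin hQ u v x

lemma EI.add {hQ : IsNondegenerateQuadraticForm Q} {M : Subgroup (GL ι F)} {u v v' : ι → F} (hu : Q u = 0) (huv : pl Q u v = 0)
    (huv' : pl Q u v' = 0) (h : EI hQ M u v) (h' : EI hQ M u v') : EI hQ M u (v + v') := by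
  obtain ⟨g, hg, hgx⟩ := h
  obtain ⟨g', hg', hgx'⟩ := h'
  refine ⟨g * g', M.mul_mem hg hg', fun x => ?_⟩
  rw [Units.val_mul, ← Matrix.mulVec_mulVec, hgx', hgx, siegLin_comp hQ hu huv huv']

lemma EI_zero {hQ : IsNondegenerateQuadraticForm Q} {M : Subgroup (GL ι F)} {u : ι → F} : EI hQ M u 0 :=
  ⟨1, M.one_mem, fun x => by rw [siegLin_zero]; simp⟩

lemma EI_of_RI {hQ : IsNondegenerateQuadraticForm Q} {M : Subgroup (GL ι F)} {u v : ι → F} (hv : Q v = 0)
    (h : RI Q M u (-v)) : EI hQ M u v := by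
  obtain ⟨g, hg, hgx⟩ := h
  refine ⟨g, hg, fun x => ?_⟩
  rw [hgx, siegLin_apply, hv, pl_neg_right hQ]
  ext i
  simp only [Pi.add_apply, Pi.sub_apply, Pi.smul_apply, smul_eq_mul, Pi.neg_apply]
  ring

lemma RI_of_EI {hQ : IsNondegenerateQuadraticForm Q} {M : Subgroup (GL ι F)} {u v : ι → F} (hv : Q v = 0)
    (h : EI hQ M u (-v)) : RI Q M u v := by
  obtain ⟨g, hg, hgx⟩ := h
  refine ⟨g, hg, fun x => ?_⟩
  rw [hgx, siegLin_apply, Q_neg hQ, hv, pl_neg_right hQ]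
  ext i
  simp only [Pi.add_apply, Pi.sub_apply, Pi.smul_apply, smul_eq_mul, Pi.neg_apply]
  ring

section main

variable (hQ : IsNondegenerateQuadraticForm Q) (hP : RatQ Q F₀ P)
include hQ hP

/-- A singular partner in the orthogonal complement of a hyperbolic pair. -/
theorem exists_d [Fintype F₀] (hd : 9 ≤ Fintype.card ι) {e f r : ι → F₀} (hQe : Q0 hP e = 0) (hQf : Q0 hP f = 0) (hef : pl (Q0 hP) e f = 1)
    (hre : pl (Q0 hP) r e = 0) (hrf : pl (Q0 hP) r f = 0) (hr0 : r ≠ 0) :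
    ∃ d : ι → F₀, Q0 hP d = 0 ∧ pl (Q0 hP) d e = 0 ∧ pl (Q0 hP) d f = 0 ∧ pl (Q0 hP) d r = 1 := by
  have hQ₀ := Q0_nondeg hQ hP
  have hfe : pl (Q0 hP) f e = 1 := by rw [pl_symm, hef]
  have hee : pl (Q0 hP) e e = 0 := by rw [pl_self hQ₀, hQe, mul_zero]
  have hff : pl (Q0 hP) f f = 0 := by rw [pl_self hQ₀, hQf, mul_zero]
  have hrS : r ∉ Submodule.span F₀ {e, f} := by
    intro hm
    obtain ⟨α, β, hαβ⟩ := Submodule.mem_span_pair.1 hm
    have e1 := hre
    have e2 := hrf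
    rw [← hαβ, pl_add_left hQ₀, pl_smul_left hQ₀, pl_smul_left hQ₀, hee, hfe] at e1
    rw [← hαβ, pl_add_left hQ₀, pl_smul_left hQ₀, pl_smul_left hQ₀, hef, hff] at e2
    have hβ : β = 0 := by simpa using e1
    have hα : α = 0 := by simpa using e2
    apply hr0
    rw [← hαβ, hα, hβ, zero_smul, zero_smul, add_zero]
  obtain ⟨x₀, hx₀, hx₀r⟩ := sep_top hQ₀ hrS 1
  have hS3 := finrank_span_three (F := F₀) e f r
  obtain ⟨d, hQd, hdS⟩ := sing_top hQ₀ (S := Submodule.span F₀ {e, f, r}) (by omega) x₀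
  refine ⟨d, hQd, ?_, ?_, ?_⟩
  · rw [hdS e (mem_span_three_1 e f r)]
    exact hx₀ e (mem_span_two_l e f)
  · rw [hdS f (mem_span_three_2 e f r)]
    exact hx₀ f (mem_span_two_r e f)
  · rw [hdS r (mem_span_three_3 e f r), hx₀r]

/-- A vector orthogonal to a hyperbolic pair is a sum of multiples of singular rational vectors orthogonal to it. -/
theorem EI_all [Fintype F₀] (hd : 9 ≤ Fintype.card ι) {M : Subgroup (GL ι F)}
    (hall : ∀ u v : ι → F₀, Ts hP u v → ∀ c : F, RI Q M (rr P u) (c • rr P v))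
    {e f : ι → F₀} (hQe : Q0 hP e = 0) (hQf : Q0 hP f = 0) (hef : pl (Q0 hP) e f = 1) {y : ι → F}
    (hye : pl Q y (rr P e) = 0) (hyf : pl Q y (rr P f) = 0) : EI hQ M (rr P e) y := by
  have hQ₀ := Q0_nondeg hQ hP
  have hQe' := FQ hQ hP hQe
  have hfe : pl (Q0 hP) f e = 1 := by rw [pl_symm, hef]
  have hee : pl (Q0 hP) e e = 0 := by rw [pl_self hQ₀, hQe, mul_zero]
  have hff : pl (Q0 hP) f f = 0 := by rw [pl_self hQ₀, hQf, mul_zero]
  have hsing : ∀ (s : ι → F₀) (c : F), Q0 hP s = 0 → pl (Q0 hP) s e = 0 → pl (Q0 hP) s f = 0 → EI hQ M (rr P e) (c • rr P s) := by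
    intro s c hQs hse hsf
    by_cases hs0 : s = 0
    · rw [hs0, rr_zero, smul_zero]
      exact EI_zero
    apply EI_of_RI (by rw [hQ.smul, FQ hQ hP hQs, mul_zero])
    have hTs : Ts hP e s := ⟨hQe, hQs, by rw [pl_symm]; exact hse, fun hm => by
        obtain ⟨κ, hκ⟩ := Submodule.mem_span_singleton.1 hm
        have e1 := hef
        rw [← hκ, pl_smul_left hQ₀, hsf, mul_zero] at e1
        exact zero_ne_one e1, fun hm => by
        obtain ⟨κ, hκ⟩ := Submodule.mem_span_singleton.1 hm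
        have e1 := hsf
        rw [← hκ, pl_smul_left hQ₀, hef, mul_one] at e1
        apply hs0
        rw [← hκ, e1, zero_smul]⟩
    have := hall e s hTs (-c)
    rwa [neg_smul] at this
  have hrat : ∀ (r : ι → F₀) (c : F), pl (Q0 hP) r e = 0 → pl (Q0 hP) r f = 0 → EI hQ M (rr P e) (c • rr P r) := by
    intro r c hre hrf
    by_cases hQr : Q0 hP r = 0
    · exact hsing r c hQr hre hrf
    have hr0 : r ≠ 0 := by
      rintro rfl
      exact hQr (Q_zero hQ₀)
    have hrS : r ∉ Submodule.span F₀ {e, f} := by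
      intro hm
      obtain ⟨α, β, hαβ⟩ := Submodule.mem_span_pair.1 hm
      have e1 := hre
      have e2 := hrf
      rw [← hαβ, pl_add_left hQ₀, pl_smul_left hQ₀, pl_smul_left hQ₀, hee, hfe] at e1
      rw [← hαβ, pl_add_left hQ₀, pl_smul_left hQ₀, pl_smul_left hQ₀, hef, hff] at e2
      have hβ : β = 0 := by simpa using e1
      have hα : α = 0 := by simpa using e2
      apply hr0
      rw [← hαβ, hα, hβ, zero_smul, zero_smul, add_zero]
    obtain ⟨x₀, hx₀, hx₀r⟩ := sep_top hQ₀ hrS 1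
    have hS3 := finrank_span_three (F := F₀) e f r
    obtain ⟨d, hQd, hdS⟩ := sing_top hQ₀ (S := Submodule.span F₀ {e, f, r}) (by omega) x₀
    have hde : pl (Q0 hP) d e = 0 := by
      rw [hdS e (mem_span_three_1 e f r)]
      exact hx₀ e (mem_span_two_l e f)
    have hdf : pl (Q0 hP) d f = 0 := by
      rw [hdS f (mem_span_three_2 e f r)]
      exact hx₀ f (mem_span_two_r e f)
    have hdr : pl (Q0 hP) d r = 1 := by
      rw [hdS r (mem_span_three_3 e f r), hx₀r]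
    have h1 := hsing d (c * (Q0 hP r : F₀)) hQd hde hdf
    have h2 := hsing (r - Q0 hP r • d) c (by
      rw [Q_smul_sub hQ₀, hQd, pl_symm, hdr]
      ring) (by rw [pl_sub_left hQ₀, pl_smul_left hQ₀, hre, hde]; ring) (by rw [pl_sub_left hQ₀, pl_smul_left hQ₀, hrf, hdf]; ring)
    have h3 := EI.add hQe' (by
      rw [pl_smul_right hQ, pl_symm, ← pl_coe hP, pl_sub_left hQ₀, pl_smul_left hQ₀, hre, hde]
      simp) (by
      rw [pl_smul_right hQ, pl_symm, ← pl_coe hP, hde]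
      simp) h2 h1
    have e3 : c • rr P (r - Q0 hP r • d) + (c * (Q0 hP r : F₀)) • rr P d = c • rr P r := by
      rw [rr_sub, rr_smul]
      ext i
      simp only [Pi.add_apply, Pi.sub_apply, Pi.smul_apply, smul_eq_mul]
      ring
    rwa [e3] at h3
  -- projecting the standard basis
  let κ : ι → F := ((P⁻¹ : GL ι F) : Matrix ι ι F) *ᵥ y
  let ε : ι → (ι → F₀) := fun i => Pi.single i (1 : F₀)
  let π : (ι → F₀) → (ι → F₀) := fun r => r - pl (Q0 hP) r f • e - pl (Q0 hP) r e • f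
  have hπe : ∀ r, pl (Q0 hP) (π r) e = 0 := by
    intro r
    simp only [π]
    rw [pl_sub_left hQ₀, pl_sub_left hQ₀, pl_smul_left hQ₀, pl_smul_left hQ₀, hee, hfe]
    ring
  have hπf : ∀ r, pl (Q0 hP) (π r) f = 0 := by
    intro r
    simp only [π]
    rw [pl_sub_left hQ₀, pl_sub_left hQ₀, pl_smul_left hQ₀, pl_smul_left hQ₀, hef, hff]
    ring
  have hsum : ∀ T : Finset ι, EI hQ M (rr P e) (∑ i ∈ T, κ i • rr P (π (ε i))) ∧ pl Q (rr P e) (∑ i ∈ T, κ i • rr P (π (ε i))) = 0 := by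
    intro T
    classical
    induction T using Finset.induction_on with
    | empty =>
      simp only [Finset.sum_empty]
      exact ⟨EI_zero, pl_zero_right hQ _⟩
    | insert a s ha ih =>
      rw [Finset.sum_insert ha]
      have e1 : pl Q (rr P e) (κ a • rr P (π (ε a))) = 0 := by
        rw [pl_smul_right hQ, pl_symm, ← pl_coe hP, hπe]
        simp
      exact ⟨EI.add hQe' e1 ih.2 (hrat _ _ (hπe _) (hπf _)) ih.1, by rw [pl_add_right hQ, e1, ih.2, add_zero]⟩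
  have hy : y = ∑ i, κ i • rr P (π (ε i)) := by
    have e1 : ∀ i, κ i • rr P (π (ε i)) = κ i • rr P (ε i) - (κ i * pl Q (rr P (ε i)) (rr P f)) • rr P e - (κ i * pl Q (rr P (ε i)) (rr P e)) • rr P f := by
      intro i
      simp only [π]
      rw [rr_sub, rr_sub, rr_smul, rr_smul, pl_coe hP, pl_coe hP]
      ext j
      simp only [Pi.sub_apply, Pi.smul_apply, smul_eq_mul]
      ring
    have e2 : y = ∑ i, κ i • rr P (ε i) := expand y
    simp only [e1]
    rw [Finset.sum_sub_distrib, Finset.sum_sub_distrib, ← Finset.sum_smul, ← Finset.sum_smul, ← e2]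
    have e3 : ∑ i, κ i * pl Q (rr P (ε i)) (rr P f) = pl Q y (rr P f) := by
      conv_rhs => rw [e2, pl_symm, pl_sum_right hQ]
      refine Finset.sum_congr rfl fun i _ => ?_
      rw [pl_smul_right hQ, pl_symm]
    have e4 : ∑ i, κ i * pl Q (rr P (ε i)) (rr P e) = pl Q y (rr P e) := by
      conv_rhs => rw [e2, pl_symm, pl_sum_right hQ]
      refine Finset.sum_congr rfl fun i _ => ?_
      rw [pl_smul_right hQ, pl_symm]
    rw [e3, e4, hye, hyf]
    simp
  rw [hy]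
  exact (hsum Finset.univ).1

/-- Moving an arbitrary singular vector to the rational vector `e`. -/
theorem move_e [Fintype F₀] (hd : 9 ≤ Fintype.card ι) {M : Subgroup (GL ι F)} (hMO : M ≤ isometryGroup F Q)
    (hall : ∀ u v : ι → F₀, Ts hP u v → ∀ c : F, RI Q M (rr P u) (c • rr P v))
    {e f : ι → F₀} (hQe : Q0 hP e = 0) (hQf : Q0 hP f = 0) (hef : pl (Q0 hP) e f = 1) {z : ι → F} (hQz : Q z = 0) (hz0 : z ≠ 0) :
    ∃ m ∈ M, ∃ α : F, (m : Matrix ι ι F) *ᵥ z = α • rr P e := by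
  have hQ₀ := Q0_nondeg hQ hP
  have hfe : pl (Q0 hP) f e = 1 := by rw [pl_symm, hef]
  obtain ⟨E, hE⟩ : ∃ E, E = rr P e := ⟨_, rfl⟩
  obtain ⟨G, hG⟩ : ∃ G, G = rr P f := ⟨_, rfl⟩
  have hQE : Q E = 0 := by rw [hE]; exact FQ hQ hP hQe
  have hQG : Q G = 0 := by rw [hG]; exact FQ hQ hP hQf
  have hEG : pl Q E G = 1 := by rw [hE, hG]; exact Fpl1 hQ hP hef
  have hGE : pl Q G E = 1 := by rw [pl_symm, hEG]
  have hEE : pl Q E E = 0 := by rw [pl_self hQ, hQE, mul_zero]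
  have hGG : pl Q G G = 0 := by rw [pl_self hQ, hQG, mul_zero]
  -- case: nonzero coefficient at e
  have case1 : ∀ z : ι → F, Q z = 0 → pl Q z G ≠ 0 → ∃ m ∈ M, ∃ α : F, (m : Matrix ι ι F) *ᵥ z = α • E := by
    intro z hQz hα
    obtain ⟨α, hαd⟩ : ∃ α, α = pl Q z G := ⟨_, rfl⟩
    obtain ⟨β, hβd⟩ : ∃ β, β = pl Q z E := ⟨_, rfl⟩
    rw [← hαd] at hα
    obtain ⟨w, hw⟩ : ∃ w, w = z - α • E - β • G := ⟨_, rfl⟩
    have hwE : pl Q w E = 0 := by
      rw [hw, pl_sub_left hQ, pl_sub_left hQ, pl_smul_left hQ, pl_smul_left hQ, hEE, hGE, ← hβd]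
      ring
    have hwG : pl Q w G = 0 := by
      rw [hw, pl_sub_left hQ, pl_sub_left hQ, pl_smul_left hQ, pl_smul_left hQ, hEG, hGG, ← hαd]
      ring
    obtain ⟨v, hv⟩ : ∃ v, v = (-α⁻¹) • w := ⟨_, rfl⟩
    have hvE : pl Q v E = 0 := by rw [hv, pl_smul_left hQ, hwE, mul_zero]
    have hvG : pl Q v G = 0 := by rw [hv, pl_smul_left hQ, hwG, mul_zero]
    obtain ⟨g, hg, hgx⟩ := EI_all hQ hP hd hall hQf hQe hfe (y := v) (by rw [← hG]; exact hvG) (by rw [← hE]; exact hvE)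
    rw [← hG] at hgx
    have e1 : (g : Matrix ι ι F) *ᵥ z = α • E + (β - pl Q z v - Q v * α) • G := by
      have e2 : α • v = - w := by
        rw [hv, smul_smul, mul_neg, mul_inv_cancel₀ hα, neg_smul, one_smul]
      rw [hgx, siegLin_apply, ← hαd, e2, hw]
      ext i
      simp only [Pi.add_apply, Pi.sub_apply, Pi.smul_apply, smul_eq_mul, Pi.neg_apply]
      ring
    have e2 : Q ((g : Matrix ι ι F) *ᵥ z) = 0 := by
      rw [mem_isom_iff.1 (hMO hg), hQz]
    rw [e1, Q_add Q, hQ.smul, hQ.smul, hQE, hQG, pl_smul_left hQ, pl_smul_right hQ, hEG] at e2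
    have e3 : β - pl Q z v - Q v * α = 0 := by
      have e4 : α * (β - pl Q z v - Q v * α) = 0 := by
        linear_combination e2
      exact (mul_eq_zero.1 e4).resolve_left hα
    refine ⟨g, hg, α, ?_⟩
    rw [e1, e3, zero_smul, add_zero]
  by_cases hα : pl Q z G = 0
  swap
  · rw [← hE]
    exact case1 z hQz hα
  rw [← hE]
  obtain ⟨β, hβd⟩ : ∃ β, β = pl Q z E := ⟨_, rfl⟩
  obtain ⟨w, hw⟩ : ∃ w, w = z - β • G := ⟨_, rfl⟩
  have hwE : pl Q w E = 0 := by
    rw [hw, pl_sub_left hQ, pl_smul_left hQ, hGE, ← hβd]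
    ring
  have hwG : pl Q w G = 0 := by
    rw [hw, pl_sub_left hQ, pl_smul_left hQ, hGG, hα]
    ring
  have hzw : z = w + β • G := by
    rw [hw]
    abel
  have hee : pl (Q0 hP) e e = 0 := by rw [pl_self hQ₀, hQe, mul_zero]
  have hff : pl (Q0 hP) f f = 0 := by rw [pl_self hQ₀, hQf, mul_zero]
  obtain ⟨v, hvE, hvG, hvn⟩ : ∃ v : ι → F, pl Q v E = 0 ∧ pl Q v G = 0 ∧ pl Q z v + β * Q v ≠ 0 := by
    by_cases hw0 : w = 0
    · have hz : z = β • G := by
        rw [hzw, hw0, zero_add]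
      have hβ : β ≠ 0 := by
        rintro h0
        apply hz0
        rw [hz, h0, zero_smul]
      have hS2 := finrank_span_two (F := F₀) e f
      obtain ⟨s, s', hQs, hQs', hss', hsS, hs'S⟩ := hyp_top hQ₀ (Submodule.span F₀ {e, f}) (by omega)
      have hse := hsS e (mem_span_two_l e f)
      have hsf := hsS f (mem_span_two_r e f)
      have hs'e := hs'S e (mem_span_two_l e f)
      have hs'f := hs'S f (mem_span_two_r e f)
      have h1 : pl Q (rr P (s + s')) E = 0 := by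
        rw [hE]
        apply Fpl hQ hP
        rw [pl_add_left hQ₀, hse, hs'e, add_zero]
      have h2 : pl Q (rr P (s + s')) G = 0 := by
        rw [hG]
        apply Fpl hQ hP
        rw [pl_add_left hQ₀, hsf, hs'f, add_zero]
      refine ⟨rr P (s + s'), h1, h2, ?_⟩
      have h3 : Q (rr P (s + s')) = 1 := by
        have : Q0 hP (s + s') = 1 := by
          rw [Q_add (Q0 hP), hQs, hQs', hss']
          ring
        rw [← Q0_coe hP, this]
        rfl
      rw [hz, pl_smul_left hQ, pl_symm G, h2, h3]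
      simpa using hβ
    · obtain ⟨r₁, hr₁⟩ : ∃ r : ι → F₀, pl Q w (rr P r) ≠ 0 := by
        by_contra hcon
        push Not at hcon
        exact hw0 (nd_rat hQ hcon)
      obtain ⟨r, hr⟩ : ∃ r, r = r₁ - pl (Q0 hP) r₁ f • e - pl (Q0 hP) r₁ e • f := ⟨_, rfl⟩
      have hfe' : pl (Q0 hP) f e = 1 := hfe
      have hre : pl (Q0 hP) r e = 0 := by
        rw [hr, pl_sub_left hQ₀, pl_sub_left hQ₀, pl_smul_left hQ₀, pl_smul_left hQ₀, hee, hfe']
        ring
      have hrf : pl (Q0 hP) r f = 0 := by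
        rw [hr, pl_sub_left hQ₀, pl_sub_left hQ₀, pl_smul_left hQ₀, pl_smul_left hQ₀, hef, hff]
        ring
      have hwr : pl Q w (rr P r) ≠ 0 := by
        have : pl Q w (rr P r) = pl Q w (rr P r₁) := by
          rw [hr, rr_sub, rr_sub, rr_smul, rr_smul, ← hE, ← hG, pl_sub_right hQ, pl_sub_right hQ, pl_smul_right hQ,
            pl_smul_right hQ, hwE, hwG]
          ring
        rw [this]
        exact hr₁
      have hsing : ∀ s : ι → F₀, Q0 hP s = 0 → pl (Q0 hP) s e = 0 → pl (Q0 hP) s f = 0 → pl Q w (rr P s) ≠ 0 →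
          ∃ v : ι → F, pl Q v E = 0 ∧ pl Q v G = 0 ∧ pl Q z v + β * Q v ≠ 0 := by
        intro s hQs hse hsf hws
        refine ⟨rr P s, ?_, ?_, ?_⟩
        · rw [hE]
          exact Fpl hQ hP hse
        · rw [hG]
          exact Fpl hQ hP hsf
        · have h1 : pl Q G (rr P s) = 0 := by
            rw [hG, pl_symm]
            exact Fpl hQ hP hsf
          rw [hzw, pl_add_left hQ, pl_smul_left hQ, h1, FQ hQ hP hQs]
          simpa using hws
      by_cases hQr : Q0 hP r = 0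
      · exact hsing r hQr hre hrf hwr
      have hr0 : r ≠ 0 := by
        rintro rfl
        exact hQr (Q_zero hQ₀)
      obtain ⟨d, hQd, hde, hdf, hdr⟩ := exists_d hQ hP hd hQe hQf hef hre hrf hr0
      by_cases hwd : pl Q w (rr P d) = 0
      · refine hsing (r - Q0 hP r • d) ?_ ?_ ?_ ?_
        · rw [Q_smul_sub hQ₀, hQd, pl_symm, hdr]
          ring
        · rw [pl_sub_left hQ₀, pl_smul_left hQ₀, hre, hde]
          ring
        · rw [pl_sub_left hQ₀, pl_smul_left hQ₀, hrf, hdf]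
          ring
        · rw [rr_sub, rr_smul, pl_sub_right hQ, pl_smul_right hQ, hwd, mul_zero, sub_zero]
          exact hwr
      · exact hsing d hQd hde hdf hwd
  obtain ⟨g, hg, hgx⟩ := EI_all hQ hP hd hall hQe hQf hef (y := v) (by rw [← hE]; exact hvE) (by rw [← hG]; exact hvG)
  rw [← hE] at hgx
  have e1 : pl Q ((g : Matrix ι ι F) *ᵥ z) G ≠ 0 := by
    rw [hgx, siegLin_apply, pl_sub_left hQ, pl_sub_left hQ, pl_add_left hQ, pl_smul_left hQ, pl_smul_left hQ, pl_smul_left hQ,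
      hEG, hα, hvG, ← hβd]
    intro h0
    apply hvn
    linear_combination -h0
  obtain ⟨m, hm, α, hmα⟩ := case1 _ (by rw [mem_isom_iff.1 (hMO hg), hQz]) e1
  refine ⟨m * g, M.mul_mem hm hg, α, ?_⟩
  rw [Units.val_mul, ← Matrix.mulVec_mulVec, hmα]

/-- All root elements are in `M`. -/
theorem all_roots [Fintype F₀] (hd : 9 ≤ Fintype.card ι) {M : Subgroup (GL ι F)} (hMO : M ≤ isometryGroup F Q)
    (hall : ∀ u v : ι → F₀, Ts hP u v → ∀ c : F, RI Q M (rr P u) (c • rr P v)) (a d : ι → F) (hQa : Q a = 0)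
    (hQd : Q d = 0) (had : pl Q a d = 0) : RI Q M a d := by
  have hQ₀ := Q0_nondeg hQ hP
  by_cases ha0 : a = 0
  · refine ⟨1, M.one_mem, fun x => ?_⟩
    rw [ha0, pl_zero_right hQ]
    simp
  obtain ⟨e, f, hQe, hQf, hef, -, -⟩ := hyp_top hQ₀ (⊥ : Submodule F₀ (ι → F₀)) (by simp; omega)
  have hfe : pl (Q0 hP) f e = 1 := by rw [pl_symm, hef]
  obtain ⟨m, hm, α, hmα⟩ := move_e hQ hP hd hMO hall hQe hQf hef hQa ha0
  have hI := hMO hm
  obtain ⟨E, hE⟩ : ∃ E, E = rr P e := ⟨_, rfl⟩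
  obtain ⟨G, hG⟩ : ∃ G, G = rr P f := ⟨_, rfl⟩
  rw [← hE] at hmα
  have hQE : Q E = 0 := by rw [hE]; exact FQ hQ hP hQe
  have hQG : Q G = 0 := by rw [hG]; exact FQ hQ hP hQf
  have hEG : pl Q E G = 1 := by rw [hE, hG]; exact Fpl1 hQ hP hef
  have hGE : pl Q G E = 1 := by rw [pl_symm, hEG]
  have hEE : pl Q E E = 0 := by rw [pl_self hQ, hQE, mul_zero]
  have hα : α ≠ 0 := by
    rintro rfl
    apply ha0
    have h1 := Cfsg.Agent.H27.TC.inv_act m a
    rw [hmα, zero_smul, Matrix.mulVec_zero] at h1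
    exact h1.symm
  obtain ⟨y, hy⟩ : ∃ y, y = (m : Matrix ι ι F) *ᵥ d := ⟨_, rfl⟩
  have hQy : Q y = 0 := by rw [hy, mem_isom_iff.1 hI, hQd]
  have hyE : pl Q y E = 0 := by
    have h1 : pl Q y (α • E) = 0 := by
      rw [hy, ← hmα, isom_pl hI, pl_symm, had]
    rw [pl_smul_right hQ] at h1
    exact (mul_eq_zero.1 h1).resolve_left hα
  obtain ⟨κ, hκ⟩ : ∃ κ, κ = pl Q y G := ⟨_, rfl⟩
  obtain ⟨w, hw⟩ : ∃ w, w = y - κ • E := ⟨_, rfl⟩
  have hwE : pl Q w E = 0 := by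
    rw [hw, pl_sub_left hQ, pl_smul_left hQ, hEE, hyE]
    ring
  have hwG : pl Q w G = 0 := by
    rw [hw, pl_sub_left hQ, pl_smul_left hQ, hEG, ← hκ]
    ring
  have hQw : Q w = 0 := by
    rw [hw, Q_smul_sub hQ, hQy, hQE, hyE]
    ring
  have hv1 : pl Q (-(α • w)) (rr P e) = 0 := by
    rw [← hE, pl_neg_left hQ, pl_smul_left hQ, hwE]
    ring
  have hv2 : pl Q (-(α • w)) (rr P f) = 0 := by
    rw [← hG, pl_neg_left hQ, pl_smul_left hQ, hwG]
    ring
  have h1 := EI_all hQ hP hd hall hQe hQf hef hv1 hv2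
  rw [← hE] at h1
  have h2 : RI Q M E (α • w) := RI_of_EI (hQ := hQ) (by rw [hQ.smul, hQw, mul_zero]) h1
  have h3 : RI Q M (α • E) y := h2.congr fun x => by
    have hy' : y = κ • E + w := by
      rw [hw]
      abel
    rw [hy', pl_add_right hQ, pl_smul_right hQ, pl_smul_right hQ, pl_smul_right hQ]
    ext i
    simp only [Pi.add_apply, Pi.sub_apply, Pi.smul_apply, smul_eq_mul]
    ring
  have h4 := RI.conj hQ (M.inv_mem hm) (hMO (M.inv_mem hm)) h3
  rw [← hmα, hy, Cfsg.Agent.H27.TC.inv_act, Cfsg.Agent.H27.TC.inv_act] at h4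
  exact h4

end main

/-- The subfield subgroup is maximal in `Ω`. -/
theorem om_max [Fintype F] (hQ : IsNondegenerateQuadraticForm Q) (hn : 11 ≤ Fintype.card ι) (hP : RatQ Q F₀ P) {r : ℕ}
    (hr : r.Prime) (hcard : Fintype.card F = Nat.card F₀ ^ r) :
    IsMaximalIn (omegaGL Q) (subfieldSubgroup F₀ P ⊓ omegaGL Q) := by
  haveI : Fintype F₀ := Fintype.ofFinite _
  have hQ₀ := Q0_nondeg hQ hP
  have hrel : ∀ {M : Subgroup (GL ι F)}, subfieldSubgroup F₀ P ⊓ omegaGL Q ≤ M →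
      ∀ a d : ι → F₀, Q0 hP a = 0 → Q0 hP d = 0 → pl (Q0 hP) a d = 0 → RI Q M (rr P a) (rr P d) := by
    intro M hM a d hQa hQd had
    obtain ⟨g, hg, hgx⟩ := RI_omega hQ (by omega) (FQ hQ hP hQa) (FQ hQ hP hQd) (Fpl hQ hP had)
    refine ⟨g, hM ⟨?_, hg⟩, hgx⟩
    refine mem_of_rat (μ := 1) one_ne_zero fun w => ⟨w + pl (Q0 hP) w d • a - pl (Q0 hP) w a • d, ?_⟩
    rw [hgx, one_smul, rr_sub, rr_add, rr_smul, rr_smul, pl_coe hP, pl_coe hP]
  refine ⟨lt_of_le_of_ne inf_le_right ?_, fun M hM hMK => ?_⟩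
  · -- properness
    obtain ⟨c₀, hc₀⟩ : ∃ c : F, c ∉ F₀ := by
      by_contra hcon
      push Not at hcon
      have h1 : Nat.card F₀ = Fintype.card F := by
        rw [← Nat.card_eq_fintype_card]
        exact Nat.card_congr (Equiv.subtypeUnivEquiv hcon)
      have h2 : 1 < Nat.card F₀ := by
        rw [h1]
        exact Fintype.one_lt_card
      rw [← h1] at hcard
      have h3 : Nat.card F₀ ^ 1 < Nat.card F₀ ^ r := Nat.pow_lt_pow_right h2 hr.one_lt
      rw [pow_one] at h3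
      omega
    obtain ⟨s₀, t, hQs₀, hQt, hs₀t, -, -⟩ := hyp_top hQ₀ (⊥ : Submodule F₀ (ι → F₀)) (by simp; omega)
    have hS1 := finrank_span_two (F := F₀) s₀ t
    obtain ⟨t₀, t', hQt₀, hQt', htt', htS, ht'S⟩ := hyp_top hQ₀ (Submodule.span F₀ {s₀, t}) (by omega)
    have ht₀s₀ := htS s₀ (mem_span_two_l s₀ t)
    have hs₀0 : s₀ ≠ 0 := by
      rintro rfl
      rw [pl_zero_left hQ₀] at hs₀t
      exact zero_ne_one hs₀t
    have hin : t₀ ∉ Submodule.span F₀ {s₀} := fun hm => by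
      obtain ⟨κ, hκ⟩ := Submodule.mem_span_singleton.1 hm
      have e := htt'
      rw [← hκ, pl_smul_left hQ₀, pl_symm, ht'S s₀ (mem_span_two_l s₀ t), mul_zero] at e
      exact zero_ne_one e
    obtain ⟨b, hbs₀S, hbt₀⟩ := sep_top hQ₀ hin 1
    have hbs₀ := hbs₀S s₀ (Submodule.mem_span_singleton_self s₀)
    have hin2 : s₀ ∉ Submodule.span F₀ {b} := fun hm => by
      obtain ⟨κ, hκ⟩ := Submodule.mem_span_singleton.1 hm
      have e := ht₀s₀
      rw [← hκ, pl_smul_right hQ₀, pl_symm, hbt₀, mul_one] at e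
      apply hs₀0
      rw [← hκ, e, zero_smul]
    obtain ⟨r₁, hr₁S, hr₁s₀⟩ := sep_top hQ₀ hin2 1
    have hr₁b := hr₁S b (Submodule.mem_span_singleton_self b)
    obtain ⟨g, hg, hgx⟩ := RI_omega hQ (d := c₀ • rr P t₀) (by omega) (FQ hQ hP hQs₀) (by rw [hQ.smul, FQ hQ hP hQt₀, mul_zero])
      (by rw [pl_smul_right hQ, pl_symm, Fpl hQ hP ht₀s₀, mul_zero])
    intro heq
    have hgH : g ∈ subfieldSubgroup F₀ P := by
      rw [← heq] at hg
      exact hg.1
    obtain ⟨μ, hμ⟩ := rat_of_mem hgH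
    obtain ⟨u, hu⟩ := hμ s₀
    have e1 : pl Q (rr P s₀) (rr P s₀) = 0 := by rw [pl_self hQ, FQ hQ hP hQs₀, mul_zero]
    have e2 : pl Q (rr P s₀) (rr P t₀) = 0 := by rw [pl_symm]; exact Fpl hQ hP ht₀s₀
    rw [hgx, pl_smul_right hQ, e1, e2] at hu
    simp only [mul_zero, zero_smul, add_zero, sub_zero] at hu
    have e3 : (μ : F) * ((pl (Q0 hP) r₁ u : F₀) : F) = 1 := by
      have := congrArg (fun z => pl Q (rr P r₁) z) hu
      simp only [pl_smul_right hQ, ← pl_coe hP, hr₁s₀] at this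
      simpa using this.symm
    have hμmem : (μ : F) ∈ F₀ := by
      have e4 : (μ : F) = ((pl (Q0 hP) r₁ u : F₀) : F)⁻¹ := by
        exact eq_inv_of_mul_eq_one_left e3
      rw [e4]
      exact inv_mem (SetLike.coe_mem _)
    obtain ⟨u', hu'⟩ := hμ b
    have e5 : pl Q (rr P b) (rr P t₀) = 1 := Fpl1 hQ hP hbt₀
    have e6 : pl Q (rr P b) (rr P s₀) = 0 := Fpl hQ hP hbs₀
    rw [hgx, pl_smul_right hQ, e5, e6] at hu'
    have e7 := congrArg (fun z => pl Q (rr P r₁) z) hu'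
    simp only [pl_smul_right hQ, pl_sub_right hQ, pl_add_right hQ, ← pl_coe hP, hr₁s₀, hr₁b] at e7
    simp only [mul_one, zero_mul, sub_zero, Subfield.coe_zero, Subfield.coe_one, zero_add] at e7
    apply hc₀
    rw [e7]
    exact mul_mem hμmem (SetLike.coe_mem _)
  · by_cases hMH : M ≤ subfieldSubgroup F₀ P ⊓ omegaGL Q
    · exact Or.inl (le_antisymm hMH hM)
    right
    refine le_antisymm hMK ?_
    obtain ⟨g, hgM, hgH⟩ := SetLike.not_le_iff_exists.1 hMH
    have hg' : g ∉ subfieldSubgroup F₀ P := fun h => hgH ⟨h, hMK hgM⟩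
    have hMO : M ≤ isometryGroup F Q := hMK.trans omega_le_isom
    have hrat := hrel hM
    obtain ⟨a, d, hQa, hQd, had, u₁, hu₁0, hQu₁, hNR⟩ := exists_nr hQ hP (by omega) (hMO hgM) hg'
    have hR := RI.conj hQ hgM (hMO hgM) (hrat a d hQa hQd had)
    have hx : Q ((g : Matrix ι ι F) *ᵥ rr P a) = 0 := by
      rw [mem_isom_iff.1 (hMO hgM), FQ hQ hP hQa]
    have hy : Q ((g : Matrix ι ι F) *ᵥ rr P d) = 0 := by
      rw [mem_isom_iff.1 (hMO hgM), FQ hQ hP hQd]
    have hxy : pl Q ((g : Matrix ι ι F) *ᵥ rr P a) ((g : Matrix ι ι F) *ᵥ rr P d) = 0 := by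
      rw [isom_pl (hMO hgM), Fpl hQ hP had]
    have hQz := Q_zz hQ hx hy hxy (rr P u₁)
    have hz : pl Q (zz Q ((g : Matrix ι ι F) *ᵥ rr P a) ((g : Matrix ι ι F) *ᵥ rr P d) (rr P u₁)) (rr P u₁) = 0 := by
      rw [zz_pl hQ]
      ring
    obtain ⟨u₂, u₃, hQ₂, hQ₃, h21, h31, h32, hφ2, hφ3⟩ := ts_rel hQ hP (by omega) hQz hu₁0 hQu₁ hz hNR
    obtain ⟨s, t, hQs, hQt, hst, i1, i2, c₀, hc₀, hRI⟩ := exists_coeff hQ hP hr hcard hMO hrat hx hy hxy hR hu₁0 hQu₁ hQ₂ hQ₃ h21 h31 h32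
      hφ2 hφ3
    have hall : ∀ u v : ι → F₀, Ts hP u v → ∀ c : F, RI Q M (rr P u) (c • rr P v) := fun u v huv c =>
      all_c hQ hP (by omega) hr hcard hrat ⟨hQs, hQt, hst, i1, i2⟩ hc₀ hRI huv c
    exact omega_le_of_roots hQ (by omega) (all_roots hQ hP (by omega) hMO hall)

end Cfsg.Agent.H27.OS
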