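import Mathlib
import Cfsg.Prelude.Def_GeometricClasses
import Cfsg.Agent.Lib.H27.GeoOS8

/-!
# Scaling a quadratic form does not change `Ω`
-/

set_option autoImplicit false
set_option linter.unusedSectionVars false
set_option linter.unusedSimpArgs false
set_option linter.unusedVariables false

namespace Cfsg.Agent.H27.OS

open scoped Matrix MatrixGroups
open Cfsg Cfsg.Geo
open Cfsg.Agent.H27.RS (rr co)
open Cfsg.Agent.H27.GO

variable {ι : Type} [Fintype ι] [DecidableEq ι] {F : Type*} [Field F] {Q : (ι → F) → F} {F₀ : Subfield F} {P : GL ι F}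

lemma omegaGL_eq (Q : (ι → F) → F) : omegaGL Q = ⁅isometryGroup F Q, isometryGroup F Q⁆ :=
  Subgroup.map_subtype_commutator _

lemma isometry_scale {ζ : F} (hζ : ζ ≠ 0) : isometryGroup F (fun v => ζ * Q v) = isometryGroup F Q := by
  ext g
  rw [mem_isom_iff, mem_isom_iff]
  constructor
  · intro h x
    have := h x
    exact mul_left_cancel₀ hζ this
  · intro h x
    simp only [h x]

lemma omega_scale {ζ : F} (hζ : ζ ≠ 0) : omegaGL (fun v => ζ * Q v) = omegaGL Q := by
  rw [omegaGL_eq, omegaGL_eq, isometry_scale hζ]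

lemma nondeg_scale (hQ : IsNondegenerateQuadraticForm Q) {ζ : F} (hζ : ζ ≠ 0) :
    IsNondegenerateQuadraticForm (fun v => ζ * Q v) := by
  have e : ∀ x y, QuadraticMap.polar (fun v => ζ * Q v) x y = ζ * pl Q x y := by
    intro x y
    simp only [QuadraticMap.polar, pl]
    ring
  refine ⟨fun c v => ?_, ⟨fun x y v => ?_, fun c x v => ?_, fun v x y => ?_, fun c v x => ?_⟩, fun v hv => ?_⟩
  · simp only [hQ.smul]
    ring
  · rw [e, e, e, pl_add_left hQ]
    ring
  · rw [e, e, pl_smul_left hQ]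
    ring
  · rw [e, e, e, pl_add_right hQ]
    ring
  · rw [e, e, pl_smul_right hQ]
    ring
  · obtain ⟨⟨x, hx⟩, ⟨y, hy⟩⟩ := hQ.nondegenerate v hv
    exact ⟨⟨x, by rw [e]; exact mul_ne_zero hζ hx⟩, ⟨y, by rw [e]; exact mul_ne_zero hζ hy⟩⟩

/-- The subfield subgroup is maximal in `Ω`, statement over a general structure. -/
theorem om_max_struct [Fintype F] (hQ : IsNondegenerateQuadraticForm Q) (hn : 11 ≤ Fintype.card ι)
    (hP : IsQuadFormRationalStructure Q F₀ P) {r : ℕ} (hr : r.Prime) (hcard : Fintype.card F = Nat.card F₀ ^ r) :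
    IsMaximalIn (omegaGL Q) (subfieldSubgroup F₀ P ⊓ omegaGL Q) :=
  om_max hQ hn (fun u => hP (co u) (fun i => (u i).2)) hr hcard

/-- The same with a scalar multiple of the form rational. -/
theorem om_max_scale [Fintype F] (hQ : IsNondegenerateQuadraticForm Q) (hn : 11 ≤ Fintype.card ι) {ζ : F} (hζ : ζ ≠ 0)
    (hP : IsQuadFormRationalStructure (fun v => ζ * Q v) F₀ P) {r : ℕ} (hr : r.Prime)
    (hcard : Fintype.card F = Nat.card F₀ ^ r) :
    IsMaximalIn (omegaGL Q) (subfieldSubgroup F₀ P ⊓ omegaGL Q) := by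
  have := om_max_struct (nondeg_scale hQ hζ) hn hP hr hcard
  rwa [omega_scale hζ] at this

end Cfsg.Agent.H27.OS
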