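import Mathlib
import Cfsg.Prelude.Def_GeometricClasses
import Cfsg.Agent.Lib.H27.GeoOGen2

/-!
# The stabiliser of a pair of complementary totally singular subspaces in `Ω⁺`
-/

set_option autoImplicit false
set_option linter.unusedSectionVars false
set_option linter.unusedSimpArgs false
set_option linter.unusedVariables false

namespace Cfsg.Agent.H27.OT

open scoped Matrix MatrixGroups
open Cfsg Cfsg.Geo
open Cfsg.Agent.H27.GO

variable {ι : Type} [Fintype ι] [DecidableEq ι] {F : Type*} [Field F] [Fintype F] {Q : (ι → F) → F} {k : ℕ}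
  {A B : Submodule F (ι → F)}

local notation "GG" => GL ι F
local notation "Mat" => Matrix ι ι F

/-- A pair of complementary totally singular subspaces. -/
structure TS (Q : (ι → F) → F) (k : ℕ) (A B : Submodule F (ι → F)) : Prop where
  qA : ∀ x ∈ A, Q x = 0
  qB : ∀ x ∈ B, Q x = 0
  sup : ∀ x, ∃ a ∈ A, ∃ b ∈ B, x = a + b
  dimA : Module.finrank F A = k
  dimB : Module.finrank F B = k

theorem TS.symm (h : TS Q k A B) : TS Q k B A :=
  ⟨h.qB, h.qA, fun x => by
    obtain ⟨a, ha, b, hb, rfl⟩ := h.sup x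
    exact ⟨b, hb, a, ha, add_comm _ _⟩, h.dimB, h.dimA⟩

theorem TS.plA (h : TS Q k A B) {x y : ι → F} (hx : x ∈ A) (hy : y ∈ A) : pl Q x y = 0 := by
  have h1 := Q_add Q x y
  rw [h.qA _ (A.add_mem hx hy), h.qA _ hx, h.qA _ hy] at h1
  linear_combination -h1

theorem TS.plB (h : TS Q k A B) {x y : ι → F} (hx : x ∈ B) (hy : y ∈ B) : pl Q x y = 0 := h.symm.plA hx hy

theorem TS.Qsum (h : TS Q k A B) {x y : ι → F} (hx : x ∈ A) (hy : y ∈ B) : Q (x + y) = pl Q x y := by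
  rw [Q_add Q, h.qA _ hx, h.qB _ hy]
  ring

theorem TS.eq_zero (hQ : IsNondegenerateQuadraticForm Q) (h : TS Q k A B) {y : ι → F} (ha : ∀ a ∈ A, pl Q y a = 0)
    (hb : ∀ b ∈ B, pl Q y b = 0) : y = 0 := by
  by_contra h0
  obtain ⟨z, -, hz⟩ := ndg_top hQ y trivial h0
  obtain ⟨a, ha', b, hb', rfl⟩ := h.sup z
  apply hz
  rw [pl_add_right hQ, ha a ha', hb b hb', add_zero]

theorem TS.inf (hQ : IsNondegenerateQuadraticForm Q) (h : TS Q k A B) {x : ι → F} (ha : x ∈ A) (hb : x ∈ B) : x = 0 :=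
  h.eq_zero hQ (fun a ha' => h.plA ha ha') (fun b hb' => h.plB hb hb')

/-- Functionals on `A` are represented by vectors of `B`. -/
theorem TS.rep (hQ : IsNondegenerateQuadraticForm Q) (h : TS Q k A B) (ψ : A →ₗ[F] F) :
    ∃ b ∈ B, ∀ a : A, pl Q (a : ι → F) b = ψ a := by
  obtain ⟨g, hg⟩ := LinearMap.exists_extend ψ
  obtain ⟨u, -, hu⟩ := exists_rep hQ (ndg_top hQ) (g ∘ₗ (⊤ : Submodule F (ι → F)).subtype)
  obtain ⟨a', ha', b, hb, rfl⟩ := h.sup u
  refine ⟨b, hb, fun a => ?_⟩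
  have h1 := hu ⟨(a : ι → F), trivial⟩
  simp only at h1
  rw [pl_add_left hQ, h.plA ha' a.2, zero_add] at h1
  rw [pl_symm, h1, ← hg]
  rfl

theorem TS.sep (hQ : IsNondegenerateQuadraticForm Q) (h : TS Q k A B) {S : Submodule F (ι → F)} {p : ι → F} (hp : p ∈ A)
    (hpS : p ∉ S) (c : F) : ∃ b ∈ B, (∀ s ∈ S, s ∈ A → pl Q s b = 0) ∧ pl Q p b = c := by
  have hp' : (⟨p, hp⟩ : A) ∉ S.comap A.subtype := by
    simpa using hpS
  obtain ⟨g, hg, hgS⟩ := Submodule.exists_le_ker_of_notMem hp'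
  obtain ⟨y, hy, hyg⟩ := h.rep hQ g
  refine ⟨(c / g ⟨p, hp⟩) • y, B.smul_mem _ hy, fun s hs hsA => ?_, ?_⟩
  · have h1 : g ⟨s, hsA⟩ = 0 := hgS (by simpa using hs)
    have h2 := hyg ⟨s, hsA⟩
    rw [pl_smul_right hQ]
    change pl Q s y = _ at h2
    rw [h2, h1, mul_zero]
  · have h2 := hyg ⟨p, hp⟩
    rw [pl_smul_right hQ]
    change pl Q p y = _ at h2
    rw [h2]
    field_simp

theorem exists_perp_ne (hQ : IsNondegenerateQuadraticForm Q) (Y S : Submodule F (ι → F)) {r : ℕ} (p : Fin r → ι → F)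
    (hd : Module.finrank F S + r < Module.finrank F Y) : ∃ y ∈ Y, (∀ i, pl Q (p i) y = 0) ∧ y ∉ S := by
  let L : Y →ₗ[F] (Fin r → F) :=
    { toFun := fun y i => pl Q (p i) y
      map_add' := fun a b => by
        ext i
        exact pl_add_right hQ _ _ _
      map_smul' := fun c a => by
        ext i
        exact pl_smul_right hQ _ _ _ }
  have h1 := LinearMap.finrank_range_add_finrank_ker L
  have h2 : Module.finrank F (LinearMap.range L) ≤ r := by
    have := Submodule.finrank_le (LinearMap.range L)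
    simpa using this
  have h3 : Module.finrank F ((LinearMap.ker L).map Y.subtype) = Module.finrank F (LinearMap.ker L) :=
    Submodule.finrank_map_subtype_eq _ _
  have h4 : ¬ ((LinearMap.ker L).map Y.subtype ≤ S) := fun hle => by
    have := Submodule.finrank_mono hle
    omega
  obtain ⟨y, hy, hyS⟩ := SetLike.not_le_iff_exists.1 h4
  obtain ⟨y', hy', rfl⟩ := hy
  refine ⟨y', y'.2, fun i => ?_, hyS⟩
  have := congrFun (LinearMap.mem_ker.1 hy') i
  exact this

/-- Exchange in a span of two vectors. -/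
theorem exch {a b c : ι → F} (h1 : a ∉ Submodule.span F {b}) (h2 : a ∈ Submodule.span F {c, b}) :
    c ∈ Submodule.span F {a, b} := by
  obtain ⟨α, β, hαβ⟩ := Submodule.mem_span_pair.1 h2
  have hα : α ≠ 0 := by
    rintro rfl
    apply h1
    rw [← hαβ, zero_smul, zero_add]
    exact Submodule.smul_mem _ _ (Submodule.mem_span_singleton_self b)
  have : c = α⁻¹ • a - (α⁻¹ * β) • b := by
    rw [← hαβ, smul_add, smul_smul, inv_mul_cancel₀ hα, one_smul, smul_smul]
    abel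
  rw [this]
  exact Submodule.sub_mem _ (Submodule.smul_mem _ _ (Submodule.subset_span (by simp)))
    (Submodule.smul_mem _ _ (Submodule.subset_span (by simp)))

theorem not_span_comm {x y : ι → F} (hy : y ≠ 0) (h : x ∉ Submodule.span F {y}) : y ∉ Submodule.span F {x} := by
  intro hm
  obtain ⟨c, rfl⟩ := Submodule.mem_span_singleton.1 hm
  apply h
  have hc : c ≠ 0 := by
    rintro rfl
    exact hy (zero_smul _ _)
  rw [Submodule.mem_span_singleton]
  exact ⟨c⁻¹, by rw [smul_smul, inv_mul_cancel₀ hc, one_smul]⟩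

/-- Subtracting in the second coordinate. -/
theorem RI.sub (hQ : IsNondegenerateQuadraticForm Q) {M : Subgroup GG} {a d d' : ι → F} (ha : Q a = 0) (hd : Q d = 0)
    (had : pl Q a d = 0) (had' : pl Q a d' = 0) (hdd' : pl Q d d' = 0) (h' : RI Q M a d') (h : RI Q M a d) :
    RI Q M a (d' - d) := by
  have h1 := (h.symm hQ ha hd had).congr (a' := a) (d' := -d) fun x => by
    simp only [pl_neg_right hQ]
    ext i
    simp only [Pi.add_apply, Pi.sub_apply, Pi.smul_apply, Pi.neg_apply, smul_eq_mul]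
    ring
  have h2 := RI.add hQ ha had' (by rw [pl_neg_right hQ, had, neg_zero]) (by rw [pl_neg_right hQ, pl_symm, hdd', neg_zero]) h' h1
  rwa [← sub_eq_add_neg] at h2

theorem RI_trivial (hQ : IsNondegenerateQuadraticForm Q) (M : Subgroup GG) (a : ι → F) (c : F) : RI Q M a (c • a) :=
  ⟨1, M.one_mem, fun x => by
    rw [pl_smul_right hQ]
    ext i
    simp only [Units.val_one, Matrix.one_mulVec, Pi.add_apply, Pi.sub_apply, Pi.smul_apply, smul_eq_mul]
    ring⟩

def HR (Q : (ι → F) → F) (M : Subgroup GG) (A B : Submodule F (ι → F)) : Prop :=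
  ∀ u ∈ A, ∀ v ∈ B, pl Q u v = 0 → RI Q M u v

theorem HR.symm (hQ : IsNondegenerateQuadraticForm Q) (h : TS Q k A B) {M : Subgroup GG} (hR : HR Q M A B) : HR Q M B A := by
  intro u hu v hv huv
  exact (hR v hv u hu (by rw [pl_symm, huv])).symm hQ (h.qA _ hv) (h.qB _ hu) (by rw [pl_symm, huv])

/-- The mixing step. -/
theorem pure1 (hQ : IsNondegenerateQuadraticForm Q) (h : TS Q k A B) {M : Subgroup GG} (hMO : M ≤ isometryGroup F Q)
    (hR : HR Q M A B) {x₀ x₁ y u v : ι → F} (hx₀ : x₀ ∈ A) (hx₁ : x₁ ∈ B) (hu : u ∈ A) (hv : v ∈ B)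
    (hQx : Q (x₀ + x₁) = 0) (hQy : Q y = 0) (hxy : pl Q (x₀ + x₁) y = 0) (hux : pl Q u x₁ = 0) (huv : pl Q u v = 0)
    (hyv : pl Q y v = 0) (hyu : pl Q y u = 0) (hx₀v : pl Q x₀ v = 1) (hT : RI Q M (x₀ + x₁) y) : RI Q M u y := by
  obtain ⟨x, hx⟩ : ∃ x, x = x₀ + x₁ := ⟨_, rfl⟩
  rw [← hx] at hQx hxy hT
  obtain ⟨r, hr, hrx⟩ := hR u hu v hv huv
  have hry : (r : Mat) *ᵥ y = y := by
    rw [hrx, hyv, hyu]
    simp
  have hxv : pl Q x v = 1 := by rw [hx, pl_add_left hQ, hx₀v, h.plB hx₁ hv, add_zero]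
  have hxu : pl Q x u = 0 := by rw [hx, pl_add_left hQ, h.plA hx₀ hu, pl_symm, hux, add_zero]
  have hrz : (r : Mat) *ᵥ x = x + u := by
    rw [hrx, hxv, hxu]
    simp
  have T := RI.conj hQ hr (hMO hr) hT
  rw [hry, hrz] at T
  have hyx : pl Q y x = 0 := by rw [pl_symm, hxy]
  have T1 := RI.symm hQ (by rw [Q_add Q, hQx, h.qA _ hu, hxu]; ring) hQy (by rw [pl_add_left hQ, hxy, pl_symm u y, hyu, add_zero]) T
  have T2 := RI.symm hQ hQx hQy hxy hT
  have T3 := RI.sub hQ hQy hQx hyx (by rw [pl_add_right hQ, hyx, hyu, add_zero])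
    (by rw [pl_add_right hQ, pl_self hQ, hQx, hxu]; ring) T1 T2
  have e : x + u - x = u := by abel
  rw [e] at T3
  exact T3.symm hQ hQy (h.qA _ hu) hyu

/-- Independent first components give a root element in `A`. -/
theorem AA_of_indep (hQ : IsNondegenerateQuadraticForm Q) (h : TS Q k A B) (hk : 5 ≤ k) {M : Subgroup GG}
    (hMO : M ≤ isometryGroup F Q) (hR : HR Q M A B) {x₀ x₁ y₀ y₁ : ι → F} (hx₀ : x₀ ∈ A) (hx₁ : x₁ ∈ B) (hy₀ : y₀ ∈ A)
    (hy₁ : y₁ ∈ B) (hQx : Q (x₀ + x₁) = 0) (hQy : Q (y₀ + y₁) = 0) (hxy : pl Q (x₀ + x₁) (y₀ + y₁) = 0)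
    (hn1 : x₀ ∉ Submodule.span F {y₀}) (hn2 : y₀ ∉ Submodule.span F {x₀}) (hT : RI Q M (x₀ + x₁) (y₀ + y₁)) :
    ∃ u ∈ A, ∃ u₂ ∈ A, u ≠ 0 ∧ u₂ ∉ Submodule.span F {u} ∧ RI Q M u₂ u := by
  have hd : Module.finrank F (Submodule.span F {x₀, y₀}) + 2 < Module.finrank F A := by
    have := finrank_span_two (F := F) x₀ y₀
    rw [h.dimA]
    omega
  obtain ⟨u, hu, hup, hun⟩ := exists_perp_ne hQ A _ ![x₁, y₁] hd
  have hx₁u : pl Q x₁ u = 0 := hup 0
  have hy₁u : pl Q y₁ u = 0 := hup 1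
  have hu0 : u ≠ 0 := by
    rintro rfl
    exact hun (Submodule.zero_mem _)
  have hyu : pl Q (y₀ + y₁) u = 0 := by rw [pl_add_left hQ, h.plA hy₀ hu, hy₁u, add_zero]
  -- first application
  have hSn : x₀ ∉ Submodule.span F {u, y₀} := fun hm => hun (exch hn1 hm)
  obtain ⟨v, hv, hvS, hx₀v⟩ := h.sep hQ hx₀ hSn 1
  have huv : pl Q u v = 0 := hvS u (Submodule.subset_span (by simp)) hu
  have hy₀v : pl Q y₀ v = 0 := hvS y₀ (Submodule.subset_span (by simp)) hy₀
  have hyv : pl Q (y₀ + y₁) v = 0 := by rw [pl_add_left hQ, hy₀v, h.plB hy₁ hv, add_zero]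
  have T1 := pure1 hQ h hMO hR hx₀ hx₁ hu hv hQx hQy hxy (by rw [pl_symm, hx₁u]) huv hyv hyu hx₀v hT
  have T2 := T1.symm hQ (h.qA _ hu) hQy (by rw [pl_symm, hyu])
  -- second application
  have hy₀u : y₀ ∉ Submodule.span F {u} := by
    intro hm
    obtain ⟨c, hc⟩ := Submodule.mem_span_singleton.1 hm
    by_cases hc0 : c = 0
    · rw [hc0, zero_smul] at hc
      apply hn2
      rw [← hc]
      exact Submodule.zero_mem _
    · apply hun
      have : u = c⁻¹ • y₀ := by rw [← hc, smul_smul, inv_mul_cancel₀ hc0, one_smul]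
      rw [this]
      exact Submodule.smul_mem _ _ (Submodule.subset_span (by simp))
  have hd2 : Module.finrank F (Submodule.span F {y₀, u}) + 1 < Module.finrank F A := by
    have := finrank_span_two (F := F) y₀ u
    rw [h.dimA]
    omega
  obtain ⟨u₂, hu₂, hu₂p, hu₂n⟩ := exists_perp_ne hQ A _ ![y₁] hd2
  have hy₁u₂ : pl Q y₁ u₂ = 0 := hu₂p 0
  have hSn2 : y₀ ∉ Submodule.span F {u₂, u} := fun hm => hu₂n (exch hy₀u hm)
  obtain ⟨v₂, hv₂, hv₂S, hy₀v₂⟩ := h.sep hQ hy₀ hSn2 1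
  have hu₂v₂ : pl Q u₂ v₂ = 0 := hv₂S u₂ (Submodule.subset_span (by simp)) hu₂
  have huv₂ : pl Q u v₂ = 0 := hv₂S u (Submodule.subset_span (by simp)) hu
  have T3 := pure1 hQ h hMO hR hy₀ hy₁ hu₂ hv₂ hQy (h.qA _ hu) (by rw [hyu]) (by rw [pl_symm, hy₁u₂]) hu₂v₂ huv₂
    (h.plA hu hu₂) hy₀v₂ T2
  refine ⟨u, hu, u₂, hu₂, hu0, fun hm => hu₂n ?_, T3⟩
  exact Submodule.span_mono (by simp) hm

/-- Moving the second coordinate inside `A`. -/
theorem mvd (hQ : IsNondegenerateQuadraticForm Q) (h : TS Q k A B) {M : Subgroup GG} (hMO : M ≤ isometryGroup F Q)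
    (hR : HR Q M A B) {a d d' : ι → F} (ha : a ∈ A) (hd : d ∈ A) (hd' : d' ∈ A) (h1 : d ∉ Submodule.span F {a, d'})
    (h2 : d' ∉ Submodule.span F {a}) (hT : RI Q M a d) : RI Q M a d' := by
  have hn : d ∉ Submodule.span F {a, d' - d} := by
    intro hm
    obtain ⟨α, β, hαβ⟩ := Submodule.mem_span_pair.1 hm
    by_cases hβ : 1 + β = 0
    · apply h2
      have : d' = α • a := by
        have e1 : β = -1 := by linear_combination hβ
        rw [e1] at hαβ
        ext i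
        have := congrFun hαβ i
        simp only [Pi.add_apply, Pi.smul_apply, Pi.sub_apply, smul_eq_mul] at this ⊢
        linear_combination -this
      rw [this]
      exact Submodule.smul_mem _ _ (Submodule.mem_span_singleton_self a)
    · apply h1
      have : d = (α / (1 + β)) • a + (β / (1 + β)) • d' := by
        ext i
        have := congrFun hαβ i
        simp only [Pi.add_apply, Pi.smul_apply, Pi.sub_apply, smul_eq_mul] at this ⊢
        field_simp
        linear_combination -this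
      rw [this]
      exact Submodule.add_mem _ (Submodule.smul_mem _ _ (Submodule.subset_span (by simp)))
        (Submodule.smul_mem _ _ (Submodule.subset_span (by simp)))
  obtain ⟨v, hv, hvS, hdv⟩ := h.sep hQ hd hn 1
  have hav : pl Q a v = 0 := hvS a (Submodule.subset_span (by simp)) ha
  have hwv : pl Q (d' - d) v = 0 := hvS _ (Submodule.subset_span (by simp)) (A.sub_mem hd' hd)
  obtain ⟨r, hr, hrx⟩ := hR _ (A.sub_mem hd' hd) v hv hwv
  have hra : (r : Mat) *ᵥ a = a := by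
    rw [hrx, hav, h.plA ha (A.sub_mem hd' hd)]
    simp
  have hrd : (r : Mat) *ᵥ d = d' := by
    rw [hrx, hdv, h.plA hd (A.sub_mem hd' hd)]
    simp
  have T := RI.conj hQ hr (hMO hr) hT
  rwa [hra, hrd] at T

theorem AA1 (hQ : IsNondegenerateQuadraticForm Q) (h : TS Q k A B) (hk : 4 ≤ k) {M : Subgroup GG} (hMO : M ≤ isometryGroup F Q)
    (hR : HR Q M A B) {a d : ι → F} (ha : a ∈ A) (hd : d ∈ A) (hda : d ∉ Submodule.span F {a}) (hT : RI Q M a d) :
    ∀ d' ∈ A, RI Q M a d' := by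
  intro d' hd'
  by_cases h1 : d' ∈ Submodule.span F {a}
  · obtain ⟨c, rfl⟩ := Submodule.mem_span_singleton.1 h1
    exact RI_trivial hQ M a c
  have hdim : Module.finrank F (Submodule.span F {a, d, d'}) + 0 < Module.finrank F A := by
    have := finrank_span_three (F := F) a d d'
    rw [h.dimA]
    omega
  obtain ⟨e, he, -, hen⟩ := exists_perp_ne hQ A _ ![] hdim
  have h2 : e ∉ Submodule.span F {a} := fun hm => hen (Submodule.span_mono (by simp) hm)
  have h3 : d ∉ Submodule.span F {a, e} := by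
    intro hm
    have : d ∈ Submodule.span F {e, a} := by rwa [Set.pair_comm]
    exact hen (Submodule.span_mono (by
      rintro x (rfl | rfl)
      · simp
      · simp) (exch hda this))
  have h4 : e ∉ Submodule.span F {a, d'} := fun hm => hen (Submodule.span_mono (by
    rintro x (rfl | rfl)
    · simp
    · simp) hm)
  exact mvd hQ h hMO hR ha he hd' h4 h1 (mvd hQ h hMO hR ha hd he h3 h2 hT)

theorem AA_all (hQ : IsNondegenerateQuadraticForm Q) (h : TS Q k A B) (hk : 4 ≤ k) {M : Subgroup GG} (hMO : M ≤ isometryGroup F Q)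
    (hR : HR Q M A B) {u u₂ : ι → F} (hu : u ∈ A) (hu₂ : u₂ ∈ A) (hu0 : u ≠ 0) (hn : u₂ ∉ Submodule.span F {u})
    (hT : RI Q M u₂ u) : ∀ a ∈ A, ∀ d ∈ A, RI Q M a d := by
  have hs : ∀ {x y}, x ∈ A → y ∈ A → RI Q M x y → RI Q M y x := fun hx hy hr =>
    hr.symm hQ (h.qA _ hx) (h.qA _ hy) (h.plA hx hy)
  have A1 := AA1 hQ h hk hMO hR hu hu₂ hn (hs hu₂ hu hT)
  have hu₂0 : u₂ ≠ 0 := by
    rintro rfl
    exact hn (Submodule.zero_mem _)
  have A2 : ∀ d' ∈ A, u ∉ Submodule.span F {d'} → ∀ a' ∈ A, RI Q M d' a' := by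
    intro d' hd' hn' a' ha'
    exact AA1 hQ h hk hMO hR hd' hu hn' (hs hu hd' (A1 d' hd')) a' ha'
  intro a ha d hd
  by_cases hua : u ∈ Submodule.span F {a}
  · have hu₂a : u₂ ∉ Submodule.span F {a} := by
      intro hm
      obtain ⟨c, hc⟩ := Submodule.mem_span_singleton.1 hua
      obtain ⟨t, ht⟩ := Submodule.mem_span_singleton.1 hm
      have hc0 : c ≠ 0 := by
        rintro rfl
        rw [zero_smul] at hc
        exact hu0 hc.symm
      apply hn
      rw [Submodule.mem_span_singleton]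
      refine ⟨t * c⁻¹, ?_⟩
      rw [← ht, ← hc, smul_smul, mul_assoc, inv_mul_cancel₀ hc0, mul_one]
    have h1 := A2 u₂ hu₂ (not_span_comm hu0 hn) a ha
    exact AA1 hQ h hk hMO hR ha hu₂ hu₂a (hs hu₂ ha h1) d hd
  · exact A2 a ha hua d hd

/-- Root elements with one vector in `A`. -/
theorem pure_all (hQ : IsNondegenerateQuadraticForm Q) (h : TS Q k A B) {M : Subgroup GG} (hR : HR Q M A B)
    (hAA : ∀ a ∈ A, ∀ d ∈ A, RI Q M a d) {a d : ι → F} (ha : a ∈ A) (hd : Q d = 0) (had : pl Q a d = 0) : RI Q M a d := by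
  obtain ⟨d₀, hd₀, d₁, hd₁, rfl⟩ := h.sup d
  have h1 : pl Q a d₁ = 0 := by
    rw [pl_add_right hQ, h.plA ha hd₀, zero_add] at had
    exact had
  refine RI.add hQ (h.qA _ ha) (h.plA ha hd₀) h1 ?_ (hAA a ha d₀ hd₀) (hR a ha d₁ hd₁ h1)
  rw [← h.Qsum hd₀ hd₁, hd]

/-- All root elements. -/
theorem all_roots (hQ : IsNondegenerateQuadraticForm Q) (h : TS Q k A B) {M : Subgroup GG} (hMO : M ≤ isometryGroup F Q)
    (hR : HR Q M A B) (hAA : ∀ a ∈ A, ∀ d ∈ A, RI Q M a d) (hBB : ∀ a ∈ B, ∀ d ∈ B, RI Q M a d) {a d : ι → F} (ha : Q a = 0)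
    (hd : Q d = 0) (had : pl Q a d = 0) : RI Q M a d := by
  obtain ⟨a₀, ha₀, a₁, ha₁, rfl⟩ := h.sup a
  by_cases h1 : a₁ = 0
  · rw [h1, add_zero] at ha had ⊢
    exact pure_all hQ h hR hAA ha₀ hd had
  have h01 : pl Q a₀ a₁ = 0 := by rw [← h.Qsum ha₀ ha₁, ha]
  obtain ⟨q, hq, -, hqa⟩ := h.symm.sep hQ (S := ⊥) ha₁ (by simpa using h1) (-1)
  obtain ⟨t, ht, htx⟩ := hAA a₀ ha₀ q hq
  have hta : (t : Mat) *ᵥ (a₀ + a₁) = a₁ := by
    rw [htx, pl_add_left hQ, pl_add_left hQ, h.plA ha₀ hq, hqa, h.plA ha₀ ha₀, pl_symm a₁ a₀, h01]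
    ext i
    simp only [Pi.add_apply, Pi.sub_apply, Pi.smul_apply, smul_eq_mul]
    ring
  have hO := hMO ht
  have h2 : RI Q M a₁ ((t : Mat) *ᵥ d) := pure_all hQ h.symm (hR.symm hQ h) hBB ha₁ (by rw [mem_isom_iff.1 hO, hd]) (by
    rw [← hta, isom_pl hO, had])
  have h3 := RI.conj hQ (M.inv_mem ht) (hMO (M.inv_mem ht)) h2
  rwa [inv_mulVec_of t hta, inv_mulVec_of t rfl] at h3

theorem pl_sum_left (hQ : IsNondegenerateQuadraticForm Q) {κ : Type*} (I : Finset κ) (c : κ → F) (v : κ → ι → F) (y : ι → F) :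
    pl Q (∑ i ∈ I, c i • v i) y = ∑ i ∈ I, c i * pl Q (v i) y := by
  classical
  induction I using Finset.induction_on with
  | empty => simpa using pl_zero_left hQ y
  | insert b s hb ih => rw [Finset.sum_insert hb, Finset.sum_insert hb, pl_add_left hQ, pl_smul_left hQ, ih]

theorem pl_sum_right (hQ : IsNondegenerateQuadraticForm Q) {κ : Type*} (I : Finset κ) (c : κ → F) (v : κ → ι → F) (y : ι → F) :
    pl Q y (∑ i ∈ I, c i • v i) = ∑ i ∈ I, c i * pl Q y (v i) := by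
  rw [pl_symm, pl_sum_left hQ]
  simp only [pl_symm y]

/-- An element of `Ω` interchanging the two subspaces. -/
theorem exists_swap (hQ : IsNondegenerateQuadraticForm Q) (hn : 7 ≤ Fintype.card ι) (h : TS Q k A B) (hke : Even k) :
    ∃ s ∈ omegaGL Q, (∀ x ∈ A, (s : Mat) *ᵥ x ∈ B) ∧ ∀ x ∈ B, (s : Mat) *ᵥ x ∈ A := by
  classical
  obtain ⟨m, hm⟩ := hke
  have hdA : Module.finrank F A = m + m := by rw [h.dimA, hm]
  let e : Module.Basis (Fin m ⊕ Fin m) F A := (Module.finBasisOfFinrankEq F A hdA).reindex finSumFinEquiv.symm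
  have hb : ∀ i, ∃ b ∈ B, ∀ a : A, pl Q (a : ι → F) b = e.coord i a := fun i => h.rep hQ (e.coord i)
  choose b hbB hbv using hb
  let E : Fin m ⊕ Fin m → ι → F := fun i => (e i : ι → F)
  have hE : ∀ i, E i ∈ A := fun i => (e i).2
  have hEb : ∀ i j, pl Q (E i) (b j) = if i = j then 1 else 0 := by
    intro i j
    have := hbv j (e i)
    rw [show pl Q (E i) (b j) = _ from this]
    simp [Module.Basis.coord_apply, Finsupp.single_apply]
  have hbE : ∀ i j, pl Q (b i) (E j) = if i = j then 1 else 0 := by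
    intro i j
    rw [pl_symm, hEb j i]
    by_cases hij : i = j
    · subst hij
      simp
    · simp [hij, Ne.symm hij]
  have hexpA : ∀ x ∈ A, x = ∑ i, pl Q x (b i) • E i := by
    intro x hx
    have h1 := congrArg (Subtype.val) (e.sum_repr ⟨x, hx⟩)
    simp only [AddSubmonoidClass.coe_finsetSum, Submodule.coe_smul] at h1
    have h2 : ∀ i, pl Q x (b i) = e.repr ⟨x, hx⟩ i := by
      intro i
      exact hbv i ⟨x, hx⟩
    simp only [h2]
    exact h1.symm
  have hexpB : ∀ x ∈ B, x = ∑ i, pl Q x (E i) • b i := by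
    intro x hx
    have hmem : x - ∑ i, pl Q x (E i) • b i ∈ B := B.sub_mem hx (B.sum_mem fun i _ => B.smul_mem _ (hbB i))
    have h0 := h.eq_zero hQ (y := x - ∑ i, pl Q x (E i) • b i) ?_ (fun c hc => h.plB hmem hc)
    · exact sub_eq_zero.1 h0
    · intro a ha
      rw [hexpA a ha, pl_sum_right hQ]
      refine Finset.sum_eq_zero fun j _ => ?_
      rw [pl_sub_left hQ, pl_sum_left hQ]
      simp only [hbE]
      simp
  let W : Fin m ⊕ Fin m → ι → F := fun i => E i - b i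
  have hQW : ∀ i, Q (W i) = -1 := by
    intro i
    rw [Q_sub hQ, h.qA _ (hE i), h.qB _ (hbB i), hEb]
    simp
  have hWW : ∀ i j, i ≠ j → pl Q (W i) (W j) = 0 := by
    intro i j hij
    simp only [W]
    rw [pl_sub_left hQ, pl_sub_right hQ, pl_sub_right hQ, h.plA (hE i) (hE j), h.plB (hbB i) (hbB j), hEb, hbE]
    simp [hij]
  have hrefl : ∀ v x, Q v = -1 → reflLin hQ v x = x + pl Q x v • v := by
    intro v x hv
    rw [reflLin_apply, hv, show pl Q x v / (-1 : F) = - pl Q x v by ring, neg_smul, sub_neg_eq_add]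
  -- the induction
  have key : ∀ J : Finset (Fin m), ∃ t ∈ omegaGL Q, ∀ x, (t : Mat) *ᵥ x =
      x + ∑ j ∈ J, (pl Q x (W (Sum.inl j)) • W (Sum.inl j) + pl Q x (W (Sum.inr j)) • W (Sum.inr j)) := by
    intro J
    induction J using Finset.induction_on with
    | empty => exact ⟨1, Subgroup.one_mem _, fun x => by simp⟩
    | insert j J hj ih =>
      obtain ⟨t, ht, htx⟩ := ih
      have hu : Q (W (Sum.inl j)) ≠ 0 := by
        rw [hQW]
        exact neg_ne_zero.2 one_ne_zero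
      obtain ⟨g, hg, hgx⟩ := exists_rr hQ hn hu (v := W (Sum.inr j)) (by rw [hQW, hQW])
      refine ⟨g * t, Subgroup.mul_mem _ hg ht, fun x => ?_⟩
      have hperp : ∀ (i : Fin m ⊕ Fin m), (∀ j' ∈ J, i ≠ Sum.inl j' ∧ i ≠ Sum.inr j') → ∀ (S : Finset (Fin m)), S ⊆ J → ∀ y : ι → F,
          pl Q (∑ j' ∈ S, (pl Q y (W (Sum.inl j')) • W (Sum.inl j') + pl Q y (W (Sum.inr j')) • W (Sum.inr j'))) (W i) = 0 := by
        intro i hi S
        induction S using Finset.induction_on with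
        | empty => intro _ y; simpa using pl_zero_left hQ (W i)
        | insert a S ha ih2 =>
          intro hsub y
          rw [Finset.sum_insert ha, pl_add_left hQ, pl_add_left hQ, pl_smul_left hQ, pl_smul_left hQ,
            ih2 (fun z hz => hsub (Finset.mem_insert_of_mem hz)) y,
            hWW _ _ (hi a (hsub (Finset.mem_insert_self a S))).1.symm, hWW _ _ (hi a (hsub (Finset.mem_insert_self a S))).2.symm]
          ring
      have hp1 := hperp (Sum.inl j) (fun j' hj' => ⟨fun h0 => hj (by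
        have := Sum.inl.inj h0
        rw [this]
        exact hj'), by simp⟩) J (Finset.Subset.refl J) x
      have hp2 := hperp (Sum.inr j) (fun j' hj' => ⟨by simp, fun h0 => hj (by
        have := Sum.inr.inj h0
        rw [this]
        exact hj')⟩) J (Finset.Subset.refl J) x
      have huv : pl Q (W (Sum.inr j)) (W (Sum.inl j)) = 0 := hWW _ _ (by simp)
      rw [Units.val_mul, ← Matrix.mulVec_mulVec, hgx, htx, hrefl _ _ (hQW _), hrefl _ _ (hQW _), Finset.sum_insert hj]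
      simp only [pl_add_left hQ, pl_smul_left hQ, hp1, hp2, huv, add_zero, mul_zero]
      ext i
      simp only [Pi.add_apply, Pi.smul_apply, smul_eq_mul, Finset.sum_apply]
      ring
  obtain ⟨s, hs, hsx⟩ := key Finset.univ
  have hsx' : ∀ x, (s : Mat) *ᵥ x = x + ∑ i, pl Q x (W i) • W i := by
    intro x
    rw [hsx, Finset.sum_add_distrib, Fintype.sum_sum_type]
  refine ⟨s, hs, fun x hx => ?_, fun x hx => ?_⟩
  · rw [hsx']
    have h1 : ∑ i, pl Q x (W i) • W i = - ∑ i, pl Q x (b i) • E i + ∑ i, pl Q x (b i) • b i := by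
      rw [← Finset.sum_neg_distrib, ← Finset.sum_add_distrib]
      refine Finset.sum_congr rfl fun i _ => ?_
      simp only [W]
      rw [pl_sub_right hQ, h.plA hx (hE i)]
      ext l
      simp only [Pi.add_apply, Pi.smul_apply, Pi.sub_apply, Pi.neg_apply, smul_eq_mul]
      ring
    rw [h1, ← hexpA x hx]
    have e2 : x + (-x + ∑ i, pl Q x (b i) • b i) = ∑ i, pl Q x (b i) • b i := by abel
    rw [e2]
    exact B.sum_mem fun i _ => B.smul_mem _ (hbB i)
  · rw [hsx']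
    have h1 : ∑ i, pl Q x (W i) • W i = ∑ i, pl Q x (E i) • E i - ∑ i, pl Q x (E i) • b i := by
      rw [← Finset.sum_sub_distrib]
      refine Finset.sum_congr rfl fun i _ => ?_
      simp only [W]
      rw [pl_sub_right hQ, h.plB hx (hbB i), sub_zero, smul_sub]
    rw [h1, ← hexpB x hx]
    have e2 : x + (∑ i, pl Q x (E i) • E i - x) = ∑ i, pl Q x (E i) • E i := by abel
    rw [e2]
    exact A.sum_mem fun i _ => A.smul_mem _ (hE i)

theorem map_eq_of_maps {Z Z' : Submodule F (ι → F)} {g : GG} (h : ∀ x ∈ Z, (g : Mat) *ᵥ x ∈ Z')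
    (hd : Module.finrank F Z = Module.finrank F Z') : Z.map (Matrix.toLin' (g : Mat)) = Z' := by
  have hinj : Function.Injective (Matrix.toLin' (g : Mat)) := by
    intro a b hab
    have h1 : (g : Mat) *ᵥ a = (g : Mat) *ᵥ b := by simpa using hab
    have h2 := congrArg (fun w => ((g⁻¹ : GG) : Mat) *ᵥ w) h1
    simpa [Matrix.mulVec_mulVec] using h2
  apply Submodule.eq_of_le_of_finrank_eq
  · rintro _ ⟨y, hy, rfl⟩
    simpa using h y hy
  · rw [← hd]
    exact (Submodule.equivMapOfInjective _ hinj Z).finrank_eq.symm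

theorem union_sub {U A B : Submodule F (ι → F)} (h : ∀ x ∈ U, x ∈ A ∨ x ∈ B) : U ≤ A ∨ U ≤ B := by
  by_contra hcon
  push Not at hcon
  obtain ⟨h1, h2⟩ := hcon
  obtain ⟨x, hx, hxA⟩ := SetLike.not_le_iff_exists.1 h1
  obtain ⟨y, hy, hyB⟩ := SetLike.not_le_iff_exists.1 h2
  have hxB : x ∈ B := (h x hx).resolve_left hxA
  have hyA : y ∈ A := (h y hy).resolve_right hyB
  rcases h (x + y) (U.add_mem hx hy) with h3 | h3
  · exact hxA (by simpa using A.sub_mem h3 hyA)
  · exact hyB (by simpa using B.sub_mem h3 hxB)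

theorem inv_cancel (g : GG) (x : ι → F) : (g : Mat) *ᵥ (((g⁻¹ : GG) : Mat) *ᵥ x) = x := by
  rw [Matrix.mulVec_mulVec]
  simp

/-- From a mixed image, root elements inside one of the subspaces. -/
theorem step1 (hQ : IsNondegenerateQuadraticForm Q) (h : TS Q k A B) (hk : 5 ≤ k) {M : Subgroup GG}
    (hMO : M ≤ isometryGroup F Q) (hR : HR Q M A B) {g : GG} (hg : g ∈ M) {a x₀ x₁ : ι → F} (ha : a ∈ A) (h0 : x₀ ∈ A)
    (h1 : x₁ ∈ B) (hx₀ : x₀ ≠ 0) (hx₁ : x₁ ≠ 0) (hga : (g : Mat) *ᵥ a = x₀ + x₁) :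
    (∃ u ∈ A, ∃ u₂ ∈ A, u ≠ 0 ∧ u₂ ∉ Submodule.span F {u} ∧ RI Q M u₂ u) ∨
    (∃ u ∈ B, ∃ u₂ ∈ B, u ≠ 0 ∧ u₂ ∉ Submodule.span F {u} ∧ RI Q M u₂ u) := by
  have hd : Module.finrank F (Submodule.span F {((g⁻¹ : GG) : Mat) *ᵥ x₀, ((g⁻¹ : GG) : Mat) *ᵥ x₁}) + 1 < Module.finrank F B := by
    have := finrank_span_two (F := F) (((g⁻¹ : GG) : Mat) *ᵥ x₀) (((g⁻¹ : GG) : Mat) *ᵥ x₁)
    rw [h.dimB]
    omega
  obtain ⟨b, hb, hbp, hbn⟩ := exists_perp_ne hQ B _ ![a] hd
  have hab : pl Q a b = 0 := hbp 0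
  have hO := hMO hg
  have T := RI.conj hQ hg hO (hR a ha b hb hab)
  obtain ⟨y₀, hy₀, y₁, hy₁, hy⟩ := h.sup ((g : Mat) *ᵥ b)
  rw [hga, hy] at T
  have hQx : Q (x₀ + x₁) = 0 := by rw [← hga, mem_isom_iff.1 hO, h.qA _ ha]
  have hQy : Q (y₀ + y₁) = 0 := by rw [← hy, mem_isom_iff.1 hO, h.qB _ hb]
  have hxy : pl Q (x₀ + x₁) (y₀ + y₁) = 0 := by rw [← hga, ← hy, isom_pl hO, hab]
  have hcases : y₀ ∉ Submodule.span F {x₀} ∨ y₁ ∉ Submodule.span F {x₁} := by
    by_contra hcon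
    push Not at hcon
    obtain ⟨h2, h3⟩ := hcon
    obtain ⟨α, hα⟩ := Submodule.mem_span_singleton.1 h2
    obtain ⟨β, hβ⟩ := Submodule.mem_span_singleton.1 h3
    apply hbn
    have e : b = α • (((g⁻¹ : GG) : Mat) *ᵥ x₀) + β • (((g⁻¹ : GG) : Mat) *ᵥ x₁) := by
      rw [← Matrix.mulVec_smul, ← Matrix.mulVec_smul, ← Matrix.mulVec_add, hα, hβ, ← hy]
      rw [Matrix.mulVec_mulVec]
      simp
    rw [e]
    exact Submodule.add_mem _ (Submodule.smul_mem _ _ (Submodule.subset_span (by simp)))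
      (Submodule.smul_mem _ _ (Submodule.subset_span (by simp)))
  rcases hcases with h2 | h2
  · left
    have hy₀0 : y₀ ≠ 0 := by
      rintro rfl
      exact h2 (Submodule.zero_mem _)
    exact AA_of_indep hQ h hk hMO hR h0 h1 hy₀ hy₁ hQx hQy hxy (not_span_comm hx₀ h2) h2 T
  · right
    have hy₁0 : y₁ ≠ 0 := by
      rintro rfl
      exact h2 (Submodule.zero_mem _)
    rw [add_comm x₀, add_comm y₀] at T
    refine AA_of_indep hQ h.symm hk hMO (hR.symm hQ h) h1 h0 hy₁ hy₀ (by rwa [add_comm]) (by rwa [add_comm]) ?_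
      (not_span_comm hx₁ h2) h2 T
    rwa [add_comm x₁, add_comm y₁]

/-- The main theorem. -/
theorem pair_omega_max (hQ : IsNondegenerateQuadraticForm Q) (hn : 7 ≤ Fintype.card ι) (hk : 6 ≤ k) (hke : Even k)
    {D : Fin 2 → Submodule F (ι → F)} (hD : IsMDecomposition k D) (hts : ∀ i, IsTotallySingularQuad Q (D i)) :
    IsMaximalIn (omegaGL Q) (decompositionStabilizer D ⊓ omegaGL Q) := by
  classical
  have hT : TS Q k (D 0) (D 1) := by
    refine ⟨hts 0, hts 1, ?_, hD.finrank_eq 0, hD.finrank_eq 1⟩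
    intro x
    have h1 := hD.iSup_eq_top
    have h2 : iSup D = D 0 ⊔ D 1 := by
      apply le_antisymm
      · refine iSup_le fun i => ?_
        fin_cases i
        · exact le_sup_left
        · exact le_sup_right
      · exact sup_le (le_iSup D 0) (le_iSup D 1)
    rw [h2] at h1
    have h3 : x ∈ D 0 ⊔ D 1 := by rw [h1]; trivial
    obtain ⟨a, ha, y, hy, rfl⟩ := Submodule.mem_sup.1 h3
    exact ⟨a, ha, y, hy, rfl⟩
  obtain ⟨s, hs, hs0, hs1⟩ := exists_swap hQ hn hT hke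
  have hfix : ∀ g : GG, (∀ x ∈ D 0, (g : Mat) *ᵥ x ∈ D 0) → (∀ x ∈ D 1, (g : Mat) *ᵥ x ∈ D 1) → g ∈ decompositionStabilizer D := by
    intro g h0 h1
    refine ⟨1, fun i => ?_⟩
    fin_cases i
    · exact map_eq_of_maps h0 rfl
    · exact map_eq_of_maps h1 rfl
  have hsw : ∀ g : GG, (∀ x ∈ D 0, (g : Mat) *ᵥ x ∈ D 1) → (∀ x ∈ D 1, (g : Mat) *ᵥ x ∈ D 0) → g ∈ decompositionStabilizer D := by
    intro g h0 h1
    refine ⟨Equiv.swap 0 1, fun i => ?_⟩
    fin_cases i
    · exact map_eq_of_maps h0 (by rw [hD.finrank_eq, hD.finrank_eq])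
    · exact map_eq_of_maps h1 (by rw [hD.finrank_eq, hD.finrank_eq])
  have hHR : ∀ M : Subgroup GG, decompositionStabilizer D ⊓ omegaGL Q ≤ M → HR Q M (D 0) (D 1) := by
    intro M hM u hu v hv huv
    obtain ⟨r, hr, hrx⟩ := RI_omega hQ hn (hT.qA _ hu) (hT.qB _ hv) huv
    refine ⟨r, hM ⟨hfix r (fun x hx => ?_) (fun x hx => ?_), hr⟩, hrx⟩
    · rw [hrx, hT.plA hx hu, zero_smul, sub_zero]
      exact (D 0).add_mem hx ((D 0).smul_mem _ hu)
    · rw [hrx, hT.plB hx hv, zero_smul, add_zero]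
      exact (D 1).sub_mem hx ((D 1).smul_mem _ hv)
  constructor
  · rw [lt_iff_le_and_ne]
    refine ⟨inf_le_right, fun heq => ?_⟩
    have hd0 : Module.finrank F (⊥ : Submodule F (ι → F)) + 0 < Module.finrank F (D 0) := by
      rw [hD.finrank_eq, finrank_bot]
      omega
    obtain ⟨u, hu, -, hu0⟩ := exists_perp_ne hQ (D 0) ⊥ ![] hd0
    have hu0' : u ≠ 0 := by simpa using hu0
    have hd1 : Module.finrank F (Submodule.span F {u}) + 0 < Module.finrank F (D 0) := by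
      have := finrank_span_one (F := F) u
      rw [hD.finrank_eq]
      omega
    obtain ⟨u', hu', -, hu'n⟩ := exists_perp_ne hQ (D 0) _ ![] hd1
    obtain ⟨v, hv, hvS, hu'v⟩ := hT.sep hQ hu' hu'n 1
    have huv : pl Q u v = 0 := hvS u (Submodule.mem_span_singleton_self u) hu
    obtain ⟨t, ht, htx⟩ := RI_omega hQ hn (hT.qA _ hu) (hT.qA _ hu') (hT.plA hu hu')
    have h1 : t ∈ decompositionStabilizer D ⊓ omegaGL Q := by
      rw [heq]
      exact ht
    obtain ⟨⟨π, hπ⟩, -⟩ := h1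
    have htv : (t : Mat) *ᵥ v = v + u := by
      rw [htx, pl_symm v u', hu'v, pl_symm v u, huv]
      simp
    have hmem : v + u ∈ D (π 1) := by
      rw [← hπ 1, ← htv]
      exact ⟨v, hv, by simp⟩
    have hcases : π 1 = 0 ∨ π 1 = 1 := by
      have := (π 1).2
      omega
    rcases hcases with hc | hc
    · rw [hc] at hmem
      have h3 : v ∈ D 0 := by
        have := (D 0).sub_mem hmem hu
        simpa using this
      have := hT.inf hQ h3 hv
      rw [this, pl_zero_right hQ] at hu'v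
      exact zero_ne_one hu'v
    · rw [hc] at hmem
      have h3 : u ∈ D 1 := by
        have := (D 1).sub_mem hmem hv
        simpa using this
      exact hu0' (hT.inf hQ hu h3)
  · intro M hHM hMK
    by_cases hex : ∃ g ∈ M, g ∉ decompositionStabilizer D ⊓ omegaGL Q
    · right
      apply le_antisymm hMK
      obtain ⟨g, hgM, hgn⟩ := hex
      have hgK := hMK hgM
      have hMO : M ≤ isometryGroup F Q := hMK.trans omega_le_isom
      have hR := hHR M hHM
      have hsM : s ∈ M := hHM ⟨hsw s hs0 hs1, hs⟩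
      -- a mixed vector
      have hmix : (∃ a ∈ D 0, ∃ x₀ ∈ D 0, ∃ x₁ ∈ D 1, x₀ ≠ 0 ∧ x₁ ≠ 0 ∧ (g : Mat) *ᵥ a = x₀ + x₁) ∨
          (∃ a ∈ D 1, ∃ x₀ ∈ D 1, ∃ x₁ ∈ D 0, x₀ ≠ 0 ∧ x₁ ≠ 0 ∧ (g : Mat) *ᵥ a = x₀ + x₁) := by
        by_contra hcon
        push Not at hcon
        obtain ⟨hc0, hc1⟩ := hcon
        have hu0 : ∀ x ∈ D 0, (g : Mat) *ᵥ x ∈ D 0 ∨ (g : Mat) *ᵥ x ∈ D 1 := by
          intro x hx
          obtain ⟨x₀, hx₀, x₁, hx₁, hxe⟩ := hT.sup ((g : Mat) *ᵥ x)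
          by_cases h00 : x₀ = 0
          · right
            rw [hxe, h00, zero_add]
            exact hx₁
          · left
            by_cases h01 : x₁ = 0
            · rw [hxe, h01, add_zero]
              exact hx₀
            · exact absurd hxe (hc0 x hx x₀ hx₀ x₁ hx₁ h00 h01)
        have hu1 : ∀ x ∈ D 1, (g : Mat) *ᵥ x ∈ D 0 ∨ (g : Mat) *ᵥ x ∈ D 1 := by
          intro x hx
          obtain ⟨x₀, hx₀, x₁, hx₁, hxe⟩ := hT.sup ((g : Mat) *ᵥ x)
          by_cases h00 : x₀ = 0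
          · right
            rw [hxe, h00, zero_add]
            exact hx₁
          · left
            by_cases h01 : x₁ = 0
            · rw [hxe, h01, add_zero]
              exact hx₀
            · exact absurd (by rw [hxe, add_comm]) (hc1 x hx x₁ hx₁ x₀ hx₀ h01 h00)
        have hU0 := union_sub (U := (D 0).map (Matrix.toLin' (g : Mat))) (A := D 0) (B := D 1) (by
          rintro _ ⟨y, hy, rfl⟩
          simpa using hu0 y hy)
        have hU1 := union_sub (U := (D 1).map (Matrix.toLin' (g : Mat))) (A := D 0) (B := D 1) (by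
          rintro _ ⟨y, hy, rfl⟩
          simpa using hu1 y hy)
        have hm0 : ∀ {Z Z' : Submodule F (ι → F)}, Z.map (Matrix.toLin' (g : Mat)) ≤ Z' → ∀ x ∈ Z, (g : Mat) *ᵥ x ∈ Z' := by
          intro Z Z' hle x hx
          have : Matrix.toLin' (g : Mat) x ∈ Z' := hle ⟨x, hx, rfl⟩
          simpa using this
        have hall : ∀ {Z : Submodule F (ι → F)}, (∀ x ∈ D 0, (g : Mat) *ᵥ x ∈ Z) → (∀ x ∈ D 1, (g : Mat) *ᵥ x ∈ Z) →
            ∀ x, (g : Mat) *ᵥ x ∈ Z := by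
          intro Z h0 h1 x
          obtain ⟨a, ha, b, hb, rfl⟩ := hT.sup x
          rw [Matrix.mulVec_add]
          exact Z.add_mem (h0 a ha) (h1 b hb)
        have hd1 : Module.finrank F (⊥ : Submodule F (ι → F)) + 0 < Module.finrank F (D 0) := by
          rw [hD.finrank_eq, finrank_bot]
          omega
        obtain ⟨u₀, hu₀, -, hu₀0⟩ := exists_perp_ne hQ (D 0) ⊥ ![] hd1
        have hd2 : Module.finrank F (⊥ : Submodule F (ι → F)) + 0 < Module.finrank F (D 1) := by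
          rw [hD.finrank_eq, finrank_bot]
          omega
        obtain ⟨u₁, hu₁, -, hu₁0⟩ := exists_perp_ne hQ (D 1) ⊥ ![] hd2
        have hsurj : ∀ y, ∃ x, (g : Mat) *ᵥ x = y := fun y => ⟨_, inv_cancel g y⟩
        rcases hU0 with hA | hA <;> rcases hU1 with hB | hB
        · exfalso
          have h5 := hall (hm0 hA) (hm0 hB)
          obtain ⟨x, hx⟩ := hsurj u₁
          have h6 := h5 x
          rw [hx] at h6
          exact hu₁0 (by simpa using hT.inf hQ h6 hu₁)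
        · exact hgn ⟨hfix g (hm0 hA) (hm0 hB), hgK⟩
        · exact hgn ⟨hsw g (hm0 hA) (hm0 hB), hgK⟩
        · exfalso
          have h5 := hall (hm0 hA) (hm0 hB)
          obtain ⟨x, hx⟩ := hsurj u₀
          have h6 := h5 x
          rw [hx] at h6
          exact hu₀0 (by simpa using hT.inf hQ hu₀ h6)
      have hRs := hR.symm hQ hT
      -- root elements inside one of the subspaces
      have hcentre : (∃ u ∈ D 0, ∃ u₂ ∈ D 0, u ≠ 0 ∧ u₂ ∉ Submodule.span F {u} ∧ RI Q M u₂ u) ∨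
          (∃ u ∈ D 1, ∃ u₂ ∈ D 1, u ≠ 0 ∧ u₂ ∉ Submodule.span F {u} ∧ RI Q M u₂ u) := by
        rcases hmix with ⟨a, ha, x₀, hx₀, x₁, hx₁, h00, h01, hga⟩ | ⟨a, ha, x₀, hx₀, x₁, hx₁, h00, h01, hga⟩
        · exact step1 hQ hT (by omega) hMO hR hgM ha hx₀ hx₁ h00 h01 hga
        · exact (step1 hQ hT.symm (by omega) hMO hRs hgM ha hx₀ hx₁ h00 h01 hga).symm
      have hs1O := hMO hsM
      have hconj : ∀ {Z Z' : Submodule F (ι → F)}, (∀ x ∈ Z, (s : Mat) *ᵥ x ∈ Z') → Module.finrank F Z = Module.finrank F Z' →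
          (∀ a ∈ Z, ∀ d ∈ Z, RI Q M a d) → ∀ a ∈ Z', ∀ d ∈ Z', RI Q M a d := by
        intro Z Z' h1 h2 h3 a ha d hd
        have h5 : Z.map (Matrix.toLin' (s : Mat)) = Z' := map_eq_of_maps h1 h2
        rw [← h5] at ha hd
        obtain ⟨a', ha', rfl⟩ := ha
        obtain ⟨d', hd', rfl⟩ := hd
        have := RI.conj hQ hsM hs1O (h3 a' ha' d' hd')
        simpa using this
      have hAB : (∀ a ∈ D 0, ∀ d ∈ D 0, RI Q M a d) ∧ (∀ a ∈ D 1, ∀ d ∈ D 1, RI Q M a d) := by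
        rcases hcentre with ⟨u, hu, u₂, hu₂, hu0, hun, hTT⟩ | ⟨u, hu, u₂, hu₂, hu0, hun, hTT⟩
        · have h0 := AA_all hQ hT (by omega) hMO hR hu hu₂ hu0 hun hTT
          exact ⟨h0, hconj hs0 (by rw [hD.finrank_eq, hD.finrank_eq]) h0⟩
        · have h0 := AA_all hQ hT.symm (by omega) hMO hRs hu hu₂ hu0 hun hTT
          exact ⟨hconj hs1 (by rw [hD.finrank_eq, hD.finrank_eq]) h0, h0⟩
      exact omega_le_of_roots hQ hn fun a d ha hd had => all_roots hQ hT hMO hR hAB.1 hAB.2 ha hd had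
    · left
      push Not at hex
      exact le_antisymm hex hHM

end Cfsg.Agent.H27.OT
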