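import Mathlib
import Cfsg.Prelude.Def_GeometricClasses
import Cfsg.Agent.Lib.H27.GeoOTS
import Cfsg.Agent.Lib.H27.GeoMaxSL
import Cfsg.Agent.Lib.H27.GeoOPar2

/-!
# Maximality of the similarity group of a quadratic form inside the special linear group, `q` odd
-/

set_option autoImplicit false
set_option linter.unusedSectionVars false
set_option linter.unusedSimpArgs false
set_option linter.unusedVariables false

namespace Cfsg.Agent.H27.OS

open scoped Matrix MatrixGroups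
open Cfsg Cfsg.Geo
open Cfsg.Agent.H27.GO
open Cfsg.Agent.H27.Tv (exists_tv)
open Cfsg.Agent.H27.ML (sl_le_of_tv)
open Cfsg.Agent.H27.OT (exists_perp_ne exch not_span_comm)

variable {n : ℕ} {F : Type*} [Field F] [Fintype F] {Q : (Fin n → F) → F} {g : GL (Fin n) F}

local notation "GG" => GL (Fin n) F
local notation "Mat" => Matrix (Fin n) (Fin n) F
local notation "SLn" => specialLinear (Fin n) F

/-- Transvections in `M`. -/
def TV (Q : (Fin n → F) → F) (M : Subgroup GG) (a w : Fin n → F) : Prop :=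
  ∃ t ∈ M, ∀ x, (t : Mat) *ᵥ x = x + pl Q x w • a

theorem pl_phi (hQ : IsNondegenerateQuadraticForm Q) (w : Fin n → F) :
    ∃ φ : Module.Dual F (Fin n → F), ∀ x, φ x = pl Q x w :=
  ⟨{ toFun := fun x => pl Q x w
     map_add' := fun a b => pl_add_left hQ _ _ _
     map_smul' := fun c a => pl_smul_left hQ _ _ _ }, fun _ => rfl⟩

theorem exists_t (hQ : IsNondegenerateQuadraticForm Q) {a w : Fin n → F} (h : pl Q a w = 0) :
    ∃ t ∈ SLn, ∀ x, (t : Mat) *ᵥ x = x + pl Q x w • a := by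
  obtain ⟨φ, hφ⟩ := pl_phi hQ w
  obtain ⟨t, ht, htx⟩ := exists_tv φ a (by rw [hφ, h])
  exact ⟨t, ht, fun x => by rw [htx, hφ]⟩

theorem TV_zero_l (M : Subgroup GG) (w : Fin n → F) : TV Q M 0 w :=
  ⟨1, M.one_mem, fun x => by simp⟩

theorem TV_zero_r (hQ : IsNondegenerateQuadraticForm Q) (M : Subgroup GG) (a : Fin n → F) : TV Q M a 0 :=
  ⟨1, M.one_mem, fun x => by rw [pl_zero_right hQ]; simp⟩

theorem TV.add_r (hQ : IsNondegenerateQuadraticForm Q) {M : Subgroup GG} {a w₁ w₂ : Fin n → F} (h₁ : TV Q M a w₁)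
    (h₂ : TV Q M a w₂) (h : pl Q a w₁ = 0) : TV Q M a (w₁ + w₂) := by
  obtain ⟨t₁, ht₁, hx₁⟩ := h₁
  obtain ⟨t₂, ht₂, hx₂⟩ := h₂
  refine ⟨t₁ * t₂, M.mul_mem ht₁ ht₂, fun x => ?_⟩
  rw [Units.val_mul, ← Matrix.mulVec_mulVec, hx₂, hx₁, pl_add_left hQ, pl_smul_left hQ, h, pl_add_right hQ]
  ext i
  simp only [Pi.add_apply, Pi.smul_apply, smul_eq_mul]
  ring

theorem TV.add_l (hQ : IsNondegenerateQuadraticForm Q) {M : Subgroup GG} {a₁ a₂ w : Fin n → F} (h₁ : TV Q M a₁ w)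
    (h₂ : TV Q M a₂ w) (h : pl Q a₂ w = 0) : TV Q M (a₁ + a₂) w := by
  obtain ⟨t₁, ht₁, hx₁⟩ := h₁
  obtain ⟨t₂, ht₂, hx₂⟩ := h₂
  refine ⟨t₁ * t₂, M.mul_mem ht₁ ht₂, fun x => ?_⟩
  rw [Units.val_mul, ← Matrix.mulVec_mulVec, hx₂, hx₁, pl_add_left hQ, pl_smul_left hQ, h]
  ext i
  simp only [Pi.add_apply, Pi.smul_apply, smul_eq_mul]
  ring

theorem inv_cancel (g : GG) (x : Fin n → F) : (g : Mat) *ᵥ (((g⁻¹ : GG) : Mat) *ᵥ x) = x := by
  rw [Matrix.mulVec_mulVec]
  simp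

theorem inv_cancel' (g : GG) (x : Fin n → F) : ((g⁻¹ : GG) : Mat) *ᵥ ((g : Mat) *ᵥ x) = x := by
  rw [Matrix.mulVec_mulVec]
  simp

theorem TV.sub_r (hQ : IsNondegenerateQuadraticForm Q) {M : Subgroup GG} {a w w' : Fin n → F} (h' : TV Q M a w')
    (h : TV Q M a w) (h1 : pl Q a w = 0) (h2 : pl Q a w' = 0) : TV Q M a (w' - w) := by
  obtain ⟨t', ht', hx'⟩ := h'
  obtain ⟨t, ht, hx⟩ := h
  refine ⟨t' * t⁻¹, M.mul_mem ht' (M.inv_mem ht), fun x => ?_⟩
  obtain ⟨z, hz⟩ : ∃ z, z = ((t⁻¹ : GG) : Mat) *ᵥ x := ⟨_, rfl⟩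
  have h3 : x = z + pl Q z w • a := by rw [← hx, hz, inv_cancel]
  have h4 : pl Q x w = pl Q z w := by
    rw [h3, pl_add_left hQ, pl_smul_left hQ, h1]
    ring
  have h5 : pl Q x w' = pl Q z w' := by
    rw [h3, pl_add_left hQ, pl_smul_left hQ, h2]
    ring
  rw [Units.val_mul, ← Matrix.mulVec_mulVec, ← hz, hx', pl_sub_right hQ, h4, h5, h3]
  ext i
  simp only [Pi.add_apply, Pi.smul_apply, smul_eq_mul]
  have h6 : pl Q (z + pl Q z w • a) w' = pl Q z w' := by
    rw [pl_add_left hQ, pl_smul_left hQ, h2]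
    ring
  ring

theorem TV.sub_l (hQ : IsNondegenerateQuadraticForm Q) {M : Subgroup GG} {a a' w : Fin n → F} (h' : TV Q M a' w)
    (h : TV Q M a w) (h1 : pl Q a w = 0) : TV Q M (a' - a) w := by
  obtain ⟨t', ht', hx'⟩ := h'
  obtain ⟨t, ht, hx⟩ := h
  refine ⟨t' * t⁻¹, M.mul_mem ht' (M.inv_mem ht), fun x => ?_⟩
  obtain ⟨z, hz⟩ : ∃ z, z = ((t⁻¹ : GG) : Mat) *ᵥ x := ⟨_, rfl⟩
  have h3 : x = z + pl Q z w • a := by rw [← hx, hz, inv_cancel]
  have h4 : pl Q x w = pl Q z w := by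
    rw [h3, pl_add_left hQ, pl_smul_left hQ, h1]
    ring
  rw [Units.val_mul, ← Matrix.mulVec_mulVec, ← hz, hx', h4, h3]
  ext i
  simp only [Pi.add_apply, Pi.sub_apply, Pi.smul_apply, smul_eq_mul]
  ring

theorem TV.conj {M : Subgroup GG} {a w : Fin n → F} (h : TV Q M a w) {k : GG} (hk : k ∈ M) (hO : k ∈ isometryGroup F Q) :
    TV Q M ((k : Mat) *ᵥ a) ((k : Mat) *ᵥ w) := by
  obtain ⟨t, ht, hx⟩ := h
  refine ⟨k * t * k⁻¹, M.mul_mem (M.mul_mem hk ht) (M.inv_mem hk), fun x => ?_⟩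
  have e1 : pl Q (((k⁻¹ : GG) : Mat) *ᵥ x) w = pl Q x ((k : Mat) *ᵥ w) := by
    rw [← isom_pl hO, inv_cancel]
  rw [Units.val_mul, Units.val_mul, ← Matrix.mulVec_mulVec, ← Matrix.mulVec_mulVec, hx, Matrix.mulVec_add,
    Matrix.mulVec_smul, inv_cancel, e1]

/-- Root elements lie in `SL`. -/
theorem root_mem (hQ : IsNondegenerateQuadraticForm Q) (hn : 7 ≤ n) {a d : Fin n → F} (ha : Q a = 0) (hd : Q d = 0)
    (had : pl Q a d = 0) : ∃ r, r ∈ SLn ∧ r ∈ isometryGroup F Q ∧ ∀ x, (r : Mat) *ᵥ x = x + pl Q x d • a - pl Q x a • d := by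
  have hn' : 7 ≤ Fintype.card (Fin n) := by simpa using hn
  obtain ⟨r, hr, hrx⟩ := RI_omega hQ hn' ha hd had
  refine ⟨r, ?_, omega_le_isom hr, hrx⟩
  have hdd : pl Q d d = 0 := by rw [pl_self hQ, hd, mul_zero]
  have h1 : pl Q a d = 0 := had
  have h2 : pl Q ((-1 : F) • d) a = 0 := by rw [pl_smul_left hQ, pl_symm, had, mul_zero]
  obtain ⟨t₁, ht₁, hx₁⟩ := exists_t hQ h1
  obtain ⟨t₂, ht₂, hx₂⟩ := exists_t hQ h2
  have : r = t₁ * t₂ := gl_ext fun x => by
    rw [hrx, Units.val_mul, ← Matrix.mulVec_mulVec, hx₂, hx₁, pl_add_left hQ, pl_smul_left hQ, pl_smul_left hQ, hdd]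
    ext i
    simp only [Pi.add_apply, Pi.sub_apply, Pi.smul_apply, smul_eq_mul]
    ring
  rw [this]
  exact mul_mem ht₁ ht₂

/-- Membership of root elements in the subgroup. -/
theorem root_M (hQ : IsNondegenerateQuadraticForm Q) (hn : 7 ≤ n) {M : Subgroup GG} (hH : quadSimilarityGroup Q ⊓ SLn ≤ M)
    {a d : Fin n → F} (ha : Q a = 0) (hd : Q d = 0) (had : pl Q a d = 0) :
    ∃ r ∈ M, r ∈ isometryGroup F Q ∧ ∀ x, (r : Mat) *ᵥ x = x + pl Q x d • a - pl Q x a • d := by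
  obtain ⟨r, hr, hO, hrx⟩ := root_mem hQ hn ha hd had
  refine ⟨r, hH ⟨⟨1, fun v => ?_⟩, hr⟩, hO, hrx⟩
  rw [mem_isom_iff.1 hO v]
  simp

theorem moveB (hQ : IsNondegenerateQuadraticForm Q) (hn : 7 ≤ n) {M : Subgroup GG} (hH : quadSimilarityGroup Q ⊓ SLn ≤ M)
    {c d d' z : Fin n → F} (hT : TV Q M c d) (hd' : Q d' = 0) (hz : Q z = 0) (hd'z : pl Q d' z = 0) (hcd' : pl Q c d' = 0)
    (hcz : pl Q c z = 0) (hdz : pl Q d z = 1) (hdd' : pl Q d d' = 0) (hcd : pl Q c d = 0) : TV Q M c d' := by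
  obtain ⟨r, hr, hO, hrx⟩ := root_M hQ hn hH hd' hz hd'z
  have hrc : (r : Mat) *ᵥ c = c := by
    rw [hrx, hcz, hcd']
    simp
  have hrd : (r : Mat) *ᵥ d = d + d' := by
    rw [hrx, hdz, hdd']
    simp
  have T := hT.conj hr hO
  rw [hrc, hrd] at T
  have T2 := T.sub_r hQ hT hcd (by rw [pl_add_right hQ, hcd, hcd', add_zero])
  have e : d + d' - d = d' := by abel
  rwa [e] at T2

theorem moveA (hQ : IsNondegenerateQuadraticForm Q) (hn : 7 ≤ n) {M : Subgroup GG} (hH : quadSimilarityGroup Q ⊓ SLn ≤ M)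
    {c d c' z : Fin n → F} (hT : TV Q M c d) (hc' : Q c' = 0) (hz : Q z = 0) (hc'z : pl Q c' z = 0) (hdc' : pl Q d c' = 0)
    (hdz : pl Q d z = 0) (hcz : pl Q c z = 1) (hcc' : pl Q c c' = 0) (hcd : pl Q c d = 0) : TV Q M c' d := by
  obtain ⟨r, hr, hO, hrx⟩ := root_M hQ hn hH hc' hz hc'z
  have hrd : (r : Mat) *ᵥ d = d := by
    rw [hrx, hdz, hdc']
    simp
  have hrc : (r : Mat) *ᵥ c = c + c' := by
    rw [hrx, hcz, hcc']
    simp
  have T := hT.conj hr hO
  rw [hrc, hrd] at T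
  have T2 := T.sub_l hQ hT hcd
  have e : c + c' - c = c' := by abel
  rwa [e] at T2

/-- A singular vector `z` with prescribed pairings. -/
theorem exists_z (hQ : IsNondegenerateQuadraticForm Q) (hn : 9 ≤ n) {c d d' : Fin n → F} (h : d ∉ Submodule.span F {c, d'}) :
    ∃ z, Q z = 0 ∧ pl Q z c = 0 ∧ pl Q z d' = 0 ∧ pl Q d z = 1 := by
  obtain ⟨z₀, -, hz₀S, hz₀d⟩ := exists_sep hQ (ndg_top hQ) (trivial : d ∈ ⊤) h 1
  have hdim : 2 * Module.finrank F (Submodule.span F {c, d', d}) + 3 ≤ Module.finrank F (⊤ : Submodule F (Fin n → F)) := by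
    have := finrank_span_three (F := F) c d' d
    rw [finrank_top, Module.finrank_fintype_fun_eq_card, Fintype.card_fin]
    omega
  obtain ⟨z, -, hQz, hzS⟩ := singularize hQ (ndg_top hQ) le_top hdim (trivial : z₀ ∈ ⊤)
  refine ⟨z, hQz, ?_, ?_, ?_⟩
  · rw [hzS c (mem_span_three_1 c d' d)]
    exact hz₀S c ⟨Submodule.subset_span (by simp), trivial⟩
  · rw [hzS d' (mem_span_three_2 c d' d)]
    exact hz₀S d' ⟨Submodule.subset_span (by simp), trivial⟩
  · rw [pl_symm, hzS d (mem_span_three_3 c d' d), hz₀d]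

theorem moveB' (hQ : IsNondegenerateQuadraticForm Q) (hn : 9 ≤ n) {M : Subgroup GG} (hH : quadSimilarityGroup Q ⊓ SLn ≤ M)
    {c d d' : Fin n → F} (hT : TV Q M c d) (hd' : Q d' = 0) (hcd' : pl Q c d' = 0) (hcd : pl Q c d = 0) (hdd' : pl Q d d' = 0)
    (hdc : d ∉ Submodule.span F {c}) (hn1 : d' ∉ Submodule.span F {c, d}) : TV Q M c d' := by
  have h1 : d ∉ Submodule.span F {c, d'} := by
    intro hm
    apply hn1
    have : d ∈ Submodule.span F {d', c} := by rwa [Set.pair_comm]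
    have h2 := exch hdc this
    rwa [Set.pair_comm] at h2
  obtain ⟨z, hz, hzc, hzd', hdz⟩ := exists_z hQ hn h1
  exact moveB hQ (by omega) hH hT hd' hz (by rw [pl_symm, hzd']) hcd' (by rw [pl_symm, hzc]) hdz hdd' hcd

theorem moveA' (hQ : IsNondegenerateQuadraticForm Q) (hn : 9 ≤ n) {M : Subgroup GG} (hH : quadSimilarityGroup Q ⊓ SLn ≤ M)
    {c d c' : Fin n → F} (hT : TV Q M c d) (hc' : Q c' = 0) (hdc' : pl Q d c' = 0) (hcd : pl Q c d = 0) (hcc' : pl Q c c' = 0)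
    (hcd' : c ∉ Submodule.span F {d}) (hn1 : c' ∉ Submodule.span F {d, c}) : TV Q M c' d := by
  have h1 : c ∉ Submodule.span F {d, c'} := by
    intro hm
    apply hn1
    have : c ∈ Submodule.span F {c', d} := by rwa [Set.pair_comm]
    have h2 := exch hcd' this
    rwa [Set.pair_comm] at h2
  obtain ⟨z, hz, hzd, hzc', hcz⟩ := exists_z hQ hn h1
  exact moveA hQ (by omega) hH hT hc' hz (by rw [pl_symm, hzc']) hdc' (by rw [pl_symm, hzd]) hcz hcc' hcd

def SOP (Q : (Fin n → F) → F) (c d : Fin n → F) : Prop :=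
  Q c = 0 ∧ Q d = 0 ∧ pl Q c d = 0 ∧ d ∉ Submodule.span F {c}

/-- An auxiliary hyperbolic vector. -/
theorem exists_e (hQ : IsNondegenerateQuadraticForm Q) {S : Submodule F (Fin n → F)} (hdim : 2 * Module.finrank F S + 3 ≤ n) :
    ∃ e e', Q e = 0 ∧ (∀ s ∈ S, pl Q e s = 0) ∧ (∀ s ∈ S, pl Q e' s = 0) ∧ pl Q e' e = 1 := by
  have hd : 2 * Module.finrank F S + 3 ≤ Module.finrank F (⊤ : Submodule F (Fin n → F)) := by
    rw [finrank_top, Module.finrank_fintype_fun_eq_card, Fintype.card_fin]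
    exact hdim
  obtain ⟨p, -, p', -, hp, hp', hpp', hpS, hp'S⟩ := exists_hyp_rel hQ (ndg_top hQ) le_top hd
  exact ⟨p, p', hp, hpS, hp'S, by rw [pl_symm, hpp']⟩

theorem not_mem_of_pl (hQ : IsNondegenerateQuadraticForm Q) {e' e : Fin n → F} {S : Submodule F (Fin n → F)}
    (h1 : ∀ s ∈ S, pl Q e' s = 0) (h2 : pl Q e' e = 1) : e ∉ S := by
  intro hm
  rw [h1 e hm] at h2
  exact zero_ne_one h2

theorem mvB (hQ : IsNondegenerateQuadraticForm Q) (hn : 9 ≤ n) {M : Subgroup GG} (hH : quadSimilarityGroup Q ⊓ SLn ≤ M)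
    {c d d' : Fin n → F} (hT : TV Q M c d) (h : SOP Q c d) (h' : SOP Q c d') : TV Q M c d' := by
  obtain ⟨hc, hd, hcd, hdc⟩ := h
  obtain ⟨-, hd', hcd', hdc'⟩ := h'
  have hdim : 2 * Module.finrank F (Submodule.span F {c, d, d'}) + 3 ≤ n := by
    have := finrank_span_three (F := F) c d d'
    omega
  obtain ⟨e, e', he, heS, he'S, he'e⟩ := exists_e hQ hdim
  have h1 := heS c (mem_span_three_1 c d d')
  have h2 := heS d (mem_span_three_2 c d d')
  have h3 := heS d' (mem_span_three_3 c d d')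
  have h1' := he'S c (mem_span_three_1 c d d')
  have h2' := he'S d (mem_span_three_2 c d d')
  have h3' := he'S d' (mem_span_three_3 c d d')
  have hP : ∀ {a b : Fin n → F}, pl Q e' a = 0 → pl Q e' b = 0 → e ∉ Submodule.span F {a, b} := by
    intro a b ha hb
    refine not_mem_of_pl hQ (e' := e') (fun s hs => ?_) he'e
    obtain ⟨α, β, rfl⟩ := Submodule.mem_span_pair.1 hs
    rw [pl_add_right hQ, pl_smul_right hQ, pl_smul_right hQ, ha, hb]
    ring
  have T1 := moveB' hQ hn hH hT he (by rw [pl_symm, h1]) hcd (by rw [pl_symm, h2]) hdc (hP h1' h2')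
  refine moveB' hQ hn hH T1 hd' hcd' (by rw [pl_symm, h1]) h3 ?_ ?_
  · intro hm
    obtain ⟨t, ht⟩ := Submodule.mem_span_singleton.1 hm
    rw [← ht, pl_smul_right hQ, h1', mul_zero] at he'e
    exact zero_ne_one he'e
  · intro hm
    obtain ⟨α, β, hαβ⟩ := Submodule.mem_span_pair.1 hm
    have h4 : pl Q e' (α • c + β • e) = pl Q e' d' := by rw [hαβ]
    rw [pl_add_right hQ, pl_smul_right hQ, pl_smul_right hQ, h1', he'e, h3'] at h4
    have hβ : β = 0 := by linear_combination h4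
    rw [hβ, zero_smul, add_zero] at hαβ
    apply hdc'
    rw [← hαβ]
    exact Submodule.smul_mem _ _ (Submodule.mem_span_singleton_self c)

theorem mvA (hQ : IsNondegenerateQuadraticForm Q) (hn : 9 ≤ n) {M : Subgroup GG} (hH : quadSimilarityGroup Q ⊓ SLn ≤ M)
    {c d c' : Fin n → F} (hT : TV Q M c d) (hc : Q c = 0) (hc' : Q c' = 0) (hcd : pl Q c d = 0) (hc'd : pl Q c' d = 0)
    (hn1 : c ∉ Submodule.span F {d}) (hn2 : c' ∉ Submodule.span F {d}) : TV Q M c' d := by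
  have hdim : 2 * Module.finrank F (Submodule.span F {c, d, c'}) + 3 ≤ n := by
    have := finrank_span_three (F := F) c d c'
    omega
  obtain ⟨e, e', he, heS, he'S, he'e⟩ := exists_e hQ hdim
  have h1 := heS c (mem_span_three_1 c d c')
  have h2 := heS d (mem_span_three_2 c d c')
  have h3 := heS c' (mem_span_three_3 c d c')
  have h1' := he'S c (mem_span_three_1 c d c')
  have h2' := he'S d (mem_span_three_2 c d c')
  have h3' := he'S c' (mem_span_three_3 c d c')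
  have hP : ∀ {a b : Fin n → F}, pl Q e' a = 0 → pl Q e' b = 0 → e ∉ Submodule.span F {a, b} := by
    intro a b ha hb
    refine not_mem_of_pl hQ (e' := e') (fun s hs => ?_) he'e
    obtain ⟨α, β, rfl⟩ := Submodule.mem_span_pair.1 hs
    rw [pl_add_right hQ, pl_smul_right hQ, pl_smul_right hQ, ha, hb]
    ring
  have T1 := moveA' hQ hn hH hT he (by rw [pl_symm, h2]) hcd (by rw [pl_symm, h1]) hn1 (hP h2' h1')
  refine moveA' hQ hn hH T1 hc' (by rw [pl_symm]; exact hc'd) h2 h3 ?_ ?_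
  · intro hm
    obtain ⟨t, ht⟩ := Submodule.mem_span_singleton.1 hm
    rw [← ht, pl_smul_right hQ, h2', mul_zero] at he'e
    exact zero_ne_one he'e
  · intro hm
    obtain ⟨α, β, hαβ⟩ := Submodule.mem_span_pair.1 hm
    have h4 : pl Q e' (α • d + β • e) = pl Q e' c' := by rw [hαβ]
    rw [pl_add_right hQ, pl_smul_right hQ, pl_smul_right hQ, h2', he'e, h3'] at h4
    have hβ : β = 0 := by linear_combination h4
    rw [hβ, zero_smul, add_zero] at hαβ
    apply hn2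
    rw [← hαβ]
    exact Submodule.smul_mem _ _ (Submodule.mem_span_singleton_self d)

theorem ap_all (hQ : IsNondegenerateQuadraticForm Q) (hn : 11 ≤ n) {M : Subgroup GG} (hH : quadSimilarityGroup Q ⊓ SLn ≤ M)
    {c d c' d' : Fin n → F} (hc0 : c ≠ 0) (hc'0 : c' ≠ 0) (h : SOP Q c d) (h' : SOP Q c' d') (hT : TV Q M c d) : TV Q M c' d' := by
  obtain ⟨hc, hd, hcd, hdc⟩ := h
  obtain ⟨hc', hd', hcd', hdc'⟩ := h'
  have hdim : 2 * Module.finrank F (Submodule.span F {c, c'}) + 3 ≤ n := by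
    have := finrank_span_two (F := F) c c'
    omega
  obtain ⟨e, e', he, heS, he'S, he'e⟩ := exists_e hQ hdim
  have h1 := heS c (mem_span_two_l c c')
  have h2 := heS c' (mem_span_two_r c c')
  have h1' := he'S c (mem_span_two_l c c')
  have h2' := he'S c' (mem_span_two_r c c')
  have hP : ∀ {a : Fin n → F}, pl Q e' a = 0 → e ∉ Submodule.span F {a} := by
    intro a ha hm
    obtain ⟨t, ht⟩ := Submodule.mem_span_singleton.1 hm
    rw [← ht, pl_smul_right hQ, ha, mul_zero] at he'e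
    exact zero_ne_one he'e
  have T1 := mvB hQ (by omega) hH hT ⟨hc, hd, hcd, hdc⟩ ⟨hc, he, by rw [pl_symm, h1], hP h1'⟩
  have T2 := mvA hQ (by omega) hH T1 hc hc' (by rw [pl_symm, h1]) (by rw [pl_symm, h2]) (not_span_comm hc0 (hP h1'))
    (not_span_comm hc'0 (hP h2'))
  exact mvB hQ (by omega) hH T2 ⟨hc', he, by rw [pl_symm, h2], hP h2'⟩ ⟨hc', hd', hcd', hdc'⟩

/-- A hyperbolic decomposition. -/
theorem dec (hQ : IsNondegenerateQuadraticForm Q) {S : Submodule F (Fin n → F)} {x : Fin n → F} (hx : x ∈ S)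
    (hdim : 2 * Module.finrank F S + 3 ≤ n) :
    ∃ p p' : Fin n → F, ∃ β : F, Q p = 0 ∧ Q p' = 0 ∧ pl Q p' p = 1 ∧ (∀ s ∈ S, pl Q p s = 0) ∧ (∀ s ∈ S, pl Q p' s = 0) ∧
      Q (x + p + β • p') = 0 := by
  have hd : 2 * Module.finrank F S + 3 ≤ Module.finrank F (⊤ : Submodule F (Fin n → F)) := by
    rw [finrank_top, Module.finrank_fintype_fun_eq_card, Fintype.card_fin]
    exact hdim
  obtain ⟨p, -, p', -, hp, hp', hpp', hpS, hp'S⟩ := exists_hyp_rel hQ (ndg_top hQ) le_top hd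
  refine ⟨p, p', - Q x, hp, hp', by rw [pl_symm, hpp'], hpS, hp'S, ?_⟩
  rw [Q_add Q, Q_add Q, hQ.smul, hp, hp', pl_add_left hQ, pl_smul_right hQ, pl_smul_right hQ, pl_symm x p, hpS x hx, pl_symm x p',
    hp'S x hx, hpp']
  ring

theorem tv_sing (hQ : IsNondegenerateQuadraticForm Q) (hn : 7 ≤ n) {M : Subgroup GG}
    (hAll : ∀ c d, c ≠ 0 → SOP Q c d → TV Q M c d) {c w : Fin n → F} (hc : Q c = 0) (hcw : pl Q c w = 0) : TV Q M c w := by
  by_cases hc0 : c = 0
  · subst hc0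
    exact TV_zero_l M w
  have hdim : 2 * Module.finrank F (Submodule.span F {c, w}) + 3 ≤ n := by
    have := finrank_span_two (F := F) c w
    omega
  obtain ⟨p, p', β, hp, hp', hpp', hpS, hp'S, hQy⟩ := dec hQ (mem_span_two_r c w) hdim
  have h1 := hpS c (mem_span_two_l c w)
  have h2 := hp'S c (mem_span_two_l c w)
  have h3 := hpS w (mem_span_two_r c w)
  have h4 := hp'S w (mem_span_two_r c w)
  have hPn : ∀ {v u : Fin n → F}, pl Q v c = 0 → pl Q v u ≠ 0 → u ∉ Submodule.span F {c} := by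
    intro v u hv hu hm
    obtain ⟨t, ht⟩ := Submodule.mem_span_singleton.1 hm
    apply hu
    rw [← ht, pl_smul_right hQ, hv, mul_zero]
  have hp'p' : pl Q p' p' = 0 := by rw [pl_self hQ, hp', mul_zero]
  have hcp : pl Q c p = 0 := by rw [pl_symm, h1]
  have hcp' : pl Q c p' = 0 := by rw [pl_symm, h2]
  have T1 : TV Q M c (w + p + β • p') := by
    refine hAll _ _ hc0 ⟨hc, hQy, ?_, hPn (v := p') h2 ?_⟩
    · rw [pl_add_right hQ, pl_add_right hQ, pl_smul_right hQ, hcw, hcp, hcp']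
      ring
    · rw [pl_add_right hQ, pl_add_right hQ, pl_smul_right hQ, h4, hpp', hp'p']
      simp
  have T2 : TV Q M c (-p) := by
    refine hAll _ _ hc0 ⟨hc, by rw [Q_neg hQ, hp], by rw [pl_neg_right hQ, hcp, neg_zero], hPn (v := p') h2 ?_⟩
    rw [pl_neg_right hQ, hpp']
    simp
  have T3 : TV Q M c (-(β • p')) := by
    by_cases hβ : β = 0
    · rw [hβ, zero_smul, neg_zero]
      exact TV_zero_r hQ M c
    refine hAll _ _ hc0 ⟨hc, by rw [Q_neg hQ, hQ.smul, hp', mul_zero], by rw [pl_neg_right hQ, pl_smul_right hQ, hcp']; simp,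
      hPn (v := p) h1 ?_⟩
    rw [pl_neg_right hQ, pl_smul_right hQ, pl_symm p p', hpp', mul_one]
    exact neg_ne_zero.2 hβ
  have T := TV.add_r hQ (TV.add_r hQ T1 T2 (by rw [pl_add_right hQ, pl_add_right hQ, pl_smul_right hQ, hcw, hcp, hcp']; ring)) T3
    (by simp only [pl_add_right hQ, pl_neg_right hQ, pl_smul_right hQ, hcw, hcp, hcp']; ring)
  have e : w + p + β • p' + -p + -(β • p') = w := by abel
  rwa [e] at T

theorem tv_rsing (hQ : IsNondegenerateQuadraticForm Q) (hn : 7 ≤ n) {M : Subgroup GG}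
    (hAll : ∀ c d, c ≠ 0 → SOP Q c d → TV Q M c d) {a w : Fin n → F} (hw : Q w = 0) (haw : pl Q a w = 0) : TV Q M a w := by
  have hdim : 2 * Module.finrank F (Submodule.span F {a, w}) + 3 ≤ n := by
    have := finrank_span_two (F := F) a w
    omega
  obtain ⟨p, p', β, hp, hp', hpp', hpS, hp'S, hQy⟩ := dec hQ (mem_span_two_l a w) hdim
  have h3 := hpS w (mem_span_two_r a w)
  have h4 := hp'S w (mem_span_two_r a w)
  have T1 : TV Q M (a + p + β • p') w := tv_sing hQ hn hAll hQy (by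
    rw [pl_add_left hQ, pl_add_left hQ, pl_smul_left hQ, haw, h3, h4]
    ring)
  have T2 : TV Q M (-p) w := tv_sing hQ hn hAll (by rw [Q_neg hQ, hp]) (by rw [pl_neg_left hQ, h3, neg_zero])
  have T3 : TV Q M (-(β • p')) w := tv_sing hQ hn hAll (by rw [Q_neg hQ, hQ.smul, hp', mul_zero])
    (by rw [pl_neg_left hQ, pl_smul_left hQ, h4]; simp)
  have T := TV.add_l hQ (TV.add_l hQ T1 T2 (by rw [pl_neg_left hQ, h3, neg_zero])) T3 (by rw [pl_neg_left hQ, pl_smul_left hQ, h4]; simp)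
  have e : a + p + β • p' + -p + -(β • p') = a := by abel
  rwa [e] at T

theorem tv_all (hQ : IsNondegenerateQuadraticForm Q) (hn : 7 ≤ n) {M : Subgroup GG}
    (hAll : ∀ c d, c ≠ 0 → SOP Q c d → TV Q M c d) {a w : Fin n → F} (haw : pl Q a w = 0) : TV Q M a w := by
  have hdim : 2 * Module.finrank F (Submodule.span F {a, w}) + 3 ≤ n := by
    have := finrank_span_two (F := F) a w
    omega
  obtain ⟨p, p', β, hp, hp', hpp', hpS, hp'S, hQy⟩ := dec hQ (mem_span_two_r a w) hdim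
  have h1 : pl Q a p = 0 := by rw [pl_symm, hpS a (mem_span_two_l a w)]
  have h2 : pl Q a p' = 0 := by rw [pl_symm, hp'S a (mem_span_two_l a w)]
  have T1 : TV Q M a (w + p + β • p') := tv_rsing hQ hn hAll hQy (by
    rw [pl_add_right hQ, pl_add_right hQ, pl_smul_right hQ, haw, h1, h2]
    ring)
  have T2 : TV Q M a (-p) := tv_rsing hQ hn hAll (by rw [Q_neg hQ, hp]) (by rw [pl_neg_right hQ, h1, neg_zero])
  have T3 : TV Q M a (-(β • p')) := tv_rsing hQ hn hAll (by rw [Q_neg hQ, hQ.smul, hp', mul_zero])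
    (by rw [pl_neg_right hQ, pl_smul_right hQ, h2]; simp)
  have T := TV.add_r hQ (TV.add_r hQ T1 T2 (by rw [pl_add_right hQ, pl_add_right hQ, pl_smul_right hQ, haw, h1, h2]; ring)) T3
    (by simp only [pl_add_right hQ, pl_neg_right hQ, pl_smul_right hQ, haw, h1, h2]; ring)
  have e : w + p + β • p' + -p + -(β • p') = w := by abel
  rwa [e] at T

/-- The transformed form is non-degenerate. -/
theorem nd_comp (hQ : IsNondegenerateQuadraticForm Q) (g : GG) :
    IsNondegenerateQuadraticForm (fun v => Q ((g : Mat) *ᵥ v)) := by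
  have hpl : ∀ x y, QuadraticMap.polar (fun v => Q ((g : Mat) *ᵥ v)) x y = pl Q ((g : Mat) *ᵥ x) ((g : Mat) *ᵥ y) := by
    intro x y
    simp only [QuadraticMap.polar, Matrix.mulVec_add]
  refine ⟨fun c v => ?_, ⟨fun x y v => ?_, fun c x v => ?_, fun v x y => ?_, fun c v x => ?_⟩, fun v hv => ?_⟩
  · simp only [Matrix.mulVec_smul]
    exact hQ.smul _ _
  · rw [hpl, hpl, hpl, Matrix.mulVec_add, pl_add_left hQ]
  · rw [hpl, hpl, Matrix.mulVec_smul, pl_smul_left hQ]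
  · rw [hpl, hpl, hpl, Matrix.mulVec_add, pl_add_right hQ]
  · rw [hpl, hpl, Matrix.mulVec_smul, pl_smul_right hQ]
  · have hgv : (g : Mat) *ᵥ v ≠ 0 := by
      intro h0
      apply hv
      rw [← inv_cancel' g v, h0, Matrix.mulVec_zero]
    obtain ⟨⟨x, hx⟩, ⟨y, hy⟩⟩ := hQ.nondegenerate _ hgv
    refine ⟨⟨((g⁻¹ : GG) : Mat) *ᵥ x, ?_⟩, ⟨((g⁻¹ : GG) : Mat) *ᵥ y, ?_⟩⟩
    · rw [hpl, inv_cancel]
      exact hx
    · rw [hpl, inv_cancel]
      exact hy

theorem exists_sharp (hQ : IsNondegenerateQuadraticForm Q) (hQ' : IsNondegenerateQuadraticForm (fun v => Q ((g : Mat) *ᵥ v)))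
    (d : Fin n → F) : ∃ d', ∀ x, pl Q x d' = pl (fun v => Q ((g : Mat) *ᵥ v)) x d := by
  let φ : (⊤ : Submodule F (Fin n → F)) →ₗ[F] F :=
    { toFun := fun z => pl (fun v => Q ((g : Mat) *ᵥ v)) (z : Fin n → F) d
      map_add' := fun a b => pl_add_left hQ' _ _ _
      map_smul' := fun c a => pl_smul_left hQ' _ _ _ }
  obtain ⟨y, -, hy⟩ := exists_rep hQ (ndg_top hQ) φ
  refine ⟨y, fun x => ?_⟩
  rw [pl_symm]
  exact hy ⟨x, trivial⟩

theorem finrank_span_four (a b c d : Fin n → F) : Module.finrank F (Submodule.span F {a, b, c, d}) ≤ 4 := by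
  classical
  have h := finrank_span_finset_le_card (R := F) ({a, b, c, d} : Finset (Fin n → F))
  have h2 : (({a, b, c, d} : Finset (Fin n → F)) : Set (Fin n → F)) = {a, b, c, d} := by simp
  rw [h2] at h
  exact h.trans Finset.card_le_four

theorem finrank_span_five (a b c d e : Fin n → F) : Module.finrank F (Submodule.span F {a, b, c, d, e}) ≤ 5 := by
  classical
  have h := finrank_span_finset_le_card (R := F) ({a, b, c, d, e} : Finset (Fin n → F))
  have h2 : (({a, b, c, d, e} : Finset (Fin n → F)) : Set (Fin n → F)) = {a, b, c, d, e} := by simp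
  rw [h2] at h
  exact h.trans Finset.card_le_five

/-- A non-eigenvector. -/
theorem exists_noneig (hQ : IsNondegenerateQuadraticForm Q) (hn : 7 ≤ n) (h2 : (2 : F) ≠ 0) {g : GG}
    (hg : g ∉ quadSimilarityGroup Q) : ∃ d d', Q ((g : Mat) *ᵥ d) = 0 ∧
      (∀ x, pl Q x d' = pl (fun v => Q ((g : Mat) *ᵥ v)) x d) ∧ d' ∉ Submodule.span F {d} := by
  by_contra hcon
  have hQ' := nd_comp hQ g
  obtain ⟨Q', hQ'd⟩ : ∃ Q', Q' = fun v => Q ((g : Mat) *ᵥ v) := ⟨_, rfl⟩
  rw [← hQ'd] at hQ' hcon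
  have hQv : ∀ v, Q' v = Q ((g : Mat) *ᵥ v) := fun v => by rw [hQ'd]
  have hsharp : ∀ d, ∃ d', ∀ x, pl Q x d' = pl Q' x d := by
    intro d
    have := exists_sharp (g := g) hQ (by rw [← hQ'd]; exact hQ') d
    rwa [← hQ'd] at this
  have key : ∀ d, Q' d = 0 → d ≠ 0 → ∃ l : F, l ≠ 0 ∧ ∀ x, pl Q' x d = l * pl Q x d := by
    intro d hd hd0
    obtain ⟨d', hd'⟩ := hsharp d
    have hm : d' ∈ Submodule.span F {d} := by
      by_contra hnm
      exact hcon ⟨d, d', by rw [← hQv, hd], hd', hnm⟩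
    obtain ⟨l, rfl⟩ := Submodule.mem_span_singleton.1 hm
    have hx : ∀ x, pl Q' x d = l * pl Q x d := fun x => by rw [← hd', pl_smul_right hQ]
    refine ⟨l, ?_, hx⟩
    rintro rfl
    obtain ⟨⟨x, hxn⟩, -⟩ := hQ'.nondegenerate d hd0
    apply hxn
    exact (hx x).trans (zero_mul _)
  have same : ∀ d₁ d₂ (l₁ l₂ : F), Q' d₁ = 0 → Q' d₂ = 0 → d₁ ≠ 0 → pl Q' d₁ d₂ = 0 → d₂ ∉ Submodule.span F {d₁} →
      (∀ x, pl Q' x d₁ = l₁ * pl Q x d₁) → (∀ x, pl Q' x d₂ = l₂ * pl Q x d₂) → l₁ = l₂ := by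
    intro d₁ d₂ l₁ l₂ h1 h2' h10 h12 hsp hl₁ hl₂
    have h3 : Q' (d₁ + d₂) = 0 := by rw [Q_add Q', h1, h2', h12]; ring
    have h30 : d₁ + d₂ ≠ 0 := by
      intro h0
      apply hsp
      have : d₂ = (-1 : F) • d₁ := by
        rw [neg_one_smul]
        exact eq_neg_of_add_eq_zero_right h0
      rw [this]
      exact Submodule.smul_mem _ _ (Submodule.mem_span_singleton_self d₁)
    obtain ⟨l₃, -, hl₃⟩ := key _ h3 h30
    have hsum : ∀ y, l₁ * pl Q y d₁ + l₂ * pl Q y d₂ = l₃ * (pl Q y d₁ + pl Q y d₂) := by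
      intro y
      have := hl₃ y
      rw [pl_add_right hQ', pl_add_right hQ, hl₁, hl₂] at this
      exact this
    obtain ⟨y, -, hyS, hy1⟩ := exists_sep hQ (ndg_top hQ) (trivial : d₂ ∈ ⊤) hsp 1
    have h4 := hsum y
    rw [hyS d₁ ⟨Submodule.mem_span_singleton_self d₁, trivial⟩, hy1] at h4
    obtain ⟨y', -, hy'S, hy'1⟩ := exists_sep hQ (ndg_top hQ) (trivial : d₁ ∈ ⊤) (not_span_comm h10 hsp) 1
    have h5 := hsum y'
    rw [hy'S d₂ ⟨Submodule.mem_span_singleton_self d₂, trivial⟩, hy'1] at h5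
    linear_combination h5 - h4
  have same2 : ∀ d₁ d₂ (l₁ l₂ : F), Q' d₁ = 0 → Q' d₂ = 0 → d₁ ≠ 0 → d₂ ≠ 0 →
      (∀ x, pl Q' x d₁ = l₁ * pl Q x d₁) → (∀ x, pl Q' x d₂ = l₂ * pl Q x d₂) → l₁ = l₂ := by
    intro d₁ d₂ l₁ l₂ h1 h2' h10 h20 hl₁ hl₂
    have hdim : 2 * Module.finrank F (Submodule.span F {d₁, d₂}) + 3 ≤ n := by
      have := finrank_span_two (F := F) d₁ d₂
      omega
    obtain ⟨e, e', he, heS, he'S, he'e⟩ := exists_e hQ' hdim
    have he0 : e ≠ 0 := by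
      rintro rfl
      rw [pl_zero_right hQ'] at he'e
      exact zero_ne_one he'e
    have hP : ∀ {a : Fin n → F}, pl Q' e' a = 0 → e ∉ Submodule.span F {a} := by
      intro a ha hm
      obtain ⟨t, ht⟩ := Submodule.mem_span_singleton.1 hm
      rw [← ht, pl_smul_right hQ', ha, mul_zero] at he'e
      exact zero_ne_one he'e
    obtain ⟨l, -, hl⟩ := key e he he0
    have e1 := same d₁ e l₁ l h1 he h10 (by rw [pl_symm]; exact heS d₁ (mem_span_two_l d₁ d₂))
      (hP (he'S d₁ (mem_span_two_l d₁ d₂))) hl₁ hl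
    have e2 := same d₂ e l₂ l h2' he h20 (by rw [pl_symm]; exact heS d₂ (mem_span_two_r d₁ d₂))
      (hP (he'S d₂ (mem_span_two_r d₁ d₂))) hl₂ hl
    rw [e1, e2]
  -- a fixed singular vector
  have hdim0 : 2 * Module.finrank F (⊥ : Submodule F (Fin n → F)) + 3 ≤ n := by
    rw [finrank_bot]
    omega
  obtain ⟨e, e', he, -, -, he'e⟩ := exists_e hQ' hdim0
  have he0 : e ≠ 0 := by
    rintro rfl
    rw [pl_zero_right hQ'] at he'e
    exact zero_ne_one he'e
  obtain ⟨l₀, hl₀0, hl₀⟩ := key e he he0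
  have hsing : ∀ a, Q' a = 0 → ∀ y, pl Q' y a = l₀ * pl Q y a := by
    intro a ha y
    by_cases ha0 : a = 0
    · subst ha0
      rw [pl_zero_right hQ', pl_zero_right hQ, mul_zero]
    obtain ⟨l, -, hl⟩ := key a ha ha0
    rw [same2 e a l₀ l he ha he0 ha0 hl₀ hl]
    exact hl y
  have hall : ∀ y z, pl Q' y z = l₀ * pl Q y z := by
    intro y z
    have hdim : 2 * Module.finrank F (Submodule.span F {z}) + 3 ≤ n := by
      have := finrank_span_one (F := F) z
      omega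
    obtain ⟨p, p', β, hp, hp', -, -, -, hQ0⟩ := dec hQ' (Submodule.mem_span_singleton_self z) hdim
    have h1 := hsing _ hQ0 y
    have h3 := hsing p hp y
    have h4 := hsing (β • p') (by rw [hQ'.smul, hp', mul_zero]) y
    rw [pl_add_right hQ', pl_add_right hQ', h3, h4, pl_add_right hQ, pl_add_right hQ] at h1
    linear_combination h1
  apply hg
  refine ⟨Units.mk0 l₀ hl₀0, fun z => ?_⟩
  rw [Units.val_mk0, ← hQv]
  have h5 := hall z z
  rw [pl_self hQ', pl_self hQ] at h5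
  have h6 : 2 * (Q' z - l₀ * Q z) = 0 := by linear_combination h5
  have h7 := (mul_eq_zero.1 h6).resolve_left h2
  linear_combination h7

/-- A transvection from an element outside the similarity group. -/
theorem exists_tv_of (hQ : IsNondegenerateQuadraticForm Q) (hn : 13 ≤ n) (h2 : (2 : F) ≠ 0) {M : Subgroup GG}
    (hH : quadSimilarityGroup Q ⊓ SLn ≤ M) {g : GG} (hgM : g ∈ M) (hg : g ∉ quadSimilarityGroup Q) :
    ∃ a u, a ≠ 0 ∧ Q u = 0 ∧ pl Q a u = 0 ∧ u ∉ Submodule.span F {a} ∧ TV Q M a u := by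
  obtain ⟨d, d', hQd, hd', hd'n⟩ := exists_noneig hQ (by omega) h2 hg
  have hQ' := nd_comp hQ g
  have hsh := exists_sharp (g := g) hQ hQ'
  have hpl : ∀ x y, pl (fun v => Q ((g : Mat) *ᵥ v)) x y = pl Q ((g : Mat) *ᵥ x) ((g : Mat) *ᵥ y) := by
    intro x y
    simp only [QuadraticMap.polar, Matrix.mulVec_add]
  obtain ⟨Q', hQ'd⟩ : ∃ Q', Q' = fun v => Q ((g : Mat) *ᵥ v) := ⟨_, rfl⟩
  rw [← hQ'd] at hQ' hsh hd' hpl
  have hQv : ∀ v, Q' v = Q ((g : Mat) *ᵥ v) := fun v => by rw [hQ'd]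
  obtain ⟨y, -, hyS, hyd'⟩ := exists_sep hQ' (ndg_top hQ') (trivial : d' ∈ ⊤) hd'n 1
  have hyd : pl Q' y d = 0 := hyS d ⟨Submodule.mem_span_singleton_self d, trivial⟩
  obtain ⟨y', hy'⟩ := hsh y
  have hdim3 : 2 * Module.finrank F (Submodule.span F {d, y, y'}) + 3 ≤ n := by
    have := finrank_span_three (F := F) d y y'
    omega
  obtain ⟨a, e', ha, haS, he'S, he'a⟩ := exists_e hQ' hdim3
  have had : pl Q' a d = 0 := haS d (mem_span_three_1 d y y')
  have hay : pl Q' a y = 0 := haS y (mem_span_three_2 d y y')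
  have hay' : pl Q' a y' = 0 := haS y' (mem_span_three_3 d y y')
  have ha0 : a ≠ 0 := by
    rintro rfl
    rw [pl_zero_right hQ'] at he'a
    exact zero_ne_one he'a
  obtain ⟨a', ha'⟩ := hsh a
  have hn1 : d' ∉ Submodule.span F {a, d, a'} := by
    intro hm
    obtain ⟨α, β, γ, h1⟩ := Submodule.mem_span_triple.1 hm
    have h3 : pl Q' a' y = 0 := by
      rw [← hy', pl_symm, ha', pl_symm, hay']
    have h4 : pl Q' d y = 0 := by rw [pl_symm, hyd]
    have h5 : pl Q' d' y = 1 := by rw [pl_symm, hyd']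
    rw [← h1, pl_add_left hQ', pl_add_left hQ', pl_smul_left hQ', pl_smul_left hQ', pl_smul_left hQ', hay, h3, h4] at h5
    simp at h5
  obtain ⟨w₀, -, hw₀S, hw₀d'⟩ := exists_sep hQ (ndg_top hQ) (trivial : d' ∈ ⊤) hn1 1
  have hdim4 : 2 * Module.finrank F (Submodule.span F {a, d, a', d'}) + 3 ≤ Module.finrank F (⊤ : Submodule F (Fin n → F)) := by
    have := finrank_span_four (F := F) a d a' d'
    rw [finrank_top, Module.finrank_fintype_fun_eq_card, Fintype.card_fin]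
    omega
  obtain ⟨w, -, hQw, hwS⟩ := singularize hQ (ndg_top hQ) le_top hdim4 (trivial : w₀ ∈ ⊤)
  have hwa : pl Q w a = 0 := by
    rw [hwS a (Submodule.subset_span (by simp))]
    exact hw₀S a ⟨Submodule.subset_span (by simp), trivial⟩
  have hwd : pl Q w d = 0 := by
    rw [hwS d (Submodule.subset_span (by simp))]
    exact hw₀S d ⟨Submodule.subset_span (by simp), trivial⟩
  have hwa' : pl Q w a' = 0 := by
    rw [hwS a' (Submodule.subset_span (by simp))]
    exact hw₀S a' ⟨Submodule.subset_span (by simp), trivial⟩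
  have hwd' : pl Q w d' = 1 := by
    rw [hwS d' (Submodule.subset_span (by simp)), hw₀d']
  have hdim5 : 2 * Module.finrank F (Submodule.span F {a, d, a', d', w}) + 3 ≤ n := by
    have := finrank_span_five (F := F) a d a' d' w
    omega
  obtain ⟨u, u', hu, huS, hu'S, hu'u⟩ := exists_e hQ hdim5
  have hua : pl Q u a = 0 := huS a (Submodule.subset_span (by simp))
  have hud : pl Q u d = 0 := huS d (Submodule.subset_span (by simp))
  have hua' : pl Q u a' = 0 := huS a' (Submodule.subset_span (by simp))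
  have hud' : pl Q u d' = 0 := huS d' (Submodule.subset_span (by simp))
  have huw : pl Q u w = 0 := huS w (Submodule.subset_span (by simp))
  have hu'a : pl Q u' a = 0 := hu'S a (Submodule.subset_span (by simp))
  -- the root element of the transformed form
  obtain ⟨r, hr, -, hrx⟩ := root_M hQ (by omega) hH (a := (g : Mat) *ᵥ a) (d := (g : Mat) *ᵥ d) (by rw [← hQv, ha])
    hQd (by rw [← hpl, had])
  obtain ⟨R', hR', hR'x⟩ : ∃ R' ∈ M, ∀ x, (R' : Mat) *ᵥ x = x + pl Q' x d • a - pl Q' x a • d := by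
    refine ⟨g⁻¹ * r * g, M.mul_mem (M.mul_mem (M.inv_mem hgM) hr) hgM, fun x => ?_⟩
    rw [Units.val_mul, Units.val_mul, ← Matrix.mulVec_mulVec, ← Matrix.mulVec_mulVec, hrx, Matrix.mulVec_sub,
      Matrix.mulVec_add, Matrix.mulVec_smul, Matrix.mulVec_smul, inv_cancel', inv_cancel', inv_cancel', hpl, hpl]
  obtain ⟨h, hh, -, hhx⟩ := root_M hQ (by omega) hH hu hQw huw
  have hha : (h : Mat) *ᵥ a = a := by
    rw [hhx, pl_symm a w, hwa, pl_symm a u, hua]
    simp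
  have hhd : (h : Mat) *ᵥ d = d := by
    rw [hhx, pl_symm d w, hwd, pl_symm d u, hud]
    simp
  have hinv : ∀ x, ((h⁻¹ : GG) : Mat) *ᵥ x = x - pl Q x w • u + pl Q x u • w := by
    intro x
    apply inv_mulVec_of
    rw [hhx]
    simp only [pl_add_left hQ, pl_sub_left hQ, pl_smul_left hQ]
    have hww : pl Q w w = 0 := by rw [pl_self hQ, hQw, mul_zero]
    have huu : pl Q u u = 0 := by rw [pl_self hQ, hu, mul_zero]
    rw [huw, huu, hww, pl_symm w u, huw]
    ext i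
    simp only [Pi.add_apply, Pi.sub_apply, Pi.smul_apply, smul_eq_mul]
    ring
  have hau : pl Q a u = 0 := by rw [pl_symm, hua]
  have hdu : pl Q d u = 0 := by rw [pl_symm, hud]
  obtain ⟨t, -, htx⟩ := exists_t hQ hau
  have key : t * R' = h * R' * h⁻¹ := by
    apply gl_ext
    intro x
    rw [Units.val_mul, Units.val_mul, Units.val_mul, ← Matrix.mulVec_mulVec, ← Matrix.mulVec_mulVec, ← Matrix.mulVec_mulVec,
      htx, hR'x, hinv, hR'x, Matrix.mulVec_sub, Matrix.mulVec_add, Matrix.mulVec_smul, Matrix.mulVec_smul, hha, hhd,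
      Matrix.mulVec_add, Matrix.mulVec_sub, Matrix.mulVec_smul, Matrix.mulVec_smul]
    have e1 : pl Q' (x - pl Q x w • u + pl Q x u • w) d = pl Q' x d + pl Q x u := by
      rw [← hd', pl_add_left hQ, pl_sub_left hQ, pl_smul_left hQ, pl_smul_left hQ, hud', hwd', hd']
      ring
    have e2 : pl Q' (x - pl Q x w • u + pl Q x u • w) a = pl Q' x a := by
      rw [← ha', pl_add_left hQ, pl_sub_left hQ, pl_smul_left hQ, pl_smul_left hQ, hua', hwa', ha']
      ring
    have e3 : pl Q (x + pl Q' x d • a - pl Q' x a • d) u = pl Q x u := by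
      rw [pl_sub_left hQ, pl_add_left hQ, pl_smul_left hQ, pl_smul_left hQ, hau, hdu]
      ring
    rw [e1, e2, e3]
    have hhx' : (h : Mat) *ᵥ ((h⁻¹ : GG) : Mat) *ᵥ x = x := inv_cancel h x
    rw [hinv] at hhx'
    have e4 : (h : Mat) *ᵥ x - (h : Mat) *ᵥ (pl Q x w • u) + (h : Mat) *ᵥ (pl Q x u • w) = x := by
      rw [Matrix.mulVec_add, Matrix.mulVec_sub] at hhx'
      exact hhx'
    simp only [Matrix.mulVec_smul] at e4
    rw [e4]
    ext i
    simp only [Pi.add_apply, Pi.sub_apply, Pi.smul_apply, smul_eq_mul]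
    ring
  have ht : t ∈ M := by
    have : t = h * R' * h⁻¹ * R'⁻¹ := by
      rw [← key]
      group
    rw [this]
    exact M.mul_mem (M.mul_mem (M.mul_mem hh hR') (M.inv_mem hh)) (M.inv_mem hR')
  refine ⟨a, u, ha0, hu, hau, ?_, t, ht, htx⟩
  intro hm
  obtain ⟨c, hc⟩ := Submodule.mem_span_singleton.1 hm
  rw [← hc, pl_smul_right hQ, hu'a, mul_zero] at hu'u
  exact zero_ne_one hu'u

/-- From a transvection to a singular transvection. -/
theorem exists_spair (hQ : IsNondegenerateQuadraticForm Q) (hn : 13 ≤ n) (h2 : (2 : F) ≠ 0) {M : Subgroup GG}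
    (hH : quadSimilarityGroup Q ⊓ SLn ≤ M) {g : GG} (hgM : g ∈ M) (hg : g ∉ quadSimilarityGroup Q) :
    ∃ c d, c ≠ 0 ∧ SOP Q c d ∧ TV Q M c d := by
  obtain ⟨a, u, ha0, hu, hau, hun, hT⟩ := exists_tv_of hQ hn h2 hH hgM hg
  have hau' : a ∉ Submodule.span F {u} := not_span_comm ha0 hun
  obtain ⟨z₀, -, hz₀S, hz₀a⟩ := exists_sep hQ (ndg_top hQ) (trivial : a ∈ ⊤) hau' 1
  have hdim : 2 * Module.finrank F (Submodule.span F {a, u}) + 3 ≤ Module.finrank F (⊤ : Submodule F (Fin n → F)) := by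
    have := finrank_span_two (F := F) a u
    rw [finrank_top, Module.finrank_fintype_fun_eq_card, Fintype.card_fin]
    omega
  obtain ⟨z, -, hQz, hzS⟩ := singularize hQ (ndg_top hQ) le_top hdim (trivial : z₀ ∈ ⊤)
  have hzu : pl Q z u = 0 := by
    rw [hzS u (mem_span_two_r a u)]
    exact hz₀S u ⟨Submodule.mem_span_singleton_self u, trivial⟩
  have hza : pl Q z a = 1 := by rw [hzS a (mem_span_two_l a u), hz₀a]
  have hdim3 : 2 * Module.finrank F (Submodule.span F {a, u, z}) + 3 ≤ n := by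
    have := finrank_span_three (F := F) a u z
    omega
  obtain ⟨b, b', hb, hbS, hb'S, hb'b⟩ := exists_e hQ hdim3
  have hba := hbS a (mem_span_three_1 a u z)
  have hbu := hbS u (mem_span_three_2 a u z)
  have hbz := hbS z (mem_span_three_3 a u z)
  have hb'u := hb'S u (mem_span_three_2 a u z)
  have hb0 : b ≠ 0 := by
    rintro rfl
    rw [pl_zero_right hQ] at hb'b
    exact zero_ne_one hb'b
  have T := moveA hQ (by omega) hH hT hb hQz hbz (by rw [pl_symm, hbu]) (by rw [pl_symm, hzu]) (by rw [pl_symm, hza])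
    (by rw [pl_symm, hba]) hau
  have hu0 : u ≠ 0 := by
    rintro rfl
    exact hun (Submodule.zero_mem _)
  refine ⟨b, u, hb0, ⟨hb, hu, hbu, ?_⟩, T⟩
  refine not_span_comm hu0 ?_
  intro hm
  obtain ⟨c, hc⟩ := Submodule.mem_span_singleton.1 hm
  rw [← hc, pl_smul_right hQ, hb'u, mul_zero] at hb'b
  exact zero_ne_one hb'b

/-- Existence of a singular pair. -/
theorem exists_sop (hQ : IsNondegenerateQuadraticForm Q) (hn : 7 ≤ n) : ∃ c d : Fin n → F, c ≠ 0 ∧ SOP Q c d := by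
  have hdim0 : 2 * Module.finrank F (⊥ : Submodule F (Fin n → F)) + 3 ≤ n := by
    rw [finrank_bot]
    omega
  obtain ⟨e, e', he, -, -, he'e⟩ := exists_e hQ hdim0
  have he0 : e ≠ 0 := by
    rintro rfl
    rw [pl_zero_right hQ] at he'e
    exact zero_ne_one he'e
  have hdim : 2 * Module.finrank F (Submodule.span F {e}) + 3 ≤ n := by
    have := finrank_span_one (F := F) e
    omega
  obtain ⟨p, p', hp, hpS, hp'S, hp'p⟩ := exists_e hQ hdim
  refine ⟨e, p, he0, he, hp, by rw [pl_symm]; exact hpS e (Submodule.mem_span_singleton_self e), ?_⟩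
  intro hm
  obtain ⟨c, hc⟩ := Submodule.mem_span_singleton.1 hm
  rw [← hc, pl_smul_right hQ, hp'S e (Submodule.mem_span_singleton_self e), mul_zero] at hp'p
  exact zero_ne_one hp'p

theorem tv_not_sim (hQ : IsNondegenerateQuadraticForm Q) (hn : 7 ≤ n) {c d : Fin n → F} (hc0 : c ≠ 0) (h : SOP Q c d) {t : GG}
    (htx : ∀ x, (t : Mat) *ᵥ x = x + pl Q x d • c) : t ∉ quadSimilarityGroup Q := by
  obtain ⟨hc, hd, hcd, hdc⟩ := h
  rintro ⟨μ, hμ⟩
  obtain ⟨x₀, -, hx₀S, hx₀d⟩ := exists_sep hQ (ndg_top hQ) (trivial : d ∈ ⊤) hdc 1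
  obtain ⟨y₀, -, hy₀S, hy₀c⟩ := exists_sep hQ (ndg_top hQ) (trivial : c ∈ ⊤) (not_span_comm hc0 hdc) 1
  have hdim : 2 * Module.finrank F (Submodule.span F {c, d}) + 3 ≤ Module.finrank F (⊤ : Submodule F (Fin n → F)) := by
    have := finrank_span_two (F := F) c d
    rw [finrank_top, Module.finrank_fintype_fun_eq_card, Fintype.card_fin]
    omega
  obtain ⟨x, -, hQx, hxS⟩ := singularize hQ (ndg_top hQ) le_top hdim (trivial : (x₀ + y₀) ∈ ⊤)
  have hxc : pl Q x c = 1 := by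
    rw [hxS c (mem_span_two_l c d), pl_add_left hQ, hx₀S c ⟨Submodule.mem_span_singleton_self c, trivial⟩, hy₀c, zero_add]
  have hxd : pl Q x d = 1 := by
    rw [hxS d (mem_span_two_r c d), pl_add_left hQ, hx₀d, hy₀S d ⟨Submodule.mem_span_singleton_self d, trivial⟩, add_zero]
  have h1 := hμ x
  rw [htx, hxd, one_smul, Q_add Q, hQx, hc, hxc, mul_zero] at h1
  simp at h1

/-- The similarity group of a quadratic form meets the special linear group in a maximal subgroup. -/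
theorem sim_max (hn : 13 ≤ n) (hodd : Odd (Fintype.card F)) (hQ : IsNondegenerateQuadraticForm Q) :
    IsMaximalIn SLn (quadSimilarityGroup Q ⊓ SLn) := by
  have h2 : (2 : F) ≠ 0 := two_ne_zero_of_odd hodd
  haveI : NeZero n := ⟨by omega⟩
  refine ⟨?_, fun M hHM hMK => ?_⟩
  · refine lt_of_le_of_ne inf_le_right fun heq => ?_
    obtain ⟨c, d, hc0, hSOP⟩ := exists_sop hQ (by omega)
    obtain ⟨t, htSL, htx⟩ := exists_t hQ hSOP.2.2.1
    have : t ∈ quadSimilarityGroup Q ⊓ SLn := (SetLike.ext_iff.1 heq t).2 htSL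
    exact tv_not_sim hQ (by omega) hc0 hSOP htx this.1
  · by_cases hle : M ≤ quadSimilarityGroup Q
    · left
      exact le_antisymm (le_inf hle hMK) hHM
    right
    obtain ⟨g, hgM, hg⟩ := SetLike.not_le_iff_exists.1 hle
    obtain ⟨c, d, hc0, hSOP, hT⟩ := exists_spair hQ hn h2 hHM hgM hg
    have hAll : ∀ c' d', c' ≠ 0 → SOP Q c' d' → TV Q M c' d' := fun c' d' hc'0 h' =>
      ap_all hQ (by omega) hHM hc0 hc'0 hSOP h' hT
    apply le_antisymm hMK
    apply sl_le_of_tv (by omega)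
    intro t φ v htSL hφv htx
    let ψ : (⊤ : Submodule F (Fin n → F)) →ₗ[F] F := φ ∘ₗ (⊤ : Submodule F (Fin n → F)).subtype
    obtain ⟨w, -, hw⟩ := exists_rep hQ (ndg_top hQ) ψ
    have hw' : ∀ x, pl Q x w = φ x := fun x => by
      rw [pl_symm]
      exact hw ⟨x, trivial⟩
    obtain ⟨t', ht', ht'x⟩ := tv_all hQ (by omega) hAll (a := v) (w := w) (by rw [hw', hφv])
    have : t = t' := gl_ext fun x => by rw [htx, ht'x, hw']
    rw [this]
    exact ht'

end Cfsg.Agent.H27.OS
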