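import Mathlib
import Cfsg.Prelude.Def_GeometricClasses
import Cfsg.Agent.Lib.H27.GeoONd2

/-!
# Stabilisers of non-singular vectors in even characteristic are maximal in `Ω`
-/

set_option autoImplicit false
set_option linter.unusedSectionVars false
set_option linter.unusedSimpArgs false
set_option linter.unusedVariables false

namespace Cfsg.Agent.H27.GO

open scoped MatrixGroups Matrix commutatorElement
open Cfsg Cfsg.Geo

variable {ι : Type} [Fintype ι] [DecidableEq ι] {F : Type*} [Field F] {Q : (ι → F) → F} [Fintype F]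

section Vec

variable (hQ : IsNondegenerateQuadraticForm Q) (hn : 9 ≤ Fintype.card ι) {v : ι → F} (hv : Q v ≠ 0) (hvv : pl Q v v = 0)

include hQ hn hv hvv

theorem hdimT' : 9 ≤ Module.finrank F (⊤ : Submodule F (ι → F)) := by
  rw [finrank_top, Module.finrank_fintype_fun_eq_card]
  exact hn

theorem trans_d_perp {d d' : ι → F} (hQd : Q d = 0) (hQd' : Q d' = 0) (hvd : pl Q v d = 1) (hvd' : pl Q v d' = 1)
    (hdd' : pl Q d d' = 0) : ∃ p ∈ omegaGL Q ⊓ fixS (Submodule.span F {v}), (p : Matrix ι ι F) *ᵥ d = d' := by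
  have hn7 : 7 ≤ Fintype.card ι := by omega
  have hT := hdimT' hQ hn hv hvv
  set c := d' - d with hc
  have hdd : pl Q d d = 0 := by rw [pl_self hQ, hQd, mul_zero]
  have hQc : Q c = 0 := by
    rw [hc, Q_sub hQ, hQd, hQd', pl_symm, hdd']
    ring
  have hvc : pl Q v c = 0 := by
    rw [hc, pl_sub_right hQ, hvd, hvd']
    ring
  have hdc : pl Q d c = 0 := by
    rw [hc, pl_sub_right hQ, hdd', hdd]
    ring
  have hnS : d ∉ Submodule.span F {v, c} := by
    intro hm
    have := perp_of_two hQ hm hvv hvc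
    rw [hvd] at this
    exact one_ne_zero this
  obtain ⟨x₀, -, hx₀S, hx₀d⟩ := exists_sep hQ (ndg_top hQ) (Submodule.mem_top (x := d)) hnS 1
  have hdimS : 2 * Module.finrank F (Submodule.span F {v, c, d}) + 3 ≤ Module.finrank F (⊤ : Submodule F (ι → F)) := by
    have := finrank_span_three (F := F) v c d
    omega
  obtain ⟨x, -, hQx, hxS⟩ := singularize hQ (ndg_top hQ) le_top hdimS (Submodule.mem_top (x := x₀))
  have hxv : pl Q x v = 0 := by
    rw [hxS v (mem_span_three_1 v c d)]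
    exact hx₀S v ⟨Submodule.subset_span (by simp), trivial⟩
  have hxc : pl Q x c = 0 := by
    rw [hxS c (mem_span_three_2 v c d)]
    exact hx₀S c ⟨Submodule.subset_span (by simp), trivial⟩
  have hxd : pl Q x d = 1 := by
    rw [hxS d (mem_span_three_3 v c d), hx₀d]
  obtain ⟨p, hp, hpx⟩ := RI_fix hQ hn7 (A := Submodule.span F {v}) hQc hQx (by rw [pl_symm, hxc])
    (fun a ha => by
      rw [pl_symm]
      refine perp_of_one hQ ha ?_
      rw [pl_symm, hvc])
    (fun a ha => by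
      rw [pl_symm]
      exact perp_of_one hQ ha hxv)
  refine ⟨p, hp, ?_⟩
  rw [hpx, pl_symm d x, hxd, hdc, one_smul, zero_smul, sub_zero, hc]
  simp

theorem trans_d_nb {d d' : ι → F} (hQd : Q d = 0) (hQd' : Q d' = 0) (hvd : pl Q v d = 1) (hvd' : pl Q v d' = 1)
    (hnb : v ∉ Submodule.span F {d, d'}) : ∃ p ∈ omegaGL Q ⊓ fixS (Submodule.span F {v}), (p : Matrix ι ι F) *ᵥ d = d' := by
  have hT := hdimT' hQ hn hv hvv
  obtain ⟨x₀, -, hx₀S, hx₀v⟩ := exists_sep hQ (ndg_top hQ) (Submodule.mem_top (x := v)) hnb 1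
  have hdimS : 2 * Module.finrank F (Submodule.span F {d, d', v}) + 3 ≤ Module.finrank F (⊤ : Submodule F (ι → F)) := by
    have := finrank_span_three (F := F) d d' v
    omega
  obtain ⟨x, -, hQx, hxS⟩ := singularize hQ (ndg_top hQ) le_top hdimS (Submodule.mem_top (x := x₀))
  have hxd : pl Q x d = 0 := by
    rw [hxS d (mem_span_three_1 d d' v)]
    exact hx₀S d ⟨Submodule.subset_span (by simp), trivial⟩
  have hxd' : pl Q x d' = 0 := by
    rw [hxS d' (mem_span_three_2 d d' v)]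
    exact hx₀S d' ⟨Submodule.subset_span (by simp), trivial⟩
  have hxv : pl Q x v = 1 := by
    rw [hxS v (mem_span_three_3 d d' v), hx₀v]
  obtain ⟨p₁, hp₁, h₁⟩ := trans_d_perp hQ hn hv hvv hQd hQx hvd (by rw [pl_symm, hxv]) (by rw [pl_symm, hxd])
  obtain ⟨p₂, hp₂, h₂⟩ := trans_d_perp hQ hn hv hvv hQx hQd' (by rw [pl_symm, hxv]) hvd' hxd'
  refine ⟨p₂ * p₁, Subgroup.mul_mem _ hp₂ hp₁, ?_⟩
  simp only [Units.val_mul, ← Matrix.mulVec_mulVec]
  rw [h₁, h₂]

theorem trans_d {d d' : ι → F} (hQd : Q d = 0) (hQd' : Q d' = 0) (hvd : pl Q v d = 1) (hvd' : pl Q v d' = 1) :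
    ∃ p ∈ omegaGL Q ⊓ fixS (Submodule.span F {v}), (p : Matrix ι ι F) *ᵥ d = d' := by
  by_cases hnb : v ∈ Submodule.span F {d, d'}
  · by_cases hdd' : pl Q d d' = 0
    · exact trans_d_perp hQ hn hv hvv hQd hQd' hvd hvd' hdd'
    · -- go through another vector
      have hdim : 3 ≤ Module.finrank F (perpIn hQ ⊤ (Submodule.span F {v, d})) := by
        have h1 := finrank_perp_eq hQ (Submodule.span F {v, d})
        have h2 := finrank_span_two (F := F) v d
        omega
      obtain ⟨w, hw, hw0, hQw⟩ := exists_singular_in hQ _ hdim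
      have hwv : pl Q w v = 0 := hw.2 v (mem_span_two_l v d)
      have hwd : pl Q w d = 0 := hw.2 d (mem_span_two_r v d)
      have hdd : pl Q d d = 0 := by rw [pl_self hQ, hQd, mul_zero]
      have hQd₁ : Q (d + w) = 0 := by
        rw [Q_add Q, hQd, hQw, pl_symm, hwd]
        ring
      have hvd₁ : pl Q v (d + w) = 1 := by
        rw [pl_add_right hQ, hvd, pl_symm, hwv, add_zero]
      obtain ⟨p₁, hp₁, h₁⟩ := trans_d_perp hQ hn hv hvv hQd hQd₁ hvd hvd₁ (by
        rw [pl_add_right hQ, hdd, pl_symm, hwd, add_zero])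
      have hn2 : v ∉ Submodule.span F {d + w, d'} := by
        intro hm
        obtain ⟨α, β, e1⟩ := Submodule.mem_span_pair.1 hm
        obtain ⟨γ, δ, e2⟩ := Submodule.mem_span_pair.1 hnb
        have e3 : pl Q v (α • (d + w) + β • d') = pl Q v (γ • d + δ • d') := by rw [e1, e2]
        rw [pl_add_right hQ, pl_add_right hQ, pl_smul_right hQ, pl_smul_right hQ, pl_smul_right hQ, pl_smul_right hQ,
          hvd₁, hvd', hvd] at e3
        have e4 : pl Q d (α • (d + w) + β • d') = pl Q d (γ • d + δ • d') := by rw [e1, e2]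
        rw [pl_add_right hQ, pl_add_right hQ, pl_smul_right hQ, pl_smul_right hQ, pl_smul_right hQ, pl_smul_right hQ,
          pl_add_right hQ, hdd, pl_symm d w, hwd] at e4
        have hbd : β = δ := by
          have : (β - δ) * pl Q d d' = 0 := by linear_combination e4
          have h5 := (mul_eq_zero.1 this).resolve_right hdd'
          linear_combination h5
        have hag : α = γ := by linear_combination e3 - hbd
        have e5 : α • w = 0 := by
          have e6 : α • (d + w) + β • d' = γ • d + δ • d' := by rw [e1, e2]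
          rw [hbd, hag] at e6
          ext i
          have := congrFun e6 i
          simp only [Pi.add_apply, Pi.smul_apply, smul_eq_mul] at this
          simp only [Pi.smul_apply, smul_eq_mul, Pi.zero_apply, hag]
          linear_combination this
        have ha0 : α = 0 := (smul_eq_zero.1 e5).resolve_right hw0
        apply hv
        rw [← e1, ha0, zero_smul, zero_add, hQ.smul, hQd', mul_zero]
      obtain ⟨p₂, hp₂, h₂⟩ := trans_d_nb hQ hn hv hvv hQd₁ hQd' hvd₁ hvd' hn2
      refine ⟨p₂ * p₁, Subgroup.mul_mem _ hp₂ hp₁, ?_⟩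
      simp only [Units.val_mul, ← Matrix.mulVec_mulVec]
      rw [h₁, h₂]
  · exact trans_d_nb hQ hn hv hvv hQd hQd' hvd hvd' hnb

/-- From one generic root element to all. -/
theorem generic_all {M : Subgroup (GL ι F)} (hPM : subspaceStabilizer (Submodule.span F {v}) ⊓ omegaGL Q ≤ M)
    {a₀ d₀ : ι → F} (hQa₀ : Q a₀ = 0) (hQd₀ : Q d₀ = 0) (hva₀ : pl Q v a₀ = 0) (hvd₀ : pl Q v d₀ = 1)
    (ha₀d₀ : pl Q a₀ d₀ = 0) (ha₀0 : a₀ ≠ 0) (hr : RI Q M a₀ d₀) {a d : ι → F} (hQa : Q a = 0) (hQd : Q d = 0)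
    (hva : pl Q v a = 0) (hvd : pl Q v d = 1) (had : pl Q a d = 0) : RI Q M a d := by
  have hn7 : 7 ≤ Fintype.card ι := by omega
  have hfM : omegaGL Q ⊓ fixS (Submodule.span F {v}) ≤ M := (fix_le_PP _).trans hPM
  obtain ⟨p, hp, hpd⟩ := trans_d hQ hn hv hvv hQd₀ hQd hvd₀ hvd
  have hpO := omega_le_isom hp.1
  have h1 := hr.conj hQ (hfM hp) hpO
  rw [hpd] at h1
  have hpv : (p : Matrix ι ι F) *ᵥ v = v := hp.2 v (Submodule.mem_span_singleton_self v)
  set a₁ := (p : Matrix ι ι F) *ᵥ a₀ with ha₁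
  have hQa₁ : Q a₁ = 0 := by rw [ha₁, mem_isom_iff.1 hpO, hQa₀]
  have hva₁ : pl Q v a₁ = 0 := by
    have := isom_pl hpO v a₀
    rw [hpv] at this
    rw [ha₁, this, hva₀]
  have ha₁d : pl Q a₁ d = 0 := by
    have := isom_pl hpO a₀ d₀
    rw [hpd] at this
    rw [ha₁, this, ha₀d₀]
  have ha₁0 : a₁ ≠ 0 := by
    intro h0
    apply ha₀0
    have := congrArg (fun w => ((p⁻¹ : GL ι F) : Matrix ι ι F) *ᵥ w) h0
    simpa [ha₁, Matrix.mulVec_mulVec] using this
  by_cases ha0 : a = 0
  · refine ⟨1, M.one_mem, fun x => ?_⟩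
    rw [ha0]
    simp [pl_zero_right hQ]
  have hY := ndg_perp_alt hQ (ndg_top hQ) (Submodule.mem_top (x := v)) (Submodule.mem_top (x := d)) hvv
    (by rw [pl_self hQ, hQd, mul_zero]) hvd
  have hdimY : 7 ≤ Module.finrank F (perpIn hQ ⊤ (Submodule.span F {v, d})) := by
    have h2 := finrank_perp_eq hQ (Submodule.span F {v, d})
    have h3 := finrank_span_two (F := F) v d
    omega
  have hall : AllR Q (omegaGL Q ⊓ fixS (Submodule.span F {v, d})) (perpIn hQ ⊤ (Submodule.span F {v, d})) := by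
    intro c hc e he hQc hQe hce
    refine RI_fix hQ hn7 hQc hQe hce (fun s hs => ?_) (fun s hs => ?_)
    · rw [pl_symm]
      exact hc.2 s hs
    · rw [pl_symm]
      exact he.2 s hs
  have hmem : ∀ z, pl Q v z = 0 → pl Q z d = 0 → z ∈ perpIn hQ ⊤ (Submodule.span F {v, d}) := by
    intro z h2 h3
    refine ⟨trivial, fun s hs => perp_of_two hQ hs ?_ h3⟩
    rw [pl_symm, h2]
  obtain ⟨k, hk, hka⟩ := trans_sing hQ hY hdimY hall (hmem a₁ hva₁ ha₁d) (hmem a hva had) hQa₁ hQa ha₁0 ha0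
  have hkv : (k : Matrix ι ι F) *ᵥ v = v := hk.2 v (mem_span_two_l v d)
  have hkd : (k : Matrix ι ι F) *ᵥ d = d := hk.2 d (mem_span_two_r v d)
  have hkM : k ∈ M := by
    refine hPM ⟨mem_stab_of_map k _ fun u hu => ?_, hk.1⟩
    obtain ⟨t, rfl⟩ := Submodule.mem_span_singleton.1 hu
    rw [Matrix.mulVec_smul, hkv]
    exact hu
  have h4 := h1.conj hQ hkM (omega_le_isom hk.1)
  rwa [hka, hkd] at h4

end Vec

end Cfsg.Agent.H27.GO
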