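import Mathlib
import Cfsg.Prelude.Def_GeometricClasses
import Cfsg.Agent.Lib.H27.GeoOVec

/-!
# Stabilisers of non-singular vectors in even characteristic are maximal in `Ω`, continued
-/

set_option autoImplicit false
set_option linter.unusedSectionVars false
set_option linter.unusedSimpArgs false
set_option linter.unusedVariables false

namespace Cfsg.Agent.H27.GO

open scoped MatrixGroups Matrix commutatorElement
open Cfsg Cfsg.Geo

theorem two_eq_zero_of_not_odd {F : Type*} [Field F] [Fintype F] (h : ¬ Odd (Fintype.card F)) : (2 : F) = 0 := by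
  have h1 : ringChar F = 2 := by
    rw [FiniteField.even_card_iff_char_two]
    rw [Nat.not_odd_iff] at h
    exact h
  have h2 := ringChar.Nat.cast_ringChar (R := F)
  rw [h1] at h2
  exact_mod_cast h2

variable {ι : Type} [Fintype ι] [DecidableEq ι] {F : Type*} [Field F] {Q : (ι → F) → F} [Fintype F]

/-- An isometry preserving the singular vectors of `v^⊥` stabilises `v`. -/
theorem stab_of_sing (hQ : IsNondegenerateQuadraticForm Q) (hn : 9 ≤ Fintype.card ι) {v : ι → F} (hv : Q v ≠ 0)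
    (hvv : pl Q v v = 0) {g : GL ι F} (hgO : g ∈ isometryGroup F Q)
    (H : ∀ x, Q x = 0 → pl Q v x = 0 → pl Q v ((g : Matrix ι ι F) *ᵥ x) = 0) :
    g ∈ subspaceStabilizer (Submodule.span F {v}) := by
  have hT := hdimT' hQ hn hv hvv
  set Z := perpIn hQ ⊤ (Submodule.span F {v}) with hZdef
  have hmemZ : ∀ {y : ι → F}, y ∈ Z ↔ pl Q v y = 0 := by
    intro y
    constructor
    · intro hy
      rw [pl_symm]
      exact hy.2 v (Submodule.mem_span_singleton_self v)
    · intro hy
      exact ⟨trivial, fun s hs => perp_of_one hQ hs (by rw [pl_symm, hy])⟩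
  have two : ∀ y, pl Q v y = 0 → y ∉ Submodule.span F {v} → (g : Matrix ι ι F) *ᵥ y ∈ Z := by
    intro y hvy hyS
    by_cases hQy : Q y = 0
    · exact hmemZ.2 (H y hQy hvy)
    · obtain ⟨x₀, -, hx₀S, hx₀y⟩ := exists_sep hQ (ndg_top hQ) (Submodule.mem_top (x := y)) hyS (Q y)
      have hdimS : 2 * Module.finrank F (Submodule.span F {v, y}) + 3 ≤ Module.finrank F (⊤ : Submodule F (ι → F)) := by
        have := finrank_span_two (F := F) v y
        omega
      obtain ⟨c₁, -, hQc₁, hc₁S⟩ := singularize hQ (ndg_top hQ) le_top hdimS (Submodule.mem_top (x := x₀))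
      have hc₁v : pl Q c₁ v = 0 := by
        rw [hc₁S v (mem_span_two_l v y)]
        exact hx₀S v ⟨Submodule.mem_span_singleton_self v, trivial⟩
      have hc₁y : pl Q c₁ y = Q y := by
        rw [hc₁S y (mem_span_two_r v y), hx₀y]
      have hvc₁ : pl Q v c₁ = 0 := by rw [pl_symm, hc₁v]
      have hQc₂ : Q (y - c₁) = 0 := by
        rw [Q_sub hQ, hQc₁, pl_symm, hc₁y]
        ring
      have hvc₂ : pl Q v (y - c₁) = 0 := by
        rw [pl_sub_right hQ, hvy, hvc₁, sub_zero]
      have e : y = c₁ + (y - c₁) := by simp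
      rw [e, Matrix.mulVec_add]
      exact Z.add_mem (hmemZ.2 (H c₁ hQc₁ hvc₁)) (hmemZ.2 (H _ hQc₂ hvc₂))
  have hdimS : 2 * Module.finrank F (Submodule.span F {v}) + 3 ≤ Module.finrank F (⊤ : Submodule F (ι → F)) := by
    have := finrank_span_one (F := F) v
    omega
  obtain ⟨p, -, p', -, hQp, hQp', hpp', hpS, hp'S⟩ := exists_hyp_rel hQ (ndg_top hQ) le_top hdimS
  have hpv : pl Q p v = 0 := hpS v (Submodule.mem_span_singleton_self v)
  have hp'v : pl Q p' v = 0 := hp'S v (Submodule.mem_span_singleton_self v)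
  have hpnS : p ∉ Submodule.span F {v} := by
    intro hm
    have := perp_of_one hQ hm hp'v
    rw [pl_symm, hpp'] at this
    exact one_ne_zero this
  have hZ : ∀ y ∈ Z, (g : Matrix ι ι F) *ᵥ y ∈ Z := by
    intro y hy
    have hvy := hmemZ.1 hy
    by_cases hyS : y ∈ Submodule.span F {v}
    · have h1 : y + p ∉ Submodule.span F {v} := by
        intro hm
        apply hpnS
        have := Submodule.sub_mem _ hm hyS
        simpa using this
      have h2 : -p ∉ Submodule.span F {v} := by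
        intro hm
        exact hpnS (by simpa using Submodule.neg_mem _ hm)
      have h3 := two (y + p) (by rw [pl_add_right hQ, hvy, pl_symm, hpv, add_zero]) h1
      have h4 := two (-p) (by rw [pl_neg_right hQ, pl_symm, hpv, neg_zero]) h2
      have e : y = (y + p) + -p := by simp
      rw [e, Matrix.mulVec_add]
      exact Z.add_mem h3 h4
    · exact two y hvy hyS
  have hgZ := mem_stab_of_map g Z hZ
  refine mem_stab_of_map g _ fun u hu => ?_
  obtain ⟨t, rfl⟩ := Submodule.mem_span_singleton.1 hu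
  rw [Matrix.mulVec_smul]
  refine Submodule.smul_mem _ _ ?_
  by_contra hgv
  obtain ⟨z, -, hzS, hzv⟩ := exists_sep hQ (ndg_top hQ) (Submodule.mem_top (x := (g : Matrix ι ι F) *ᵥ v)) hgv 1
  have hzZ : z ∈ Z := ⟨trivial, fun s hs => hzS s ⟨hs, trivial⟩⟩
  have hx : (g : Matrix ι ι F) *ᵥ (((g⁻¹ : GL ι F) : Matrix ι ι F) *ᵥ z) = z := by
    rw [Matrix.mulVec_mulVec]
    simp
  have h1 : ((g⁻¹ : GL ι F) : Matrix ι ι F) *ᵥ z ∈ Z := by
    have h2 : g⁻¹ ∈ subspaceStabilizer Z := Subgroup.inv_mem _ hgZ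
    exact (h2 z).1 hzZ
  have h3 := isom_pl hgO (((g⁻¹ : GL ι F) : Matrix ι ι F) *ᵥ z) v
  rw [hx, hzv, pl_symm] at h3
  rw [hmemZ.1 h1] at h3
  exact one_ne_zero h3

/-- Normal form of a root element with respect to a vector. -/
theorem norm_form (hQ : IsNondegenerateQuadraticForm Q) {v x y : ι → F} (hQx : Q x = 0) (hQy : Q y = 0) (hxy : pl Q x y = 0)
    (hl : pl Q v x ≠ 0) : ∃ d a : ι → F, Q d = 0 ∧ Q a = 0 ∧ pl Q v d = 1 ∧ pl Q v a = 0 ∧ pl Q a d = 0 ∧
      (∀ M : Subgroup (GL ι F), RI Q M x y ↔ RI Q M d a) ∧ (y ∉ Submodule.span F {x} → a ≠ 0) := by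
  set l := pl Q v x with hl'
  set m := pl Q v y with hm
  set d := l⁻¹ • x with hd
  set a₁ := y - (m / l) • x with ha₁
  have hxx : pl Q x x = 0 := by rw [pl_self hQ, hQx, mul_zero]
  have hyx : pl Q y x = 0 := by rw [pl_symm, hxy]
  have hQa₁ : Q a₁ = 0 := by
    rw [ha₁, Q_smul_sub hQ, hQx, hQy, hyx]
    ring
  have hva₁ : pl Q v a₁ = 0 := by
    rw [ha₁, pl_sub_right hQ, pl_smul_right hQ, ← hl', ← hm]
    field_simp
    ring
  have ha₁x : pl Q a₁ x = 0 := by
    rw [ha₁, pl_sub_left hQ, pl_smul_left hQ, hyx, hxx]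
    ring
  refine ⟨d, l • a₁, ?_, ?_, ?_, ?_, ?_, ?_, ?_⟩
  · rw [hd, hQ.smul, hQx, mul_zero]
  · rw [hQ.smul, hQa₁, mul_zero]
  · rw [hd, pl_smul_right hQ, ← hl']
    field_simp
  · rw [pl_smul_right hQ, hva₁, mul_zero]
  · rw [hd, pl_smul_left hQ, pl_smul_right hQ, ha₁x]
    ring
  · intro M
    have e : ∀ z, z + pl Q z y • x - pl Q z x • y = z + pl Q z (l • a₁) • d - pl Q z d • (l • a₁) := by
      intro z
      rw [hd, ha₁, pl_smul_right hQ, pl_smul_right hQ, pl_sub_right hQ, pl_smul_right hQ]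
      ext i
      simp only [Pi.add_apply, Pi.sub_apply, Pi.smul_apply, smul_eq_mul]
      field_simp
      ring
    constructor
    · intro h
      exact h.congr e
    · intro h
      exact h.congr fun z => (e z).symm
  · intro hn h0
    apply hn
    have h1 : a₁ = 0 := (smul_eq_zero.1 h0).resolve_left hl
    rw [Submodule.mem_span_singleton]
    refine ⟨m / l, ?_⟩
    rw [ha₁, sub_eq_zero] at h1
    exact h1.symm

/-- The main theorem for non-singular vectors. -/
theorem vec_max (hQ : IsNondegenerateQuadraticForm Q) (hn : 9 ≤ Fintype.card ι) (h20 : (2 : F) = 0) {v : ι → F}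
    (hv : Q v ≠ 0) : IsMaximalIn (omegaGL Q) (subspaceStabilizer (Submodule.span F {v}) ⊓ omegaGL Q) := by
  have hn7 : 7 ≤ Fintype.card ι := by omega
  have hvv : pl Q v v = 0 := by rw [pl_self hQ, h20, zero_mul]
  have hT := hdimT' hQ hn hv hvv
  have hv0 : v ≠ 0 := by
    rintro rfl
    exact hv (Q_zero hQ)
  refine ⟨lt_of_le_of_ne inf_le_right fun heq => ?_, fun M hHM hMK => ?_⟩
  · -- properness
    obtain ⟨-, y₀, hy₀⟩ := hQ.nondegenerate v hv0
    have hnb : v ∉ (⊥ : Submodule F (ι → F)) := by simpa using hv0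
    obtain ⟨x₀, -, -, hx₀v⟩ := exists_sep hQ (ndg_top hQ) (Submodule.mem_top (x := v)) hnb 1
    have hdimS : 2 * Module.finrank F (Submodule.span F {v}) + 3 ≤ Module.finrank F (⊤ : Submodule F (ι → F)) := by
      have := finrank_span_one (F := F) v
      omega
    obtain ⟨d, -, hQd, hdS⟩ := singularize hQ (ndg_top hQ) le_top hdimS (Submodule.mem_top (x := x₀))
    have hdv : pl Q d v = 1 := by rw [hdS v (Submodule.mem_span_singleton_self v), hx₀v]
    have hdim : 3 ≤ Module.finrank F (perpIn hQ ⊤ (Submodule.span F {v, d})) := by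
      have h1 := finrank_perp_eq hQ (Submodule.span F {v, d})
      have h2 := finrank_span_two (F := F) v d
      omega
    obtain ⟨a, ha, ha0, hQa⟩ := exists_singular_in hQ _ hdim
    have hav : pl Q a v = 0 := ha.2 v (mem_span_two_l v d)
    have had : pl Q a d = 0 := ha.2 d (mem_span_two_r v d)
    obtain ⟨g, hg, hgx⟩ := RI_omega hQ hn7 hQa hQd had
    rw [← heq] at hg
    have h1 : (g : Matrix ι ι F) *ᵥ v ∈ Submodule.span F {v} := (hg.1 v).1 (Submodule.mem_span_singleton_self v)
    rw [hgx, pl_symm v d, hdv, pl_symm v a, hav, one_smul, zero_smul, sub_zero] at h1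
    obtain ⟨t, ht⟩ := Submodule.mem_span_singleton.1 h1
    have e : a = (t - 1) • v := by
      rw [sub_smul, one_smul, ht]
      simp
    have h2 : (t - 1) ^ 2 * Q v = 0 := by
      rw [← hQ.smul, ← e, hQa]
    have h3 : t - 1 = 0 := by
      have := (mul_eq_zero.1 h2).resolve_right hv
      exact pow_eq_zero_iff (two_ne_zero) |>.1 this
    apply ha0
    rw [e, h3, zero_smul]
  · by_cases hle : M ≤ subspaceStabilizer (Submodule.span F {v}) ⊓ omegaGL Q
    · exact Or.inl (le_antisymm hle hHM)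
    · right
      refine le_antisymm hMK ?_
      obtain ⟨g, hg, hgn⟩ := SetLike.not_le_iff_exists.1 hle
      have hgS : g ∉ subspaceStabilizer (Submodule.span F {v}) := fun h' => hgn ⟨h', hMK hg⟩
      have hgO : g ∈ isometryGroup F Q := omega_le_isom (hMK hg)
      have hx : ∃ x, Q x = 0 ∧ pl Q v x = 0 ∧ pl Q v ((g : Matrix ι ι F) *ᵥ x) ≠ 0 := by
        by_contra hno
        push Not at hno
        exact hgS (stab_of_sing hQ hn hv hvv hgO hno)
      obtain ⟨x, hQx, hvx, hgx⟩ := hx
      have hdimS : 2 * Module.finrank F (Submodule.span F {v, x}) + 3 ≤ Module.finrank F (⊤ : Submodule F (ι → F)) := by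
        have := finrank_span_two (F := F) v x
        omega
      obtain ⟨p, -, p', -, hQp, hQp', hpp', hpS, hp'S⟩ := exists_hyp_rel hQ (ndg_top hQ) le_top hdimS
      have hpv : pl Q p v = 0 := hpS v (mem_span_two_l v x)
      have hpx : pl Q p x = 0 := hpS x (mem_span_two_r v x)
      have hp'x : pl Q p' x = 0 := hp'S x (mem_span_two_r v x)
      have hr0 : RI Q M x p := by
        refine (RI_fix hQ hn7 (A := Submodule.span F {v}) hQx hQp (by rw [pl_symm, hpx]) (fun s hs => ?_) (fun s hs => ?_)).mono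
          ((fix_le_PP _).trans hHM)
        · rw [pl_symm]
          exact perp_of_one hQ hs (by rw [pl_symm, hvx])
        · rw [pl_symm]
          exact perp_of_one hQ hs hpv
      have hr1 := hr0.conj hQ hg hgO
      have hQgx : Q ((g : Matrix ι ι F) *ᵥ x) = 0 := by rw [mem_isom_iff.1 hgO, hQx]
      have hQgp : Q ((g : Matrix ι ι F) *ᵥ p) = 0 := by rw [mem_isom_iff.1 hgO, hQp]
      have hgxp : pl Q ((g : Matrix ι ι F) *ᵥ x) ((g : Matrix ι ι F) *ᵥ p) = 0 := by
        rw [isom_pl hgO, pl_symm, hpx]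
      have hnS : (g : Matrix ι ι F) *ᵥ p ∉ Submodule.span F {(g : Matrix ι ι F) *ᵥ x} := by
        intro hm
        obtain ⟨t, ht⟩ := Submodule.mem_span_singleton.1 hm
        rw [← Matrix.mulVec_smul] at ht
        have e : t • x = p := by
          have := congrArg (fun w => ((g⁻¹ : GL ι F) : Matrix ι ι F) *ᵥ w) ht
          simpa [Matrix.mulVec_mulVec] using this
        rw [← e, pl_smul_left hQ, pl_symm x p'] at hpp'
        rw [hp'x, mul_zero] at hpp'
        exact zero_ne_one hpp'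
      obtain ⟨d₀, a₀, hQd₀, hQa₀, hvd₀, hva₀, ha₀d₀, hiff₀, hne₀⟩ := norm_form hQ hQgx hQgp hgxp hgx
      have hr₀ : RI Q M a₀ d₀ :=
        ((hiff₀ M).1 hr1).symm hQ hQd₀ hQa₀ (by rw [pl_symm, ha₀d₀])
      have ha₀0 := hne₀ hnS
      have hgen : ∀ a d, Q a = 0 → Q d = 0 → pl Q v a = 0 → pl Q v d = 1 → pl Q a d = 0 → RI Q M a d := by
        intro a d hQa hQd hva hvd had
        exact generic_all hQ hn hv hvv hHM hQa₀ hQd₀ hva₀ hvd₀ ha₀d₀ ha₀0 hr₀ hQa hQd hva hvd had
      have hcase : ∀ x y, Q x = 0 → Q y = 0 → pl Q x y = 0 → pl Q v x ≠ 0 → RI Q M x y := by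
        intro x y hQx hQy hxy hl
        obtain ⟨d, a, hQd, hQa, hvd, hva, had, hiff, -⟩ := norm_form hQ hQx hQy hxy hl
        exact (hiff M).2 ((hgen a d hQa hQd hva hvd had).symm hQ hQa hQd had)
      apply omega_le_of_roots hQ hn7
      intro x y hQx hQy hxy
      by_cases hvx' : pl Q v x = 0
      · by_cases hvy' : pl Q v y = 0
        · refine (RI_fix hQ hn7 (A := Submodule.span F {v}) hQx hQy hxy (fun s hs => ?_) (fun s hs => ?_)).mono
            ((fix_le_PP _).trans hHM)
          · rw [pl_symm]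
            exact perp_of_one hQ hs (by rw [pl_symm, hvx'])
          · rw [pl_symm]
            exact perp_of_one hQ hs (by rw [pl_symm, hvy'])
        · exact (hcase y x hQy hQx (by rw [pl_symm, hxy]) hvy').symm hQ hQy hQx (by rw [pl_symm, hxy])
      · exact hcase x y hQx hQy hxy hvx'

end Cfsg.Agent.H27.GO
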