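import Mathlib
import Cfsg.Prelude.Def_GeometricClasses
import Cfsg.Agent.Lib.H27.GeoMaxSL
import Cfsg.Agent.Lib.H27.GeoOrth

/-!
# Similarities of a symplectic form form a maximal subgroup of `SL`
-/

set_option autoImplicit false
set_option linter.unusedSectionVars false
set_option linter.unusedSimpArgs false
set_option linter.unusedVariables false

namespace Cfsg.Agent.H27.SS

open scoped Matrix MatrixGroups
open Cfsg Cfsg.Geo
open Cfsg.Agent.H27.GO (gl_ext)
open Cfsg.Agent.H27.Tv (exists_tv)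
open Cfsg.Agent.H27.ML (sl_le_of_tv)

variable {n : ℕ} {F : Type*} [Field F] {f : (Fin n → F) → (Fin n → F) → F}

lemma f0r (hf : IsSymplecticForm f) (x : Fin n → F) : f x 0 = 0 := by
  have := hf.bilinear.smul_right 0 x 0
  simpa using this

lemma f0l (hf : IsSymplecticForm f) (x : Fin n → F) : f 0 x = 0 := by
  have := hf.bilinear.smul_left 0 0 x
  simpa using this

lemma f_neg_r (hf : IsSymplecticForm f) (x y : Fin n → F) : f x (-y) = - f x y := by
  have := hf.bilinear.smul_right (-1) x y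
  simpa using this

lemma f_neg_l (hf : IsSymplecticForm f) (x y : Fin n → F) : f (-x) y = - f x y := by
  have := hf.bilinear.smul_left (-1) x y
  simpa using this

lemma f_sub_r (hf : IsSymplecticForm f) (x y z : Fin n → F) : f x (y - z) = f x y - f x z := by
  rw [sub_eq_add_neg, hf.bilinear.add_right, f_neg_r hf, sub_eq_add_neg]

lemma f_sub_l (hf : IsSymplecticForm f) (x y z : Fin n → F) : f (x - y) z = f x z - f y z := by
  rw [sub_eq_add_neg, hf.bilinear.add_left, f_neg_l hf, sub_eq_add_neg]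

/-- The functional `f(·, w)`. -/
def phi (hf : IsSymplecticForm f) (w : Fin n → F) : Module.Dual F (Fin n → F) where
  toFun x := f x w
  map_add' x y := hf.bilinear.add_left x y w
  map_smul' c x := hf.bilinear.smul_left c x w

@[simp] lemma phi_apply (hf : IsSymplecticForm f) (w x : Fin n → F) : phi hf w x = f x w := rfl

theorem exists_riesz (hf : IsSymplecticForm f) (ψ : Module.Dual F (Fin n → F)) : ∃ w, ∀ x, f x w = ψ x := by
  let L : (Fin n → F) →ₗ[F] Module.Dual F (Fin n → F) :=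
    { toFun := phi hf
      map_add' := fun a b => LinearMap.ext fun x => hf.bilinear.add_right x a b
      map_smul' := fun c a => LinearMap.ext fun x => hf.bilinear.smul_right c x a }
  have hinj : Function.Injective L := by
    rw [injective_iff_map_eq_zero]
    intro y hy
    by_contra h0
    obtain ⟨⟨x, hx⟩, -⟩ := hf.nondegenerate y h0
    apply hx
    exact congrArg (fun φ => φ x) hy
  have hsurj := (LinearMap.injective_iff_surjective_of_finrank_eq_finrank (f := L) (Subspace.dual_finrank_eq).symm).1 hinj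
  obtain ⟨w, hw⟩ := hsurj ψ
  exact ⟨w, fun x => congrArg (fun φ => φ x) hw⟩

/-- A vector orthogonal to `a` but not to `w`. -/
theorem exists_sep (hf : IsSymplecticForm f) {a w : Fin n → F} (h : w ∉ Submodule.span F {a}) :
    ∃ x, f x a = 0 ∧ f x w = 1 := by
  obtain ⟨φ, hφ, hS⟩ := Submodule.exists_le_ker_of_notMem h
  obtain ⟨u, hu⟩ := exists_riesz hf φ
  have h1 : f a u = 0 := by
    rw [hu]
    exact hS (Submodule.mem_span_singleton_self a)
  have h2 : f u w ≠ 0 := by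
    rw [hf.skew, neg_ne_zero, hu]
    exact hφ
  refine ⟨(f u w)⁻¹ • u, ?_, ?_⟩
  · rw [hf.bilinear.smul_left, hf.skew u a, h1]
    simp
  · rw [hf.bilinear.smul_left, inv_mul_cancel₀ h2]

/-- `M` contains the transvection with centre `a` and axis `w^⊥`. -/
def TV (f : (Fin n → F) → (Fin n → F) → F) (M : Subgroup (GL (Fin n) F)) (a w : Fin n → F) : Prop :=
  ∃ t ∈ M, ∀ x, (t : Matrix (Fin n) (Fin n) F) *ᵥ x = x + f x w • a

theorem TV_sl (hf : IsSymplecticForm f) {a w : Fin n → F} (h : f a w = 0) : TV f (specialLinear (Fin n) F) a w := by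
  obtain ⟨t, ht, htx⟩ := exists_tv (phi hf w) a h
  exact ⟨t, ht, htx⟩

/-- Elements of `SL` preserving the form. -/
def IsoS (f : (Fin n → F) → (Fin n → F) → F) (g : GL (Fin n) F) : Prop :=
  g ∈ specialLinear (Fin n) F ∧ ∀ x y, f ((g : Matrix (Fin n) (Fin n) F) *ᵥ x) ((g : Matrix (Fin n) (Fin n) F) *ᵥ y) = f x y

lemma IsoS.mul {g h : GL (Fin n) F} (hg : IsoS f g) (hh : IsoS f h) : IsoS f (g * h) := by
  refine ⟨(specialLinear (Fin n) F).mul_mem hg.1 hh.1, fun x y => ?_⟩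
  rw [Units.val_mul, ← Matrix.mulVec_mulVec, ← Matrix.mulVec_mulVec, hg.2, hh.2]

lemma IsoS.mem_H {g : GL (Fin n) F} (hg : IsoS f g) : g ∈ similarityGroup f ⊓ specialLinear (Fin n) F :=
  ⟨⟨1, fun u v => by rw [hg.2]; simp⟩, hg.1⟩

theorem exists_st (hf : IsSymplecticForm f) (u : Fin n → F) (c : F) :
    ∃ t, IsoS f t ∧ ∀ x, (t : Matrix (Fin n) (Fin n) F) *ᵥ x = x + (c * f x u) • u := by
  obtain ⟨t, ht, htx⟩ := exists_tv (c • phi hf u) u (by simp [hf.alternating])
  have htx' : ∀ x, (t : Matrix (Fin n) (Fin n) F) *ᵥ x = x + (c * f x u) • u := fun x => by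
    rw [htx]
    simp
  refine ⟨t, ⟨ht, fun x y => ?_⟩, htx'⟩
  have hb := hf.bilinear
  rw [htx', htx', hb.add_left, hb.add_right, hb.add_right, hb.smul_left, hb.smul_right, hb.smul_right, hb.smul_left,
    hf.alternating, hf.skew u y]
  ring

/-- One step of the transitivity. -/
theorem step (hf : IsSymplecticForm f) {a b : Fin n → F} (h : f a b ≠ 0) :
    ∃ t, IsoS f t ∧ (t : Matrix (Fin n) (Fin n) F) *ᵥ a = b ∧
      ∀ x, f x a = f x b → (t : Matrix (Fin n) (Fin n) F) *ᵥ x = x := by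
  obtain ⟨t, ht, htx⟩ := exists_st hf (b - a) (f a b)⁻¹
  refine ⟨t, ht, ?_, fun x hx => ?_⟩
  · rw [htx, f_sub_r hf, hf.alternating, sub_zero, inv_mul_cancel₀ h, one_smul]
    abel
  · rw [htx, f_sub_r hf, ← hx, sub_self, mul_zero, zero_smul, add_zero]

theorem move_vec (hf : IsSymplecticForm f) {a b : Fin n → F} (ha : a ≠ 0) (hb : b ≠ 0) :
    ∃ t, IsoS f t ∧ (t : Matrix (Fin n) (Fin n) F) *ᵥ a = b := by
  obtain ⟨⟨z₂, hz₂⟩, -⟩ := hf.nondegenerate b hb
  obtain ⟨-, ⟨z₁, hz₁⟩⟩ := hf.nondegenerate a ha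
  have hz : ∃ z, f a z ≠ 0 ∧ f z b ≠ 0 := by
    by_cases h1 : f z₁ b = 0
    · by_cases h2 : f a z₂ = 0
      · refine ⟨z₁ + z₂, ?_, ?_⟩
        · rw [hf.bilinear.add_right, h2, add_zero]
          exact hz₁
        · rw [hf.bilinear.add_left, h1, zero_add]
          exact hz₂
      · exact ⟨z₂, h2, hz₂⟩
    · exact ⟨z₁, hz₁, h1⟩
  obtain ⟨z, h1, h2⟩ := hz
  obtain ⟨t₁, ht₁, ht₁a, -⟩ := step hf h1
  obtain ⟨t₂, ht₂, ht₂a, -⟩ := step hf h2
  refine ⟨t₂ * t₁, ht₂.mul ht₁, ?_⟩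
  rw [Units.val_mul, ← Matrix.mulVec_mulVec, ht₁a, ht₂a]

/-- Moving the second vector while fixing the first. -/
theorem move_second (hf : IsSymplecticForm f) {a w w' : Fin n → F} (hw : f a w = 0) (hw' : f a w' = 0)
    (hn : w ∉ Submodule.span F {a}) (hn' : w' ∉ Submodule.span F {a}) :
    ∃ t, IsoS f t ∧ (t : Matrix (Fin n) (Fin n) F) *ᵥ a = a ∧ (t : Matrix (Fin n) (Fin n) F) *ᵥ w = w' := by
  obtain ⟨z₁, hz₁a, hz₁w⟩ := exists_sep hf hn
  obtain ⟨z₂, hz₂a, hz₂w⟩ := exists_sep hf hn'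
  have hz : ∃ z, f z a = 0 ∧ f z w ≠ 0 ∧ f z w' ≠ 0 := by
    by_cases h1 : f z₁ w' = 0
    · by_cases h2 : f z₂ w = 0
      · refine ⟨z₁ + z₂, ?_, ?_, ?_⟩
        · rw [hf.bilinear.add_left, hz₁a, hz₂a, add_zero]
        · rw [hf.bilinear.add_left, hz₁w, h2, add_zero]
          exact one_ne_zero
        · rw [hf.bilinear.add_left, hz₂w, h1, zero_add]
          exact one_ne_zero
      · exact ⟨z₂, hz₂a, h2, by rw [hz₂w]; exact one_ne_zero⟩
    · exact ⟨z₁, hz₁a, by rw [hz₁w]; exact one_ne_zero, h1⟩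
  obtain ⟨z, hza, h1, h2⟩ := hz
  have h1' : f w z ≠ 0 := by
    rw [hf.skew]
    exact neg_ne_zero.2 h1
  have hfa : ∀ y, f a y = 0 → f y a = 0 := fun y hy => by
    rw [hf.skew, hy, neg_zero]
  obtain ⟨t₁, ht₁, ht₁a, ht₁f⟩ := step hf h1'
  obtain ⟨t₂, ht₂, ht₂a, ht₂f⟩ := step hf h2
  refine ⟨t₂ * t₁, ht₂.mul ht₁, ?_, ?_⟩
  · rw [Units.val_mul, ← Matrix.mulVec_mulVec, ht₁f a (by rw [hw, hf.skew, hza]; simp),
      ht₂f a (by rw [hw', hf.skew, hza]; simp)]
  · rw [Units.val_mul, ← Matrix.mulVec_mulVec, ht₁a, ht₂a]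

lemma mulVec_ne_zero (g : GL (Fin n) F) {x : Fin n → F} (hx : x ≠ 0) : (g : Matrix (Fin n) (Fin n) F) *ᵥ x ≠ 0 := by
  intro h
  apply hx
  have := congrArg (fun y => ((g⁻¹ : GL (Fin n) F) : Matrix (Fin n) (Fin n) F) *ᵥ y) h
  simpa [Matrix.mulVec_mulVec] using this

lemma mulVec_not_mem_span (g : GL (Fin n) F) {a w : Fin n → F} (h : w ∉ Submodule.span F {a}) :
    (g : Matrix (Fin n) (Fin n) F) *ᵥ w ∉ Submodule.span F {(g : Matrix (Fin n) (Fin n) F) *ᵥ a} := by
  intro hm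
  obtain ⟨c, hc⟩ := Submodule.mem_span_singleton.1 hm
  apply h
  refine Submodule.mem_span_singleton.2 ⟨c, ?_⟩
  have := congrArg (fun y => ((g⁻¹ : GL (Fin n) F) : Matrix (Fin n) (Fin n) F) *ᵥ y) hc
  simpa [Matrix.mulVec_mulVec, Matrix.mulVec_smul] using this

/-- Witt's lemma for independent orthogonal pairs. -/
theorem move_pair (hf : IsSymplecticForm f) {a w a' w' : Fin n → F} (ha : a ≠ 0) (ha' : a' ≠ 0) (hw : f a w = 0)
    (hw' : f a' w' = 0) (hn : w ∉ Submodule.span F {a}) (hn' : w' ∉ Submodule.span F {a'}) :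
    ∃ t, IsoS f t ∧ (t : Matrix (Fin n) (Fin n) F) *ᵥ a = a' ∧ (t : Matrix (Fin n) (Fin n) F) *ᵥ w = w' := by
  obtain ⟨t₁, ht₁, ht₁a⟩ := move_vec hf ha ha'
  have h1 := mulVec_not_mem_span t₁ hn
  rw [ht₁a] at h1
  have h2 : f a' ((t₁ : Matrix (Fin n) (Fin n) F) *ᵥ w) = 0 := by
    rw [← ht₁a, ht₁.2, hw]
  obtain ⟨t₂, ht₂, ht₂a, ht₂w⟩ := move_second hf h2 hw' h1 hn'
  refine ⟨t₂ * t₁, ht₂.mul ht₁, ?_, ?_⟩
  · rw [Units.val_mul, ← Matrix.mulVec_mulVec, ht₁a, ht₂a]
  · rw [Units.val_mul, ← Matrix.mulVec_mulVec, ht₂w]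

theorem TV.conj {M : Subgroup (GL (Fin n) F)} {a w : Fin n → F} (hT : TV f M a w) {h : GL (Fin n) F} (hh : h ∈ M)
    (hi : ∀ x y, f ((h : Matrix (Fin n) (Fin n) F) *ᵥ x) ((h : Matrix (Fin n) (Fin n) F) *ᵥ y) = f x y) :
    TV f M ((h : Matrix (Fin n) (Fin n) F) *ᵥ a) ((h : Matrix (Fin n) (Fin n) F) *ᵥ w) := by
  obtain ⟨t, ht, htx⟩ := hT
  refine ⟨h * t * h⁻¹, M.mul_mem (M.mul_mem hh ht) (M.inv_mem hh), fun x => ?_⟩
  have hx : (h : Matrix (Fin n) (Fin n) F) *ᵥ (((h⁻¹ : GL (Fin n) F) : Matrix (Fin n) (Fin n) F) *ᵥ x) = x := by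
    rw [Matrix.mulVec_mulVec]
    simp
  rw [Units.val_mul, Units.val_mul, ← Matrix.mulVec_mulVec, ← Matrix.mulVec_mulVec, htx, Matrix.mulVec_add,
    Matrix.mulVec_smul, hx, ← hi (((h⁻¹ : GL (Fin n) F) : Matrix (Fin n) (Fin n) F) *ᵥ x) w, hx]

/-- A non-similarity yields a non-symplectic transvection. -/
theorem exists_nonsymp (hf : IsSymplecticForm f) {M : Subgroup (GL (Fin n) F)}
    (hHM : similarityGroup f ⊓ specialLinear (Fin n) F ≤ M) {g : GL (Fin n) F} (hg : g ∈ M) (hgn : g ∉ similarityGroup f)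
    (hne : ∃ a : Fin n → F, a ≠ 0) :
    ∃ a w : Fin n → F, a ≠ 0 ∧ f a w = 0 ∧ w ∉ Submodule.span F {a} ∧ TV f M a w := by
  by_contra hcon
  push Not at hcon
  have hb := hf.bilinear
  have key : ∀ a : Fin n → F, a ≠ 0 → ∃ d : F, d ≠ 0 ∧ ∀ y, f ((g : Matrix (Fin n) (Fin n) F) *ᵥ y) ((g : Matrix (Fin n) (Fin n) F) *ᵥ a) = d * f y a := by
    intro a ha
    let ψ : Module.Dual F (Fin n → F) := (phi hf a).comp (Matrix.toLin' ((g⁻¹ : GL (Fin n) F) : Matrix (Fin n) (Fin n) F))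
    obtain ⟨w, hw⟩ := exists_riesz hf ψ
    have hw' : ∀ x, f x w = f (((g⁻¹ : GL (Fin n) F) : Matrix (Fin n) (Fin n) F) *ᵥ x) a := fun x => by
      rw [hw]
      simp [ψ]
    have hginv : ∀ y : Fin n → F, ((g⁻¹ : GL (Fin n) F) : Matrix (Fin n) (Fin n) F) *ᵥ ((g : Matrix (Fin n) (Fin n) F) *ᵥ y) = y := by
      intro y
      rw [Matrix.mulVec_mulVec]
      simp
    have hgin : ∀ y : Fin n → F, (g : Matrix (Fin n) (Fin n) F) *ᵥ (((g⁻¹ : GL (Fin n) F) : Matrix (Fin n) (Fin n) F) *ᵥ y) = y := by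
      intro y
      rw [Matrix.mulVec_mulVec]
      simp
    have hTV : TV f M ((g : Matrix (Fin n) (Fin n) F) *ᵥ a) w := by
      obtain ⟨t, ht, htx⟩ := exists_st hf a 1
      refine ⟨g * t * g⁻¹, M.mul_mem (M.mul_mem hg (hHM ht.mem_H)) (M.inv_mem hg), fun x => ?_⟩
      rw [Units.val_mul, Units.val_mul, ← Matrix.mulVec_mulVec, ← Matrix.mulVec_mulVec, htx, Matrix.mulVec_add,
        Matrix.mulVec_smul, hgin, hw', one_mul]
    have hort : f ((g : Matrix (Fin n) (Fin n) F) *ᵥ a) w = 0 := by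
      rw [hw', hginv, hf.alternating]
    have hmem : w ∈ Submodule.span F {(g : Matrix (Fin n) (Fin n) F) *ᵥ a} := by
      by_contra hnm
      exact hcon _ w (mulVec_ne_zero g ha) hort hnm hTV
    obtain ⟨l, hl⟩ := Submodule.mem_span_singleton.1 hmem
    have hl1 : ∀ y, f y a = l * f ((g : Matrix (Fin n) (Fin n) F) *ᵥ y) ((g : Matrix (Fin n) (Fin n) F) *ᵥ a) := by
      intro y
      have := hw' ((g : Matrix (Fin n) (Fin n) F) *ᵥ y)
      rw [hginv, ← hl, hb.smul_right] at this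
      exact this.symm
    have hl0 : l ≠ 0 := by
      rintro rfl
      obtain ⟨⟨y, hy⟩, -⟩ := hf.nondegenerate a ha
      apply hy
      rw [hl1, zero_mul]
    refine ⟨l⁻¹, inv_ne_zero hl0, fun y => ?_⟩
    rw [hl1 y]
    field_simp
  obtain ⟨a₁, ha₁⟩ := hne
  obtain ⟨d₁, hd₁, hP₁⟩ := key a₁ ha₁
  apply hgn
  refine ⟨Units.mk0 d₁ hd₁, fun y a => ?_⟩
  change f _ _ = d₁ * f y a
  by_cases hm : a ∈ Submodule.span F {a₁}
  · obtain ⟨t, rfl⟩ := Submodule.mem_span_singleton.1 hm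
    rw [Matrix.mulVec_smul, hb.smul_right, hP₁, hb.smul_right]
    ring
  · have ha : a ≠ 0 := by
      rintro rfl
      exact hm (Submodule.zero_mem _)
    have hs : a + a₁ ≠ 0 := by
      intro h
      apply hm
      rw [eq_neg_of_add_eq_zero_left h]
      exact Submodule.neg_mem _ (Submodule.mem_span_singleton_self a₁)
    obtain ⟨d, hd, hP⟩ := key a ha
    obtain ⟨e, he, hPe⟩ := key _ hs
    have h1 : ∀ y, f y ((e - d) • a + (e - d₁) • a₁) = 0 := by
      intro y
      have h2 := hPe y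
      rw [Matrix.mulVec_add, hb.add_right, hP, hP₁, hb.add_right] at h2
      rw [hb.add_right, hb.smul_right, hb.smul_right]
      linear_combination -h2
    have h3 : (e - d) • a + (e - d₁) • a₁ = 0 := by
      by_contra h4
      obtain ⟨⟨y, hy⟩, -⟩ := hf.nondegenerate _ h4
      exact hy (h1 y)
    have h5 : e - d = 0 := by
      by_contra h6
      apply hm
      have h7 : a = -((e - d)⁻¹ * (e - d₁)) • a₁ := by
        have h8 : (e - d) • a = -((e - d₁) • a₁) := eq_neg_of_add_eq_zero_left h3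
        have h9 := congrArg (fun v => (e - d)⁻¹ • v) h8
        simp only [smul_smul, inv_mul_cancel₀ h6, one_smul, smul_neg] at h9
        rw [h9, neg_smul]
      rw [h7]
      exact Submodule.smul_mem _ _ (Submodule.mem_span_singleton_self a₁)
    have h6 : e - d₁ = 0 := by
      rw [h5, zero_smul, zero_add] at h3
      exact (smul_eq_zero.1 h3).resolve_right ha₁
    have hde : d = d₁ := by
      have h7 : e = d := sub_eq_zero.1 h5
      have h8 : e = d₁ := sub_eq_zero.1 h6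
      rw [← h7, h8]
    rw [hP, hde]

theorem exists_indep (hf : IsSymplecticForm f) (hn : 3 ≤ n) {a : Fin n → F} :
    ∃ w, f a w = 0 ∧ w ∉ Submodule.span F {a} := by
  by_contra hcon
  push Not at hcon
  let L : (Fin n → F) →ₗ[F] F :=
    { toFun := fun y => f a y
      map_add' := fun x y => hf.bilinear.add_right a x y
      map_smul' := fun c x => hf.bilinear.smul_right c a x }
  have h1 : LinearMap.ker L ≤ Submodule.span F {a} := fun y hy => hcon y hy
  have h2 := Submodule.finrank_mono h1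
  have h3 := LinearMap.finrank_range_add_finrank_ker L
  have h4 : Module.finrank F (LinearMap.range L) ≤ 1 := by
    have := Submodule.finrank_le (LinearMap.range L)
    simpa using this
  have h5 : Module.finrank F (Submodule.span F {a}) ≤ 1 := finrank_span_le_card _ |>.trans (by simp)
  have h6 : Module.finrank F (Fin n → F) = n := by simp
  omega

/-- The similarities of a symplectic form are maximal in `SL`. -/
theorem sim_max (hn : 3 ≤ n) (hf : IsSymplecticForm f) :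
    IsMaximalIn (specialLinear (Fin n) F) (similarityGroup f ⊓ specialLinear (Fin n) F) := by
  classical
  haveI : NeZero n := ⟨by omega⟩
  haveI : Nonempty (Fin n) := ⟨⟨0, by omega⟩⟩
  obtain ⟨a₀, ha₀⟩ : ∃ a : Fin n → F, a ≠ 0 := exists_ne 0
  have hb := hf.bilinear
  constructor
  · rw [lt_iff_le_and_ne]
    refine ⟨inf_le_right, fun heq => ?_⟩
    obtain ⟨w, hw, hwn⟩ := exists_indep hf hn (a := a₀)
    obtain ⟨t, ht, htx⟩ := TV_sl hf hw
    rw [← heq] at ht
    obtain ⟨⟨c, hc⟩, -⟩ := ht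
    have hta : (t : Matrix (Fin n) (Fin n) F) *ᵥ a₀ = a₀ := by
      rw [htx, hw, zero_smul, add_zero]
    have hc1 : (c : F) = 1 := by
      obtain ⟨⟨x, hx⟩, -⟩ := hf.nondegenerate a₀ ha₀
      have h1 := hc x a₀
      rw [hta, htx, hb.add_left, hb.smul_left, hf.alternating, mul_zero, add_zero] at h1
      have h2 : ((c : F) - 1) * f x a₀ = 0 := by
        rw [sub_mul, ← h1]
        ring
      exact sub_eq_zero.1 ((mul_eq_zero.1 h2).resolve_right hx)
    obtain ⟨x₀, hx₀a, hx₀w⟩ := exists_sep hf hwn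
    obtain ⟨-, ⟨y, hy⟩⟩ := hf.nondegenerate a₀ ha₀
    have h1 := hc x₀ y
    rw [htx, htx, hc1, hb.add_left, hb.add_right, hb.add_right, hb.smul_left, hb.smul_left, hb.smul_right, hb.smul_right,
      hf.alternating, hx₀a, hx₀w] at h1
    apply hy
    linear_combination h1
  · intro M hHM hMK
    by_cases hex : ∃ g ∈ M, g ∉ similarityGroup f ⊓ specialLinear (Fin n) F
    · right
      apply le_antisymm hMK
      obtain ⟨g, hgM, hgn⟩ := hex
      have hgS : g ∉ similarityGroup f := fun h => hgn ⟨h, hMK hgM⟩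
      obtain ⟨a₁, w₁, ha₁, hw₁, hn₁, hT₁⟩ := exists_nonsymp hf hHM hgM hgS ⟨a₀, ha₀⟩
      apply sl_le_of_tv (by omega)
      intro t φ v ht hφv htx
      by_cases hv : v = 0
      · have : t = 1 := by
          apply gl_ext
          intro x
          rw [htx, hv]
          simp
        rw [this]
        exact M.one_mem
      obtain ⟨w, hw⟩ := exists_riesz hf φ
      by_cases hm : w ∈ Submodule.span F {v}
      · obtain ⟨c, rfl⟩ := Submodule.mem_span_singleton.1 hm
        obtain ⟨t', ht', ht'x⟩ := exists_st hf v c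
        have : t = t' := by
          apply gl_ext
          intro x
          rw [htx, ht'x, ← hw, hb.smul_right]
        rw [this]
        exact hHM ht'.mem_H
      · have hvw : f v w = 0 := by
          rw [hw]
          exact hφv
        obtain ⟨h, hh, hha, hhw⟩ := move_pair hf ha₁ hv hw₁ hvw hn₁ hm
        have hT := hT₁.conj (hHM hh.mem_H) hh.2
        rw [hha, hhw] at hT
        obtain ⟨t', ht', ht'x⟩ := hT
        have : t = t' := by
          apply gl_ext
          intro x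
          rw [htx, ht'x, ← hw]
        rw [this]
        exact ht'
    · left
      push Not at hex
      exact le_antisymm hex hHM

end Cfsg.Agent.H27.SS
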