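import Mathlib
import Cfsg.Prelude.Def_GeometricClasses
import Cfsg.Agent.Lib.H28.UBasic
import Cfsg.Agent.Lib.H12.UTrans
import Cfsg.Agent.Lib.H27.GeoDec
import Cfsg.Agent.Lib.H27.GeoPlane
import Cfsg.Agent.Lib.H27.TvGL

/-!
# Generation of `SU_n(q)` by unitary transvections, `n ≥ 4`
-/

set_option autoImplicit false
set_option linter.unusedSectionVars false
set_option linter.unusedSimpArgs false
set_option linter.unusedVariables false
set_option linter.style.multiGoal false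
set_option linter.flexible false

namespace Cfsg.Agent.H27.SG

open scoped Matrix MatrixGroups
open Cfsg Cfsg.Geo Cfsg.Agent.H28

variable {n : ℕ} {F : Type*} [Field F] [Fintype F] {q : ℕ} {σ : F ≃+* F}

local notation "hm" => hermForm n F q

lemma al (hS : HS F q σ) (a b c : Fin n → F) : hm (a + b) c = hm a c + hm b c := (herm_sesq hS).add_left a b c
lemma ar (hS : HS F q σ) (a b c : Fin n → F) : hm a (b + c) = hm a b + hm a c := (herm_sesq hS).add_right a b c
lemma sl (hS : HS F q σ) (r : F) (a b : Fin n → F) : hm (r • a) b = r * hm a b := (herm_sesq hS).smul_left r a b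
lemma sr (hS : HS F q σ) (r : F) (a b : Fin n → F) : hm a (r • b) = σ r * hm a b := (herm_sesq hS).smul_right r a b
lemma zl (hS : HS F q σ) (a : Fin n → F) : hm 0 a = 0 := by
  have := sl hS 0 0 a
  simpa using this
lemma zr (hS : HS F q σ) (a : Fin n → F) : hm a 0 = 0 := by
  have := sr hS 0 a 0
  simpa using this
lemma sm (hS : HS F q σ) (a b : Fin n → F) : hm a b = σ (hm b a) := herm_symm hS a b
lemma nl (hS : HS F q σ) (a b : Fin n → F) : hm (-a) b = - hm a b := by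
  have := sl hS (-1) a b
  simpa using this
lemma nr (hS : HS F q σ) (a b : Fin n → F) : hm a (-b) = - hm a b := by
  have := sr hS (-1) a b
  simpa using this
lemma subl (hS : HS F q σ) (a b c : Fin n → F) : hm (a - b) c = hm a c - hm b c := by
  rw [sub_eq_add_neg, al hS, nl hS, sub_eq_add_neg]
lemma subr (hS : HS F q σ) (a b c : Fin n → F) : hm a (b - c) = hm a b - hm a c := by
  rw [sub_eq_add_neg, ar hS, nr hS, sub_eq_add_neg]
lemma fx (hS : HS F q σ) (a : Fin n → F) : σ (hm a a) = hm a a := herm_self_fixed hS a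
lemma zero_of_swap (hS : HS F q σ) {a b : Fin n → F} (h : hm a b = 0) : hm b a = 0 := by
  rw [sm hS, h, map_zero]

/-- The trace is surjective. -/
lemma tr_surj (hS : HS F q σ) {r : F} (hr : σ r = r) : ∃ s, s + σ s = r := by
  obtain ⟨s, hs⟩ := Cfsg.Agent.H12.UTrans.exists_trace_eq hS.card r (by rw [← hS.pow, hr])
  exact ⟨s, by rw [hS.pow, hs]⟩

lemma isometry_apply {g : GL (Fin n) F} (hg : g ∈ GU n F q) (x y : Fin n → F) :
    hm ((g : Matrix (Fin n) (Fin n) F) *ᵥ x) ((g : Matrix (Fin n) (Fin n) F) *ᵥ y) = hm x y := hg x y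

variable (q) in
/-- Non-degeneracy of the form on a subspace. -/
def Nd (U : Submodule F (Fin n → F)) : Prop := ∀ a ∈ U, a ≠ 0 → ∃ z ∈ U, hm a z ≠ 0

lemma nd_top (hS : HS F q σ) : Nd q (⊤ : Submodule F (Fin n → F)) := by
  intro a _ ha
  obtain ⟨-, z, hz⟩ := (herm_unitary hS).nondegenerate a ha
  exact ⟨z, trivial, hz⟩

lemma inf_perp (hS : HS F q σ) {U : Submodule F (Fin n → F)} (hU : Nd q U) : U ⊓ horth hS U = ⊥ := by
  rw [eq_bot_iff]
  rintro a ⟨ha, ha'⟩
  by_contra h0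
  obtain ⟨z, hz, hzz⟩ := hU a ha h0
  exact hzz (zero_of_swap hS (ha' z hz))

lemma finrank_V : Module.finrank F (Fin n → F) = n := by
  rw [Module.finrank_fintype_fun_eq_card, Fintype.card_fin]

lemma sup_perp (hS : HS F q σ) {U : Submodule F (Fin n → F)} (hU : Nd q U) : U ⊔ horth hS U = ⊤ := by
  apply Submodule.eq_top_of_finrank_eq
  have h1 := Submodule.finrank_sup_add_finrank_inf_eq U (horth hS U)
  rw [inf_perp hS hU, finrank_bot] at h1
  have h2 := finrank_horth hS U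
  rw [finrank_V]
  omega

lemma decomp (hS : HS F q σ) {U : Submodule F (Fin n → F)} (hU : Nd q U) (u : Fin n → F) :
    ∃ a ∈ U, ∃ b ∈ horth hS U, u = a + b := by
  have h : u ∈ U ⊔ horth hS U := by
    rw [sup_perp hS hU]
    trivial
  obtain ⟨a, ha, b, hb, rfl⟩ := Submodule.mem_sup.1 h
  exact ⟨a, ha, b, hb, rfl⟩

lemma nd_perp (hS : HS F q σ) {U : Submodule F (Fin n → F)} (hU : Nd q U) : Nd q (horth hS U) := by
  intro b hb hb0
  obtain ⟨-, y, hy⟩ := (herm_unitary hS).nondegenerate b hb0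
  obtain ⟨a, ha, c, hc, rfl⟩ := decomp hS hU y
  refine ⟨c, hc, ?_⟩
  rw [ar hS, zero_of_swap hS (hb a ha), zero_add] at hy
  exact hy

lemma nd_inf (hS : HS F q σ) {A U : Submodule F (Fin n → F)} (hA : Nd q A) (hU : Nd q U) (hle : A ≤ U) :
    Nd q (U ⊓ horth hS A) := by
  rintro b ⟨hb, hb'⟩ hb0
  obtain ⟨z, hz, hzz⟩ := hU b hb hb0
  obtain ⟨a, ha, c, hc, rfl⟩ := decomp hS hA z
  refine ⟨c, ⟨?_, hc⟩, ?_⟩
  · have := U.sub_mem hz (hle ha)
    simpa using this
  · rw [ar hS, zero_of_swap hS (hb' a ha), zero_add] at hzz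
    exact hzz

lemma finrank_inf (hS : HS F q σ) {A U : Submodule F (Fin n → F)} (hA : Nd q A) (hle : A ≤ U) :
    Module.finrank F ↥(U ⊓ horth hS A) + Module.finrank F A = Module.finrank F U := by
  have h1 := Submodule.finrank_sup_add_finrank_inf_eq A (U ⊓ horth hS A)
  have h2 : A ⊔ (U ⊓ horth hS A) = U := by
    apply le_antisymm (sup_le hle inf_le_left)
    intro u hu
    obtain ⟨a, ha, c, hc, rfl⟩ := decomp hS hA u
    refine Submodule.add_mem_sup ha ⟨?_, hc⟩
    have := U.sub_mem hu (hle ha)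
    simpa using this
  have h3 : A ⊓ (U ⊓ horth hS A) = ⊥ := by
    rw [eq_bot_iff, ← inf_perp hS hA]
    exact inf_le_inf_left _ inf_le_right
  rw [h2, h3, finrank_bot] at h1
  omega

lemma nd_span (hS : HS F q σ) {e : Fin n → F} (he : hm e e ≠ 0) : Nd q (Submodule.span F {e}) := by
  intro a ha ha0
  obtain ⟨c, rfl⟩ := Submodule.mem_span_singleton.1 ha
  refine ⟨e, Submodule.mem_span_singleton_self _, ?_⟩
  rw [sl hS]
  have hc : c ≠ 0 := by
    rintro rfl
    simp at ha0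
  exact mul_ne_zero hc he

lemma ne_zero_of_aniso (hS : HS F q σ) {e : Fin n → F} (he : hm e e ≠ 0) : e ≠ 0 := by
  rintro rfl
  exact he (zl hS 0)

lemma exists_aniso (hS : HS F q σ) {U : Submodule F (Fin n → F)} (hU : Nd q U) (hne : U ≠ ⊥) : ∃ e ∈ U, hm e e ≠ 0 := by
  obtain ⟨a, ha, ha0⟩ := Submodule.exists_mem_ne_zero_of_ne_bot hne
  obtain ⟨z, hz, hzz⟩ := hU a ha ha0
  by_cases h1 : hm a a = 0
  · by_cases h2 : hm z z = 0
    · obtain ⟨s, hs⟩ := tr_surj hS (r := 1) (by simp)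
      set β := hm a z with hβ
      have hzaβ : hm z a = σ β := sm hS z a
      refine ⟨a + σ (s / β) • z, U.add_mem ha (U.smul_mem _ hz), ?_⟩
      simp only [al hS, ar hS, sl hS, sr hS, hS.inv, h1, h2, hzaβ, ← hβ]
      have : s / β * β + (σ (s / β) * σ β + σ (s / β) * (s / β * 0)) = s + σ s := by
        rw [map_div₀]
        have h9 : σ β ≠ 0 := by simpa using hzz
        field_simp
        ring
      rw [zero_add, this, hs]
      exact one_ne_zero
    · exact ⟨z, hz, h2⟩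
  · exact ⟨a, ha, h1⟩

lemma exists_perp_aniso (hS : HS F q σ) {U : Submodule F (Fin n → F)} (hU : Nd q U) {e : Fin n → F} (he : e ∈ U)
    (hee : hm e e ≠ 0) (hfr : 2 ≤ Module.finrank F U) : ∃ e' ∈ U, hm e e' = 0 ∧ hm e' e' ≠ 0 := by
  have hA := nd_span hS hee
  have hle : Submodule.span F {e} ≤ U := by
    rw [Submodule.span_le]
    simpa using he
  have h1 := finrank_inf hS hA hle
  rw [finrank_span_singleton (ne_zero_of_aniso hS hee)] at h1
  have hne : U ⊓ horth hS (Submodule.span F {e}) ≠ ⊥ := by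
    intro h
    rw [h, finrank_bot] at h1
    omega
  obtain ⟨e', he', hee'⟩ := exists_aniso hS (nd_inf hS hA hU hle) hne
  exact ⟨e', he'.1, he'.2 e (Submodule.mem_span_singleton_self _), hee'⟩

lemma exists_iso (hS : HS F q σ) {U : Submodule F (Fin n → F)} (hU : Nd q U) (hfr : 2 ≤ Module.finrank F U) :
    ∃ x ∈ U, x ≠ 0 ∧ hm x x = 0 := by
  have hne : U ≠ ⊥ := by
    rintro rfl
    rw [finrank_bot] at hfr
    omega
  obtain ⟨e, he, hee⟩ := exists_aniso hS hU hne
  obtain ⟨e', he', hee', hne'⟩ := exists_perp_aniso hS hU he hee hfr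
  have hτ : σ (-(hm e e) / hm e' e') = -(hm e e) / hm e' e' := by
    rw [map_div₀, map_neg, fx hS, fx hS]
  obtain ⟨c, hc⟩ := hS.norm_surj hτ
  have he'e : hm e' e = 0 := zero_of_swap hS hee'
  refine ⟨e + c • e', U.add_mem he (U.smul_mem _ he'), ?_, ?_⟩
  · intro h0
    have h1 : hm (e + c • e') e = hm e e := by
      rw [al hS, sl hS, he'e, mul_zero, add_zero]
    rw [h0, zl hS] at h1
    exact hee h1.symm
  · simp only [al hS, ar hS, sl hS, sr hS, hee', he'e]
    have h2 : c * (σ c * hm e' e') = -(hm e e) := by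
      rw [← mul_assoc, hc]
      field_simp
    simp only [mul_zero, add_zero, zero_add]
    rw [h2]
    ring

/-- A hyperbolic partner. -/
lemma exists_partner (hS : HS F q σ) {U : Submodule F (Fin n → F)} (hU : Nd q U) {x : Fin n → F} (hx : x ∈ U) (hx0 : x ≠ 0)
    (hxx : hm x x = 0) : ∃ y ∈ U, hm y y = 0 ∧ hm x y = 1 := by
  obtain ⟨z, hz, hzz⟩ := hU x hx hx0
  set β := hm x z with hβ
  set z₁ := σ (β⁻¹) • z with hz₁
  have h1 : hm x z₁ = 1 := by
    rw [hz₁, sr hS, hS.inv, ← hβ]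
    exact inv_mul_cancel₀ hzz
  have h2 : hm z₁ x = 1 := by
    rw [sm hS, h1, map_one]
  obtain ⟨μ, hμ⟩ := tr_surj hS (r := - hm z₁ z₁) (by rw [map_neg, fx hS])
  refine ⟨z₁ + μ • x, U.add_mem (U.smul_mem _ hz) (U.smul_mem _ hx), ?_, ?_⟩
  · simp only [al hS, ar hS, sl hS, sr hS, hxx, h1, h2]
    linear_combination hμ
  · simp only [ar hS, sr hS, hxx, h1]
    ring

/-- Every vector of a non-degenerate subspace of dimension at least two is a sum of two isotropic ones. -/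
lemma sum_two_iso (hS : HS F q σ) {U : Submodule F (Fin n → F)} (hU : Nd q U) (hfr : 2 ≤ Module.finrank F U) {z : Fin n → F}
    (hz : z ∈ U) : ∃ z₁ ∈ U, ∃ z₂ ∈ U, hm z₁ z₁ = 0 ∧ hm z₂ z₂ = 0 ∧ z = z₁ + z₂ := by
  by_cases hzz : hm z z = 0
  · exact ⟨z, hz, 0, U.zero_mem, hzz, zl hS 0, by simp⟩
  obtain ⟨e, he, hze, hee⟩ := exists_perp_aniso hS hU hz hzz hfr
  obtain ⟨a, ha⟩ := tr_surj hS (r := 1) (by simp)
  have hez : hm e z = 0 := zero_of_swap hS hze
  have hτ : σ (-(a * σ a * hm z z) / hm e e) = -(a * σ a * hm z z) / hm e e := by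
    rw [map_div₀, map_neg, map_mul, map_mul, fx hS, fx hS, hS.inv]
    ring
  obtain ⟨b, hb⟩ := hS.norm_surj hτ
  have h2 : b * (σ b * hm e e) = -(a * σ a * hm z z) := by
    rw [← mul_assoc, hb]
    field_simp
  refine ⟨a • z + b • e, U.add_mem (U.smul_mem _ hz) (U.smul_mem _ he),
    (1 - a) • z + (-b) • e, U.add_mem (U.smul_mem _ hz) (U.smul_mem _ he), ?_, ?_, ?_⟩
  · simp only [al hS, ar hS, sl hS, sr hS, hze, hez, mul_zero, add_zero, zero_add]
    rw [h2]
    ring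
  · simp only [al hS, ar hS, sl hS, sr hS, hze, hez, mul_zero, add_zero, zero_add, map_neg, map_sub, map_one]
    have h3 : (-b) * (-σ b * hm e e) = -(a * σ a * hm z z) := by
      rw [← h2]
      ring
    rw [h3]
    linear_combination (-hm z z) * ha
  · ext i
    simp
    ring

/-- The pair plane. -/
lemma nd_pair (hS : HS F q σ) {x y : Fin n → F} (hxx : hm x x = 0) (hyy : hm y y = 0) (hxy : hm x y ≠ 0) :
    Nd q (Submodule.span F {x, y}) := by
  intro a ha ha0
  obtain ⟨c₁, c₂, rfl⟩ := Submodule.mem_span_pair.1 ha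
  have hyx : hm y x ≠ 0 := fun h => hxy (zero_of_swap hS h)
  by_cases hc₁ : c₁ = 0
  · have hc₂ : c₂ ≠ 0 := by
      rintro rfl
      simp [hc₁] at ha0
    refine ⟨x, Submodule.subset_span (by simp), ?_⟩
    simp only [al hS, sl hS, hxx, hc₁]
    simpa using ⟨hc₂, hyx⟩
  · refine ⟨y, Submodule.subset_span (by simp), ?_⟩
    simp only [al hS, sl hS, hyy]
    simpa using ⟨hc₁, hxy⟩

lemma finrank_pair (hS : HS F q σ) {x y : Fin n → F} (hxx : hm x x = 0) (hyy : hm y y = 0) (hxy : hm x y ≠ 0) :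
    Module.finrank F (Submodule.span F {x, y}) = 2 := by
  have hli : LinearIndependent F ![x, y] := by
    rw [LinearIndependent.pair_iff]
    intro s t hst
    have h1 := congrArg (fun v => hm v y) hst
    have h2 := congrArg (fun v => hm v x) hst
    simp only [al hS, sl hS, hxx, hyy, zl hS] at h1 h2
    have hyx : hm y x ≠ 0 := fun h => hxy (zero_of_swap hS h)
    constructor
    · simpa [hxy] using h1
    · simpa [hyx] using h2
  have h := finrank_span_eq_card hli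
  have hr : Set.range ![x, y] = {x, y} := by
    ext v
    simp [Fin.exists_fin_two, eq_comm]
    exact or_comm
  rw [hr] at h
  simpa using h

/-- `g` is a product of allowed elements acting only on `U`. -/
def Gd (hS : HS F q σ) (M : Subgroup (GL (Fin n) F)) (U : Submodule F (Fin n → F)) (g : GL (Fin n) F) : Prop :=
  g ∈ M ∧ g ∈ GSU n F q ∧ (∀ w ∈ U, (g : Matrix (Fin n) (Fin n) F) *ᵥ w ∈ U) ∧
    ∀ w ∈ horth hS U, (g : Matrix (Fin n) (Fin n) F) *ᵥ w = w

lemma Gd.mul {hS : HS F q σ} {M : Subgroup (GL (Fin n) F)} {U : Submodule F (Fin n → F)} {g k : GL (Fin n) F}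
    (hg : Gd hS M U g) (hk : Gd hS M U k) : Gd hS M U (g * k) := by
  refine ⟨M.mul_mem hg.1 hk.1, (GSU n F q).mul_mem hg.2.1 hk.2.1, fun w hw => ?_, fun w hw => ?_⟩
  · rw [Units.val_mul, ← Matrix.mulVec_mulVec]
    exact hg.2.2.1 _ (hk.2.2.1 _ hw)
  · rw [Units.val_mul, ← Matrix.mulVec_mulVec, hk.2.2.2 w hw, hg.2.2.2 w hw]

/-- All transvections lie in `M`. -/
def AllT (hS : HS F q σ) (M : Subgroup (GL (Fin n) F)) : Prop :=
  ∀ (u : Fin n → F) (hu : hm u u = 0) (a : F), a + σ a = 0 → ut hS hu a ∈ M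

lemma ut_gd {hS : HS F q σ} {M : Subgroup (GL (Fin n) F)} (hT : AllT hS M) {U : Submodule F (Fin n → F)} {u : Fin n → F}
    (hu : hm u u = 0) (huU : u ∈ U) {a : F} (ha : a + σ a = 0) : Gd hS M U (ut hS hu a) := by
  refine ⟨hT u hu a ha, ut_mem hS hu ha, fun w hw => ?_, fun w hw => ?_⟩
  · rw [ut_mulVec]
    exact U.add_mem hw (U.smul_mem _ huU)
  · rw [ut_mulVec, zero_of_swap hS (hw u huU)]
    simp

/-- One transvection moves `x` to `x'` when the trace of their product vanishes. -/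
lemma move1 {hS : HS F q σ} {M : Subgroup (GL (Fin n) F)} (hT : AllT hS M) {U : Submodule F (Fin n → F)} {x x' : Fin n → F}
    (hx : x ∈ U) (hx' : x' ∈ U) (hxx : hm x x = 0) (hxx' : hm x' x' = 0) (hβ : hm x x' ≠ 0)
    (htr : σ (hm x x') = - hm x x') :
    ∃ g, Gd hS M U g ∧ (g : Matrix (Fin n) (Fin n) F) *ᵥ x = x' := by
  set β := hm x x' with hβdef
  have hx'x : hm x' x = - β := by rw [sm hS, ← hβdef, htr]
  have hvv : hm (x' - x) (x' - x) = 0 := by
    simp only [subl hS, subr hS, hxx, hxx', hx'x, ← hβdef]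
    ring
  refine ⟨ut hS hvv β⁻¹, ut_gd hT hvv (U.sub_mem hx' hx) ?_, ?_⟩
  · rw [map_inv₀, htr]
    field_simp
    ring
  · rw [ut_mulVec, subr hS, hxx, ← hβdef, sub_zero, inv_mul_cancel₀ hβ, one_smul]
    abel

/-- Transitivity on non-orthogonal isotropic vectors. -/
lemma move2 {hS : HS F q σ} {M : Subgroup (GL (Fin n) F)} (hT : AllT hS M) {U : Submodule F (Fin n → F)} (hU : Nd q U)
    (hfr : 3 ≤ Module.finrank F U) {x x' : Fin n → F}
    (hx : x ∈ U) (hx' : x' ∈ U) (hxx : hm x x = 0) (hxx' : hm x' x' = 0) (hβ : hm x x' ≠ 0) :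
    ∃ g, Gd hS M U g ∧ (g : Matrix (Fin n) (Fin n) F) *ᵥ x = x' := by
  set β := hm x x' with hβdef
  have hx'x : hm x' x = σ β := sm hS x' x
  have hσβ : σ β ≠ 0 := by simpa using hβ
  have hAx : Nd q (Submodule.span F {x, x'}) := nd_pair hS hxx hxx' hβ
  have hle : Submodule.span F {x, x'} ≤ U := by
    rw [Submodule.span_le]
    rintro _ (rfl | rfl)
    · exact hx
    · exact hx'
  have hfr1 := finrank_inf hS hAx hle
  rw [finrank_pair hS hxx hxx' hβ] at hfr1
  have hne : U ⊓ horth hS (Submodule.span F {x, x'}) ≠ ⊥ := by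
    intro h
    rw [h, finrank_bot] at hfr1
    omega
  obtain ⟨z, hz, hzz⟩ := exists_aniso hS (nd_inf hS hAx hU hle) hne
  have hxz : hm x z = 0 := hz.2 x (Submodule.subset_span (by simp))
  have hx'z : hm x' z = 0 := hz.2 x' (Submodule.subset_span (by simp))
  have hzx : hm z x = 0 := zero_of_swap hS hxz
  have hzx' : hm z x' = 0 := zero_of_swap hS hx'z
  obtain ⟨θ, hθ0, hθ⟩ := hS.exists_trace_zero
  have hσθ : σ θ = - θ := by linear_combination hθ
  have hτ : σ (-(θ ^ 2 * (β⁻¹ + (σ β)⁻¹)) / hm z z) = -(θ ^ 2 * (β⁻¹ + (σ β)⁻¹)) / hm z z := by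
    rw [map_div₀, map_neg, map_mul, map_add, map_pow, hσθ, map_inv₀, map_inv₀, hS.inv, fx hS]
    ring
  obtain ⟨c, hc⟩ := hS.norm_surj hτ
  have h2 : c * (σ c * hm z z) = -(θ ^ 2 * (β⁻¹ + (σ β)⁻¹)) := by
    rw [← mul_assoc, hc]
    field_simp
  -- the intermediate vector
  set a := θ / β with ha
  set b := - θ / σ β with hb
  have hσa : σ a = - θ / σ β := by
    rw [ha, map_div₀, hσθ]
  have hσb : σ b = θ / β := by
    rw [hb, map_div₀, map_neg, hσθ, hS.inv]
    simp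
  set x'' := a • x + b • x' + c • z with hx''
  have hx''U : x'' ∈ U := U.add_mem (U.add_mem (U.smul_mem _ hx) (U.smul_mem _ hx')) (U.smul_mem _ hz.1)
  have hiso : hm x'' x'' = 0 := by
    simp only [hx'', al hS, ar hS, sl hS, sr hS, hxx, hxx', hx'x, ← hβdef, hzx, hzx', hxz, hx'z, mul_zero, add_zero, zero_add]
    rw [h2, hσa, hσb, ha, hb]
    field_simp
    ring
  have h1 : hm x x'' = θ := by
    simp only [hx'', ar hS, sr hS, hxx, ← hβdef, hxz, mul_zero, add_zero, zero_add]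
    rw [hσb]
    field_simp
  have h3 : hm x'' x' = θ := by
    simp only [hx'', al hS, sl hS, hxx', ← hβdef, hzx', mul_zero, add_zero]
    rw [ha]
    field_simp
  obtain ⟨g₁, hg₁, hg₁x⟩ := move1 hT hx hx''U hxx hiso (by rw [h1]; exact hθ0) (by rw [h1]; exact hσθ)
  obtain ⟨g₂, hg₂, hg₂x⟩ := move1 hT hx''U hx' hiso hxx' (by rw [h3]; exact hθ0) (by rw [h3]; exact hσθ)
  refine ⟨g₂ * g₁, hg₂.mul hg₁, ?_⟩
  rw [Units.val_mul, ← Matrix.mulVec_mulVec, hg₁x, hg₂x]

/-- A common non-orthogonal partner for two orthogonal isotropic vectors. -/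
lemma exists_common (hS : HS F q σ) {U : Submodule F (Fin n → F)} (hU : Nd q U) {x x' : Fin n → F} (hx : x ∈ U) (hx' : x' ∈ U)
    (hx0 : x ≠ 0) (hx'0 : x' ≠ 0) (hxx : hm x x = 0) (hxx' : hm x' x' = 0) (horthxx : hm x x' = 0) :
    ∃ y ∈ U, hm y y = 0 ∧ hm x y ≠ 0 ∧ hm x' y ≠ 0 := by
  obtain ⟨y₁, hy₁, hy₁₁, hxy₁⟩ := exists_partner hS hU hx hx0 hxx
  obtain ⟨y₂, hy₂, hy₂₂, hxy₂⟩ := exists_partner hS hU hx' hx'0 hxx'
  by_cases h1 : hm x' y₁ = 0
  · by_cases h2 : hm x y₂ = 0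
    · have hy₁x : hm y₁ x = 1 := by rw [sm hS, hxy₁, map_one]
      have hy₂x : hm y₂ x = 0 := zero_of_swap hS h2
      have hr : σ (-(hm y₁ y₂ + hm y₂ y₁)) = -(hm y₁ y₂ + hm y₂ y₁) := by
        rw [map_neg, map_add, ← sm hS, ← sm hS, add_comm]
      obtain ⟨μ, hμ⟩ := tr_surj hS hr
      have hx'x : hm x' x = 0 := zero_of_swap hS horthxx
      refine ⟨y₁ + y₂ + μ • x, U.add_mem (U.add_mem hy₁ hy₂) (U.smul_mem _ hx), ?_, ?_, ?_⟩
      · simp only [al hS, ar hS, sl hS, sr hS, hy₁₁, hy₂₂, hxx, hy₁x, hy₂x, hxy₁, h2]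
        linear_combination hμ
      · simp only [ar hS, sr hS, hxx, hxy₁, h2]
        simp
      · simp only [ar hS, sr hS, hx'x, h1, hxy₂]
        simp
    · exact ⟨y₂, hy₂, hy₂₂, h2, by rw [hxy₂]; exact one_ne_zero⟩
  · exact ⟨y₁, hy₁, hy₁₁, by rw [hxy₁]; exact one_ne_zero, h1⟩

/-- Transitivity on isotropic vectors in dimension at least three. -/
lemma move3 {hS : HS F q σ} {M : Subgroup (GL (Fin n) F)} (hT : AllT hS M) {U : Submodule F (Fin n → F)} (hU : Nd q U)
    (hfr : 3 ≤ Module.finrank F U) {x x' : Fin n → F}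
    (hx : x ∈ U) (hx' : x' ∈ U) (hx0 : x ≠ 0) (hx'0 : x' ≠ 0) (hxx : hm x x = 0) (hxx' : hm x' x' = 0) :
    ∃ g, Gd hS M U g ∧ (g : Matrix (Fin n) (Fin n) F) *ᵥ x = x' := by
  by_cases h : hm x x' = 0
  · obtain ⟨y, hy, hyy, h1, h2⟩ := exists_common hS hU hx hx' hx0 hx'0 hxx hxx' h
    obtain ⟨g₁, hg₁, hg₁x⟩ := move2 hT hU hfr hx hy hxx hyy h1
    obtain ⟨g₂, hg₂, hg₂x⟩ := move2 hT hU hfr hy hx' hyy hxx' (fun h0 => h2 (zero_of_swap hS h0))
    refine ⟨g₂ * g₁, hg₂.mul hg₁, ?_⟩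
    rw [Units.val_mul, ← Matrix.mulVec_mulVec, hg₁x, hg₂x]
  · exact move2 hT hU hfr hx hx' hxx hxx' h

/-- The unipotent element attached to an isotropic `z`. -/
lemma exists_rho_iso {hS : HS F q σ} {M : Subgroup (GL (Fin n) F)} (hT : AllT hS M) {x z : Fin n → F} {c : F}
    (hxx : hm x x = 0) (hzz : hm z z = 0) (hxz : hm x z = 0) (hc : c + σ c = 0) :
    ∃ g, g ∈ M ∧ g ∈ GSU n F q ∧ ∀ w, (g : Matrix (Fin n) (Fin n) F) *ᵥ w =
      w + hm w x • z - hm w z • x + (c * hm w x) • x := by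
  obtain ⟨θ, hθ0, hθ⟩ := hS.exists_trace_zero
  have hσθ : σ θ = - θ := by linear_combination hθ
  have hzx : hm z x = 0 := zero_of_swap hS hxz
  have hvv : hm (x + θ • z) (x + θ • z) = 0 := by
    simp only [al hS, ar hS, sl hS, sr hS, hxx, hzz, hxz, hzx]
    ring
  have hinv : θ⁻¹ + σ θ⁻¹ = 0 := by
    rw [map_inv₀, hσθ]
    field_simp
    ring
  have hc' : (c - θ⁻¹) + σ (c - θ⁻¹) = 0 := by
    rw [map_sub]
    linear_combination hc - hinv
  refine ⟨ut hS hvv θ⁻¹ * ut hS hxx (c - θ⁻¹) * ut hS hzz θ, M.mul_mem (M.mul_mem (hT _ _ _ hinv) (hT _ _ _ hc')) (hT _ _ _ hθ),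
    (GSU n F q).mul_mem ((GSU n F q).mul_mem (ut_mem hS _ hinv) (ut_mem hS _ hc')) (ut_mem hS _ hθ), fun w => ?_⟩
  rw [Units.val_mul, Units.val_mul, ← Matrix.mulVec_mulVec, ← Matrix.mulVec_mulVec, ut_mulVec, ut_mulVec, ut_mulVec]
  have e1 : hm (w + (θ * hm w z) • z) x = hm w x := by
    rw [al hS, sl hS, hzx, mul_zero, add_zero]
  have e2 : hm (w + (θ * hm w z) • z + ((c - θ⁻¹) * hm w x) • x) (x + θ • z) = hm w x - θ * hm w z := by
    simp only [al hS, ar hS, sl hS, sr hS, hxx, hzz, hxz, hzx, hσθ]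
    ring
  rw [e1, e2]
  ext i
  simp only [Pi.add_apply, Pi.sub_apply, Pi.smul_apply, smul_eq_mul]
  field_simp
  ring

lemma mem_horth_pair (hS : HS F q σ) {x y b : Fin n → F} : b ∈ horth hS (Submodule.span F {x, y}) ↔ hm x b = 0 ∧ hm y b = 0 := by
  constructor
  · intro h
    exact ⟨h x (Submodule.subset_span (by simp)), h y (Submodule.subset_span (by simp))⟩
  · rintro ⟨h1, h2⟩ w hw
    obtain ⟨c₁, c₂, rfl⟩ := Submodule.mem_span_pair.1 hw
    rw [al hS, sl hS, sl hS, h1, h2]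
    ring

/-- The unipotent elements lie in `M`, in dimension at least four. -/
lemma exists_rho {hS : HS F q σ} {M : Subgroup (GL (Fin n) F)} (hn : 4 ≤ n) (hT : AllT hS M) {x z : Fin n → F} {c : F}
    (hxx : hm x x = 0) (hx0 : x ≠ 0) (hxz : hm x z = 0) (hc : c + σ c + hm z z = 0) :
    ∃ g, g ∈ M ∧ g ∈ GSU n F q ∧ ∀ w, (g : Matrix (Fin n) (Fin n) F) *ᵥ w =
      w + hm w x • z - hm w z • x + (c * hm w x) • x := by
  obtain ⟨y, -, hyy, hxy⟩ := exists_partner hS (nd_top hS) (Submodule.mem_top (x := x)) hx0 hxx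
  have hyx : hm y x = 1 := by rw [sm hS, hxy, map_one]
  have hA : Nd q (Submodule.span F {x, y}) := nd_pair hS hxx hyy (by rw [hxy]; exact one_ne_zero)
  have hfr := finrank_horth hS (Submodule.span F {x, y})
  rw [finrank_pair hS hxx hyy (by rw [hxy]; exact one_ne_zero)] at hfr
  have hz₀ : z - hm z y • x ∈ horth hS (Submodule.span F {x, y}) := by
    rw [mem_horth_pair]
    constructor
    · rw [subr hS, sr hS, hxx, hxz]
      ring
    · rw [subr hS, sr hS, hyx, ← sm hS]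
      ring
  obtain ⟨z₁, hz₁, z₂, hz₂, h11, h22, hz₁₂⟩ := sum_two_iso hS (nd_perp hS hA) (by omega) hz₀
  obtain ⟨hxz₁, hyz₁⟩ := (mem_horth_pair hS).1 hz₁
  obtain ⟨hxz₂, hyz₂⟩ := (mem_horth_pair hS).1 hz₂
  have hz₁x : hm z₁ x = 0 := zero_of_swap hS hxz₁
  have hz₂x : hm z₂ x = 0 := zero_of_swap hS hxz₂
  set z₁' := hm z y • x + z₁ with hz₁'
  have hzz' : z = z₁' + z₂ := by
    rw [hz₁', add_assoc, ← hz₁₂]
    simp
  have h1'1' : hm z₁' z₁' = 0 := by
    simp only [hz₁', al hS, ar hS, sl hS, sr hS, hxx, h11, hxz₁, hz₁x]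
    ring
  have hxz₁' : hm x z₁' = 0 := by
    simp only [hz₁', ar hS, sr hS, hxx, hxz₁]
    ring
  have hz₁'x : hm z₁' x = 0 := zero_of_swap hS hxz₁'
  obtain ⟨g₁, hg₁M, hg₁, hg₁w⟩ := exists_rho_iso (c := 0) hT hxx h1'1' hxz₁' (by simp)
  have hzzexp : hm z z = hm z₁' z₂ + hm z₂ z₁' := by
    rw [hzz']
    simp only [al hS, ar hS, h1'1', h22]
    ring
  have hc₂ : (c + hm z₂ z₁') + σ (c + hm z₂ z₁') = 0 := by
    rw [map_add, ← sm hS]
    rw [hzzexp] at hc
    linear_combination hc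
  obtain ⟨g₂, hg₂M, hg₂, hg₂w⟩ := exists_rho_iso (c := c + hm z₂ z₁') hT hxx h22 hxz₂ hc₂
  refine ⟨g₁ * g₂, M.mul_mem hg₁M hg₂M, (GSU n F q).mul_mem hg₁ hg₂, fun w => ?_⟩
  rw [Units.val_mul, ← Matrix.mulVec_mulVec, hg₂w, hg₁w]
  have e1 : hm (w + hm w x • z₂ - hm w z₂ • x + ((c + hm z₂ z₁') * hm w x) • x) x = hm w x := by
    simp only [al hS, subl hS, sl hS, hz₂x, hxx]
    simp
  have e2 : hm (w + hm w x • z₂ - hm w z₂ • x + ((c + hm z₂ z₁') * hm w x) • x) z₁' = hm w z₁' + hm w x * hm z₂ z₁' := by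
    simp only [al hS, subl hS, sl hS, hxz₁']
    ring
  have e3 : hm w z = hm w z₁' + hm w z₂ := by rw [hzz', ar hS]
  rw [e1, e2, e3, hzz']
  ext i
  simp only [Pi.add_apply, Pi.sub_apply, Pi.smul_apply, smul_eq_mul]
  ring

/-- Adjusting the partner. -/
lemma fix_y {hS : HS F q σ} {M : Subgroup (GL (Fin n) F)} (hn : 4 ≤ n) (hT : AllT hS M) {U : Submodule F (Fin n → F)}
    {x y y' : Fin n → F} (hx : x ∈ U) (hy : y ∈ U) (hy' : y' ∈ U) (hxx : hm x x = 0) (hyy : hm y y = 0) (hy'y' : hm y' y' = 0)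
    (hxy : hm x y = 1) (hxy' : hm x y' = 1) :
    ∃ r, Gd hS M U r ∧ (r : Matrix (Fin n) (Fin n) F) *ᵥ x = x ∧ (r : Matrix (Fin n) (Fin n) F) *ᵥ y' = y := by
  have hx0 : x ≠ 0 := by
    rintro rfl
    rw [zl hS] at hxy
    exact zero_ne_one hxy
  have hxd : hm x (y - y') = 0 := by
    rw [subr hS, hxy, hxy']
    ring
  have hy'x : hm y' x = 1 := by rw [sm hS, hxy', map_one]
  have hc : hm y' (y - y') + σ (hm y' (y - y')) + hm (y - y') (y - y') = 0 := by
    rw [← sm hS]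
    simp only [subl hS, subr hS, hyy, hy'y']
    ring
  obtain ⟨g, hgM, hg, hgw⟩ := exists_rho hn hT hxx hx0 hxd hc
  refine ⟨g, ⟨hgM, hg, fun w hw => ?_, fun w hw => ?_⟩, ?_, ?_⟩
  · rw [hgw]
    exact U.add_mem (U.sub_mem (U.add_mem hw (U.smul_mem _ (U.sub_mem hy hy'))) (U.smul_mem _ hx)) (U.smul_mem _ hx)
  · rw [hgw, zero_of_swap hS (hw x hx), zero_of_swap hS (hw _ (U.sub_mem hy hy'))]
    simp
  · rw [hgw, hxx, hxd]
    simp
  · rw [hgw, hy'x]
    ext i
    simp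

lemma pres (hS : HS F q σ) {U : Submodule F (Fin n → F)} {g : GL (Fin n) F} (hg : g ∈ GU n F q)
    (hfix : ∀ w ∈ horth hS U, (g : Matrix (Fin n) (Fin n) F) *ᵥ w = w) {u : Fin n → F} (hu : u ∈ U) :
    (g : Matrix (Fin n) (Fin n) F) *ᵥ u ∈ U := by
  rw [← horth_horth hS U]
  intro w hw
  have h1 := isometry_apply hg w u
  rw [hfix w hw] at h1
  rw [h1]
  exact zero_of_swap hS (hw u hu)

/-- Every element of `SU` acting only on `U` lies in `M`. -/
def Phi (hS : HS F q σ) (M : Subgroup (GL (Fin n) F)) (U : Submodule F (Fin n → F)) : Prop :=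
  ∀ g ∈ GSU n F q, (∀ w ∈ horth hS U, (g : Matrix (Fin n) (Fin n) F) *ᵥ w = w) → g ∈ M

lemma step {hS : HS F q σ} {M : Subgroup (GL (Fin n) F)} (hn : 4 ≤ n) (hT : AllT hS M) {U : Submodule F (Fin n → F)}
    (hU : Nd q U) (hfr : 3 ≤ Module.finrank F U)
    (ih : ∀ U₁ : Submodule F (Fin n → F), Nd q U₁ → Module.finrank F U₁ + 2 = Module.finrank F U → Phi hS M U₁) :
    Phi hS M U := by
  intro g hg hfix
  obtain ⟨x, hxU, hx0, hxx⟩ := exists_iso hS hU (by omega)
  obtain ⟨y, hyU, hyy, hxy⟩ := exists_partner hS hU hxU hx0 hxx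
  have hgx := pres hS hg.1 hfix hxU
  have hgy := pres hS hg.1 hfix hyU
  have hgxx : hm ((g : Matrix (Fin n) (Fin n) F) *ᵥ x) ((g : Matrix (Fin n) (Fin n) F) *ᵥ x) = 0 := by
    rw [isometry_apply hg.1, hxx]
  have hgx0 : (g : Matrix (Fin n) (Fin n) F) *ᵥ x ≠ 0 := by
    intro h
    apply hx0
    apply Cfsg.Agent.H27.GD.mulVec_inj (g := g)
    rw [h, Matrix.mulVec_zero]
  obtain ⟨s, hs, hsx⟩ := move3 hT hU hfr hgx hxU hgx0 hx0 hgxx hxx
  have hy'U := hs.2.2.1 _ hgy
  have hy'y' : hm ((s : Matrix (Fin n) (Fin n) F) *ᵥ ((g : Matrix (Fin n) (Fin n) F) *ᵥ y))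
      ((s : Matrix (Fin n) (Fin n) F) *ᵥ ((g : Matrix (Fin n) (Fin n) F) *ᵥ y)) = 0 := by
    rw [isometry_apply hs.2.1.1, isometry_apply hg.1, hyy]
  have hxy' : hm x ((s : Matrix (Fin n) (Fin n) F) *ᵥ ((g : Matrix (Fin n) (Fin n) F) *ᵥ y)) = 1 := by
    conv_lhs => rw [← hsx]
    rw [isometry_apply hs.2.1.1, isometry_apply hg.1, hxy]
  obtain ⟨r, hr, hrx, hry⟩ := fix_y hn hT hxU hyU hy'U hxx hyy hy'y' hxy hxy'
  have hxy0 : hm x y ≠ 0 := by
    rw [hxy]
    exact one_ne_zero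
  have hA : Nd q (Submodule.span F {x, y}) := nd_pair hS hxx hyy hxy0
  have hle : Submodule.span F {x, y} ≤ U := by
    rw [Submodule.span_le]
    rintro _ (rfl | rfl)
    · exact hxU
    · exact hyU
  have hU₁ := nd_inf hS hA hU hle
  have hfr₁ := finrank_inf hS hA hle
  rw [finrank_pair hS hxx hyy hxy0] at hfr₁
  have hperp : horth hS U ≤ horth hS (Submodule.span F {x, y}) := fun w hw a ha => hw a (hle ha)
  have h1 : r * s * g ∈ M := by
    apply ih _ hU₁ hfr₁ (r * s * g) ((GSU n F q).mul_mem ((GSU n F q).mul_mem hr.2.1 hs.2.1) hg)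
    intro w hw
    obtain ⟨a, ha, c, hc, rfl⟩ := decomp hS hA w
    obtain ⟨c₁, hc₁, b, hb, rfl⟩ := decomp hS hU c
    have hc₁A : c₁ ∈ horth hS (Submodule.span F {x, y}) := by
      have := (horth hS (Submodule.span F {x, y})).sub_mem hc (hperp hb)
      simpa using this
    have hc₁0 : c₁ = 0 := by
      by_contra hne
      obtain ⟨t, ht, htt⟩ := hU₁ c₁ ⟨hc₁, hc₁A⟩ hne
      apply htt
      apply zero_of_swap hS
      have h2 := hw t ht
      rw [ar hS, ar hS, zero_of_swap hS (ht.2 a ha), hb t ht.1] at h2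
      simpa using h2
    subst hc₁0
    rw [zero_add]
    obtain ⟨c₁, c₂, rfl⟩ := Submodule.mem_span_pair.1 ha
    have hgxfix : ((r * s * g : GL (Fin n) F) : Matrix (Fin n) (Fin n) F) *ᵥ x = x := by
      rw [Units.val_mul, Units.val_mul, ← Matrix.mulVec_mulVec, ← Matrix.mulVec_mulVec, hsx, hrx]
    have hgyfix : ((r * s * g : GL (Fin n) F) : Matrix (Fin n) (Fin n) F) *ᵥ y = y := by
      rw [Units.val_mul, Units.val_mul, ← Matrix.mulVec_mulVec, ← Matrix.mulVec_mulVec, hry]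
    have hgbfix : ((r * s * g : GL (Fin n) F) : Matrix (Fin n) (Fin n) F) *ᵥ b = b := by
      rw [Units.val_mul, Units.val_mul, ← Matrix.mulVec_mulVec, ← Matrix.mulVec_mulVec, hfix b hb, hs.2.2.2 b hb,
        hr.2.2.2 b hb]
    rw [Matrix.mulVec_add, Matrix.mulVec_add, Matrix.mulVec_smul, Matrix.mulVec_smul, hgxfix, hgyfix, hgbfix]
  have h2 := M.mul_mem (M.inv_mem (M.mul_mem hr.1 hs.1)) h1
  have h3 : (r * s)⁻¹ * (r * s * g) = g := by group
  rwa [h3] at h2

lemma phi_bot (hS : HS F q σ) (M : Subgroup (GL (Fin n) F)) : Phi hS M ⊥ := by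
  intro g hg hfix
  have : g = 1 := by
    apply Cfsg.Agent.H27.GO.gl_ext
    intro x
    rw [hfix x]
    · simp
    · intro w hw
      have : w = 0 := by simpa using hw
      rw [this, zl hS]
  rw [this]
  exact M.one_mem

lemma phi_one (hS : HS F q σ) (M : Subgroup (GL (Fin n) F)) {U : Submodule F (Fin n → F)} (hU : Nd q U)
    (hfr : Module.finrank F U = 1) : Phi hS M U := by
  classical
  intro g hg hfix
  have hne : U ≠ ⊥ := by
    rintro rfl
    rw [finrank_bot] at hfr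
    omega
  obtain ⟨e, he, hee⟩ := exists_aniso hS hU hne
  have he0 := ne_zero_of_aniso hS hee
  have hspan : ∀ u ∈ U, ∃ c : F, u = c • e := by
    intro u hu
    have h1 := (finrank_eq_one_iff_of_nonzero' (⟨e, he⟩ : U) (fun h => he0 (congrArg Subtype.val h))).1 hfr ⟨u, hu⟩
    obtain ⟨c, hc⟩ := h1
    exact ⟨c, (congrArg Subtype.val hc).symm⟩
  obtain ⟨lam, hlam⟩ := hspan _ (pres hS hg.1 hfix he)
  have hgw : ∀ w, (g : Matrix (Fin n) (Fin n) F) *ᵥ w = w + (((lam - 1) / hm e e) * hm w e) • e := by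
    intro w
    have hb : w - (hm w e / hm e e) • e ∈ horth hS U := by
      intro u hu
      obtain ⟨c, rfl⟩ := hspan u hu
      rw [sl hS, subr hS, sr hS, map_div₀, fx hS, ← sm hS]
      field_simp
      ring
    have h1 := hfix _ hb
    rw [Matrix.mulVec_sub, Matrix.mulVec_smul, hlam] at h1
    have h2 : (g : Matrix (Fin n) (Fin n) F) *ᵥ w = w - (hm w e / hm e e) • e + (hm w e / hm e e) • lam • e := by
      rw [← h1]
      simp
    rw [h2]
    ext i
    simp only [Pi.add_apply, Pi.sub_apply, Pi.smul_apply, smul_eq_mul]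
    field_simp
    ring
  set a := (lam - 1) / hm e e with ha
  have hR : (g : Matrix (Fin n) (Fin n) F) = 1 + Matrix.vecMulVec e (fun i => a * σ (e i)) := by
    apply Matrix.ext_of_mulVec_single
    intro j
    rw [hgw, Matrix.add_mulVec, Matrix.one_mulVec, Matrix.vecMulVec_mulVec]
    congr 1
    ext i
    simp only [Pi.smul_apply, smul_eq_mul, MulOpposite.smul_eq_mul_unop, Pi.single_apply]
    rw [herm_eq hS]
    simp [Pi.single_apply, Finset.sum_ite_eq, dotProduct]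
    ring
  have hdet1 : (g : Matrix (Fin n) (Fin n) F).det = 1 := by
    have h1 : Matrix.GeneralLinearGroup.det g = 1 := hg.2
    have h2 := congrArg Units.val h1
    simpa [Matrix.GeneralLinearGroup.val_det_apply] using h2
  have hvv : Matrix.vecMulVec e (fun i => a * σ (e i)) =
      Matrix.replicateCol Unit e * Matrix.replicateRow Unit (fun i => a * σ (e i)) := by
    ext i j
    simp [Matrix.vecMulVec_apply, Matrix.mul_apply]
  rw [hR, hvv, Matrix.det_one_add_replicateCol_mul_replicateRow] at hdet1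
  have hdot : (fun i => a * σ (e i)) ⬝ᵥ e = a * hm e e := by
    rw [herm_eq hS, dotProduct, Finset.mul_sum]
    refine Finset.sum_congr rfl fun i _ => ?_
    ring
  rw [hdot, ha] at hdet1
  have hlam1 : lam = 1 := by
    field_simp at hdet1
    linear_combination hdet1
  have hg1 : g = 1 := by
    apply Cfsg.Agent.H27.GO.gl_ext
    intro x
    rw [hgw, ha, hlam1]
    simp
  rw [hg1]
  exact M.one_mem

/-- The main induction. -/
theorem phi_all {hS : HS F q σ} {M : Subgroup (GL (Fin n) F)} (hn : 4 ≤ n) (hT : AllT hS M) (k : ℕ) :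
    ∀ U : Submodule F (Fin n → F), Nd q U → Module.finrank F U = k → Phi hS M U := by
  have P3 : ∀ U : Submodule F (Fin n → F), Nd q U → Module.finrank F U = 3 → Phi hS M U := by
    intro U hU hfr
    apply step hn hT hU (by omega)
    intro U₁ hU₁ hfr₁
    exact phi_one hS M hU₁ (by omega)
  have P2 : ∀ U : Submodule F (Fin n → F), Nd q U → Module.finrank F U = 2 → Phi hS M U := by
    intro U hU hfr
    have hP := nd_perp hS hU
    have hfrP := finrank_horth hS U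
    have hne : horth hS U ≠ ⊥ := by
      intro h
      rw [h, finrank_bot] at hfrP
      omega
    obtain ⟨e, he, hee⟩ := exists_aniso hS hP hne
    have hle : Submodule.span F {e} ≤ horth hS U := by
      rw [Submodule.span_le]
      simpa using he
    have hA := nd_span hS hee
    have hW' := nd_inf hS hA hP hle
    have hfr' := finrank_inf hS hA hle
    rw [finrank_span_singleton (ne_zero_of_aniso hS hee)] at hfr'
    have hfr3 := finrank_horth hS (horth hS U ⊓ horth hS (Submodule.span F {e}))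
    intro g hg hfix
    apply P3 _ (nd_perp hS hW') (by omega) g hg
    rw [horth_horth]
    intro w hw
    exact hfix w hw.1
  induction k using Nat.strong_induction_on with
  | _ k ih =>
    intro U hU hfr
    match k, ih, hfr with
    | 0, _, hfr =>
      have : U = ⊥ := Submodule.finrank_eq_zero.1 hfr
      subst this
      exact phi_bot hS M
    | 1, _, hfr => exact phi_one hS M hU hfr
    | 2, _, hfr => exact P2 U hU hfr
    | k + 3, ih, hfr =>
      apply step hn hT hU (by omega)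
      intro U₁ hU₁ hfr₁
      exact ih (k + 1) (by omega) U₁ hU₁ (by omega)

/-- `SU_n(q)`, `n ≥ 4`, is generated by unitary transvections. -/
theorem gsu_le (hS : HS F q σ) {M : Subgroup (GL (Fin n) F)} (hn : 4 ≤ n) (hT : AllT hS M) : GSU n F q ≤ M := by
  intro g hg
  apply phi_all hn hT n ⊤ (nd_top hS) (by rw [finrank_top, finrank_V]) g hg
  intro w hw
  have hw0 : w = 0 := by
    by_contra h0
    obtain ⟨⟨x, hx⟩, -⟩ := (herm_unitary hS).nondegenerate w h0
    exact hx (hw x trivial)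
  rw [hw0]
  simp

end Cfsg.Agent.H27.SG
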