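import Mathlib
import Cfsg.Prelude.Def_GeometricClasses
import Cfsg.Agent.Lib.H27.GeoSUGen
import Cfsg.Agent.Lib.H27.GeoMaxSL
import Cfsg.Agent.Lib.H27.GeoOGen

/-!
# General unitary forms: basic facts, hyperbolic pairs and transvections
-/

set_option autoImplicit false
set_option linter.unusedSectionVars false
set_option linter.unusedSimpArgs false
set_option linter.unusedVariables false

namespace Cfsg.Agent.H27.UF

open scoped Matrix MatrixGroups
open Cfsg Cfsg.Geo
open Cfsg.Agent.H27.GO (gl_ext)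
open Cfsg.Agent.H27.Tv (exists_tv)
open Cfsg.Agent.H27.ML (sl_le_of_tv)
open Cfsg.Agent.H28 (HS)

variable {n : ℕ} {F : Type*} [Field F] [Fintype F] {q : ℕ} {σ : F ≃+* F} {f : (Fin n → F) → (Fin n → F) → F}

local notation "GG" => GL (Fin n) F
local notation "Mat" => Matrix (Fin n) (Fin n) F

/-- An involutory field automorphism is a Frobenius power. -/
theorem exists_q (hne : σ ≠ RingEquiv.refl F) (hinv : ∀ a, σ (σ a) = a) : ∃ q, HS F q σ := by
  classical
  obtain ⟨p, hchar, m, hp, hm⟩ := FiniteField.card' F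
  haveI := hchar
  haveI : Fact p.Prime := ⟨hp⟩
  letI : Algebra (ZMod p) F := ZMod.algebra F p
  let σ' : F ≃ₐ[ZMod p] F := AlgEquiv.ofRingEquiv (f := σ) (fun r => by
    obtain ⟨k, rfl⟩ := ZMod.natCast_zmod_surjective r
    simp)
  have hd : Module.finrank (ZMod p) F = (m : ℕ) := by
    have h1 := Module.card_eq_pow_finrank (K := ZMod p) (V := F)
    rw [ZMod.card, hm] at h1
    have := Nat.pow_right_injective hp.two_le h1
    exact this.symm
  obtain ⟨i, hi⟩ := (FiniteField.bijective_frobeniusAlgEquivOfAlgebraic_pow (ZMod p) F).2 σ'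
  simp only at hi
  have hσx : ∀ x, σ x = x ^ (p ^ (i : ℕ)) := by
    intro x
    have h1 : σ' x = σ x := rfl
    rw [← h1, ← hi, AlgEquiv.coe_pow, FiniteField.coe_frobeniusAlgEquivOfAlgebraic_iterate, ZMod.card]
  have hord := FiniteField.orderOf_frobeniusAlgEquivOfAlgebraic (ZMod p) F
  have h2 : (FiniteField.frobeniusAlgEquivOfAlgebraic (ZMod p) F) ^ (2 * (i : ℕ)) = 1 := by
    rw [two_mul, pow_add, hi]
    ext x
    exact hinv x
  have h3 := orderOf_dvd_of_pow_eq_one h2
  rw [hord] at h3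
  have hilt0 : (i : ℕ) < Module.finrank (ZMod p) F := i.2
  obtain ⟨i', hi'⟩ : ∃ i' : ℕ, i' = (i : ℕ) := ⟨_, rfl⟩
  rw [← hi'] at h3 hilt0 hσx
  rw [hd] at h3 hilt0
  have hi0 : i' ≠ 0 := by
    intro h0
    apply hne
    ext x
    rw [hσx, h0]
    simp
  obtain ⟨c, hc⟩ := h3
  have hc1 : c = 1 := by
    have hc0 : c ≠ 0 := by
      rintro rfl
      omega
    have hc2 : c < 2 := by
      by_contra h4
      have : (m : ℕ) * 2 ≤ m * c := Nat.mul_le_mul_left _ (by omega)
      omega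
    omega
  rw [hc1, mul_one] at hc
  refine ⟨p ^ i', ⟨?_, hσx, hne, hinv⟩⟩
  rw [hm, ← hc, ← pow_mul, mul_comm]

lemma fr_add (hf : IsUnitaryForm σ f) (v x y : Fin n → F) : f v (x + y) = f v x + f v y := by
  rw [hf.herm, hf.add_left, map_add, ← hf.herm, ← hf.herm]

lemma fr_smul (hf : IsUnitaryForm σ f) (c : F) (v x : Fin n → F) : f v (c • x) = σ c * f v x := by
  rw [hf.herm, hf.smul_left, map_mul, ← hf.herm]

lemma f0l (hf : IsUnitaryForm σ f) (x : Fin n → F) : f 0 x = 0 := by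
  have := hf.smul_left 0 0 x
  simpa using this

lemma f0r (hf : IsUnitaryForm σ f) (x : Fin n → F) : f x 0 = 0 := by
  rw [hf.herm, f0l hf, map_zero]

lemma fnl (hf : IsUnitaryForm σ f) (x y : Fin n → F) : f (-x) y = - f x y := by
  have := hf.smul_left (-1) x y
  simpa using this

lemma fnr (hf : IsUnitaryForm σ f) (x y : Fin n → F) : f x (-y) = - f x y := by
  have := fr_smul hf (-1) x y
  simpa using this

lemma fsl (hf : IsUnitaryForm σ f) (x y z : Fin n → F) : f (x - y) z = f x z - f y z := by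
  rw [sub_eq_add_neg, hf.add_left, fnl hf, sub_eq_add_neg]

lemma fsr (hf : IsUnitaryForm σ f) (x y z : Fin n → F) : f x (y - z) = f x y - f x z := by
  rw [sub_eq_add_neg, fr_add hf, fnr hf, sub_eq_add_neg]

lemma anti (hf : IsUnitaryForm σ f) {x y : Fin n → F} (h : f x y = 0) : f y x = 0 := by
  rw [hf.herm, h, map_zero]

lemma anti_ne (hf : IsUnitaryForm σ f) {x y : Fin n → F} (h : f x y ≠ 0) : f y x ≠ 0 := fun h' => h (anti hf h')

lemma qfix (hf : IsUnitaryForm σ f) (v : Fin n → F) : σ (f v v) = f v v := (hf.herm v v).symm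

/-- The functional `f(·, w)`. -/
def phi (hf : IsUnitaryForm σ f) (w : Fin n → F) : Module.Dual F (Fin n → F) where
  toFun x := f x w
  map_add' x y := hf.add_left x y w
  map_smul' c x := hf.smul_left c x w

@[simp] lemma phi_apply (hf : IsUnitaryForm σ f) (w x : Fin n → F) : phi hf w x = f x w := rfl

theorem exists_riesz (hf : IsUnitaryForm σ f) (ψ : Module.Dual F (Fin n → F)) : ∃ w, ∀ x, f x w = ψ x := by
  classical
  have hinj : Function.Injective (phi hf) := by
    intro a b hab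
    by_contra hne
    obtain ⟨⟨x, hx⟩, -⟩ := hf.nondegenerate (a - b) (sub_ne_zero.2 hne)
    apply hx
    rw [fsr hf]
    have := congrArg (fun φ => φ x) hab
    simp only [phi_apply] at this
    rw [this, sub_self]
  haveI : Finite (Module.Dual F (Fin n → F)) := Module.finite_of_finite F
  let e := (Pi.basisFun F (Fin n)).toDualEquiv
  have hcard : Nat.card (Module.Dual F (Fin n → F)) ≤ Nat.card (Fin n → F) := by
    rw [Nat.card_congr e.toEquiv]
  have hb := Function.Injective.bijective_of_nat_card_le hinj hcard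
  obtain ⟨w, hw⟩ := hb.2 ψ
  exact ⟨w, fun x => congrArg (fun φ => φ x) hw⟩

theorem exists_sep (hf : IsUnitaryForm σ f) {a w : Fin n → F} (h : w ∉ Submodule.span F {a}) :
    ∃ x, f x a = 0 ∧ f x w = 1 := by
  obtain ⟨φ, hφ, hS⟩ := Submodule.exists_le_ker_of_notMem h
  obtain ⟨u, hu⟩ := exists_riesz hf φ
  have h1 : f a u = 0 := by
    rw [hu]
    exact hS (Submodule.mem_span_singleton_self a)
  have h2 : f u w ≠ 0 := by
    apply anti_ne hf
    rw [hu]
    exact hφ
  refine ⟨(f u w)⁻¹ • u, ?_, ?_⟩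
  · rw [hf.smul_left, anti hf h1, mul_zero]
  · rw [hf.smul_left, inv_mul_cancel₀ h2]

/-- A separation with a subspace. -/
theorem exists_sep_sub (hf : IsUnitaryForm σ f) {S : Submodule F (Fin n → F)} {w : Fin n → F} (h : w ∉ S) :
    ∃ x, (∀ s ∈ S, f x s = 0) ∧ f x w = 1 := by
  obtain ⟨φ, hφ, hS⟩ := Submodule.exists_le_ker_of_notMem h
  obtain ⟨u, hu⟩ := exists_riesz hf φ
  have h2 : f u w ≠ 0 := by
    apply anti_ne hf
    rw [hu]
    exact hφ
  refine ⟨(f u w)⁻¹ • u, fun s hs => ?_, ?_⟩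
  · have h1 : f s u = 0 := by
      rw [hu]
      exact hS hs
    rw [hf.smul_left, anti hf h1, mul_zero]
  · rw [hf.smul_left, inv_mul_cancel₀ h2]

/-- Singular vectors in subspaces of dimension at least two. -/
theorem exists_sing (hS : HS F q σ) (hf : IsUnitaryForm σ f) {U : Submodule F (Fin n → F)} (hU : 2 ≤ Module.finrank F U) :
    ∃ x ∈ U, x ≠ 0 ∧ f x x = 0 := by
  have hne : U ≠ ⊥ := by
    rintro rfl
    rw [finrank_bot] at hU
    omega
  obtain ⟨u, hu, hu0⟩ := Submodule.exists_mem_ne_zero_of_ne_bot hne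
  by_cases hQu : f u u = 0
  · exact ⟨u, hu, hu0, hQu⟩
  have hsp : ¬ U ≤ Submodule.span F {u} := fun hle => by
    have h1 := Submodule.finrank_mono hle
    have h2 : Module.finrank F (Submodule.span F {u}) ≤ 1 := finrank_span_le_card _ |>.trans (by simp)
    omega
  obtain ⟨v, hv, hvn⟩ := SetLike.not_le_iff_exists.1 hsp
  set v' := v - (f v u / f u u) • u with hv'
  have hv'U : v' ∈ U := U.sub_mem hv (U.smul_mem _ hu)
  have hv'u : f v' u = 0 := by
    rw [hv', fsl hf, hf.smul_left]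
    field_simp
    ring
  have hv'0 : v' ≠ 0 := by
    intro h0
    apply hvn
    have : v = (f v u / f u u) • u := sub_eq_zero.1 h0
    rw [this]
    exact Submodule.smul_mem _ _ (Submodule.mem_span_singleton_self u)
  by_cases hQv : f v' v' = 0
  · exact ⟨v', hv'U, hv'0, hQv⟩
  have hτ : σ (-(f u u) / f v' v') = -(f u u) / f v' v' := by
    rw [map_div₀, map_neg, qfix hf, qfix hf]
  obtain ⟨c, hc⟩ := hS.norm_surj hτ
  have huv' : f u v' = 0 := anti hf hv'u
  refine ⟨u + c • v', U.add_mem hu (U.smul_mem _ hv'U), ?_, ?_⟩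
  · intro h0
    have h1 : f (u + c • v') u = f u u := by
      rw [hf.add_left, hf.smul_left, hv'u, mul_zero, add_zero]
    rw [h0, f0l hf] at h1
    exact hQu h1.symm
  · rw [hf.add_left, fr_add hf, fr_add hf, hf.smul_left, hf.smul_left, fr_smul hf, fr_smul hf, huv', hv'u]
    have h2 : c * (σ c * f v' v') = -(f u u) := by
      rw [← mul_assoc, hc]
      field_simp
    simp only [mul_zero, add_zero, zero_add]
    rw [h2]
    ring

/-- The orthogonal complement on the left. -/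
def perp (hf : IsUnitaryForm σ f) (S : Submodule F (Fin n → F)) : Submodule F (Fin n → F) where
  carrier := {y | ∀ s ∈ S, f y s = 0}
  add_mem' := fun {a b} ha hb s hs => by
    rw [hf.add_left, ha s hs, hb s hs, add_zero]
  zero_mem' := fun s _ => f0l hf s
  smul_mem' := fun c x hx s hs => by
    rw [hf.smul_left, hx s hs, mul_zero]

lemma mem_perp (hf : IsUnitaryForm σ f) {S : Submodule F (Fin n → F)} {y : Fin n → F} :
    y ∈ perp hf S ↔ ∀ s ∈ S, f y s = 0 := Iff.rfl

lemma fr_sum (hf : IsUnitaryForm σ f) {κ : Type*} (t : Finset κ) (a : κ → F) (v : κ → Fin n → F) (y : Fin n → F) :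
    f y (∑ i ∈ t, a i • v i) = ∑ i ∈ t, σ (a i) * f y (v i) := by
  classical
  induction t using Finset.induction_on with
  | empty => simpa using f0r hf y
  | insert b s hb ih => rw [Finset.sum_insert hb, Finset.sum_insert hb, fr_add hf, fr_smul hf, ih]

theorem finrank_perp (hf : IsUnitaryForm σ f) (S : Submodule F (Fin n → F)) :
    n ≤ Module.finrank F (perp hf S) + Module.finrank F S := by
  classical
  let b := Module.finBasis F S
  let L : (Fin n → F) →ₗ[F] (Fin (Module.finrank F S) → F) := LinearMap.pi fun i => phi hf (b i : Fin n → F)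
  have hker : LinearMap.ker L ≤ perp hf S := by
    intro y hy s hs
    have h1 : ∀ i, f y (b i : Fin n → F) = 0 := fun i => congrFun (LinearMap.mem_ker.1 hy) i
    have h2 := congrArg (Subtype.val) (b.sum_repr ⟨s, hs⟩)
    simp only [AddSubmonoidClass.coe_finsetSum, Submodule.coe_smul] at h2
    rw [← h2, fr_sum hf]
    exact Finset.sum_eq_zero fun i _ => by rw [h1 i, mul_zero]
  have h1 := LinearMap.finrank_range_add_finrank_ker L
  have h2 : Module.finrank F (LinearMap.range L) ≤ Module.finrank F S := by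
    have := Submodule.finrank_le (LinearMap.range L)
    simpa using this
  have h3 := Submodule.finrank_mono hker
  have h4 : Module.finrank F (Fin n → F) = n := by simp
  omega

/-- Hyperbolic pairs orthogonal to a small subspace. -/
theorem exists_hyp (hS : HS F q σ) (hf : IsUnitaryForm σ f) (S : Submodule F (Fin n → F))
    (hdim : 2 * Module.finrank F S + 2 ≤ n) :
    ∃ p p', f p p = 0 ∧ f p' p' = 0 ∧ f p p' = 1 ∧ (∀ s ∈ S, f p s = 0) ∧ (∀ s ∈ S, f p' s = 0) := by
  set P := perp hf S with hP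
  obtain ⟨E, hE⟩ := Submodule.exists_isCompl (S ⊓ P)
  have hD : 2 ≤ Module.finrank F (E ⊓ P : Submodule F (Fin n → F)) := by
    have h1 := Submodule.finrank_sup_add_finrank_inf_eq E P
    have h2 := Submodule.finrank_sup_add_finrank_inf_eq E (S ⊓ P)
    have h3 : E ⊔ (S ⊓ P) = ⊤ := hE.symm.sup_eq_top
    have h4 : E ⊓ (S ⊓ P) = ⊥ := hE.symm.inf_eq_bot
    rw [h3, h4, finrank_top, finrank_bot] at h2
    have h5 : Module.finrank F (E ⊔ P : Submodule F (Fin n → F)) ≤ Module.finrank F (Fin n → F) := Submodule.finrank_le _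
    have h6 : Module.finrank F (S ⊓ P : Submodule F (Fin n → F)) ≤ Module.finrank F S :=
      Submodule.finrank_mono inf_le_left
    have h7 : n ≤ Module.finrank F P + Module.finrank F S := finrank_perp hf S
    have h8 : Module.finrank F (Fin n → F) = n := by simp
    omega
  obtain ⟨p, hpD, hp0, hQp⟩ := exists_sing hS hf hD
  have hpP : ∀ s ∈ S, f p s = 0 := hpD.2
  have hpS : p ∉ S := fun hs => hp0 (by
    have : p ∈ E ⊓ (S ⊓ P) := ⟨hpD.1, hs, hpD.2⟩
    rw [hE.symm.inf_eq_bot] at this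
    simpa using this)
  obtain ⟨z, hzS, hzp⟩ := exists_sep_sub hf hpS
  have hfix : σ (-(f z z)) = -(f z z) := by rw [map_neg, qfix hf]
  obtain ⟨t, ht⟩ := Cfsg.Agent.H27.SG.tr_surj hS hfix
  -- `z + t • p` is singular and pairs to one with `p`
  refine ⟨p, z + σ t • p, hQp, ?_, ?_, hpP, fun s hs => ?_⟩
  · have hpz : f p z = 1 := by rw [hf.herm, hzp, map_one]
    rw [hf.add_left, fr_add hf, fr_add hf, hf.smul_left, hf.smul_left, fr_smul hf, fr_smul hf, hQp, hzp, hpz,
      hS.inv]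
    linear_combination ht
  · have hpz : f p z = 1 := by rw [hf.herm, hzp, map_one]
    rw [fr_add hf, fr_smul hf, hQp, hpz]
    ring
  · rw [hf.add_left, hf.smul_left, hzS s hs, hpP s hs]
    ring

/-- A singular vector obtained from `x` by a vector in a hyperbolic plane orthogonal to a small subspace containing `x`. -/
theorem singularize (hS : HS F q σ) (hf : IsUnitaryForm σ f) {S : Submodule F (Fin n → F)} {x : Fin n → F} (hx : x ∈ S)
    (hdim : 2 * Module.finrank F S + 2 ≤ n) :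
    ∃ p p' : Fin n → F, ∃ β : F, f p p = 0 ∧ f p' p' = 0 ∧ f p p' = 1 ∧ (∀ s ∈ S, f p s = 0) ∧ (∀ s ∈ S, f p' s = 0) ∧
      f (x + p + β • p') (x + p + β • p') = 0 := by
  obtain ⟨p, p', hQp, hQp', hpp', hpS, hp'S⟩ := exists_hyp hS hf S hdim
  have hfix : σ (-(f x x)) = -(f x x) := by rw [map_neg, qfix hf]
  obtain ⟨β, hβ⟩ := Cfsg.Agent.H27.SG.tr_surj hS hfix
  refine ⟨p, p', β, hQp, hQp', hpp', hpS, hp'S, ?_⟩
  have hp'p : f p' p = 1 := by rw [hf.herm, hpp', map_one]
  have hxp : f x p = 0 := anti hf (hpS x hx)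
  have hxp' : f x p' = 0 := anti hf (hp'S x hx)
  simp only [hf.add_left, fr_add hf, hf.smul_left, fr_smul hf, hQp, hQp', hpp', hp'p, hxp, hxp', hpS x hx, hp'S x hx]
  linear_combination hβ

theorem finrank_span_three_le (a b c : Fin n → F) : Module.finrank F (Submodule.span F {a, b, c}) ≤ 3 := by
  classical
  have h := finrank_span_finset_le_card (R := F) ({a, b, c} : Finset (Fin n → F))
  have h2 : (({a, b, c} : Finset (Fin n → F)) : Set (Fin n → F)) = {a, b, c} := by simp
  rw [h2] at h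
  exact h.trans Finset.card_le_three

theorem finrank_span_two_le (a b : Fin n → F) : Module.finrank F (Submodule.span F {a, b}) ≤ 2 := by
  classical
  have h := finrank_span_finset_le_card (R := F) ({a, b} : Finset (Fin n → F))
  have h2 : (({a, b} : Finset (Fin n → F)) : Set (Fin n → F)) = {a, b} := by simp
  rw [h2] at h
  exact h.trans Finset.card_le_two

/-- A singular vector orthogonal to `a` but not to `w`. -/
theorem exS (hS : HS F q σ) (hf : IsUnitaryForm σ f) (hn : 8 ≤ n) {a w : Fin n → F} (h : w ∉ Submodule.span F {a}) :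
    ∃ b, f b b = 0 ∧ f a b = 0 ∧ f b w ≠ 0 := by
  obtain ⟨x₀, hx₀a, hx₀w⟩ := exists_sep hf h
  have hd : 2 * Module.finrank F (Submodule.span F {x₀, a, w}) + 2 ≤ n := by
    have := finrank_span_three_le x₀ a w
    omega
  have hm1 : x₀ ∈ Submodule.span F {x₀, a, w} := Submodule.subset_span (by simp)
  have hm2 : a ∈ Submodule.span F {x₀, a, w} := Submodule.subset_span (by simp)
  have hm3 : w ∈ Submodule.span F {x₀, a, w} := Submodule.subset_span (by simp)
  obtain ⟨p, p', β, -, -, -, hpS, hp'S, hQ⟩ := singularize hS hf hm1 hd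
  refine ⟨_, hQ, ?_, ?_⟩
  · apply anti hf
    rw [hf.add_left, hf.add_left, hf.smul_left, hx₀a, hpS a hm2, hp'S a hm2]
    ring
  · rw [hf.add_left, hf.add_left, hf.smul_left, hx₀w, hpS w hm3, hp'S w hm3]
    simp

theorem exists_skew (hne : σ ≠ RingEquiv.refl F) (hinv : ∀ a, σ (σ a) = a) : ∃ κ : F, κ ≠ 0 ∧ κ + σ κ = 0 := by
  have : ∃ c, σ c ≠ c := by
    by_contra h
    push Not at h
    apply hne
    ext x
    exact h x
  obtain ⟨c, hc⟩ := this
  refine ⟨c - σ c, sub_ne_zero.2 (Ne.symm hc), ?_⟩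
  rw [map_sub, hinv]
  ring

/-- A singular vector avoiding two hyperplanes inside the perp of `x`. -/
theorem twoS (hS : HS F q σ) (hf : IsUnitaryForm σ f) (hn : 8 ≤ n) {x y y' : Fin n → F} (h : y ∉ Submodule.span F {x})
    (h' : y' ∉ Submodule.span F {x}) : ∃ z, f z z = 0 ∧ f x z = 0 ∧ f z y ≠ 0 ∧ f z y' ≠ 0 := by
  obtain ⟨z₁, hz₁, hz₁x, hz₁y⟩ := exS hS hf hn h
  obtain ⟨z₂, hz₂, hz₂x, hz₂y⟩ := exS hS hf hn h'
  by_cases h1 : f z₁ y' = 0
  · by_cases h2 : f z₂ y = 0
    · by_cases h3 : f z₁ z₂ = 0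
      · refine ⟨z₁ + z₂, ?_, ?_, ?_, ?_⟩
        · rw [hf.add_left, fr_add hf, fr_add hf, hz₁, hz₂, h3, anti hf h3]
          ring
        · rw [fr_add hf, hz₁x, hz₂x, add_zero]
        · rw [hf.add_left, h2, add_zero]
          exact hz₁y
        · rw [hf.add_left, h1, zero_add]
          exact hz₂y
      · obtain ⟨κ, hκ0, hκ⟩ := exists_skew hS.ne hS.inv
        set t := σ (κ / f z₁ z₂) with ht
        have ht0 : t ≠ 0 := by
          rw [ht]
          simp [hκ0, h3]
        have hσt : σ t = κ / f z₁ z₂ := hS.inv _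
        have hz₂z₁ : f z₂ z₁ = σ (f z₁ z₂) := hf.herm _ _
        refine ⟨z₁ + t • z₂, ?_, ?_, ?_, ?_⟩
        · have h5 : σ t * f z₁ z₂ = κ := by
            rw [hσt]
            field_simp
          have h6 : t * f z₂ z₁ = σ κ := by
            have : σ (σ t * f z₁ z₂) = t * f z₂ z₁ := by
              rw [map_mul, hS.inv, ← hz₂z₁]
            rw [← this, h5]
          rw [hf.add_left, fr_add hf, fr_add hf, hf.smul_left, hf.smul_left, fr_smul hf, fr_smul hf, hz₁, hz₂, h5, h6]
          linear_combination hκ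
        · rw [fr_add hf, fr_smul hf, hz₁x, hz₂x]
          ring
        · rw [hf.add_left, hf.smul_left, h2, mul_zero, add_zero]
          exact hz₁y
        · rw [hf.add_left, hf.smul_left, h1, zero_add]
          exact mul_ne_zero ht0 hz₂y
    · exact ⟨z₂, hz₂, hz₂x, h2, hz₂y⟩
  · exact ⟨z₁, hz₁, hz₁x, hz₁y, h1⟩

/-- `M` contains the transvection with centre `a` and functional `f(·, w)`. -/
def TV (f : (Fin n → F) → (Fin n → F) → F) (M : Subgroup GG) (a w : Fin n → F) : Prop :=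
  ∃ t ∈ M, ∀ x, (t : Mat) *ᵥ x = x + f x w • a

theorem exists_t (hf : IsUnitaryForm σ f) {a w : Fin n → F} (h : f a w = 0) :
    ∃ t ∈ specialLinear (Fin n) F, ∀ x, (t : Mat) *ᵥ x = x + f x w • a :=
  exists_tv (phi hf w) a h

theorem TV.congr {M : Subgroup GG} {a w a' w' : Fin n → F} (h : TV f M a w)
    (e : ∀ x, f x w • a = f x w' • a') : TV f M a' w' := by
  obtain ⟨t, ht, htx⟩ := h
  exact ⟨t, ht, fun x => by rw [htx, e]⟩

theorem TV_zero_l (hf : IsUnitaryForm σ f) (M : Subgroup GG) (w : Fin n → F) : TV f M 0 w :=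
  ⟨1, M.one_mem, fun x => by simp⟩

theorem TV_zero_r (hf : IsUnitaryForm σ f) (M : Subgroup GG) (a : Fin n → F) : TV f M a 0 :=
  ⟨1, M.one_mem, fun x => by rw [f0r hf]; simp⟩

theorem TV.add_r (hf : IsUnitaryForm σ f) {M : Subgroup GG} {a w₁ w₂ : Fin n → F} (h₁ : TV f M a w₁) (h₂ : TV f M a w₂)
    (h : f a w₁ = 0) : TV f M a (w₁ + w₂) := by
  obtain ⟨t₁, ht₁, hx₁⟩ := h₁
  obtain ⟨t₂, ht₂, hx₂⟩ := h₂
  refine ⟨t₁ * t₂, M.mul_mem ht₁ ht₂, fun x => ?_⟩
  rw [Units.val_mul, ← Matrix.mulVec_mulVec, hx₂, hx₁, hf.add_left, hf.smul_left, h, fr_add hf]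
  ext i
  simp only [Pi.add_apply, Pi.smul_apply, smul_eq_mul]
  ring

theorem TV.add_l (hf : IsUnitaryForm σ f) {M : Subgroup GG} {a₁ a₂ w : Fin n → F} (h₁ : TV f M a₁ w) (h₂ : TV f M a₂ w)
    (h : f a₂ w = 0) : TV f M (a₁ + a₂) w := by
  obtain ⟨t₁, ht₁, hx₁⟩ := h₁
  obtain ⟨t₂, ht₂, hx₂⟩ := h₂
  refine ⟨t₁ * t₂, M.mul_mem ht₁ ht₂, fun x => ?_⟩
  rw [Units.val_mul, ← Matrix.mulVec_mulVec, hx₂, hx₁, hf.add_left, hf.smul_left, h]
  ext i
  simp only [Pi.add_apply, Pi.smul_apply, smul_eq_mul]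
  ring

/-- The commutator relation. -/
theorem TV.comm1 (hf : IsUnitaryForm σ f) {M : Subgroup GG} {a w b z : Fin n → F} (ha : TV f M a w) (hb : TV f M b z)
    (h1 : f a z = 0) (h2 : f b z = 0) : TV f M (f b w • a) z := by
  obtain ⟨t, ht, htx⟩ := ha
  obtain ⟨s, hs, hsx⟩ := hb
  have h0 : f (f b w • a) z = 0 := by rw [hf.smul_left, h1, mul_zero]
  obtain ⟨r, -, hrx⟩ := exists_t hf h0
  have key : r * (s * t) = t * s := by
    apply gl_ext
    intro x
    rw [Units.val_mul, Units.val_mul, Units.val_mul, ← Matrix.mulVec_mulVec, ← Matrix.mulVec_mulVec, ← Matrix.mulVec_mulVec,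
      htx, hsx, hrx, hsx, htx]
    simp only [hf.add_left, hf.smul_left, h1, h2, mul_zero, add_zero]
    ext i
    simp only [Pi.add_apply, Pi.smul_apply, smul_eq_mul]
    ring
  have : r = t * s * (s * t)⁻¹ := by
    rw [← key]
    group
  refine ⟨r, ?_, hrx⟩
  rw [this]
  exact M.mul_mem (M.mul_mem ht hs) (M.inv_mem (M.mul_mem hs ht))

/-- Conjugation by a transvection of the subgroup. -/
theorem TV.conj_t (hf : IsUnitaryForm σ f) {M : Subgroup GG} {a w b z : Fin n → F} {t : GG} (ht : t ∈ M)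
    (htx : ∀ x, (t : Mat) *ᵥ x = x + f x w • a) (haw : f a w = 0) (hb : TV f M b z) :
    TV f M ((t : Mat) *ᵥ b) (z - σ (f a z) • w) := by
  obtain ⟨s, hs, hsx⟩ := hb
  refine ⟨t * s * t⁻¹, M.mul_mem (M.mul_mem ht hs) (M.inv_mem ht), fun x => ?_⟩
  have hinv : ((t⁻¹ : GG) : Mat) *ᵥ x = x - f x w • a := by
    apply Cfsg.Agent.H27.GO.inv_mulVec_of
    rw [htx, fsl hf, hf.smul_left, haw, mul_zero, sub_zero]
    ext i
    simp
  have hin2 : (t : Mat) *ᵥ (((t⁻¹ : GG) : Mat) *ᵥ x) = x := by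
    rw [Matrix.mulVec_mulVec]
    simp
  rw [Units.val_mul, Units.val_mul, ← Matrix.mulVec_mulVec, ← Matrix.mulVec_mulVec, hsx, Matrix.mulVec_add,
    Matrix.mulVec_smul, hin2, hinv, fsl hf, hf.smul_left, fsr hf, fr_smul hf, hf.involutive]
  congr 2
  ring

end Cfsg.Agent.H27.UF
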