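import Mathlib
import Cfsg.Prelude.Def_GeometricClasses
import Cfsg.Agent.Lib.H27.GeoUF

/-!
# Maximality of the similarity group of a unitary form inside the special linear group
-/

set_option autoImplicit false
set_option linter.unusedSectionVars false
set_option linter.unusedSimpArgs false
set_option linter.unusedVariables false

namespace Cfsg.Agent.H27.UF

open scoped Matrix MatrixGroups
open Cfsg Cfsg.Geo
open Cfsg.Agent.H27.GO (gl_ext)
open Cfsg.Agent.H27.Tv (exists_tv)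
open Cfsg.Agent.H27.ML (sl_le_of_tv)
open Cfsg.Agent.H28 (HS)

variable {n : ℕ} {F : Type*} [Field F] [Fintype F] {q : ℕ} {σ : F ≃+* F} {f : (Fin n → F) → (Fin n → F) → F}

local notation "GG" => GL (Fin n) F
local notation "Mat" => Matrix (Fin n) (Fin n) F

theorem TV_unit (hf : IsUnitaryForm σ f) {M : Subgroup GG} (hH : similarityGroup f ⊓ specialLinear (Fin n) F ≤ M)
    {a : Fin n → F} (ha : f a a = 0) {κ : F} (hκ : κ + σ κ = 0) : TV f M a (κ • a) := by
  have h0 : f a (κ • a) = 0 := by rw [fr_smul hf, ha, mul_zero]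
  obtain ⟨t, htSL, htx⟩ := exists_t hf h0
  refine ⟨t, hH ⟨⟨1, fun u v => ?_⟩, htSL⟩, htx⟩
  rw [htx, htx]
  have h1 : σ (f v a) = f a v := (hf.herm a v).symm
  simp only [fr_smul hf, hf.add_left, hf.smul_left, fr_add hf, Units.val_one, one_mul, ha, map_mul, hf.involutive, h1]
  linear_combination (f u a * f a v) * hκ

theorem not_span_of (hf : IsUnitaryForm σ f) {v c u : Fin n → F} (h1 : f v c = 0) (h2 : f v u ≠ 0) :
    u ∉ Submodule.span F {c} := by
  intro h
  obtain ⟨r, rfl⟩ := Submodule.mem_span_singleton.1 h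
  apply h2
  rw [fr_smul hf, h1, mul_zero]

/-- Step 1: an element outside the similarity group yields a non-unitary transvection. -/
theorem exists_nonunit (hS : HS F q σ) (hf : IsUnitaryForm σ f) (hn : 8 ≤ n) {M : Subgroup GG}
    (hH : similarityGroup f ⊓ specialLinear (Fin n) F ≤ M) {g : GG} (hgM : g ∈ M) (hg : g ∉ similarityGroup f) :
    ∃ a w, a ≠ 0 ∧ w ≠ 0 ∧ f a w = 0 ∧ TV f M a w ∧ ¬ (f a a = 0 ∧ ∃ κ, κ + σ κ = 0 ∧ w = κ • a) := by
  by_contra hcon
  have hN : ∀ a w, a ≠ 0 → w ≠ 0 → f a w = 0 → TV f M a w → f a a = 0 ∧ ∃ κ, κ + σ κ = 0 ∧ w = κ • a := by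
    intro a w h1 h2 h3 h4
    by_contra h5
    exact hcon ⟨a, w, h1, h2, h3, h4, h5⟩
  obtain ⟨κ₀, hκ₀, hκ⟩ := exists_skew hS.ne hS.inv
  have hσκ₀ : σ κ₀ ≠ 0 := by simpa using hκ₀
  have hgg : ∀ y, ((g⁻¹ : GG) : Mat) *ᵥ ((g : Mat) *ᵥ y) = y := by
    intro y
    rw [Matrix.mulVec_mulVec]
    simp
  have hgg' : ∀ y, (g : Mat) *ᵥ (((g⁻¹ : GG) : Mat) *ᵥ y) = y := by
    intro y
    rw [Matrix.mulVec_mulVec]
    simp
  have key : ∀ a, f a a = 0 → a ≠ 0 → ∃ d, d ≠ 0 ∧ ∀ y, f ((g : Mat) *ᵥ y) ((g : Mat) *ᵥ a) = d * f y a := by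
    intro a ha ha0
    obtain ⟨t, ht, htx⟩ := TV_unit hf hH ha hκ
    let ψ : Module.Dual F (Fin n → F) := (phi hf (κ₀ • a)).comp (Matrix.mulVecLin ((g⁻¹ : GG) : Mat))
    obtain ⟨w, hw⟩ := exists_riesz hf ψ
    have hw' : ∀ x, f x w = f (((g⁻¹ : GG) : Mat) *ᵥ x) (κ₀ • a) := fun x => by rw [hw]; rfl
    have hT : TV f M ((g : Mat) *ᵥ a) w := by
      refine ⟨g * t * g⁻¹, M.mul_mem (M.mul_mem hgM ht) (M.inv_mem hgM), fun x => ?_⟩
      rw [Units.val_mul, Units.val_mul, ← Matrix.mulVec_mulVec, ← Matrix.mulVec_mulVec, htx, Matrix.mulVec_add,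
        Matrix.mulVec_smul, hgg', hw']
    have hga0 : (g : Mat) *ᵥ a ≠ 0 := by
      intro h0
      apply ha0
      rw [← hgg a, h0, Matrix.mulVec_zero]
    have hwg : ∀ y, f ((g : Mat) *ᵥ y) w = σ κ₀ * f y a := by
      intro y
      rw [hw', hgg, fr_smul hf]
    have hw0 : w ≠ 0 := by
      rintro rfl
      obtain ⟨⟨x, hx⟩, -⟩ := hf.nondegenerate a ha0
      apply hx
      have := hwg x
      rw [f0r hf] at this
      exact (mul_eq_zero.1 this.symm).resolve_left hσκ₀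
    have hfw : f ((g : Mat) *ᵥ a) w = 0 := by rw [hwg, ha, mul_zero]
    obtain ⟨-, κ, hκ', hwκ⟩ := hN _ w hga0 hw0 hfw hT
    have hκ0 : σ κ ≠ 0 := by
      intro h0
      have : κ = 0 := by simpa using h0
      rw [this, zero_smul] at hwκ
      exact hw0 hwκ
    refine ⟨σ κ₀ / σ κ, div_ne_zero hσκ₀ hκ0, fun y => ?_⟩
    have h1 := hwg y
    rw [hwκ, fr_smul hf] at h1
    field_simp
    linear_combination h1
  have same : ∀ a₁ a₂ d₁ d₂, f a₁ a₁ = 0 → f a₂ a₂ = 0 → a₁ ≠ 0 → f a₁ a₂ = 0 → a₂ ∉ Submodule.span F {a₁} →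
      (∀ y, f ((g : Mat) *ᵥ y) ((g : Mat) *ᵥ a₁) = d₁ * f y a₁) →
      (∀ y, f ((g : Mat) *ᵥ y) ((g : Mat) *ᵥ a₂) = d₂ * f y a₂) → d₁ = d₂ := by
    intro a₁ a₂ d₁ d₂ h1 h2 h10 h12 hsp hd₁ hd₂
    have h21 : f a₂ a₁ = 0 := anti hf h12
    have h3 : f (a₁ + a₂) (a₁ + a₂) = 0 := by
      rw [hf.add_left, fr_add hf, fr_add hf, h1, h2, h12, h21]
      ring
    have h30 : a₁ + a₂ ≠ 0 := by
      intro h0
      apply hsp
      have : a₂ = (-1 : F) • a₁ := by
        rw [neg_one_smul]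
        exact eq_neg_of_add_eq_zero_right h0
      rw [this]
      exact Submodule.smul_mem _ _ (Submodule.mem_span_singleton_self a₁)
    obtain ⟨d₃, hd₃0, hd₃⟩ := key _ h3 h30
    have hsum : ∀ y, d₁ * f y a₁ + d₂ * f y a₂ = d₃ * (f y a₁ + f y a₂) := by
      intro y
      have := hd₃ y
      rw [Matrix.mulVec_add, fr_add hf, fr_add hf, hd₁, hd₂] at this
      exact this
    obtain ⟨y, hy1, hy2⟩ := exists_sep hf hsp
    have h4 := hsum y
    rw [hy1, hy2] at h4
    have hsp' : a₁ ∉ Submodule.span F {a₂} := by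
      intro hmem
      obtain ⟨r, hr⟩ := Submodule.mem_span_singleton.1 hmem
      have hr0 : r ≠ 0 := by
        rintro rfl
        rw [zero_smul] at hr
        exact h10 hr.symm
      apply hsp
      have : a₂ = r⁻¹ • a₁ := by rw [← hr, smul_smul, inv_mul_cancel₀ hr0, one_smul]
      rw [this]
      exact Submodule.smul_mem _ _ (Submodule.mem_span_singleton_self a₁)
    obtain ⟨y', hy'1, hy'2⟩ := exists_sep hf hsp'
    have h5 := hsum y'
    rw [hy'1, hy'2] at h5
    linear_combination h5 - h4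
  have same2 : ∀ a₁ a₂ d₁ d₂, f a₁ a₁ = 0 → f a₂ a₂ = 0 → a₁ ≠ 0 → a₂ ≠ 0 →
      (∀ y, f ((g : Mat) *ᵥ y) ((g : Mat) *ᵥ a₁) = d₁ * f y a₁) →
      (∀ y, f ((g : Mat) *ᵥ y) ((g : Mat) *ᵥ a₂) = d₂ * f y a₂) → d₁ = d₂ := by
    intro a₁ a₂ d₁ d₂ h1 h2 h10 h20 hd₁ hd₂
    have hdim : 2 * Module.finrank F (Submodule.span F {a₁, a₂}) + 2 ≤ n := by
      have := finrank_span_two_le a₁ a₂
      omega
    obtain ⟨p, p', hp, hp', hpp', hpS, hp'S⟩ := exists_hyp hS hf _ hdim
    have hm1 : a₁ ∈ Submodule.span F {a₁, a₂} := Submodule.subset_span (by simp)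
    have hm2 : a₂ ∈ Submodule.span F {a₁, a₂} := Submodule.subset_span (by simp)
    have hp'p : f p' p ≠ 0 := by
      rw [hf.herm, hpp', map_one]
      exact one_ne_zero
    have hp0 : p ≠ 0 := by
      rintro rfl
      exact hp'p (f0r hf _)
    obtain ⟨dp, -, hdp⟩ := key p hp hp0
    have e1 := same a₁ p d₁ dp h1 hp h10 (anti hf (hpS a₁ hm1)) (not_span_of hf (hp'S a₁ hm1) hp'p) hd₁ hdp
    have e2 := same a₂ p d₂ dp h2 hp h20 (anti hf (hpS a₂ hm2)) (not_span_of hf (hp'S a₂ hm2) hp'p) hd₂ hdp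
    rw [e1, e2]
  -- a fixed singular vector
  have hdim0 : 2 * Module.finrank F (⊥ : Submodule F (Fin n → F)) + 2 ≤ n := by
    rw [finrank_bot]
    omega
  obtain ⟨e, e', he, he', hee', -, -⟩ := exists_hyp hS hf ⊥ hdim0
  have he0 : e ≠ 0 := by
    rintro rfl
    rw [f0l hf] at hee'
    exact zero_ne_one hee'
  obtain ⟨d₀, hd₀0, hd₀⟩ := key e he he0
  have hsing : ∀ a, f a a = 0 → ∀ y, f ((g : Mat) *ᵥ y) ((g : Mat) *ᵥ a) = d₀ * f y a := by
    intro a ha y
    by_cases ha0 : a = 0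
    · subst ha0
      rw [Matrix.mulVec_zero, f0r hf, f0r hf, mul_zero]
    obtain ⟨d, -, hd⟩ := key a ha ha0
    rw [same2 e a d₀ d he ha he0 ha0 hd₀ hd]
    exact hd y
  apply hg
  refine ⟨Units.mk0 d₀ hd₀0, fun y z => ?_⟩
  have hdim : 2 * Module.finrank F (Submodule.span F {z}) + 2 ≤ n := by
    have : Module.finrank F (Submodule.span F {z}) ≤ 1 := finrank_span_le_card _ |>.trans (by simp)
    omega
  obtain ⟨p, p', β, hp, hp', hpp', hpS, hp'S, hQ⟩ := singularize hS hf (Submodule.mem_span_singleton_self z) hdim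
  have h1 := hsing _ hQ y
  have h2 := hsing p hp y
  have h3 : f (β • p') (β • p') = 0 := by rw [hf.smul_left, fr_smul hf, hp']; ring
  have h4 := hsing _ h3 y
  rw [Matrix.mulVec_add, Matrix.mulVec_add, fr_add hf, fr_add hf, h2, h4, fr_add hf, fr_add hf] at h1
  rw [Units.val_mk0]
  linear_combination h1

def SOP (f : (Fin n → F) → (Fin n → F) → F) (c d : Fin n → F) : Prop :=
  f c c = 0 ∧ f d d = 0 ∧ f c d = 0 ∧ d ∉ Submodule.span F {c}

/-- Step 2a: a transvection whose centre and axis vector are independent yields a singular one. -/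
theorem step2a (hS : HS F q σ) (hf : IsUnitaryForm σ f) (hn : 8 ≤ n) {M : Subgroup GG}
    (hH : similarityGroup f ⊓ specialLinear (Fin n) F ≤ M) {a w : Fin n → F} (ha : a ≠ 0) (haw : f a w = 0)
    (hT : TV f M a w) (hwa : w ∉ Submodule.span F {a}) : ∃ c d, c ≠ 0 ∧ SOP f c d ∧ TV f M c d := by
  obtain ⟨κ₀, hκ₀, hκ⟩ := exists_skew hS.ne hS.inv
  have hσκ₀ : σ κ₀ ≠ 0 := by simpa using hκ₀
  obtain ⟨b₁, hb₁, hab₁, hb₁w⟩ := exS hS hf hn hwa
  have T₁ := TV.comm1 hf hT (TV_unit hf hH hb₁ hκ) (by rw [fr_smul hf, hab₁, mul_zero]) (by rw [fr_smul hf, hb₁, mul_zero])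
  obtain ⟨a', ha'⟩ : ∃ a', a' = f b₁ w • a := ⟨_, rfl⟩
  rw [← ha'] at T₁
  have ha'0 : a' ≠ 0 := by
    rw [ha']
    exact smul_ne_zero hb₁w ha
  have ha'w : f a' w = 0 := by rw [ha', hf.smul_left, haw, mul_zero]
  have ha'b : a' ∉ Submodule.span F {b₁} := by
    intro hmem
    obtain ⟨r, hr⟩ := Submodule.mem_span_singleton.1 hmem
    have h1 : r * f b₁ w = 0 := by rw [← hf.smul_left, hr, ha'w]
    have hr0 : r = 0 := (mul_eq_zero.1 h1).resolve_right hb₁w
    rw [hr0, zero_smul] at hr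
    exact ha'0 hr.symm
  obtain ⟨c₁, hc₁, hb₁c₁, hc₁a'⟩ := exS hS hf hn ha'b
  have hab' : f a' b₁ = 0 := by rw [ha', hf.smul_left, hab₁, mul_zero]
  have T₂ := TV.comm1 hf (TV_unit hf hH hc₁ hκ) T₁ (by rw [fr_smul hf, anti hf hb₁c₁, mul_zero])
    (by rw [fr_smul hf, hab', mul_zero])
  have ha'c₁ : f a' c₁ ≠ 0 := anti_ne hf hc₁a'
  have hμ : f a' (κ₀ • c₁) ≠ 0 := by
    rw [fr_smul hf]
    exact mul_ne_zero hσκ₀ ha'c₁
  have hb₁0 : b₁ ≠ 0 := by
    rintro rfl
    exact hb₁w (f0l hf w)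
  have hc₁0 : c₁ ≠ 0 := by
    rintro rfl
    exact hc₁a' (f0l hf a')
  obtain ⟨μ, hμd⟩ : ∃ μ, μ = f a' (κ₀ • c₁) := ⟨_, rfl⟩
  rw [← hμd] at T₂ hμ
  refine ⟨_, _, smul_ne_zero hμ hc₁0, ⟨?_, ?_, ?_, ?_⟩, T₂⟩
  · rw [hf.smul_left, fr_smul hf, hc₁]
    ring
  · rw [hf.smul_left, fr_smul hf, hb₁]
    ring
  · rw [hf.smul_left, fr_smul hf, anti hf hb₁c₁]
    ring
  · intro hmem
    obtain ⟨r, hr⟩ := Submodule.mem_span_singleton.1 hmem
    have h1 : f (r • μ • c₁) a' = f (κ₀ • b₁) a' := by rw [hr]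
    rw [hf.smul_left, hf.smul_left, hf.smul_left, anti hf hab', mul_zero] at h1
    have hr0 : r = 0 := by
      by_contra h0
      exact (mul_ne_zero h0 (mul_ne_zero hμ hc₁a')) h1
    rw [hr0, zero_smul] at hr
    exact smul_ne_zero hκ₀ hb₁0 hr.symm

/-- Step 2b: a non-unitary transvection along a singular vector. -/
theorem step2b (hS : HS F q σ) (hf : IsUnitaryForm σ f) (hn : 8 ≤ n) {M : Subgroup GG}
    (hH : similarityGroup f ⊓ specialLinear (Fin n) F ≤ M) {a : Fin n → F} {μ : F} (ha0 : a ≠ 0) (ha : f a a = 0)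
    (hμ : μ + σ μ ≠ 0) (hT : TV f M a (μ • a)) : ∃ c d, c ≠ 0 ∧ SOP f c d ∧ TV f M c d := by
  obtain ⟨κ₀, hκ₀, hκ⟩ := exists_skew hS.ne hS.inv
  have h0a : a ∉ Submodule.span F {(0 : Fin n → F)} := by simpa using ha0
  obtain ⟨b, hb, -, hba⟩ := exS hS hf hn h0a
  obtain ⟨t, ht, htx⟩ := hT
  have haμ : f a (μ • a) = 0 := by rw [fr_smul hf, ha, mul_zero]
  have T₁ := TV.conj_t hf ht htx haμ (TV_unit hf hH hb hκ)
  obtain ⟨l, hl⟩ : ∃ l, l = f b a := ⟨_, rfl⟩
  have hl0 : l ≠ 0 := by rwa [hl]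
  have hab : f a b = σ l := by rw [hl]; exact hf.herm a b
  rw [htx] at T₁
  have e1 : f b (μ • a) = σ μ * l := by rw [fr_smul hf, hl]
  have e2 : σ (f a (κ₀ • b)) = κ₀ * l := by
    rw [fr_smul hf, hab, map_mul, hf.involutive, hf.involutive]
  rw [e1, e2] at T₁
  refine step2a hS hf hn hH (a := b + (σ μ * l) • a) ?_ ?_ T₁ ?_
  · intro h0
    have h1 : f (b + (σ μ * l) • a) a = l := by
      rw [hf.add_left, hf.smul_left, ha, hl]
      ring
    rw [h0, f0l hf] at h1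
    exact hl0 h1.symm
  · have hbb : f b b = 0 := hb
    simp only [hf.add_left, hf.smul_left, fsr hf, fr_smul hf, hbb, ha, hab, ← hl, map_mul, hf.involutive]
    ring
  · intro hmem
    obtain ⟨r, hr⟩ := Submodule.mem_span_singleton.1 hmem
    have h1 : f (r • (b + (σ μ * l) • a)) a = f (κ₀ • b - (κ₀ * l) • μ • a) a := by rw [hr]
    simp only [hf.smul_left, hf.add_left, fsl hf, ha, ← hl] at h1
    have hrκ : r = κ₀ := by
      have : (r - κ₀) * l = 0 := by linear_combination h1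
      have := (mul_eq_zero.1 this).resolve_right hl0
      exact sub_eq_zero.1 this
    subst hrκ
    have h2 : (r * l * (μ + σ μ)) • a = 0 := by
      ext i
      have h3 := congrFun hr i
      simp only [Pi.add_apply, Pi.sub_apply, Pi.smul_apply, smul_eq_mul, Pi.zero_apply] at h3 ⊢
      linear_combination h3
    rcases smul_eq_zero.1 h2 with h3 | h3
    · exact (mul_ne_zero (mul_ne_zero hκ₀ hl0) hμ) h3
    · exact ha0 h3

theorem exists_spair (hS : HS F q σ) (hf : IsUnitaryForm σ f) (hn : 8 ≤ n) {M : Subgroup GG}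
    (hH : similarityGroup f ⊓ specialLinear (Fin n) F ≤ M) {g : GG} (hgM : g ∈ M) (hg : g ∉ similarityGroup f) :
    ∃ c d, c ≠ 0 ∧ SOP f c d ∧ TV f M c d := by
  obtain ⟨a, w, ha0, hw0, haw, hT, hN⟩ := exists_nonunit hS hf hn hH hgM hg
  by_cases hwa : w ∈ Submodule.span F {a}
  · obtain ⟨μ, rfl⟩ := Submodule.mem_span_singleton.1 hwa
    have hμ0 : μ ≠ 0 := by
      rintro rfl
      exact hw0 (zero_smul F a)
    have ha : f a a = 0 := by
      rw [fr_smul hf] at haw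
      exact (mul_eq_zero.1 haw).resolve_left (by simpa using hμ0)
    refine step2b hS hf hn hH ha0 ha ?_ hT
    intro hμ
    exact hN ⟨ha, μ, hμ, rfl⟩
  · exact step2a hS hf hn hH ha0 haw hT hwa

/-- All multiples. -/
def AP (f : (Fin n → F) → (Fin n → F) → F) (M : Subgroup GG) (c d : Fin n → F) : Prop := ∀ s : F, TV f M (s • c) d

theorem move (hf : IsUnitaryForm σ f) {M : Subgroup GG} (hH : similarityGroup f ⊓ specialLinear (Fin n) F ≤ M)
    {κ₀ : F} (hκ : κ₀ + σ κ₀ = 0) {c b d : Fin n → F} {s : F} (hT : TV f M (s • c) b) (hd : f d d = 0) (hcd : f c d = 0) :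
    TV f M ((σ κ₀ * f d b * s) • c) d := by
  have T := TV.comm1 hf hT (TV_unit hf hH hd hκ) (by rw [hf.smul_left, fr_smul hf, hcd]; ring) (by rw [fr_smul hf, hd, mul_zero])
  refine T.congr fun x => ?_
  rw [fr_smul hf]
  ext i
  simp only [Pi.smul_apply, smul_eq_mul]
  ring

/-- A singular partner. -/
theorem exists_partner (hS : HS F q σ) (hf : IsUnitaryForm σ f) {c b : Fin n → F} (hb : f b b = 0) (hbc' : f b c = 0)
    (hbc : b ∉ Submodule.span F {c}) : ∃ b', f b' b' = 0 ∧ f b' c = 0 ∧ f b' b = 1 := by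
  obtain ⟨z, hzc, hzb⟩ := exists_sep hf hbc
  have hfix : σ (-(f z z)) = -(f z z) := by rw [map_neg, qfix hf]
  obtain ⟨t, ht⟩ := Cfsg.Agent.H27.SG.tr_surj hS hfix
  have hbz : f b z = 1 := by rw [hf.herm, hzb, map_one]
  refine ⟨z + t • b, ?_, ?_, ?_⟩
  · simp only [hf.add_left, fr_add hf, hf.smul_left, fr_smul hf, hb, hzb, hbz]
    linear_combination ht
  · rw [hf.add_left, hf.smul_left, hzc, hbc']
    ring
  · rw [hf.add_left, hf.smul_left, hzb, hb]
    ring

/-- Scaling the first coordinate. -/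
theorem scal (hS : HS F q σ) (hf : IsUnitaryForm σ f) (hn : 8 ≤ n) {M : Subgroup GG}
    (hH : similarityGroup f ⊓ specialLinear (Fin n) F ≤ M) {c b : Fin n → F} (hc : f c c = 0) (hb : f b b = 0) (hcb : f c b = 0)
    (hbc : b ∉ Submodule.span F {c}) {s : F} (hs : s ≠ 0) (hT : TV f M (s • c) b) : AP f M c b := by
  intro s'
  obtain ⟨κ₀, hκ₀, hκ⟩ := exists_skew hS.ne hS.inv
  have hk : σ κ₀ ≠ 0 := by simpa using hκ₀
  obtain ⟨b', hb', hb'c, hb'b⟩ := exists_partner hS hf hb (anti hf hcb) hbc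
  have hdim : 2 * Module.finrank F (Submodule.span F {c, b, b'}) + 2 ≤ n := by
    have := finrank_span_three_le c b b'
    omega
  obtain ⟨e, e', he, he', hee', heS, he'S⟩ := exists_hyp hS hf _ hdim
  have hm1 : c ∈ Submodule.span F {c, b, b'} := Submodule.subset_span (by simp)
  have hm2 : b ∈ Submodule.span F {c, b, b'} := Submodule.subset_span (by simp)
  have hm3 : b' ∈ Submodule.span F {c, b, b'} := Submodule.subset_span (by simp)
  have h1 := heS c hm1
  have h2 := heS b hm2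
  have h3 := heS b' hm3
  have h4 := he'S c hm1
  have h5 := he'S b hm2
  have h6 := he'S b' hm3
  have h1' := anti hf h1
  have h2' := anti hf h2
  have h3' := anti hf h3
  have h4' := anti hf h4
  have h5' := anti hf h5
  have h6' := anti hf h6
  have hcb' : f c b' = 0 := anti hf hb'c
  have he'e : f e' e = 1 := by rw [hf.herm, hee', map_one]
  have hbb' : f b b' = 1 := by rw [hf.herm, hb'b, map_one]
  obtain ⟨ξ, hξ⟩ : ∃ ξ, ξ = s' / ((σ κ₀) ^ 3 * s) := ⟨_, rfl⟩
  have hd : f (b' + e) (b' + e) = 0 := by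
    simp only [hf.add_left, fr_add hf, hb', he, h3, h3']
    ring
  have hd' : f (b' + ξ • e') (b' + ξ • e') = 0 := by
    simp only [hf.add_left, fr_add hf, hf.smul_left, fr_smul hf, hb', he', h6, h6']
    ring
  have T1 := move hf hH hκ hT hd (by rw [fr_add hf, hcb', h1']; ring)
  have T2 := move hf hH hκ T1 hd' (by rw [fr_add hf, fr_smul hf, hcb', h4']; ring)
  have T3 := move hf hH hκ T2 hb hcb
  have e1 : f (b' + e) b = 1 := by rw [hf.add_left, hb'b, h2, add_zero]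
  have e2 : f (b' + ξ • e') (b' + e) = ξ := by
    simp only [hf.add_left, fr_add hf, hf.smul_left, fr_smul hf, hb', h3', h6, he'e]
    ring
  have e3 : f b (b' + ξ • e') = 1 := by
    rw [fr_add hf, fr_smul hf, hbb', h5']
    ring
  rw [e1, e2, e3] at T3
  have e4 : σ κ₀ * 1 * (σ κ₀ * ξ * (σ κ₀ * 1 * s)) = s' := by
    rw [hξ]
    field_simp
  rwa [e4] at T3

theorem mvB (hS : HS F q σ) (hf : IsUnitaryForm σ f) (hn : 8 ≤ n) {M : Subgroup GG}
    (hH : similarityGroup f ⊓ specialLinear (Fin n) F ≤ M) {c b d : Fin n → F} (hbc : b ∉ Submodule.span F {c})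
    (hd : f d d = 0) (hcd : f c d = 0) (hdc : d ∉ Submodule.span F {c}) (hT : AP f M c b) : AP f M c d := by
  obtain ⟨κ₀, hκ₀, hκ⟩ := exists_skew hS.ne hS.inv
  have hk : σ κ₀ ≠ 0 := by simpa using hκ₀
  have step : ∀ {x y}, f y y = 0 → f c y = 0 → f y x ≠ 0 → AP f M c x → AP f M c y := by
    intro x y hy hcy hyx hA s'
    have T := move hf hH hκ (hA (s' / (σ κ₀ * f y x))) hy hcy
    have e : σ κ₀ * f y x * (s' / (σ κ₀ * f y x)) = s' := by field_simp
    rwa [e] at T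
  obtain ⟨z, hz, hcz, hzb, hzd⟩ := twoS hS hf hn hbc hdc
  exact step hd hcd (anti_ne hf hzd) (step hz hcz hzb hT)

theorem mvA (hS : HS F q σ) (hf : IsUnitaryForm σ f) (hn : 8 ≤ n) {M : Subgroup GG}
    (hH : similarityGroup f ⊓ specialLinear (Fin n) F ≤ M) {c c' b : Fin n → F} (hc' : f c' c' = 0) (hc'b : f c' b = 0)
    (hcb : f c b = 0) (hcb' : c ∉ Submodule.span F {b}) (hc'b' : c' ∉ Submodule.span F {b}) (hT : AP f M c b) : AP f M c' b := by
  obtain ⟨κ₀, hκ₀, hκ⟩ := exists_skew hS.ne hS.inv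
  have hk : σ κ₀ ≠ 0 := by simpa using hκ₀
  have step : ∀ {x y}, f y y = 0 → f y b = 0 → f x b = 0 → f x y ≠ 0 → AP f M x b → AP f M y b := by
    intro x y hy hyb hxb hxy hA s'
    have T := TV.comm1 hf (TV_unit hf hH hy hκ) (hA (s' / (σ κ₀ * f x y))) hyb (by rw [hf.smul_left, hxb, mul_zero])
    have e : f ((s' / (σ κ₀ * f x y)) • x) (κ₀ • y) = s' := by
      rw [hf.smul_left, fr_smul hf]
      field_simp
    rwa [e] at T
  obtain ⟨z, hz, hbz, hzc, hzc'⟩ := twoS hS hf hn hcb' hc'b'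
  exact step hc' hc'b (anti hf hbz) hzc' (step hz (anti hf hbz) hcb (anti_ne hf hzc) hT)

theorem not_span_comm (hf : IsUnitaryForm σ f) {c d : Fin n → F} (hc0 : c ≠ 0) (h : d ∉ Submodule.span F {c}) :
    c ∉ Submodule.span F {d} := by
  intro hmem
  obtain ⟨r, hr⟩ := Submodule.mem_span_singleton.1 hmem
  have hr0 : r ≠ 0 := by
    rintro rfl
    rw [zero_smul] at hr
    exact hc0 hr.symm
  apply h
  have : d = r⁻¹ • c := by rw [← hr, smul_smul, inv_mul_cancel₀ hr0, one_smul]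
  rw [this]
  exact Submodule.smul_mem _ _ (Submodule.mem_span_singleton_self c)

theorem ap_all (hS : HS F q σ) (hf : IsUnitaryForm σ f) (hn : 8 ≤ n) {M : Subgroup GG}
    (hH : similarityGroup f ⊓ specialLinear (Fin n) F ≤ M) {c d c' d' : Fin n → F} (hc0 : c ≠ 0) (hc'0 : c' ≠ 0)
    (h : SOP f c d) (h' : SOP f c' d') (hT : AP f M c d) : AP f M c' d' := by
  obtain ⟨hc, hd, hcd, hdc⟩ := h
  obtain ⟨hc', hd', hcd', hdc'⟩ := h'
  have hdim : 2 * Module.finrank F (Submodule.span F {c, c'}) + 2 ≤ n := by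
    have := finrank_span_two_le c c'
    omega
  obtain ⟨p, p', hp, hp', hpp', hpS, hp'S⟩ := exists_hyp hS hf _ hdim
  have hm1 : c ∈ Submodule.span F {c, c'} := Submodule.subset_span (by simp)
  have hm2 : c' ∈ Submodule.span F {c, c'} := Submodule.subset_span (by simp)
  have hp'p : f p' p ≠ 0 := by
    rw [hf.herm, hpp', map_one]
    exact one_ne_zero
  have hpc : p ∉ Submodule.span F {c} := not_span_of hf (hp'S c hm1) hp'p
  have hpc' : p ∉ Submodule.span F {c'} := not_span_of hf (hp'S c' hm2) hp'p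
  have A1 : AP f M c p := mvB hS hf hn hH hdc hp (anti hf (hpS c hm1)) hpc hT
  have A2 : AP f M c' p := mvA hS hf hn hH hc' (anti hf (hpS c' hm2)) (anti hf (hpS c hm1))
    (not_span_comm hf hc0 hpc) (not_span_comm hf hc'0 hpc') A1
  exact mvB hS hf hn hH hpc' hd' hcd' hdc' A2

theorem tv_sing (hS : HS F q σ) (hf : IsUnitaryForm σ f) (hn : 8 ≤ n) {M : Subgroup GG}
    (hAll : ∀ c d, c ≠ 0 → SOP f c d → TV f M c d) {c w : Fin n → F} (hc : f c c = 0) (hcw : f c w = 0) : TV f M c w := by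
  by_cases hc0 : c = 0
  · subst hc0
    exact TV_zero_l hf M w
  have hdim : 2 * Module.finrank F (Submodule.span F {c, w}) + 2 ≤ n := by
    have := finrank_span_two_le c w
    omega
  have hm1 : c ∈ Submodule.span F {c, w} := Submodule.subset_span (by simp)
  have hm2 : w ∈ Submodule.span F {c, w} := Submodule.subset_span (by simp)
  obtain ⟨p, p', β, hp, hp', hpp', hpS, hp'S, hQ⟩ := singularize hS hf hm2 hdim
  have h1 := hpS c hm1
  have h2 := hp'S c hm1
  have h3 := hpS w hm2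
  have h4 := hp'S w hm2
  have hp'p : f p' p = 1 := by rw [hf.herm, hpp', map_one]
  have T1 : TV f M c (w + p + β • p') := by
    refine hAll _ _ hc0 ⟨hc, hQ, ?_, not_span_of hf h2 (v := p') ?_⟩
    · rw [fr_add hf, fr_add hf, fr_smul hf, hcw, anti hf h1, anti hf h2]
      ring
    · rw [fr_add hf, fr_add hf, fr_smul hf, h4, hp'p, hp']
      simp
  have T2 : TV f M c (-p) := by
    refine hAll _ _ hc0 ⟨hc, ?_, ?_, not_span_of hf h2 (v := p') ?_⟩
    · rw [fnl hf, fnr hf, hp]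
      simp
    · rw [fnr hf, anti hf h1, neg_zero]
    · rw [fnr hf, hp'p]
      simp
  have T3 : TV f M c (-(β • p')) := by
    by_cases hβ : β = 0
    · rw [hβ, zero_smul, neg_zero]
      exact TV_zero_r hf M c
    refine hAll _ _ hc0 ⟨hc, ?_, ?_, not_span_of hf h1 (v := p) ?_⟩
    · rw [fnl hf, fnr hf, hf.smul_left, fr_smul hf, hp']
      simp
    · rw [fnr hf, fr_smul hf, anti hf h2]
      simp
    · rw [fnr hf, fr_smul hf, hpp', mul_one]
      simpa using hβ
  have T := TV.add_r hf (TV.add_r hf T1 T2 (by rw [fr_add hf, fr_add hf, fr_smul hf, hcw, anti hf h1, anti hf h2]; ring)) T3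
    (by simp only [fr_add hf, fr_smul hf, fnr hf, hcw, anti hf h1, anti hf h2]; ring)
  have e : w + p + β • p' + -p + -(β • p') = w := by abel
  rwa [e] at T

theorem tv_rsing (hS : HS F q σ) (hf : IsUnitaryForm σ f) (hn : 8 ≤ n) {M : Subgroup GG}
    (hAll : ∀ c d, c ≠ 0 → SOP f c d → TV f M c d) {a w : Fin n → F} (hw : f w w = 0) (haw : f a w = 0) : TV f M a w := by
  have hdim : 2 * Module.finrank F (Submodule.span F {a, w}) + 2 ≤ n := by
    have := finrank_span_two_le a w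
    omega
  have hm1 : a ∈ Submodule.span F {a, w} := Submodule.subset_span (by simp)
  have hm2 : w ∈ Submodule.span F {a, w} := Submodule.subset_span (by simp)
  obtain ⟨p, p', β, hp, hp', hpp', hpS, hp'S, hQ⟩ := singularize hS hf hm1 hdim
  have h3 := hpS w hm2
  have h4 := hp'S w hm2
  have T1 : TV f M (a + p + β • p') w := tv_sing hS hf hn hAll hQ (by
    rw [hf.add_left, hf.add_left, hf.smul_left, haw, h3, h4]
    ring)
  have T2 : TV f M (-p) w := tv_sing hS hf hn hAll (by rw [fnl hf, fnr hf, hp]; simp) (by rw [fnl hf, h3, neg_zero])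
  have T3 : TV f M (-(β • p')) w := tv_sing hS hf hn hAll
    (by rw [fnl hf, fnr hf, hf.smul_left, fr_smul hf, hp']; simp) (by rw [fnl hf, hf.smul_left, h4]; simp)
  have T := TV.add_l hf (TV.add_l hf T1 T2 (by rw [fnl hf, h3, neg_zero])) T3 (by rw [fnl hf, hf.smul_left, h4]; simp)
  have e : a + p + β • p' + -p + -(β • p') = a := by abel
  rwa [e] at T

theorem tv_all (hS : HS F q σ) (hf : IsUnitaryForm σ f) (hn : 8 ≤ n) {M : Subgroup GG}
    (hAll : ∀ c d, c ≠ 0 → SOP f c d → TV f M c d) {a w : Fin n → F} (haw : f a w = 0) : TV f M a w := by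
  have hdim : 2 * Module.finrank F (Submodule.span F {a, w}) + 2 ≤ n := by
    have := finrank_span_two_le a w
    omega
  have hm1 : a ∈ Submodule.span F {a, w} := Submodule.subset_span (by simp)
  have hm2 : w ∈ Submodule.span F {a, w} := Submodule.subset_span (by simp)
  obtain ⟨p, p', β, hp, hp', hpp', hpS, hp'S, hQ⟩ := singularize hS hf hm2 hdim
  have h1 := anti hf (hpS a hm1)
  have h2 := anti hf (hp'S a hm1)
  have T1 : TV f M a (w + p + β • p') := tv_rsing hS hf hn hAll hQ (by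
    rw [fr_add hf, fr_add hf, fr_smul hf, haw, h1, h2]
    ring)
  have T2 : TV f M a (-p) := tv_rsing hS hf hn hAll (by rw [fnl hf, fnr hf, hp]; simp) (by rw [fnr hf, h1, neg_zero])
  have T3 : TV f M a (-(β • p')) := tv_rsing hS hf hn hAll
    (by rw [fnl hf, fnr hf, hf.smul_left, fr_smul hf, hp']; simp) (by rw [fnr hf, fr_smul hf, h2]; simp)
  have T := TV.add_r hf (TV.add_r hf T1 T2 (by rw [fr_add hf, fr_add hf, fr_smul hf, haw, h1, h2]; ring)) T3
    (by simp only [fr_add hf, fr_smul hf, fnr hf, haw, h1, h2]; ring)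
  have e : w + p + β • p' + -p + -(β • p') = w := by abel
  rwa [e] at T

/-- A root pair exists and its transvection is not a similarity. -/
theorem exists_sop (hS : HS F q σ) (hf : IsUnitaryForm σ f) (hn : 8 ≤ n) : ∃ c d : Fin n → F, c ≠ 0 ∧ SOP f c d := by
  have hdim0 : 2 * Module.finrank F (⊥ : Submodule F (Fin n → F)) + 2 ≤ n := by
    rw [finrank_bot]
    omega
  obtain ⟨e, e', he, he', hee', -, -⟩ := exists_hyp hS hf ⊥ hdim0
  have hdim : 2 * Module.finrank F (Submodule.span F {e}) + 2 ≤ n := by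
    have : Module.finrank F (Submodule.span F {e}) ≤ 1 := finrank_span_le_card _ |>.trans (by simp)
    omega
  have hm1 : e ∈ Submodule.span F {e} := Submodule.mem_span_singleton_self e
  obtain ⟨p, p', hp, hp', hpp', hpS, hp'S⟩ := exists_hyp hS hf _ hdim
  have hp'p : f p' p ≠ 0 := by
    rw [hf.herm, hpp', map_one]
    exact one_ne_zero
  have he0 : e ≠ 0 := by
    rintro rfl
    rw [f0l hf] at hee'
    exact zero_ne_one hee'
  exact ⟨e, p, he0, he, hp, anti hf (hpS e hm1), not_span_of hf (hp'S e hm1) hp'p⟩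

theorem tv_not_sim (hf : IsUnitaryForm σ f) {c d : Fin n → F} (hc0 : c ≠ 0) (h : SOP f c d) {t : GG}
    (htx : ∀ x, (t : Mat) *ᵥ x = x + f x d • c) : t ∉ similarityGroup f := by
  obtain ⟨hc, hd, hcd, hdc⟩ := h
  rintro ⟨μ, hμ⟩
  obtain ⟨x₀, hx₀c, hx₀d⟩ := exists_sep hf hdc
  have hdc' : f d c = 0 := anti hf hcd
  have hμ1 : (μ : F) = 1 := by
    obtain ⟨⟨x, hx⟩, -⟩ := hf.nondegenerate c hc0
    have h1 := hμ x c
    rw [htx, htx, hcd, zero_smul, add_zero, hf.add_left, hf.smul_left, hc, mul_zero, add_zero] at h1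
    have h2 : ((μ : F) - 1) * f x c = 0 := by linear_combination -h1
    exact sub_eq_zero.1 ((mul_eq_zero.1 h2).resolve_right hx)
  obtain ⟨-, ⟨y, hy⟩⟩ := hf.nondegenerate c hc0
  have h1 := hμ x₀ y
  rw [hμ1, htx, htx, hx₀d, one_mul] at h1
  simp only [hf.add_left, fr_add hf, hf.smul_left, fr_smul hf, hx₀c, hc] at h1
  apply hy
  simpa using h1

/-- The similarity group of a unitary form meets the special linear group in a maximal subgroup. -/
theorem sim_max (hn : 8 ≤ n) {σ : F ≃+* F} {f : (Fin n → F) → (Fin n → F) → F} (hf : IsUnitaryForm σ f) :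
    IsMaximalIn (specialLinear (Fin n) F) (similarityGroup f ⊓ specialLinear (Fin n) F) := by
  obtain ⟨q, hS⟩ := exists_q hf.ne_refl hf.involutive
  haveI : NeZero n := ⟨by omega⟩
  refine ⟨?_, fun M hHM hMK => ?_⟩
  · refine lt_of_le_of_ne inf_le_right fun heq => ?_
    obtain ⟨c, d, hc0, hSOP⟩ := exists_sop hS hf hn
    obtain ⟨t, htSL, htx⟩ := exists_t hf hSOP.2.2.1
    have : t ∈ similarityGroup f ⊓ specialLinear (Fin n) F := (SetLike.ext_iff.1 heq t).2 htSL
    exact tv_not_sim hf hc0 hSOP htx this.1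
  · by_cases hle : M ≤ similarityGroup f
    · left
      exact le_antisymm (le_inf hle hMK) hHM
    right
    obtain ⟨g, hgM, hg⟩ := SetLike.not_le_iff_exists.1 hle
    obtain ⟨c, d, hc0, hSOP, hT⟩ := exists_spair hS hf hn hHM hgM hg
    have hA : AP f M c d := by
      apply scal hS hf hn hHM hSOP.1 hSOP.2.1 hSOP.2.2.1 hSOP.2.2.2 (s := 1) one_ne_zero
      rwa [one_smul]
    have hAll : ∀ c' d', c' ≠ 0 → SOP f c' d' → TV f M c' d' := by
      intro c' d' hc'0 h'
      have := ap_all hS hf hn hHM hc0 hc'0 hSOP h' hA 1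
      rwa [one_smul] at this
    apply le_antisymm hMK
    apply sl_le_of_tv (by omega)
    intro t φ v htSL hφv htx
    obtain ⟨w, hw⟩ := exists_riesz hf φ
    have hvw : f v w = 0 := by rw [hw, hφv]
    obtain ⟨t', ht', ht'x⟩ := tv_all hS hf hn hAll hvw
    have : t = t' := gl_ext fun x => by rw [htx, ht'x, hw]
    rw [this]
    exact ht'

end Cfsg.Agent.H27.UF
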