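import Mathlib
import Cfsg.Prelude.Def_GeometricClasses
import Cfsg.Agent.Lib.H27.GeoUFSL
import Cfsg.Agent.Lib.H27.GeoMaxSp2

/-!
# The stabiliser of a pair of complementary totally singular subspaces in `SU`
-/

set_option autoImplicit false
set_option linter.unusedSectionVars false
set_option linter.unusedSimpArgs false
set_option linter.unusedVariables false

namespace Cfsg.Agent.H27.UP

open scoped Matrix MatrixGroups
open Cfsg Cfsg.Geo
open Cfsg.Agent.H27.GO (gl_ext)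
open Cfsg.Agent.H27.UF
open Cfsg.Agent.H28 (HS)

variable {n k : ℕ} {F : Type*} [Field F] [Fintype F] {q : ℕ} {σ : F ≃+* F} {f : (Fin n → F) → (Fin n → F) → F}

local notation "GG" => GL (Fin n) F
local notation "Mat" => Matrix (Fin n) (Fin n) F

def IsoF (f : (Fin n → F) → (Fin n → F) → F) (g : GG) : Prop := ∀ u v, f ((g : Mat) *ᵥ u) ((g : Mat) *ᵥ v) = f u v

theorem inv_cancel (g : GG) (x : Fin n → F) : (g : Mat) *ᵥ (((g⁻¹ : GG) : Mat) *ᵥ x) = x := by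
  rw [Matrix.mulVec_mulVec]
  simp

theorem inv_cancel' (g : GG) (x : Fin n → F) : ((g⁻¹ : GG) : Mat) *ᵥ ((g : Mat) *ᵥ x) = x := by
  rw [Matrix.mulVec_mulVec]
  simp

theorem IsoF.mul {g h : GG} (hg : IsoF f g) (hh : IsoF f h) : IsoF f (g * h) := by
  intro u v
  rw [Units.val_mul, ← Matrix.mulVec_mulVec, ← Matrix.mulVec_mulVec, hg, hh]

theorem f_inv {g : GG} (hs : IsoF f g) (x y : Fin n → F) : f (((g⁻¹ : GG) : Mat) *ᵥ x) y = f x ((g : Mat) *ᵥ y) := by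
  have h1 := hs (((g⁻¹ : GG) : Mat) *ᵥ x) y
  rw [inv_cancel] at h1
  exact h1.symm

/-- A pair of complementary totally singular subspaces. -/
structure TSP (f : (Fin n → F) → (Fin n → F) → F) (k : ℕ) (A B : Submodule F (Fin n → F)) : Prop where
  tsA : ∀ x ∈ A, ∀ y ∈ A, f x y = 0
  tsB : ∀ x ∈ B, ∀ y ∈ B, f x y = 0
  sup : ∀ x, ∃ a ∈ A, ∃ b ∈ B, x = a + b
  dimA : Module.finrank F A = k
  dimB : Module.finrank F B = k

variable {A B : Submodule F (Fin n → F)}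

theorem TSP.symm (h : TSP f k A B) : TSP f k B A :=
  ⟨h.tsB, h.tsA, fun x => by
    obtain ⟨a, ha, b, hb, rfl⟩ := h.sup x
    exact ⟨b, hb, a, ha, add_comm _ _⟩, h.dimB, h.dimA⟩

theorem TSP.eq_zero (hf : IsUnitaryForm σ f) (h : TSP f k A B) {y : Fin n → F} (ha : ∀ a ∈ A, f y a = 0)
    (hb : ∀ b ∈ B, f y b = 0) : y = 0 := by
  by_contra h0
  obtain ⟨-, ⟨z, hz⟩⟩ := hf.nondegenerate y h0
  obtain ⟨a, ha', b, hb', rfl⟩ := h.sup z
  apply hz
  rw [fr_add hf, ha a ha', hb b hb', add_zero]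

theorem TSP.inf (hf : IsUnitaryForm σ f) (h : TSP f k A B) {x : Fin n → F} (ha : x ∈ A) (hb : x ∈ B) : x = 0 :=
  h.eq_zero hf (fun a ha' => h.tsA _ ha _ ha') (fun b hb' => h.tsB _ hb _ hb')

/-- Functionals on `A` are represented by vectors of `B`. -/
theorem TSP.rep (hf : IsUnitaryForm σ f) (h : TSP f k A B) (ψ : A →ₗ[F] F) : ∃ b ∈ B, ∀ a : A, f (a : Fin n → F) b = ψ a := by
  obtain ⟨g, hg⟩ := LinearMap.exists_extend ψ
  obtain ⟨u, hu⟩ := exists_riesz hf g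
  obtain ⟨a', ha', b, hb, rfl⟩ := h.sup u
  refine ⟨b, hb, fun a => ?_⟩
  have h1 := hu (a : Fin n → F)
  rw [fr_add hf, h.tsA _ a.2 _ ha', zero_add] at h1
  rw [h1, ← hg]
  rfl

theorem TSP.sep (hf : IsUnitaryForm σ f) (h : TSP f k A B) {S : Submodule F (Fin n → F)} {p : Fin n → F} (hp : p ∈ A)
    (hpS : p ∉ S) (c : F) : ∃ b ∈ B, (∀ s ∈ S, s ∈ A → f s b = 0) ∧ f p b = c := by
  have hp' : (⟨p, hp⟩ : A) ∉ S.comap A.subtype := by
    simpa using hpS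
  obtain ⟨g, hg, hgS⟩ := Submodule.exists_le_ker_of_notMem hp'
  obtain ⟨y, hy, hyg⟩ := h.rep hf g
  have hcσ : σ (σ (c / g ⟨p, hp⟩)) = c / g ⟨p, hp⟩ := hf.involutive _
  refine ⟨σ (c / g ⟨p, hp⟩) • y, B.smul_mem _ hy, fun s hs hsA => ?_, ?_⟩
  · have h1 : g ⟨s, hsA⟩ = 0 := hgS (by simpa using hs)
    have h2 := hyg ⟨s, hsA⟩
    rw [fr_smul hf]
    change f s y = _ at h2
    rw [h2, h1, mul_zero]
  · have h2 := hyg ⟨p, hp⟩
    rw [fr_smul hf, hcσ]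
    change f p y = _ at h2
    rw [h2]
    field_simp

theorem exists_perp_ne (hf : IsUnitaryForm σ f) (Y S : Submodule F (Fin n → F)) {r : ℕ} (p : Fin r → Fin n → F)
    (hd : Module.finrank F S + r < Module.finrank F Y) : ∃ y ∈ Y, (∀ i, f y (p i) = 0) ∧ y ∉ S := by
  let L : Y →ₗ[F] (Fin r → F) :=
    { toFun := fun y i => f y (p i)
      map_add' := fun a b => by
        ext i
        exact hf.add_left _ _ _
      map_smul' := fun c a => by
        ext i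
        exact hf.smul_left _ _ _ }
  have h1 := LinearMap.finrank_range_add_finrank_ker L
  have h2 : Module.finrank F (LinearMap.range L) ≤ r := by
    have := Submodule.finrank_le (LinearMap.range L)
    simpa using this
  have h3 : Module.finrank F ((LinearMap.ker L).map Y.subtype) = Module.finrank F (LinearMap.ker L) :=
    Submodule.finrank_map_subtype_eq _ _
  have h4 : ¬ ((LinearMap.ker L).map Y.subtype ≤ S) := fun hle => by
    have := Submodule.finrank_mono hle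
    omega
  obtain ⟨y, hy, hyS⟩ := SetLike.not_le_iff_exists.1 h4
  obtain ⟨y', hy', rfl⟩ := hy
  refine ⟨y', y'.2, fun i => ?_, hyS⟩
  have := congrFun (LinearMap.mem_ker.1 hy') i
  exact this

theorem finrank_singleton_le (w : Fin n → F) : Module.finrank F (Submodule.span F {w}) ≤ 1 :=
  finrank_span_le_card _ |>.trans (by simp)

/-! ### The elements -/

/-- Unitary transvections. -/
def TT (f : (Fin n → F) → (Fin n → F) → F) (M : Subgroup GG) (y : Fin n → F) (l : F) : Prop :=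
  ∃ t ∈ M, ∀ x, (t : Mat) *ᵥ x = x + (l * f x y) • y

theorem exists_ut (hf : IsUnitaryForm σ f) {a : Fin n → F} (ha : f a a = 0) {κ : F} (hκ : κ + σ κ = 0) :
    ∃ t, t ∈ specialLinear (Fin n) F ∧ IsoF f t ∧ ∀ x, (t : Mat) *ᵥ x = x + (κ * f x a) • a := by
  have h0 : f a (σ κ • a) = 0 := by rw [fr_smul hf, ha, mul_zero]
  obtain ⟨t, htSL, htx⟩ := exists_t hf h0
  have hx : ∀ x, (t : Mat) *ᵥ x = x + (κ * f x a) • a := fun x => by
    rw [htx, fr_smul hf, hf.involutive]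
  refine ⟨t, htSL, fun u v => ?_, hx⟩
  rw [hx, hx]
  have h1 : σ (f v a) = f a v := (hf.herm a v).symm
  simp only [fr_smul hf, hf.add_left, hf.smul_left, fr_add hf, ha, map_mul, hf.involutive, h1]
  linear_combination (f u a * f a v) * hκ

theorem TT.conj {M : Subgroup GG} {y : Fin n → F} {l : F} (h : TT f M y l) {g : GG} (hg : g ∈ M) (hs : IsoF f g) :
    TT f M ((g : Mat) *ᵥ y) l := by
  obtain ⟨t, ht, htx⟩ := h
  refine ⟨g * t * g⁻¹, M.mul_mem (M.mul_mem hg ht) (M.inv_mem hg), fun x => ?_⟩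
  rw [Units.val_mul, Units.val_mul, ← Matrix.mulVec_mulVec, ← Matrix.mulVec_mulVec, htx, Matrix.mulVec_add,
    Matrix.mulVec_smul, inv_cancel, f_inv hs]

/-- The generalised root elements in a fixed Heisenberg group. -/
def Hz (f : (Fin n → F) → (Fin n → F) → F) (M : Subgroup GG) (y c : Fin n → F) (μ : F) : Prop :=
  ∃ e ∈ M, ∀ x, (e : Mat) *ᵥ x = x + f x y • c - f x c • y + (μ * f x y) • y

theorem Hz.mul (hf : IsUnitaryForm σ f) {M : Subgroup GG} {y c₁ c₂ : Fin n → F} {μ₁ μ₂ : F} (hy : f y y = 0) (hc₁ : f c₁ y = 0)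
    (hc₂ : f c₂ y = 0) (h₁ : Hz f M y c₁ μ₁) (h₂ : Hz f M y c₂ μ₂) : Hz f M y (c₁ + c₂) (μ₁ + μ₂ - f c₂ c₁) := by
  obtain ⟨e₁, he₁, hx₁⟩ := h₁
  obtain ⟨e₂, he₂, hx₂⟩ := h₂
  refine ⟨e₁ * e₂, M.mul_mem he₁ he₂, fun x => ?_⟩
  have hy₁ : f y c₁ = 0 := anti hf hc₁
  rw [Units.val_mul, ← Matrix.mulVec_mulVec, hx₂, hx₁]
  simp only [hf.add_left, fsl hf, hf.smul_left, fr_add hf, hc₂, hy, hy₁, mul_zero, add_zero, zero_add, sub_zero]
  ext i
  simp only [Pi.add_apply, Pi.sub_apply, Pi.smul_apply, smul_eq_mul]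
  ring

theorem Hz.sub (hf : IsUnitaryForm σ f) {M : Subgroup GG} {y c : Fin n → F} {μ μ' : F} (hy : f y y = 0) (hc : f c y = 0)
    (h : Hz f M y c μ) (h' : Hz f M y c μ') : TT f M y (μ - μ') := by
  obtain ⟨e, he, hx⟩ := h
  obtain ⟨e', he', hx'⟩ := h'
  refine ⟨e * e'⁻¹, M.mul_mem he (M.inv_mem he'), fun x => ?_⟩
  obtain ⟨z, hz⟩ : ∃ z, z = ((e'⁻¹ : GG) : Mat) *ᵥ x := ⟨_, rfl⟩
  have h1 : (e' : Mat) *ᵥ z = x := by rw [hz, inv_cancel]
  have h2 := hx' z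
  rw [h1] at h2
  have h3 : f x y = f z y := by
    rw [h2]
    simp only [hf.add_left, fsl hf, hf.smul_left, hc, hy, mul_zero, add_zero, sub_zero]
  rw [Units.val_mul, ← Matrix.mulVec_mulVec, ← hz, hx, h3, h2]
  ext i
  simp only [Pi.add_apply, Pi.sub_apply, Pi.smul_apply, smul_eq_mul]
  ring

theorem Hz.comm (hf : IsUnitaryForm σ f) {M : Subgroup GG} {y c₁ c₂ : Fin n → F} {μ₁ μ₂ : F} (hy : f y y = 0) (hc₁ : f c₁ y = 0)
    (hc₂ : f c₂ y = 0) (h₁ : Hz f M y c₁ μ₁) (h₂ : Hz f M y c₂ μ₂) : TT f M y (f c₁ c₂ - f c₂ c₁) := by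
  have h3 := Hz.mul hf hy hc₁ hc₂ h₁ h₂
  have h4 := Hz.mul hf hy hc₂ hc₁ h₂ h₁
  rw [add_comm c₂ c₁] at h4
  have hc : f (c₁ + c₂) y = 0 := by rw [hf.add_left, hc₁, hc₂, add_zero]
  have h5 := Hz.sub hf hy hc h3 h4
  have e : μ₁ + μ₂ - f c₂ c₁ - (μ₂ + μ₁ - f c₁ c₂) = f c₁ c₂ - f c₂ c₁ := by ring
  rwa [e] at h5

theorem Hz.conj {M : Subgroup GG} {y c : Fin n → F} {μ : F} (h : Hz f M y c μ) {g : GG} (hg : g ∈ M) (hs : IsoF f g) :
    Hz f M ((g : Mat) *ᵥ y) ((g : Mat) *ᵥ c) μ := by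
  obtain ⟨e, he, hx⟩ := h
  refine ⟨g * e * g⁻¹, M.mul_mem (M.mul_mem hg he) (M.inv_mem hg), fun x => ?_⟩
  rw [Units.val_mul, Units.val_mul, ← Matrix.mulVec_mulVec, ← Matrix.mulVec_mulVec, hx]
  simp only [Matrix.mulVec_add, Matrix.mulVec_sub, Matrix.mulVec_smul]
  rw [inv_cancel, f_inv hs, f_inv hs]

/-- Levi elements. -/
def HR (f : (Fin n → F) → (Fin n → F) → F) (σ : F ≃+* F) (M : Subgroup GG) (A B : Submodule F (Fin n → F)) : Prop :=
  ∀ u ∈ A, ∀ v ∈ B, f u v = 0 → ∀ c : F, ∃ r ∈ M, IsoF f r ∧ ∀ x, (r : Mat) *ᵥ x = x + (c * f x v) • u - (σ c * f x u) • v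

theorem HR.symm (hf : IsUnitaryForm σ f) {M : Subgroup GG} (h : HR f σ M A B) : HR f σ M B A := by
  intro u hu v hv huv c
  obtain ⟨r, hr, hs, hx⟩ := h v hv u hu (anti hf huv) (-(σ c))
  refine ⟨r, hr, hs, fun x => ?_⟩
  rw [hx, map_neg, hf.involutive]
  ext i
  simp only [Pi.add_apply, Pi.sub_apply, Pi.smul_apply, smul_eq_mul]
  ring

theorem exists_rho (hf : IsUnitaryForm σ f) {u v : Fin n → F} (huv : f u v = 0) (hu : f u u = 0) (hv : f v v = 0) (c : F) :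
    ∃ r, r ∈ specialLinear (Fin n) F ∧ IsoF f r ∧ ∀ x, (r : Mat) *ᵥ x = x + (c * f x v) • u - (σ c * f x u) • v := by
  have hvu : f v u = 0 := anti hf huv
  have h1 : f (c • u) v = 0 := by rw [hf.smul_left, huv, mul_zero]
  have h2 : f ((-(σ c)) • v) u = 0 := by rw [hf.smul_left, hvu, mul_zero]
  obtain ⟨t₁, ht₁, hx₁⟩ := exists_t hf h1
  obtain ⟨t₂, ht₂, hx₂⟩ := exists_t hf h2
  have hx : ∀ x, ((t₁ * t₂ : GG) : Mat) *ᵥ x = x + (c * f x v) • u - (σ c * f x u) • v := by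
    intro x
    rw [Units.val_mul, ← Matrix.mulVec_mulVec, hx₂, hx₁, hf.add_left, hf.smul_left, hf.smul_left, hv]
    ext i
    simp only [Pi.add_apply, Pi.sub_apply, Pi.smul_apply, smul_eq_mul]
    ring
  refine ⟨t₁ * t₂, (specialLinear (Fin n) F).mul_mem ht₁ ht₂, fun a b => ?_, hx⟩
  rw [hx, hx]
  have h3 : σ (f b v) = f v b := (hf.herm v b).symm
  have h4 : σ (f b u) = f u b := (hf.herm u b).symm
  simp only [fsl hf, fsr hf, hf.add_left, fr_add hf, hf.smul_left, fr_smul hf, huv, hvu, hu, hv, map_sub, map_mul, h3, h4,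
    hf.involutive]
  ring

/-- Data for the mixing. -/
structure MixD (f : (Fin n → F) → (Fin n → F) → F) (A B : Submodule F (Fin n → F)) (x₀ x₁ u₁ u₂ v₁ v₂ : Fin n → F) : Prop where
  hu₁ : u₁ ∈ A
  hu₂ : u₂ ∈ A
  hv₁ : v₁ ∈ B
  hv₂ : v₂ ∈ B
  u₁v₁ : f u₁ v₁ = 0
  u₂v₂ : f u₂ v₂ = 0
  x₀v₁ : f x₀ v₁ = 0
  x₀v₂ : f x₀ v₂ = 1
  u₂v₁ : f u₂ v₁ = 1
  u₁x₁ : f u₁ x₁ = 1
  u₂x₁ : f u₂ x₁ = 0

theorem exists_mixD (hf : IsUnitaryForm σ f) (h : TSP f k A B) (hk : 4 ≤ k) {x₀ x₁ : Fin n → F} (h0 : x₀ ∈ A) (h1 : x₁ ∈ B)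
    (hx₀ : x₀ ≠ 0) (hx₁ : x₁ ≠ 0) : ∃ u₁ u₂ v₁ v₂, MixD f A B x₀ x₁ u₁ u₂ v₁ v₂ := by
  obtain ⟨u₁, hu₁, -, hx₁u₁⟩ := h.symm.sep hf (S := ⊥) h1 (by simpa using hx₁) 1
  have hu₁x₁ : f u₁ x₁ = 1 := by rw [hf.herm, hx₁u₁, map_one]
  have hd : Module.finrank F (Submodule.span F {u₁, x₀}) + 1 < Module.finrank F A := by
    have := finrank_span_two_le u₁ x₀
    rw [h.dimA]
    omega
  obtain ⟨u₂, hu₂, hu₂p, hu₂S⟩ := exists_perp_ne hf A _ ![x₁] hd
  have hu₂x₁ : f u₂ x₁ = 0 := hu₂p 0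
  obtain ⟨v₁, hv₁, hv₁S, hu₂v₁⟩ := h.sep hf hu₂ hu₂S 1
  have hu₁v₁ : f u₁ v₁ = 0 := hv₁S u₁ (Submodule.subset_span (by simp)) hu₁
  have hx₀v₁ : f x₀ v₁ = 0 := hv₁S x₀ (Submodule.subset_span (by simp)) h0
  have hx₀u₂ : x₀ ∉ Submodule.span F {u₂} := by
    intro hmem
    obtain ⟨r, hr⟩ := Submodule.mem_span_singleton.1 hmem
    have hr0 : r ≠ 0 := by
      rintro rfl
      rw [zero_smul] at hr
      exact hx₀ hr.symm
    apply hu₂S
    have : u₂ = r⁻¹ • x₀ := by rw [← hr, smul_smul, inv_mul_cancel₀ hr0, one_smul]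
    rw [this]
    exact Submodule.smul_mem _ _ (Submodule.subset_span (by simp))
  obtain ⟨v₂, hv₂, hv₂S, hx₀v₂⟩ := h.sep hf h0 hx₀u₂ 1
  have hu₂v₂ : f u₂ v₂ = 0 := hv₂S u₂ (Submodule.mem_span_singleton_self u₂) hu₂
  exact ⟨u₁, u₂, v₁, v₂, ⟨hu₁, hu₂, hv₁, hv₂, hu₁v₁, hu₂v₂, hx₀v₁, hx₀v₂, hu₂v₁, hu₁x₁, hu₂x₁⟩⟩

/-- The mixing commutator. -/
theorem Hz.mix (hS : HS F q σ) (hf : IsUnitaryForm σ f) (h : TSP f k A B) {M : Subgroup GG} (hR : HR f σ M A B)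
    {x₀ x₁ u₁ u₂ v₁ v₂ : Fin n → F} (hx₀ : x₀ ∈ A) (hx₁ : x₁ ∈ B) (hD : MixD f A B x₀ x₁ u₁ u₂ v₁ v₂) {y : Fin n → F}
    (hy : f y y = 0) {l μ : F} (c : F) (hxy : f (x₀ + x₁) y = 0) (h1 : f u₁ y = 0) (h2 : f u₂ y = 0) (h3 : f v₁ y = 0)
    (h4 : f v₂ y = 0) (hH : Hz f M y (l • (x₀ + x₁)) μ) : TT f M y (l * σ l * (c - σ c)) := by
  obtain ⟨hu₁, hu₂, hv₁, hv₂, u₁v₁, u₂v₂, x₀v₁, x₀v₂, u₂v₁, u₁x₁, u₂x₁⟩ := hD
  obtain ⟨r₁, hr₁, hs₁, hx₁'⟩ := hR u₁ hu₁ v₁ hv₁ u₁v₁ c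
  obtain ⟨r₂, hr₂, hs₂, hx₂'⟩ := hR u₂ hu₂ v₂ hv₂ u₂v₂ 1
  have hr₁y : (r₁ : Mat) *ᵥ y = y := by
    rw [hx₁', anti hf h3, anti hf h1]
    simp
  have hr₂y : (r₂ : Mat) *ᵥ y = y := by
    rw [hx₂', anti hf h4, anti hf h2]
    simp
  obtain ⟨x, hx⟩ : ∃ x, x = x₀ + x₁ := ⟨_, rfl⟩
  rw [← hx] at hxy hH
  have hxv₁ : f x v₁ = 0 := by rw [hx, hf.add_left, x₀v₁, h.tsB _ hx₁ _ hv₁, add_zero]
  have hxv₂ : f x v₂ = 1 := by rw [hx, hf.add_left, x₀v₂, h.tsB _ hx₁ _ hv₂, add_zero]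
  have hxu₁ : f x u₁ = 1 := by rw [hx, hf.add_left, h.tsA _ hx₀ _ hu₁, hf.herm x₁ u₁, u₁x₁, map_one, zero_add]
  have hxu₂ : f x u₂ = 0 := by rw [hx, hf.add_left, h.tsA _ hx₀ _ hu₂, hf.herm x₁ u₂, u₂x₁, map_zero, add_zero]
  have hv₁u₂ : f v₁ u₂ = 1 := by rw [hf.herm, u₂v₁, map_one]
  have hr₁x : (r₁ : Mat) *ᵥ x = x - σ c • v₁ := by
    rw [hx₁', hxv₁, hxu₁]
    simp
  have hr₂x : (r₂ : Mat) *ᵥ (x - σ c • v₁) = x - σ c • v₁ + u₂ + σ c • v₂ := by
    rw [hx₂']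
    have e1 : f (x - σ c • v₁) v₂ = 1 := by
      rw [fsl hf, hf.smul_left, h.tsB _ hv₁ _ hv₂, hxv₂]
      ring
    have e2 : f (x - σ c • v₁) u₂ = - σ c := by
      rw [fsl hf, hf.smul_left, hv₁u₂, hxu₂]
      ring
    rw [e1, e2, map_one]
    ext i
    simp only [Pi.add_apply, Pi.sub_apply, Pi.smul_apply, smul_eq_mul]
    ring
  have H1 := hH.conj hr₁ hs₁
  rw [hr₁y, Matrix.mulVec_smul, hr₁x] at H1
  have H2 := H1.conj hr₂ hs₂
  rw [hr₂y, Matrix.mulVec_smul, hr₂x] at H2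
  have hc₁ : f (l • x) y = 0 := by rw [hf.smul_left, hxy, mul_zero]
  have hc₂ : f (l • (x - σ c • v₁ + u₂ + σ c • v₂)) y = 0 := by
    simp only [hf.smul_left, hf.add_left, fsl hf, hxy, h3, h2, h4]
    ring
  have T := Hz.comm hf hy hc₁ hc₂ hH H2
  have e1 : f x (x - σ c • v₁ + u₂ + σ c • v₂) = f x x + c := by
    simp only [fr_add hf, fsr hf, fr_smul hf, hf.involutive, hxv₁, hxv₂, hxu₂]
    ring
  have e2 : f (x - σ c • v₁ + u₂ + σ c • v₂) x = f x x + σ c := by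
    rw [hf.herm, e1, map_add, qfix hf]
  have e3 : f (l • x) (l • (x - σ c • v₁ + u₂ + σ c • v₂)) - f (l • (x - σ c • v₁ + u₂ + σ c • v₂)) (l • x) = l * σ l * (c - σ c) := by
    rw [hf.smul_left, fr_smul hf, hf.smul_left, fr_smul hf, e1, e2]
    ring
  rwa [e3] at T

/-- First step: a mixed image gives a transvection. -/
theorem step1 (hS : HS F q σ) (hf : IsUnitaryForm σ f) (h : TSP f k A B) (hk : 6 ≤ k) {M : Subgroup GG} (hR : HR f σ M A B)
    {g : GG} (hg : g ∈ M) (hs : IsoF f g) {a x₀ x₁ : Fin n → F} (ha : a ∈ A) (h0 : x₀ ∈ A) (h1 : x₁ ∈ B)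
    (hx₀ : x₀ ≠ 0) (hx₁ : x₁ ≠ 0) (hga : (g : Mat) *ᵥ a = x₀ + x₁) :
    ∃ y, y ≠ 0 ∧ f y y = 0 ∧ ∃ l, l ≠ 0 ∧ l + σ l = 0 ∧ TT f M y l := by
  obtain ⟨u₁, u₂, v₁, v₂, hD⟩ := exists_mixD hf h (by omega) h0 h1 hx₀ hx₁
  have hd : Module.finrank F (⊥ : Submodule F (Fin n → F)) + 5 < Module.finrank F B := by
    rw [h.dimB, finrank_bot]
    omega
  obtain ⟨b, hb, hbp, hb0⟩ := exists_perp_ne hf B ⊥ ![a, ((g⁻¹ : GG) : Mat) *ᵥ u₁, ((g⁻¹ : GG) : Mat) *ᵥ u₂,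
    ((g⁻¹ : GG) : Mat) *ᵥ v₁, ((g⁻¹ : GG) : Mat) *ᵥ v₂] hd
  have hba : f b a = 0 := hbp 0
  have e1 : f b (((g⁻¹ : GG) : Mat) *ᵥ u₁) = 0 := hbp 1
  have e2 : f b (((g⁻¹ : GG) : Mat) *ᵥ u₂) = 0 := hbp 2
  have e3 : f b (((g⁻¹ : GG) : Mat) *ᵥ v₁) = 0 := hbp 3
  have e4 : f b (((g⁻¹ : GG) : Mat) *ᵥ v₂) = 0 := hbp 4
  have hb0' : b ≠ 0 := by simpa using hb0
  obtain ⟨y, hy⟩ : ∃ y, y = (g : Mat) *ᵥ b := ⟨_, rfl⟩
  have hy0 : y ≠ 0 := by
    intro h2
    apply hb0'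
    have := inv_cancel' g b
    rw [← this, ← hy, h2]
    simp
  have hyy : f y y = 0 := by rw [hy, hs, h.tsB _ hb _ hb]
  obtain ⟨c, hc⟩ := hS.exists_ne
  have hl0 : c - σ c ≠ 0 := sub_ne_zero.2 (Ne.symm hc)
  have hl1 : (c - σ c) + σ (c - σ c) = 0 := by
    rw [map_sub, hf.involutive]
    ring
  refine ⟨y, hy0, hyy, c - σ c, hl0, hl1, ?_⟩
  obtain ⟨r₀, hr₀, -, hr₀x⟩ := hR a ha b hb (anti hf hba) 1
  have hH : Hz f M b a 0 := ⟨r₀, hr₀, fun x => by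
    rw [hr₀x, map_one]
    simp⟩
  have hH1 := hH.conj hg hs
  rw [hga, ← hy] at hH1
  have hH2 : Hz f M y ((1 : F) • (x₀ + x₁)) 0 := by rwa [one_smul]
  have hm : ∀ w, f b (((g⁻¹ : GG) : Mat) *ᵥ w) = 0 → f w y = 0 := by
    intro w hw
    rw [hy, ← f_inv hs]
    exact anti hf hw
  have T := Hz.mix hS hf h hR h0 h1 hD hyy c (by
    rw [← hga, hy, hs]
    exact anti hf hba) (hm _ e1) (hm _ e2) (hm _ e3) (hm _ e4) hH2
  rw [map_one, mul_one, one_mul] at T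
  exact T

/-- Second step: from a mixed centre to a centre in `A`. -/
theorem step2 (hS : HS F q σ) (hf : IsUnitaryForm σ f) (h : TSP f k A B) (hk : 5 ≤ k) {M : Subgroup GG} (hR : HR f σ M A B)
    {y₀ y₁ : Fin n → F} {l : F} (h0 : y₀ ∈ A) (h1 : y₁ ∈ B) (hy₀ : y₀ ≠ 0) (hy₁ : y₁ ≠ 0) (hl0 : l ≠ 0) (hl : l + σ l = 0)
    (hyy : f (y₀ + y₁) (y₀ + y₁) = 0) (ht : TT f M (y₀ + y₁) l) :
    ∃ d ∈ A, d ≠ 0 ∧ ∃ k', k' ≠ 0 ∧ k' + σ k' = 0 ∧ TT f M d k' := by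
  obtain ⟨u₁, u₂, v₁, v₂, hD⟩ := exists_mixD hf h (by omega) h0 h1 hy₀ hy₁
  have hd : Module.finrank F (Submodule.span F {y₀}) + 3 < Module.finrank F A := by
    have := finrank_singleton_le y₀
    rw [h.dimA]
    omega
  obtain ⟨d, hdA, hdp, hdn⟩ := exists_perp_ne hf A _ ![y₁, v₁, v₂] hd
  have hdy₁ : f d y₁ = 0 := hdp 0
  have hdv₁ : f d v₁ = 0 := hdp 1
  have hdv₂ : f d v₂ = 0 := hdp 2
  have hd0 : d ≠ 0 := by
    rintro rfl
    exact hdn (Submodule.zero_mem _)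
  have hy₀d : y₀ ∉ Submodule.span F {d} := not_span_comm hf hy₀ hdn
  obtain ⟨v₃, hv₃, hv₃S, hy₀v₃⟩ := h.sep hf h0 hy₀d 1
  have hdv₃ : f d v₃ = 0 := hv₃S d (Submodule.mem_span_singleton_self d) hdA
  obtain ⟨y, hy⟩ : ∃ y, y = y₀ + y₁ := ⟨_, rfl⟩
  rw [← hy] at hyy ht
  have hyd : f y d = 0 := by rw [hy, hf.add_left, h.tsA _ h0 _ hdA, anti hf hdy₁, add_zero]
  have hdy : f d y = 0 := anti hf hyd
  have hdd : f d d = 0 := h.tsA _ hdA _ hdA
  obtain ⟨r₃, hr₃, hs₃, hr₃x⟩ := hR d hdA v₃ hv₃ hdv₃ 1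
  have hr₃y : (r₃ : Mat) *ᵥ y = y + d := by
    rw [hr₃x, hyd, hy, hf.add_left, hy₀v₃, h.tsB _ h1 _ hv₃]
    simp
  have T2 := ht.conj hr₃ hs₃
  rw [hr₃y] at T2
  obtain ⟨t₂, ht₂, ht₂x⟩ := T2
  obtain ⟨t₁, ht₁, ht₁x⟩ := ht
  have hH : Hz f M d (l • y) l := by
    refine ⟨t₂ * t₁⁻¹, M.mul_mem ht₂ (M.inv_mem ht₁), fun x => ?_⟩
    obtain ⟨z, hz⟩ : ∃ z, z = ((t₁⁻¹ : GG) : Mat) *ᵥ x := ⟨_, rfl⟩
    have h3 : x = z + (l * f z y) • y := by rw [← ht₁x, hz, inv_cancel]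
    have h4 : f x y = f z y := by
      rw [h3, hf.add_left, hf.smul_left, hyy]
      ring
    have h5 : f x d = f z d := by
      rw [h3, hf.add_left, hf.smul_left, hyd]
      ring
    have hσl : σ l = -l := by linear_combination hl
    rw [Units.val_mul, ← Matrix.mulVec_mulVec, ← hz, ht₂x, fr_add hf, fr_smul hf, h4, h5, hσl, h3]
    ext i
    simp only [Pi.add_apply, Pi.sub_apply, Pi.smul_apply, smul_eq_mul]
    ring
  have hl' : l * σ l ≠ 0 := mul_ne_zero hl0 (by simpa using hl0)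
  obtain ⟨c, hc⟩ := hS.exists_ne
  have hc0 : c - σ c ≠ 0 := sub_ne_zero.2 (Ne.symm hc)
  refine ⟨d, hdA, hd0, l * σ l * (c - σ c), mul_ne_zero hl' hc0, ?_, ?_⟩
  · rw [map_mul, map_mul, map_sub, hf.involutive, hf.involutive]
    have : l * σ l * (c - σ c) + σ l * l * (σ c - c) = 0 := by ring
    exact this
  · refine Hz.mix hS hf h hR h0 h1 hD hdd (μ := l) c ?_ (h.tsA _ hD.hu₁ _ hdA) (h.tsA _ hD.hu₂ _ hdA) (anti hf hdv₁) (anti hf hdv₂) ?_
    · rw [← hy]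
      exact hyd
    · rw [← hy]
      exact hH

theorem TT.scale (hf : IsUnitaryForm σ f) {M : Subgroup GG} {w : Fin n → F} {l : F} (a : F) (h : TT f M (a • w) l) :
    TT f M w (l * (a * σ a)) := by
  obtain ⟨t, ht, htx⟩ := h
  refine ⟨t, ht, fun x => ?_⟩
  rw [htx, fr_smul hf, smul_smul]
  congr 2
  ring

theorem TT_zero (hf : IsUnitaryForm σ f) (M : Subgroup GG) (l : F) : TT f M 0 l :=
  ⟨1, M.one_mem, fun x => by simp⟩

/-- Third step: all vectors of `A`, with all scalars. -/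
theorem step3 (hS : HS F q σ) (hf : IsUnitaryForm σ f) (h : TSP f k A B) (hk : 3 ≤ k) {M : Subgroup GG} (hR : HR f σ M A B)
    {d : Fin n → F} {l : F} (hd : d ∈ A) (hd0 : d ≠ 0) (hl0 : l ≠ 0) (hl : l + σ l = 0) (ht : TT f M d l) :
    ∀ w ∈ A, ∀ κ, κ + σ κ = 0 → TT f M w κ := by
  have hmove : ∀ a ∈ A, a ≠ 0 → ∀ w ∈ A, w ∉ Submodule.span F {a} → TT f M a l → TT f M w l := by
    intro a ha ha0 w hw hwn hta
    have hn := not_span_comm hf ha0 hwn
    obtain ⟨v₁, hv₁, hv₁S, hav₁⟩ := h.sep hf ha hn 1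
    obtain ⟨v₂, hv₂, hv₂S, hwv₂⟩ := h.sep hf hw hwn 1
    have hwv₁ : f w v₁ = 0 := hv₁S w (Submodule.mem_span_singleton_self w) hw
    have hav₂ : f a v₂ = 0 := hv₂S a (Submodule.mem_span_singleton_self a) ha
    have hav : f a (v₁ + v₂) = 1 := by rw [fr_add hf, hav₁, hav₂, add_zero]
    have hwv : f w (v₁ + v₂) = 1 := by rw [fr_add hf, hwv₁, hwv₂, zero_add]
    have hwa : f (w - a) (v₁ + v₂) = 0 := by rw [fsl hf, hav, hwv, sub_self]
    obtain ⟨r, hr, hrs, hrx⟩ := hR (w - a) (A.sub_mem hw ha) (v₁ + v₂) (B.add_mem hv₁ hv₂) hwa 1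
    have hra : (r : Mat) *ᵥ a = w := by
      rw [hrx, hav, fsr hf, h.tsA _ ha _ ha, h.tsA _ ha _ hw]
      simp
    have := hta.conj hr hrs
    rwa [hra] at this
  have hall : ∀ w ∈ A, TT f M w l := by
    intro w hw
    by_cases hw0 : w = 0
    · rw [hw0]
      exact TT_zero hf M l
    by_cases hwd : w ∈ Submodule.span F {d}
    · have hf' : Module.finrank F (Submodule.span F {d}) + 0 < Module.finrank F A := by
        have := finrank_singleton_le d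
        rw [h.dimA]
        omega
      obtain ⟨d', hd', -, hd'n⟩ := exists_perp_ne hf A (Submodule.span F {d}) ![] hf'
      have h3 := hmove d hd hd0 d' hd' hd'n ht
      have hd'0 : d' ≠ 0 := by
        rintro rfl
        exact hd'n (Submodule.zero_mem _)
      refine hmove d' hd' hd'0 w hw ?_ h3
      intro hm'
      obtain ⟨c, rfl⟩ := Submodule.mem_span_singleton.1 hm'
      apply hd'n
      have hc : c ≠ 0 := by
        rintro rfl
        exact hw0 (zero_smul _ _)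
      have h5 := Submodule.smul_mem _ c⁻¹ hwd
      rwa [smul_smul, inv_mul_cancel₀ hc, one_smul] at h5
    · exact hmove d hd hd0 w hw hwd ht
  intro w hw κ hκ
  have hσl : σ l = -l := by linear_combination hl
  have hσκ : σ κ = -κ := by linear_combination hκ
  have hτ : σ (κ / l) = κ / l := by
    rw [map_div₀, hσl, hσκ]
    field_simp
  obtain ⟨a, ha⟩ := hS.norm_surj hτ
  have T := (hall _ (A.smul_mem a hw)).scale hf a
  rwa [ha, mul_div_cancel₀ _ hl0] at T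

/-- Fourth step: all transvections. -/
theorem step4 (hS : HS F q σ) (hf : IsUnitaryForm σ f) (h : TSP f k A B) {M : Subgroup GG}
    (hA : ∀ w ∈ A, ∀ κ, κ + σ κ = 0 → TT f M w κ) (hB : ∀ w ∈ B, ∀ κ, κ + σ κ = 0 → TT f M w κ)
    {u : Fin n → F} (hu : f u u = 0) {κ : F} (hκ : κ + σ κ = 0) : TT f M u κ := by
  -- conjugation by a transvection of `A`
  have hconj : ∀ {w a : Fin n → F} {θ : F}, f w w = 0 → θ + σ θ = 0 → TT f M w θ → TT f M a κ →
      TT f M (a + (θ * f a w) • w) κ := by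
    intro w a θ hw hθ h1 h2
    obtain ⟨t, ht, htx⟩ := h1
    have hiso : IsoF f t := by
      intro x y
      rw [htx, htx]
      have h3 : σ (f y w) = f w y := (hf.herm w y).symm
      simp only [fr_smul hf, hf.add_left, hf.smul_left, fr_add hf, hw, map_mul, hf.involutive, h3]
      linear_combination (f x w * f w y) * hθ
    have := h2.conj ht hiso
    rwa [htx] at this
  obtain ⟨κ₀, hκ₀, hκs⟩ := exists_skew hS.ne hS.inv
  have hgood : ∀ a ∈ A, ∀ b ∈ B, f b a ≠ 0 → f b a + σ (f b a) = 0 → TT f M (a + b) κ := by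
    intro a ha b hb hba hsk
    have hσ : σ (f b a) = - f b a := by linear_combination hsk
    have h1 := hconj (h.tsA _ ha _ ha) (θ := (f b a)⁻¹) (by
      rw [map_inv₀, hσ, inv_neg]
      ring) (hA a ha _ (by
      rw [map_inv₀, hσ, inv_neg]
      ring)) (hB b hb κ hκ)
    rw [inv_mul_cancel₀ hba, one_smul, add_comm] at h1
    exact h1
  obtain ⟨u₀, hu₀, u₁, hu₁, rfl⟩ := h.sup u
  by_cases h0 : f u₁ u₀ = 0
  · by_cases h00 : u₀ = 0
    · rw [h00, zero_add]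
      exact hB _ hu₁ _ hκ
    by_cases h01 : u₁ = 0
    · rw [h01, add_zero]
      exact hA _ hu₀ _ hκ
    obtain ⟨a₁, ha₁, -, h1a₁⟩ := h.symm.sep hf (S := ⊥) hu₁ (by simpa using h01) κ₀
    have hx := hgood a₁ ha₁ u₁ hu₁ (by rw [h1a₁]; exact hκ₀) (by rw [h1a₁]; exact hκs)
    have hσ : σ κ₀ = -κ₀ := by linear_combination hκs
    have hθ : -κ₀⁻¹ + σ (-κ₀⁻¹) = 0 := by
      rw [map_neg, map_inv₀, hσ, inv_neg]
      ring
    have hT := hA _ (A.sub_mem hu₀ ha₁) (-κ₀⁻¹) hθ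
    have hs : f (u₀ - a₁) (u₀ - a₁) = 0 := h.tsA _ (A.sub_mem hu₀ ha₁) _ (A.sub_mem hu₀ ha₁)
    have h3 := hconj hs hθ hT hx
    have e : a₁ + u₁ + (-κ₀⁻¹ * f (a₁ + u₁) (u₀ - a₁)) • (u₀ - a₁) = u₀ + u₁ := by
      have e1 : f (a₁ + u₁) (u₀ - a₁) = -κ₀ := by
        rw [fsr hf, hf.add_left, hf.add_left, h.tsA _ ha₁ _ hu₀, h.tsA _ ha₁ _ ha₁, h0, h1a₁]
        ring
      rw [e1]
      have e2 : -κ₀⁻¹ * -κ₀ = 1 := by field_simp
      rw [e2, one_smul]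
      abel
    rwa [e] at h3
  · refine hgood u₀ hu₀ u₁ hu₁ h0 ?_
    have h1 : f (u₀ + u₁) (u₀ + u₁) = f u₁ u₀ + f u₀ u₁ := by
      rw [hf.add_left, fr_add hf, fr_add hf, h.tsA _ hu₀ _ hu₀, h.tsB _ hu₁ _ hu₁]
      ring
    rw [hu] at h1
    rw [← hf.herm u₀ u₁]
    exact h1.symm

/-- Sum of commuting transvections. -/
theorem exists_U (hf : IsUnitaryForm σ f) {κ : F} (hκ : κ + σ κ = 0) {ι : Type*} [DecidableEq ι] (e : ι → Fin n → F)
    (he : ∀ i j, f (e i) (e j) = 0) (I : Finset ι) :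
    ∃ t, t ∈ specialLinear (Fin n) F ∧ IsoF f t ∧ ∀ x, (t : Mat) *ᵥ x = x + κ • ∑ i ∈ I, f x (e i) • e i := by
  induction I using Finset.induction_on with
  | empty =>
    exact ⟨1, one_mem _, fun u v => by simp, fun x => by simp⟩
  | insert j I hj ih =>
    obtain ⟨t, ht, hti, htx⟩ := ih
    obtain ⟨t', ht', hti', htx'⟩ := exists_ut hf (he j j) hκ
    refine ⟨t' * t, mul_mem ht' ht, hti'.mul hti, fun x => ?_⟩
    have h1 : f (∑ i ∈ I, f x (e i) • e i) (e j) = 0 := by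
      have : ∀ s : Finset ι, f (∑ i ∈ s, f x (e i) • e i) (e j) = 0 := by
        intro s
        induction s using Finset.induction_on with
        | empty => simpa using f0l hf (e j)
        | insert a s ha ih2 => rw [Finset.sum_insert ha, hf.add_left, hf.smul_left, ih2, he, mul_zero, add_zero]
      exact this I
    rw [Units.val_mul, ← Matrix.mulVec_mulVec, htx, htx', hf.add_left, hf.smul_left, h1, mul_zero, add_zero,
      Finset.sum_insert hj]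
    ext i
    simp only [Pi.add_apply, Pi.smul_apply, smul_eq_mul]
    ring

theorem f_sum_left (hf : IsUnitaryForm σ f) {ι : Type*} [DecidableEq ι] (I : Finset ι) (c : ι → F) (v : ι → Fin n → F) (y : Fin n → F) :
    f (∑ i ∈ I, c i • v i) y = ∑ i ∈ I, c i * f (v i) y := by
  induction I using Finset.induction_on with
  | empty => simpa using f0l hf y
  | insert b s hb ih => rw [Finset.sum_insert hb, Finset.sum_insert hb, hf.add_left, hf.smul_left, ih]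

/-- An element of `SU` interchanging the two subspaces. -/
theorem exists_swap (hS : HS F q σ) (hf : IsUnitaryForm σ f) (h : TSP f k A B) :
    ∃ s, s ∈ specialLinear (Fin n) F ∧ IsoF f s ∧ (∀ x ∈ A, (s : Mat) *ᵥ x ∈ B) ∧ ∀ x ∈ B, (s : Mat) *ᵥ x ∈ A := by
  classical
  let e : Module.Basis (Fin k) F A := Module.finBasisOfFinrankEq F A h.dimA
  have hb : ∀ i, ∃ b ∈ B, ∀ a : A, f (a : Fin n → F) b = e.coord i a := fun i => h.rep hf (e.coord i)
  choose b hbB hbv using hb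
  let E : Fin k → Fin n → F := fun i => (e i : Fin n → F)
  have hE : ∀ i, E i ∈ A := fun i => (e i).2
  have hEb : ∀ i j, f (E i) (b j) = if i = j then 1 else 0 := by
    intro i j
    have := hbv j (e i)
    rw [show f (E i) (b j) = _ from this]
    simp [Module.Basis.coord_apply, Finsupp.single_apply]
  have hbE : ∀ i j, f (b i) (E j) = if i = j then 1 else 0 := by
    intro i j
    rw [hf.herm, hEb j i]
    by_cases hij : i = j
    · subst hij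
      simp
    · simp [hij, Ne.symm hij]
  have hexpA : ∀ x ∈ A, x = ∑ i, f x (b i) • E i := by
    intro x hx
    have h1 := congrArg (Subtype.val) (e.sum_repr ⟨x, hx⟩)
    simp only [AddSubmonoidClass.coe_finsetSum, Submodule.coe_smul] at h1
    have h2 : ∀ i, f x (b i) = e.repr ⟨x, hx⟩ i := by
      intro i
      exact hbv i ⟨x, hx⟩
    simp only [h2]
    exact h1.symm
  have hexpB : ∀ x ∈ B, x = ∑ i, f x (E i) • b i := by
    intro x hx
    have hmem : x - ∑ i, f x (E i) • b i ∈ B := B.sub_mem hx (B.sum_mem fun i _ => B.smul_mem _ (hbB i))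
    have h0 := h.eq_zero hf (y := x - ∑ i, f x (E i) • b i) ?_ (fun c hc => h.tsB _ hmem _ hc)
    · exact sub_eq_zero.1 h0
    · intro a ha
      rw [hexpA a ha, fr_sum hf]
      refine Finset.sum_eq_zero fun j _ => ?_
      rw [fsl hf, f_sum_left hf]
      simp only [hbE]
      simp
  obtain ⟨κ₀, hκ₀, hκ⟩ := exists_skew hS.ne hS.inv
  have hσ : σ κ₀ = -κ₀ := by linear_combination hκ
  have hlam : -κ₀⁻¹ + σ (-κ₀⁻¹) = 0 := by
    rw [map_neg, map_inv₀, hσ, inv_neg]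
    ring
  have hEE : ∀ i j, f (E i) (E j) = 0 := fun i j => h.tsA _ (hE i) _ (hE j)
  have hbb : ∀ i j, f (b i) (b j) = 0 := fun i j => h.tsB _ (hbB i) _ (hbB j)
  obtain ⟨U, hU, hUi, hUx⟩ := exists_U hf hκ E hEE Finset.univ
  obtain ⟨L, hL, hLi, hLx⟩ := exists_U hf hlam b hbb Finset.univ
  have hUA : ∀ x ∈ A, (U : Mat) *ᵥ x = x := by
    intro x hx
    rw [hUx]
    simp [h.tsA _ hx _ (hE _)]
  have hLB : ∀ x ∈ B, (L : Mat) *ᵥ x = x := by
    intro x hx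
    rw [hLx]
    simp [h.tsB _ hx _ (hbB _)]
  refine ⟨U * L * U, mul_mem (mul_mem hU hL) hU, (hUi.mul hLi).mul hUi, fun x hx => ?_, fun x hx => ?_⟩
  · rw [Units.val_mul, Units.val_mul, ← Matrix.mulVec_mulVec, ← Matrix.mulVec_mulVec, hUA x hx, hLx, hUx]
    have h1 : ∀ j, f (x + -κ₀⁻¹ • ∑ i, f x (b i) • b i) (E j) = -κ₀⁻¹ * f x (b j) := by
      intro j
      rw [hf.add_left, hf.smul_left, f_sum_left hf, h.tsA _ hx _ (hE j)]
      simp only [hbE]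
      simp
    simp only [h1]
    have h2 : x + -κ₀⁻¹ • ∑ i, f x (b i) • b i + κ₀ • ∑ i, (-κ₀⁻¹ * f x (b i)) • E i =
        -κ₀⁻¹ • ∑ i, f x (b i) • b i := by
      have h3 : κ₀ • ∑ i, (-κ₀⁻¹ * f x (b i)) • E i = - ∑ i, f x (b i) • E i := by
        rw [Finset.smul_sum, ← Finset.sum_neg_distrib]
        refine Finset.sum_congr rfl fun i _ => ?_
        rw [smul_smul, ← neg_smul]
        congr 1
        field_simp
      rw [h3, ← hexpA x hx]
      abel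
    rw [h2]
    exact B.smul_mem _ (B.sum_mem fun i _ => B.smul_mem _ (hbB i))
  · rw [Units.val_mul, Units.val_mul, ← Matrix.mulVec_mulVec, ← Matrix.mulVec_mulVec, hUx x, hLx]
    have h1 : ∀ j, f (x + κ₀ • ∑ i, f x (E i) • E i) (b j) = κ₀ * f x (E j) := by
      intro j
      rw [hf.add_left, hf.smul_left, f_sum_left hf, h.tsB _ hx _ (hbB j)]
      simp only [hEb]
      simp
    have hbx : ∑ i, f (x + κ₀ • ∑ i, f x (E i) • E i) (b i) • b i = ∑ i, (κ₀ * f x (E i)) • b i :=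
      Finset.sum_congr rfl fun i _ => by rw [h1]
    rw [hbx]
    have h2 : x + κ₀ • ∑ i, f x (E i) • E i + -κ₀⁻¹ • ∑ i, (κ₀ * f x (E i)) • b i = κ₀ • ∑ i, f x (E i) • E i := by
      have h3 : -κ₀⁻¹ • ∑ i, (κ₀ * f x (E i)) • b i = - ∑ i, f x (E i) • b i := by
        rw [Finset.smul_sum, ← Finset.sum_neg_distrib]
        refine Finset.sum_congr rfl fun i _ => ?_
        rw [smul_smul, ← neg_smul]
        congr 1
        field_simp
      rw [h3, ← hexpB x hx]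
      abel
    rw [h2, hUA _ (A.smul_mem _ (A.sum_mem fun i _ => A.smul_mem _ (hE i)))]
    exact A.smul_mem _ (A.sum_mem fun i _ => A.smul_mem _ (hE i))

theorem map_eq_of_maps {Z Z' : Submodule F (Fin n → F)} {g : GG} (h : ∀ x ∈ Z, (g : Mat) *ᵥ x ∈ Z')
    (hd : Module.finrank F Z = Module.finrank F Z') : Z.map (Matrix.toLin' (g : Mat)) = Z' := by
  have hinj : Function.Injective (Matrix.toLin' (g : Mat)) := by
    intro a b hab
    have h1 : (g : Mat) *ᵥ a = (g : Mat) *ᵥ b := by simpa using hab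
    have h2 := congrArg (fun w => ((g⁻¹ : GG) : Mat) *ᵥ w) h1
    simpa [Matrix.mulVec_mulVec] using h2
  apply Submodule.eq_of_le_of_finrank_eq
  · rintro _ ⟨y, hy, rfl⟩
    simpa using h y hy
  · rw [← hd]
    exact (Submodule.equivMapOfInjective _ hinj Z).finrank_eq.symm

theorem union_sub {U A B : Submodule F (Fin n → F)} (h : ∀ x ∈ U, x ∈ A ∨ x ∈ B) : U ≤ A ∨ U ≤ B := by
  by_contra hcon
  push Not at hcon
  obtain ⟨h1, h2⟩ := hcon
  obtain ⟨x, hx, hxA⟩ := SetLike.not_le_iff_exists.1 h1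
  obtain ⟨y, hy, hyB⟩ := SetLike.not_le_iff_exists.1 h2
  have hxB : x ∈ B := (h x hx).resolve_left hxA
  have hyA : y ∈ A := (h y hy).resolve_right hyB
  rcases h (x + y) (U.add_mem hx hy) with h3 | h3
  · exact hxA (by simpa using A.sub_mem h3 hyA)
  · exact hyB (by simpa using B.sub_mem h3 hxB)

/-- The main theorem. -/
theorem pair_su_max {n k q : ℕ} {F : Type*} [Field F] [Fintype F] (hF : Fintype.card F = q ^ 2) (hk : 7 ≤ k) (h2k : 2 * k = n)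
    {D : Fin 2 → Submodule F (Fin n → F)} (hD : IsMDecomposition k D)
    (hts : ∀ i, IsTotallySingularFor (hermForm n F q) (D i)) :
    IsMaximalIn (GU n F q ⊓ specialLinear (Fin n) F) (decompositionStabilizer D ⊓ (GU n F q ⊓ specialLinear (Fin n) F)) := by
  classical
  obtain ⟨σ, hS⟩ := Cfsg.Agent.H28.exists_hs hF
  have hf := Cfsg.Agent.H28.herm_unitary (n := n) hS
  have hT : TSP (hermForm n F q) k (D 0) (D 1) := by
    refine ⟨hts 0, hts 1, ?_, hD.finrank_eq 0, hD.finrank_eq 1⟩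
    intro x
    have h1 := hD.iSup_eq_top
    have h2 : iSup D = D 0 ⊔ D 1 := by
      apply le_antisymm
      · refine iSup_le fun i => ?_
        fin_cases i
        · exact le_sup_left
        · exact le_sup_right
      · exact sup_le (le_iSup D 0) (le_iSup D 1)
    rw [h2] at h1
    have h3 : x ∈ D 0 ⊔ D 1 := by rw [h1]; trivial
    obtain ⟨a, ha, y, hy, rfl⟩ := Submodule.mem_sup.1 h3
    exact ⟨a, ha, y, hy, rfl⟩
  obtain ⟨s, hsSL, hsi, hs0, hs1⟩ := exists_swap hS hf hT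
  have hsU : s ∈ GU n F q ⊓ specialLinear (Fin n) F := ⟨hsi, hsSL⟩
  have hfix : ∀ g : GL (Fin n) F, (∀ x ∈ D 0, (g : Matrix (Fin n) (Fin n) F) *ᵥ x ∈ D 0) →
      (∀ x ∈ D 1, (g : Matrix (Fin n) (Fin n) F) *ᵥ x ∈ D 1) → g ∈ decompositionStabilizer D := by
    intro g h0 h1
    refine ⟨1, fun i => ?_⟩
    fin_cases i
    · exact map_eq_of_maps h0 rfl
    · exact map_eq_of_maps h1 rfl
  have hsw : ∀ g : GL (Fin n) F, (∀ x ∈ D 0, (g : Matrix (Fin n) (Fin n) F) *ᵥ x ∈ D 1) →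
      (∀ x ∈ D 1, (g : Matrix (Fin n) (Fin n) F) *ᵥ x ∈ D 0) → g ∈ decompositionStabilizer D := by
    intro g h0 h1
    refine ⟨Equiv.swap 0 1, fun i => ?_⟩
    fin_cases i
    · exact map_eq_of_maps h0 (by rw [hD.finrank_eq, hD.finrank_eq])
    · exact map_eq_of_maps h1 (by rw [hD.finrank_eq, hD.finrank_eq])
  have hHR : ∀ M : Subgroup (GL (Fin n) F), decompositionStabilizer D ⊓ (GU n F q ⊓ specialLinear (Fin n) F) ≤ M →
      HR (hermForm n F q) σ M (D 0) (D 1) := by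
    intro M hM u hu v hv huv c
    obtain ⟨r, hrSL, hri, hrx⟩ := exists_rho hf huv (hT.tsA _ hu _ hu) (hT.tsB _ hv _ hv) c
    refine ⟨r, hM ⟨hfix r (fun x hx => ?_) (fun x hx => ?_), hri, hrSL⟩, hri, hrx⟩
    · rw [hrx, hT.tsA _ hx _ hu, mul_zero, zero_smul, sub_zero]
      exact (D 0).add_mem hx ((D 0).smul_mem _ hu)
    · rw [hrx, hT.tsB _ hx _ hv, mul_zero, zero_smul, add_zero]
      exact (D 1).sub_mem hx ((D 1).smul_mem _ hv)
  constructor
  · rw [lt_iff_le_and_ne]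
    refine ⟨inf_le_right, fun heq => ?_⟩
    have hd0 : Module.finrank F (⊥ : Submodule F (Fin n → F)) + 0 < Module.finrank F (D 0) := by
      rw [hD.finrank_eq, finrank_bot]
      omega
    obtain ⟨u, hu, -, hu0⟩ := exists_perp_ne hf (D 0) ⊥ ![] hd0
    have hu0' : u ≠ 0 := by simpa using hu0
    obtain ⟨v, hv, -, huv⟩ := hT.sep hf (S := ⊥) hu (by simpa using hu0') 1
    obtain ⟨κ₀, hκ₀, hκ⟩ := exists_skew hS.ne hS.inv
    obtain ⟨t, htSL, hti, htx⟩ := exists_ut hf (hT.tsA _ hu _ hu) hκ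
    have h1 : t ∈ decompositionStabilizer D ⊓ (GU n F q ⊓ specialLinear (Fin n) F) := by
      rw [heq]
      exact ⟨hti, htSL⟩
    obtain ⟨⟨π, hπ⟩, -⟩ := h1
    have hvu : hermForm n F q v u = 1 := by rw [hf.herm, huv, map_one]
    have htv : (t : Matrix (Fin n) (Fin n) F) *ᵥ v = v + κ₀ • u := by
      rw [htx, hvu, mul_one]
    have hmem : v + κ₀ • u ∈ D (π 1) := by
      rw [← hπ 1, ← htv]
      exact ⟨v, hv, by simp⟩
    have hcases : π 1 = 0 ∨ π 1 = 1 := by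
      have := (π 1).2
      omega
    rcases hcases with hc | hc
    · rw [hc] at hmem
      have h3 : v ∈ D 0 := by
        have := (D 0).sub_mem hmem ((D 0).smul_mem κ₀ hu)
        simpa using this
      have := hT.inf hf h3 hv
      rw [this, f0r hf] at huv
      exact zero_ne_one huv
    · rw [hc] at hmem
      have h3 : κ₀ • u ∈ D 1 := by
        have := (D 1).sub_mem hmem hv
        simpa using this
      have h4 : u ∈ D 1 := by
        have := (D 1).smul_mem κ₀⁻¹ h3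
        rwa [smul_smul, inv_mul_cancel₀ hκ₀, one_smul] at this
      exact hu0' (hT.inf hf hu h4)
  · intro M hHM hMK
    by_cases hex : ∃ g ∈ M, g ∉ decompositionStabilizer D ⊓ (GU n F q ⊓ specialLinear (Fin n) F)
    · right
      apply le_antisymm hMK
      obtain ⟨g, hgM, hgn⟩ := hex
      have hgK := hMK hgM
      have hgi : IsoF (hermForm n F q) g := hgK.1
      have hR := hHR M hHM
      have hsM : s ∈ M := hHM ⟨hsw s hs0 hs1, hsU⟩
      -- a mixed vector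
      have hmix : (∃ a ∈ D 0, ∃ x₀ ∈ D 0, ∃ x₁ ∈ D 1, x₀ ≠ 0 ∧ x₁ ≠ 0 ∧ (g : Matrix (Fin n) (Fin n) F) *ᵥ a = x₀ + x₁) ∨
          (∃ a ∈ D 1, ∃ x₀ ∈ D 1, ∃ x₁ ∈ D 0, x₀ ≠ 0 ∧ x₁ ≠ 0 ∧ (g : Matrix (Fin n) (Fin n) F) *ᵥ a = x₀ + x₁) := by
        by_contra hcon
        push Not at hcon
        obtain ⟨hc0, hc1⟩ := hcon
        have hu0 : ∀ x ∈ D 0, (g : Matrix (Fin n) (Fin n) F) *ᵥ x ∈ D 0 ∨ (g : Matrix (Fin n) (Fin n) F) *ᵥ x ∈ D 1 := by
          intro x hx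
          obtain ⟨x₀, hx₀, x₁, hx₁, hxe⟩ := hT.sup ((g : Matrix (Fin n) (Fin n) F) *ᵥ x)
          by_cases h00 : x₀ = 0
          · right
            rw [hxe, h00, zero_add]
            exact hx₁
          · left
            by_cases h01 : x₁ = 0
            · rw [hxe, h01, add_zero]
              exact hx₀
            · exact absurd hxe (hc0 x hx x₀ hx₀ x₁ hx₁ h00 h01)
        have hu1 : ∀ x ∈ D 1, (g : Matrix (Fin n) (Fin n) F) *ᵥ x ∈ D 0 ∨ (g : Matrix (Fin n) (Fin n) F) *ᵥ x ∈ D 1 := by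
          intro x hx
          obtain ⟨x₀, hx₀, x₁, hx₁, hxe⟩ := hT.sup ((g : Matrix (Fin n) (Fin n) F) *ᵥ x)
          by_cases h00 : x₀ = 0
          · right
            rw [hxe, h00, zero_add]
            exact hx₁
          · left
            by_cases h01 : x₁ = 0
            · rw [hxe, h01, add_zero]
              exact hx₀
            · exact absurd (by rw [hxe, add_comm]) (hc1 x hx x₁ hx₁ x₀ hx₀ h01 h00)
        have hU0 := union_sub (U := (D 0).map (Matrix.toLin' (g : Matrix (Fin n) (Fin n) F))) (A := D 0) (B := D 1) (by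
          rintro _ ⟨y, hy, rfl⟩
          simpa using hu0 y hy)
        have hU1 := union_sub (U := (D 1).map (Matrix.toLin' (g : Matrix (Fin n) (Fin n) F))) (A := D 0) (B := D 1) (by
          rintro _ ⟨y, hy, rfl⟩
          simpa using hu1 y hy)
        have hm0 : ∀ {Z Z' : Submodule F (Fin n → F)}, Z.map (Matrix.toLin' (g : Matrix (Fin n) (Fin n) F)) ≤ Z' →
            ∀ x ∈ Z, (g : Matrix (Fin n) (Fin n) F) *ᵥ x ∈ Z' := by
          intro Z Z' hle x hx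
          have : Matrix.toLin' (g : Matrix (Fin n) (Fin n) F) x ∈ Z' := hle ⟨x, hx, rfl⟩
          simpa using this
        have hall : ∀ {Z : Submodule F (Fin n → F)}, (∀ x ∈ D 0, (g : Matrix (Fin n) (Fin n) F) *ᵥ x ∈ Z) →
            (∀ x ∈ D 1, (g : Matrix (Fin n) (Fin n) F) *ᵥ x ∈ Z) → ∀ x, (g : Matrix (Fin n) (Fin n) F) *ᵥ x ∈ Z := by
          intro Z h0 h1 x
          obtain ⟨a, ha, b, hb, rfl⟩ := hT.sup x
          rw [Matrix.mulVec_add]
          exact Z.add_mem (h0 a ha) (h1 b hb)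
        have hd1 : Module.finrank F (⊥ : Submodule F (Fin n → F)) + 0 < Module.finrank F (D 0) := by
          rw [hD.finrank_eq, finrank_bot]
          omega
        obtain ⟨u₀, hu₀, -, hu₀0⟩ := exists_perp_ne hf (D 0) ⊥ ![] hd1
        have hd2 : Module.finrank F (⊥ : Submodule F (Fin n → F)) + 0 < Module.finrank F (D 1) := by
          rw [hD.finrank_eq, finrank_bot]
          omega
        obtain ⟨u₁, hu₁, -, hu₁0⟩ := exists_perp_ne hf (D 1) ⊥ ![] hd2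
        have hsurj : ∀ y, ∃ x, (g : Matrix (Fin n) (Fin n) F) *ᵥ x = y := fun y => ⟨_, inv_cancel g y⟩
        rcases hU0 with hA | hA <;> rcases hU1 with hB | hB
        · exfalso
          have h5 := hall (hm0 hA) (hm0 hB)
          obtain ⟨x, hx⟩ := hsurj u₁
          have h6 := h5 x
          rw [hx] at h6
          exact hu₁0 (by simpa using hT.inf hf h6 hu₁)
        · exact hgn ⟨hfix g (hm0 hA) (hm0 hB), hgK⟩
        · exact hgn ⟨hsw g (hm0 hA) (hm0 hB), hgK⟩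
        · exfalso
          have h5 := hall (hm0 hA) (hm0 hB)
          obtain ⟨x, hx⟩ := hsurj u₀
          have h6 := h5 x
          rw [hx] at h6
          exact hu₀0 (by simpa using hT.inf hf hu₀ h6)
      -- a transvection
      have hy : ∃ y, y ≠ 0 ∧ hermForm n F q y y = 0 ∧ ∃ l, l ≠ 0 ∧ l + σ l = 0 ∧ TT (hermForm n F q) M y l := by
        rcases hmix with ⟨a, ha, x₀, hx₀, x₁, hx₁, h00, h01, hga⟩ | ⟨a, ha, x₀, hx₀, x₁, hx₁, h00, h01, hga⟩
        · exact step1 hS hf hT (by omega) hR hgM hgi ha hx₀ hx₁ h00 h01 hga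
        · exact step1 hS hf hT.symm (by omega) (hR.symm hf) hgM hgi ha hx₀ hx₁ h00 h01 hga
      obtain ⟨y, hy0, hyy, l, hl0, hl, hty⟩ := hy
      -- a centre in one of the subspaces
      have hcentre : (∃ d ∈ D 0, d ≠ 0 ∧ ∃ k', k' ≠ 0 ∧ k' + σ k' = 0 ∧ TT (hermForm n F q) M d k') ∨
          (∃ d ∈ D 1, d ≠ 0 ∧ ∃ k', k' ≠ 0 ∧ k' + σ k' = 0 ∧ TT (hermForm n F q) M d k') := by
        obtain ⟨y₀, hy₀, y₁, hy₁, rfl⟩ := hT.sup y
        by_cases h00 : y₀ = 0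
        · right
          rw [h00, zero_add] at hty hy0
          exact ⟨y₁, hy₁, hy0, l, hl0, hl, hty⟩
        by_cases h01 : y₁ = 0
        · left
          rw [h01, add_zero] at hty hy0
          exact ⟨y₀, hy₀, hy0, l, hl0, hl, hty⟩
        left
        exact step2 hS hf hT (by omega) hR hy₀ hy₁ h00 h01 hl0 hl hyy hty
      have hsM' : IsoF (hermForm n F q) s := hsi
      have hAB : (∀ w ∈ D 0, ∀ κ, κ + σ κ = 0 → TT (hermForm n F q) M w κ) ∧
          (∀ w ∈ D 1, ∀ κ, κ + σ κ = 0 → TT (hermForm n F q) M w κ) := by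
        rcases hcentre with ⟨d, hd, hd0, k', hk0, hk', htd⟩ | ⟨d, hd, hd0, k', hk0, hk', htd⟩
        · have h0 := step3 hS hf hT (by omega) hR hd hd0 hk0 hk' htd
          refine ⟨h0, fun w hw κ hκ => ?_⟩
          have h5 : (D 0).map (Matrix.toLin' (s : Matrix (Fin n) (Fin n) F)) = D 1 :=
            map_eq_of_maps hs0 (by rw [hD.finrank_eq, hD.finrank_eq])
          rw [← h5] at hw
          obtain ⟨a, ha, rfl⟩ := hw
          have := (h0 a ha κ hκ).conj hsM hsM'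
          simpa using this
        · have h0 := step3 hS hf hT.symm (by omega) (hR.symm hf) hd hd0 hk0 hk' htd
          refine ⟨fun w hw κ hκ => ?_, h0⟩
          have h5 : (D 1).map (Matrix.toLin' (s : Matrix (Fin n) (Fin n) F)) = D 0 :=
            map_eq_of_maps hs1 (by rw [hD.finrank_eq, hD.finrank_eq])
          rw [← h5] at hw
          obtain ⟨a, ha, rfl⟩ := hw
          have := (h0 a ha κ hκ).conj hsM hsM'
          simpa using this
      refine Cfsg.Agent.H27.SG.gsu_le hS (by omega) ?_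
      intro u hu a ha
      obtain ⟨t, ht, htx⟩ := step4 hS hf hT hAB.1 hAB.2 hu ha
      have : Cfsg.Agent.H28.ut hS hu a = t := gl_ext fun x => by rw [Cfsg.Agent.H28.ut_mulVec, htx]
      rw [this]
      exact ht
    · left
      push Not at hex
      exact le_antisymm hex hHM

end Cfsg.Agent.H27.UP
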