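import Mathlib
import Cfsg.Prelude.Def_GeometricClasses
import Cfsg.Agent.Lib.H27.GeoRS
import Cfsg.Agent.Lib.H27.GeoUPair
import Cfsg.Agent.Lib.H27.GeoSpSL

/-!
# Rational structures for unitary forms
-/

set_option autoImplicit false
set_option linter.unusedSectionVars false
set_option linter.unusedSimpArgs false
set_option linter.unusedVariables false

namespace Cfsg.Agent.H27.RU

open scoped Matrix MatrixGroups
open Cfsg Cfsg.Geo
open Cfsg.Agent.H27.RS
open Cfsg.Agent.H27.UP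
open Cfsg.Agent.H27.UF
open Cfsg.Agent.H28 (HS)

variable {n : ℕ} {F : Type*} [Field F] [Fintype F] {q : ℕ} {σ : F ≃+* F} {f : (Fin n → F) → (Fin n → F) → F}
  {F₀ : Subfield F} {P : GL (Fin n) F}

local notation "GG" => GL (Fin n) F
local notation "Mat" => Matrix (Fin n) (Fin n) F

/-- The fixed field. -/
theorem mem_iff (hS : HS F q σ) (hcard : Fintype.card F = Nat.card F₀ ^ 2) (x : F) : x ∈ F₀ ↔ σ x = x := by
  classical
  have hq2 := hS.two_le
  have hc : Nat.card F₀ = q := by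
    have h : q ^ 2 = Nat.card F₀ ^ 2 := by rw [← hS.card, hcard]
    exact (Nat.pow_left_injective (n := 2) (by norm_num) h).symm
  haveI : Fintype F₀ := Fintype.ofFinite _
  have hpow : ∀ x ∈ F₀, σ x = x := by
    intro x hx
    rw [hS.pow]
    have := FiniteField.pow_card (⟨x, hx⟩ : F₀)
    rw [← Nat.card_eq_fintype_card, hc] at this
    exact congrArg Subtype.val this
  refine ⟨hpow x, fun hx => ?_⟩
  let p : Polynomial F := Polynomial.X ^ q - Polynomial.X
  have hp : p ≠ 0 := FiniteField.X_pow_card_sub_X_ne_zero F (by omega)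
  have hdeg : p.natDegree = q := FiniteField.X_pow_card_sub_X_natDegree_eq F (by omega)
  let R : Finset F := p.roots.toFinset
  have hR : R.card ≤ q := by
    calc R.card ≤ Multiset.card p.roots := Multiset.toFinset_card_le _
      _ ≤ p.natDegree := Polynomial.card_roots' _
      _ = q := hdeg
  let S : Finset F := (Finset.univ : Finset F₀).image Subtype.val
  have hScard : S.card = q := by
    rw [Finset.card_image_of_injective _ Subtype.val_injective, Finset.card_univ, ← Nat.card_eq_fintype_card, hc]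
  have hmemR : ∀ y, y ∈ R ↔ y ^ q = y := by
    intro y
    simp only [R, Multiset.mem_toFinset, Polynomial.mem_roots hp, Polynomial.IsRoot.def, p, Polynomial.eval_sub,
      Polynomial.eval_pow, Polynomial.eval_X, sub_eq_zero]
  have hSR : S ⊆ R := by
    intro y hy
    simp only [S, Finset.mem_image, Finset.mem_univ, true_and] at hy
    obtain ⟨y₀, rfl⟩ := hy
    rw [hmemR, ← hS.pow]
    exact hpow _ y₀.2
  have hEq : S = R := Finset.eq_of_subset_of_card_le hSR (by omega)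
  have hxR : x ∈ R := by
    rw [hmemR, ← hS.pow]
    exact hx
  rw [← hEq] at hxR
  simp only [S, Finset.mem_image, Finset.mem_univ, true_and] at hxR
  obtain ⟨y₀, rfl⟩ := hxR
  exact y₀.2

/-- Decomposition of an element of the field. -/
theorem decomp (hfix : ∀ x, x ∈ F₀ ↔ σ x = x) (hinv : ∀ a, σ (σ a) = a) {ω : F} (hω : σ ω ≠ ω) (c : F) :
    ∃ c₁ c₂ : F₀, c = c₁ + c₂ * ω := by
  have hd : ω - σ ω ≠ 0 := sub_ne_zero.2 hω.symm
  have hd' : σ ω - ω ≠ 0 := sub_ne_zero.2 hω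
  have h2 : (c - σ c) / (ω - σ ω) ∈ F₀ := by
    rw [hfix, map_div₀, map_sub, map_sub, hinv, hinv]
    rw [div_eq_div_iff hd' hd]
    ring
  have h1 : c - (c - σ c) / (ω - σ ω) * ω ∈ F₀ := by
    rw [hfix, map_sub, map_mul, map_div₀, map_sub, map_sub, hinv, hinv]
    field_simp
    ring
  refine ⟨⟨_, h1⟩, ⟨_, h2⟩, ?_⟩
  simp

/-- Decomposition of a vector. -/
theorem decompV (hfix : ∀ x, x ∈ F₀ ↔ σ x = x) (hinv : ∀ a, σ (σ a) = a) {ω : F} (hω : σ ω ≠ ω) (x : Fin n → F) :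
    ∃ x₁ x₂ : Fin n → F₀, x = rr P x₁ + ω • rr P x₂ := by
  choose c₁ c₂ hc using fun i => decomp hfix hinv hω ((((P⁻¹ : GG) : Mat) *ᵥ x) i)
  refine ⟨c₁, c₂, ?_⟩
  have h : ((P⁻¹ : GG) : Mat) *ᵥ x = co c₁ + ω • co c₂ := by
    ext i
    rw [hc i]
    simp [co]
    ring
  have h2 : x = (P : Mat) *ᵥ (((P⁻¹ : GG) : Mat) *ᵥ x) := (inv_cancel P x).symm
  rw [h2, h, Matrix.mulVec_add, Matrix.mulVec_smul]
  rfl

theorem nonrat (hfix : ∀ x, x ∈ F₀ ↔ σ x = x) {ω : F} (hω : σ ω ≠ ω) {y₁ y₂ : Fin n → F₀} (h1 : y₁ ≠ 0)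
    (h2 : y₂ ∉ Submodule.span F₀ {y₁}) : ¬ RatPt P F₀ (rr P y₁ + ω • rr P y₂) := by
  rintro ⟨c, u, hu⟩
  have hω0 : ω ≠ 0 := by
    rintro rfl
    exact hω (map_zero σ)
  have hn : y₁ ∉ Submodule.span F₀ {y₂} := by
    intro hm
    obtain ⟨t, ht⟩ := Submodule.mem_span_singleton.1 hm
    have ht0 : t ≠ 0 := by
      rintro rfl
      rw [zero_smul] at ht
      exact h1 ht.symm
    apply h2
    rw [Submodule.mem_span_singleton]
    exact ⟨t⁻¹, by rw [← ht, smul_smul, inv_mul_cancel₀ ht0, one_smul]⟩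
  have h3 : (1 : F) • rr P y₁ + ω • rr P y₂ = c • rr P u := by rw [one_smul]; exact hu
  have h4 := ratio_mem hω0 h3 hn h2
  have h5 : ω ∈ F₀ := by
    have := inv_mem h4
    simpa using this
  exact hω ((hfix ω).1 h5)

theorem of_not_rat {ω : F} {y₁ y₂ : Fin n → F₀} (h : ¬ RatPt P F₀ (rr P y₁ + ω • rr P y₂)) :
    y₁ ≠ 0 ∧ y₂ ∉ Submodule.span F₀ {y₁} := by
  constructor
  · rintro rfl
    exact h ⟨ω, y₂, by rw [rr_zero, zero_add]⟩
  · intro hm
    obtain ⟨t, rfl⟩ := Submodule.mem_span_singleton.1 hm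
    refine h ⟨1 + ω * t, y₁, ?_⟩
    rw [rr_smul, smul_smul, add_smul, one_smul]

/-- Expansion of the form on a decomposed pair. -/
theorem f_expand (hf : IsUnitaryForm σ f) (ω : F) (a b c d : Fin n → F) :
    f (a + ω • b) (c + ω • d) = f a c + σ ω * f a d + ω * f b c + ω * (σ ω * f b d) := by
  rw [hf.add_left, hf.smul_left, fr_add hf, fr_add hf, fr_smul hf, fr_smul hf]
  ring

/-- Isometry from rational vectors. -/
theorem iso_of_rat (hf : IsUnitaryForm σ f) (hfix : ∀ x, x ∈ F₀ ↔ σ x = x) {ω : F} (hω : σ ω ≠ ω) {g : GG}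
    (h : ∀ u v : Fin n → F₀, f ((g : Mat) *ᵥ rr P u) ((g : Mat) *ᵥ rr P v) = f (rr P u) (rr P v)) : IsoF f g := by
  intro x y
  obtain ⟨x₁, x₂, rfl⟩ := decompV (P := P) hfix hf.involutive hω x
  obtain ⟨y₁, y₂, rfl⟩ := decompV (P := P) hfix hf.involutive hω y
  simp only [Matrix.mulVec_add, Matrix.mulVec_smul]
  rw [f_expand hf, f_expand hf, h, h, h, h]

/-- Scaling of root elements. -/
theorem TT.unscale (hf : IsUnitaryForm σ f) {M : Subgroup GG} {w : Fin n → F} {l : F} (a : F) (h : TT f M w (l * (a * σ a))) :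
    TT f M (a • w) l := by
  obtain ⟨t, ht, htx⟩ := h
  refine ⟨t, ht, fun x => ?_⟩
  rw [htx, fr_smul hf, smul_smul]
  congr 2
  ring

/-- AllT from TT. -/
theorem allT_of (hS : HS F q σ) {M : Subgroup GG} (h : ∀ z : Fin n → F, hermForm n F q z z = 0 → ∀ κ : F, κ + σ κ = 0 →
    TT (hermForm n F q) M z κ) : Cfsg.Agent.H27.SG.AllT hS M := by
  intro u hu a ha
  obtain ⟨t, ht, htx⟩ := h u hu a ha
  have : Cfsg.Agent.H28.ut hS hu a = t := by
    apply Cfsg.Agent.H27.GO.gl_ext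
    intro x
    rw [Cfsg.Agent.H28.ut_mulVec, htx]
  rw [this]
  exact ht

section Sp

variable {ζ : F}

/-- The alternating form over the small field. -/
def AF (hP : IsFormRationalStructure f F₀ ζ P) (u v : Fin n → F₀) : F₀ :=
  ⟨ζ * f (rr P u) (rr P v), hP _ _ (fun i => (u i).2) (fun i => (v i).2)⟩

lemma AF_coe (hP : IsFormRationalStructure f F₀ ζ P) (u v : Fin n → F₀) : (AF hP u v : F) = ζ * f (rr P u) (rr P v) := rfl

theorem AF_symp (hf : IsUnitaryForm σ f) (hfix : ∀ x, x ∈ F₀ ↔ σ x = x) {ω : F} (hω : σ ω ≠ ω) (hζ0 : ζ ≠ 0)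
    (hζ : σ ζ = - ζ) (hP : IsFormRationalStructure f F₀ ζ P) (halt : ∀ u : Fin n → F₀, f (rr P u) (rr P u) = 0) :
    IsSymplecticForm (AF hP) := by
  have hskew : ∀ v w, AF hP v w = - AF hP w v := by
    intro v w
    apply Subtype.ext
    have h := (hfix _).1 (AF hP v w).2
    rw [AF_coe, map_mul, hζ, ← hf.herm] at h
    rw [Subfield.coe_neg, AF_coe, AF_coe, ← h]
    ring
  refine ⟨⟨fun x y v => ?_, fun c x v => ?_, fun v x y => ?_, fun c v x => ?_⟩, hskew, fun v => ?_, fun v hv => ?_⟩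
  · apply Subtype.ext
    rw [Subfield.coe_add, AF_coe, AF_coe, AF_coe, rr_add, hf.add_left]
    ring
  · apply Subtype.ext
    rw [Subfield.coe_mul, AF_coe, AF_coe, rr_smul, hf.smul_left]
    ring
  · apply Subtype.ext
    rw [Subfield.coe_add, AF_coe, AF_coe, AF_coe, rr_add, fr_add hf]
    ring
  · apply Subtype.ext
    rw [Subfield.coe_mul, AF_coe, AF_coe, rr_smul, fr_smul hf, (hfix _).1 c.2]
    ring
  · apply Subtype.ext
    rw [AF_coe, halt, mul_zero]
    rfl
  · have key : ∃ x, AF hP x v ≠ 0 := by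
      obtain ⟨y, hy⟩ := (hf.nondegenerate _ (rr_ne_zero hv)).1
      obtain ⟨y₁, y₂, rfl⟩ := decompV (P := P) hfix hf.involutive hω y
      rw [hf.add_left, hf.smul_left] at hy
      by_cases h1 : f (rr P y₁) (rr P v) = 0
      · refine ⟨y₂, fun h0 => ?_⟩
        have h2 : ζ * f (rr P y₂) (rr P v) = 0 := by
          rw [← AF_coe hP, h0]
          rfl
        have h3 : f (rr P y₂) (rr P v) = 0 := (mul_eq_zero.1 h2).resolve_left hζ0
        rw [h1, h3] at hy
        simp at hy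
      · refine ⟨y₁, fun h0 => ?_⟩
        have h2 : ζ * f (rr P y₁) (rr P v) = 0 := by
          rw [← AF_coe hP, h0]
          rfl
        exact h1 ((mul_eq_zero.1 h2).resolve_left hζ0)
    refine ⟨key, ?_⟩
    obtain ⟨x, hx⟩ := key
    exact ⟨x, fun h0 => hx (by rw [hskew, h0, neg_zero])⟩

/-- Lifts of isometries of the alternating form. -/
theorem lift_iso (hf : IsUnitaryForm σ f) (hfix : ∀ x, x ∈ F₀ ↔ σ x = x) {ω : F} (hω : σ ω ≠ ω) (hζ0 : ζ ≠ 0)
    (hP : IsFormRationalStructure f F₀ ζ P) {t : GL (Fin n) F₀}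
    (ht : ∀ x y, AF hP ((t : Matrix (Fin n) (Fin n) F₀) *ᵥ x) ((t : Matrix (Fin n) (Fin n) F₀) *ᵥ y) = AF hP x y) :
    IsoF f (lift P t) := by
  apply iso_of_rat hf hfix hω (P := P)
  intro u v
  rw [lift_rr, lift_rr]
  have := congrArg (Subtype.val) (ht u v)
  rw [AF_coe, AF_coe] at this
  exact mul_left_cancel₀ hζ0 this

/-- The root elements attached to rational vectors lie in the subfield group. -/
theorem exists_rat_root (hf : IsUnitaryForm σ f) (hfix : ∀ x, x ∈ F₀ ↔ σ x = x) (hζ0 : ζ ≠ 0) (hζ : σ ζ = - ζ)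
    (hP : IsFormRationalStructure f F₀ ζ P) (halt : ∀ u : Fin n → F₀, f (rr P u) (rr P u) = 0) (a : Fin n → F₀) {κ : F}
    (hκ : κ + σ κ = 0) :
    ∃ t : GG, t ∈ subfieldSubgroup F₀ P ∧ t ∈ specialLinear (Fin n) F ∧ IsoF f t ∧ ∀ x, (t : Mat) *ᵥ x = x + (κ * f x (rr P a)) • rr P a := by
  obtain ⟨t, ht, hi, hx⟩ := exists_ut hf (halt a) hκ
  refine ⟨t, ?_, ht, hi, hx⟩
  have hσκ : σ κ = - κ := by linear_combination hκ
  have hmem : ∀ u : Fin n → F₀, κ * f (rr P u) (rr P a) ∈ F₀ := by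
    intro u
    have h1 := (hfix _).1 (AF hP u a).2
    rw [AF_coe, map_mul, hζ] at h1
    have h2 : σ (f (rr P u) (rr P a)) = - f (rr P u) (rr P a) :=
      mul_left_cancel₀ hζ0 (by linear_combination - h1)
    rw [hfix, map_mul, hσκ, h2]
    ring
  refine mem_of_rat (μ := 1) one_ne_zero fun u => ⟨u + (⟨_, hmem u⟩ : F₀) • a, ?_⟩
  rw [hx, one_smul, rr_add, rr_smul]

/-- `Sp_n(q)` in `SU_n(q)`. -/
theorem sp_max (hS : HS F q σ) (hn : 4 ≤ n) (hfix : ∀ x, x ∈ F₀ ↔ σ x = x) (hζ0 : ζ ≠ 0) (hζ : σ ζ = - ζ)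
    (hP : IsFormRationalStructure (hermForm n F q) F₀ ζ P)
    (halt : ∀ u : Fin n → F₀, hermForm n F q (rr P u) (rr P u) = 0) :
    IsMaximalIn (GU n F q ⊓ specialLinear (Fin n) F) (subfieldSubgroup F₀ P ⊓ (GU n F q ⊓ specialLinear (Fin n) F)) := by
  classical
  have hf : IsUnitaryForm σ (hermForm n F q) := Cfsg.Agent.H28.herm_unitary hS
  obtain ⟨f, hfdef⟩ : ∃ f, f = hermForm n F q := ⟨_, rfl⟩
  rw [← hfdef] at hf hP halt
  have hGU : ∀ g : GG, g ∈ GU n F q ↔ IsoF f g := by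
    intro g
    rw [hfdef]
    exact Iff.rfl
  obtain ⟨ω, hω⟩ := hS.exists_ne
  have hinv := hf.involutive
  have hA := AF_symp hf hfix hω hζ0 hζ hP halt
  have hω' : σ ω - ω ≠ 0 := sub_ne_zero.2 hω
  have hne0 : ∃ a : Fin n → F₀, a ≠ 0 := by
    refine ⟨fun _ => 1, fun h => ?_⟩
    have := congrFun h ⟨0, by omega⟩
    simp at this
  have hanti : ∀ u v : Fin n → F₀, f (rr P v) (rr P u) = - f (rr P u) (rr P v) := by
    intro u v
    have := congrArg Subtype.val (hA.skew v u)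
    rw [Subfield.coe_neg, AF_coe, AF_coe] at this
    apply mul_left_cancel₀ hζ0
    rw [this]
    ring
  have hexp : ∀ z₁ z₂ : Fin n → F₀, f (rr P z₁ + ω • rr P z₂) (rr P z₁ + ω • rr P z₂) = (σ ω - ω) * f (rr P z₁) (rr P z₂) := by
    intro z₁ z₂
    rw [f_expand hf, halt, halt, hanti z₁ z₂]
    ring
  have hsing : ∀ z₁ z₂ : Fin n → F₀, f (rr P z₁ + ω • rr P z₂) (rr P z₁ + ω • rr P z₂) = 0 → AF hP z₁ z₂ = 0 := by
    intro z₁ z₂ h
    rw [hexp] at h
    apply Subtype.ext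
    rw [AF_coe, (mul_eq_zero.1 h).resolve_left hω', mul_zero]
    rfl
  constructor
  · refine lt_of_le_of_ne inf_le_right fun heq => ?_
    obtain ⟨e₁, he₁⟩ := hne0
    haveI : Fintype F₀ := Fintype.ofFinite _
    obtain ⟨e₂, he₂, hn₂⟩ : ∃ e₂, AF hP e₁ e₂ = 0 ∧ e₂ ∉ Submodule.span F₀ {e₁} := by
      let φ : (Fin n → F₀) →ₗ[F₀] F₀ :=
        { toFun := fun x => AF hP e₁ x
          map_add' := fun x y => hA.bilinear.add_right e₁ x y
          map_smul' := fun c x => hA.bilinear.smul_right c e₁ x }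
      have h1 := LinearMap.finrank_range_add_finrank_ker φ
      have h2 : Module.finrank F₀ (LinearMap.range φ) ≤ 1 := by
        have := Submodule.finrank_le (LinearMap.range φ)
        simpa using this
      simp only [Module.finrank_fintype_fun_eq_card, Fintype.card_fin] at h1
      have h3 : ¬ (LinearMap.ker φ ≤ Submodule.span F₀ {e₁}) := by
        intro hle
        have h4 := Submodule.finrank_mono hle
        have h5 := finrank_span_le_card (R := F₀) ({e₁} : Set (Fin n → F₀))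
        simp at h5
        omega
      obtain ⟨e₂, hk, hs⟩ := SetLike.not_le_iff_exists.1 h3
      exact ⟨e₂, hk, hs⟩
    have hnn : e₁ ∉ Submodule.span F₀ {e₂} := by
      intro hm
      obtain ⟨t, ht⟩ := Submodule.mem_span_singleton.1 hm
      have ht0 : t ≠ 0 := by
        rintro rfl
        rw [zero_smul] at ht
        exact he₁ ht.symm
      apply hn₂
      rw [Submodule.mem_span_singleton]
      exact ⟨t⁻¹, by rw [← ht, smul_smul, inv_mul_cancel₀ ht0, one_smul]⟩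
    obtain ⟨v, hv₂, hv₁⟩ := Cfsg.Agent.H27.SS.exists_sep hA hnn
    have hz : f (rr P e₁ + ω • rr P e₂) (rr P e₁ + ω • rr P e₂) = 0 := by
      rw [hexp]
      have : ζ * f (rr P e₁) (rr P e₂) = 0 := by
        rw [← AF_coe hP, he₂]
        rfl
      rw [(mul_eq_zero.1 this).resolve_left hζ0, mul_zero]
    obtain ⟨t, htSL, hti, htx⟩ := exists_ut hf hz (κ := ζ) (by rw [hζ]; ring)
    have htH : t ∈ subfieldSubgroup F₀ P := by
      have : t ∈ subfieldSubgroup F₀ P ⊓ (GU n F q ⊓ specialLinear (Fin n) F) := by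
        rw [heq]
        exact ⟨(hGU t).2 hti, htSL⟩
      exact this.1
    obtain ⟨μ, hμ⟩ := rat_of_mem htH
    obtain ⟨u, hu⟩ := hμ v
    have h1 : ζ * f (rr P v) (rr P e₁) = 1 := by
      rw [← AF_coe hP, hv₁]
      rfl
    have h2 : ζ * f (rr P v) (rr P e₂) = 0 := by
      rw [← AF_coe hP, hv₂]
      rfl
    have h3 : (t : Mat) *ᵥ rr P v = rr P (v + e₁) + ω • rr P e₂ := by
      rw [htx, fr_add hf, fr_smul hf, rr_add, add_assoc]
      have h4 : ζ * (f (rr P v) (rr P e₁) + σ ω * f (rr P v) (rr P e₂)) = 1 := by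
        rw [mul_add, h1, mul_left_comm, h2]
        ring
      rw [h4, one_smul]
    have hv0 : v + e₁ ≠ 0 := by
      intro h0
      have h5 : AF hP (v + e₁) e₁ = 1 := by
        rw [hA.bilinear.add_left, hv₁, hA.alternating, add_zero]
      rw [h0] at h5
      have h6 : AF hP 0 e₁ = 0 := by
        apply Subtype.ext
        rw [AF_coe, rr_zero, f0l hf, mul_zero]
        rfl
      rw [h6] at h5
      exact zero_ne_one h5
    have hn3 : e₂ ∉ Submodule.span F₀ {v + e₁} := by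
      intro hm
      obtain ⟨s, hs⟩ := Submodule.mem_span_singleton.1 hm
      have h5 : AF hP v e₂ = s := by
        rw [← hs, hA.bilinear.smul_right, hA.bilinear.add_right, hA.alternating, hv₁]
        ring
      rw [hv₂] at h5
      rw [← h5, zero_smul] at hs
      apply hn₂
      rw [← hs]
      exact Submodule.zero_mem _
    apply nonrat hfix hω hv0 hn3
    rw [← h3]
    exact ⟨μ, u, hu⟩
  · intro M hHM hMSU
    by_cases hMH : M ≤ subfieldSubgroup F₀ P ⊓ (GU n F q ⊓ specialLinear (Fin n) F)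
    · left
      exact le_antisymm hMH hHM
    right
    obtain ⟨g, hgM, hgH⟩ := SetLike.not_le_iff_exists.1 hMH
    have hgSU := hMSU hgM
    have hgnot : g ∉ subfieldSubgroup F₀ P := fun h => hgH ⟨h, hgSU⟩
    have hex : ∃ a : Fin n → F₀, ¬ RatPt P F₀ ((g : Mat) *ᵥ rr P a) := by
      by_contra hcon
      push Not at hcon
      exact hgnot (mem_of_points hne0 hcon)
    obtain ⟨a, ha⟩ := hex
    obtain ⟨y₁, y₂, hy⟩ := decompV (P := P) hfix hinv hω ((g : Mat) *ᵥ rr P a)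
    rw [hy] at ha
    obtain ⟨hy₁, hy₂⟩ := of_not_rat ha
    have hiso : IsoF f g := (hGU g).1 hgSU.1
    have hyy : AF hP y₁ y₂ = 0 := hsing _ _ (by rw [← hy, hiso, halt])
    have hrat : ∀ (b : Fin n → F₀) (κ : F), κ + σ κ = 0 → TT f M (rr P b) κ := by
      intro b κ hκ
      obtain ⟨t, ht1, ht2, ht3, ht4⟩ := exists_rat_root hf hfix hζ0 hζ hP halt b hκ
      exact ⟨t, hHM ⟨ht1, (hGU t).2 ht3, ht2⟩, ht4⟩
    have hy' : ∀ κ : F, κ + σ κ = 0 → TT f M (rr P y₁ + ω • rr P y₂) κ := by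
      intro κ hκ
      rw [← hy]
      exact (hrat a κ hκ).conj hgM hiso
    have hall : ∀ z : Fin n → F, f z z = 0 → ∀ κ : F, κ + σ κ = 0 → TT f M z κ := by
      intro z hz κ hκ
      obtain ⟨z₁, z₂, rfl⟩ := decompV (P := P) hfix hinv hω z
      by_cases hr : RatPt P F₀ (rr P z₁ + ω • rr P z₂)
      · obtain ⟨c, u, hcu⟩ := hr
        rw [hcu]
        apply TT.unscale hf
        apply hrat
        rw [map_mul, map_mul, hinv]
        linear_combination (c * σ c) * hκ
      · obtain ⟨hz₁, hz₂⟩ := of_not_rat hr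
        obtain ⟨t₀, ht₀, h1, h2⟩ := Cfsg.Agent.H27.SS.move_pair hA hy₁ hz₁ hyy (hsing z₁ z₂ hz) hy₂ hz₂
        have hdet : (t₀ : Matrix (Fin n) (Fin n) F₀).det = 1 := by
          have := congrArg Units.val (MonoidHom.mem_ker.1 ht₀.1)
          simpa using this
        have hli := lift_iso hf hfix hω hζ0 hP ht₀.2
        have hl : lift P t₀ ∈ M := hHM ⟨lift_mem t₀, (hGU _).2 hli, lift_det t₀ hdet⟩
        have := (hy' κ hκ).conj hl hli
        rwa [Matrix.mulVec_add, Matrix.mulVec_smul, lift_rr, lift_rr, h1, h2] at this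
    have hT : Cfsg.Agent.H27.SG.AllT hS M := allT_of hS (fun z hz κ hκ => by
      rw [← hfdef]
      exact hall z (by rw [hfdef]; exact hz) κ hκ)
    exact le_antisymm hMSU (Cfsg.Agent.H27.SG.gsu_le hS hn hT)

end Sp

end Cfsg.Agent.H27.RU
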