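import Mathlib
import Cfsg.Prelude.Def_GeometricClasses
import Cfsg.Agent.Lib.H27.GeoRU
import Cfsg.Agent.Lib.H27.GeoOSL
import Cfsg.Agent.Lib.H27.GeoPlane

/-!
# Orthogonal rational structures for unitary forms
-/

set_option autoImplicit false
set_option linter.unusedSectionVars false
set_option linter.unusedSimpArgs false
set_option linter.unusedVariables false

namespace Cfsg.Agent.H27.RO

open scoped Matrix MatrixGroups
open Cfsg Cfsg.Geo
open Cfsg.Agent.H27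
open Cfsg.Agent.H27.RS
open Cfsg.Agent.H27.RU
open Cfsg.Agent.H27.UP
open Cfsg.Agent.H27.UF
open Cfsg.Agent.H28 (HS)

section Sep

variable {n : ℕ} {K : Type*} [Field K] [Fintype K] {Q : (Fin n → K) → K}

/-- A singular vector orthogonal to a small subspace, outside it. -/
theorem exists_perp_sing (hQ : IsNondegenerateQuadraticForm Q) (S : Submodule K (Fin n → K))
    (hdim : 2 * Module.finrank K S + 3 ≤ n) : ∃ p, Q p = 0 ∧ (∀ s ∈ S, GO.pl Q p s = 0) ∧ p ∉ S := by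
  have hd : 2 * Module.finrank K S + 3 ≤ Module.finrank K (⊤ : Submodule K (Fin n → K)) := by
    rw [finrank_top, Module.finrank_fintype_fun_eq_card, Fintype.card_fin]
    exact hdim
  obtain ⟨p, -, p', -, hQp, hQp', hpp', hpS, hp'S⟩ := GO.exists_hyp_rel hQ (GO.ndg_top hQ) le_top hd
  refine ⟨p, hQp, hpS, fun hm => ?_⟩
  have := hp'S p hm
  rw [GO.pl_symm, hpp'] at this
  exact one_ne_zero this

/-- A singular vector with a prescribed value at `p`, orthogonal to `S`. -/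
theorem exists_sing_sep (hQ : IsNondegenerateQuadraticForm Q) {S : Submodule K (Fin n → K)} {p : Fin n → K} (hp : p ∉ S)
    (hdim : 2 * (Module.finrank K S + 1) + 3 ≤ n) (c : K) :
    ∃ y, Q y = 0 ∧ (∀ s ∈ S, GO.pl Q y s = 0) ∧ GO.pl Q y p = c := by
  obtain ⟨y₀, -, hy₀S, hy₀p⟩ := GO.exists_sep hQ (GO.ndg_top hQ) (Submodule.mem_top (x := p)) hp c
  have h1 : Module.finrank K (S ⊔ Submodule.span K {p} : Submodule K (Fin n → K)) ≤ Module.finrank K S + 1 := by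
    have h2 := Submodule.finrank_add_le_finrank_add_finrank S (Submodule.span K {p})
    have h3 := GO.finrank_span_one (F := K) p
    omega
  have hd : 2 * Module.finrank K (S ⊔ Submodule.span K {p} : Submodule K (Fin n → K)) + 3 ≤ Module.finrank K (⊤ : Submodule K (Fin n → K)) := by
    rw [finrank_top, Module.finrank_fintype_fun_eq_card, Fintype.card_fin]
    omega
  obtain ⟨y, -, hQy, hy⟩ := GO.singularize hQ (GO.ndg_top hQ) le_top hd (Submodule.mem_top (x := y₀))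
  refine ⟨y, hQy, fun s hs => ?_, ?_⟩
  · rw [hy s (Submodule.mem_sup_left hs)]
    exact hy₀S s ⟨hs, trivial⟩
  · rw [hy p (Submodule.mem_sup_right (Submodule.mem_span_singleton_self p)), hy₀p]

/-- A singular vector with two prescribed values, orthogonal to a third vector. -/
theorem exists_sing_two (hQ : IsNondegenerateQuadraticForm Q) {p₁ p₂ p₃ : Fin n → K} (h1 : p₁ ∉ Submodule.span K {p₂, p₃})
    (h2 : p₂ ∉ Submodule.span K {p₁, p₃}) (hn : 9 ≤ n) (s s' : K) :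
    ∃ y, Q y = 0 ∧ GO.pl Q y p₁ = s ∧ GO.pl Q y p₂ = s' ∧ GO.pl Q y p₃ = 0 := by
  obtain ⟨y₁, -, hy₁S, hy₁p⟩ := GO.exists_sep hQ (GO.ndg_top hQ) (Submodule.mem_top (x := p₁)) h1 s
  obtain ⟨y₂, -, hy₂S, hy₂p⟩ := GO.exists_sep hQ (GO.ndg_top hQ) (Submodule.mem_top (x := p₂)) h2 s'
  have hd : 2 * Module.finrank K (Submodule.span K {p₁, p₂, p₃}) + 3 ≤ Module.finrank K (⊤ : Submodule K (Fin n → K)) := by
    rw [finrank_top, Module.finrank_fintype_fun_eq_card, Fintype.card_fin]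
    have := GO.finrank_span_three (F := K) p₁ p₂ p₃
    omega
  obtain ⟨y, -, hQy, hy⟩ := GO.singularize hQ (GO.ndg_top hQ) le_top hd (Submodule.mem_top (x := y₁ + y₂))
  refine ⟨y, hQy, ?_, ?_, ?_⟩
  · rw [hy _ (GO.mem_span_three_1 p₁ p₂ p₃), GO.pl_add_left hQ, hy₁p, hy₂S p₁ ⟨GO.mem_span_two_l p₁ p₃, trivial⟩, add_zero]
  · rw [hy _ (GO.mem_span_three_2 p₁ p₂ p₃), GO.pl_add_left hQ, hy₂p, hy₁S p₂ ⟨GO.mem_span_two_l p₂ p₃, trivial⟩, zero_add]
  · rw [hy _ (GO.mem_span_three_3 p₁ p₂ p₃), GO.pl_add_left hQ, hy₁S p₃ ⟨GO.mem_span_two_r p₂ p₃, trivial⟩,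
      hy₂S p₃ ⟨GO.mem_span_two_r p₁ p₃, trivial⟩, add_zero]

/-- Elements of `Ω` have determinant one. -/
theorem omega_sl {g : GL (Fin n) K} (hg : g ∈ omegaGL Q) : g ∈ specialLinear (Fin n) K := by
  rcases hg with ⟨g', hg', rfl⟩
  let φ : isometryGroup K Q →* Kˣ := (Matrix.GeneralLinearGroup.det : GL (Fin n) K →* Kˣ).comp (isometryGroup K Q).subtype
  have hle : Omega K Q ≤ φ.ker := by
    change commutator (isometryGroup K Q) ≤ φ.ker
    rw [commutator_def, Subgroup.commutator_le]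
    intro a _ b _
    rw [MonoidHom.mem_ker, map_commutatorElement, commutatorElement_eq_one_iff_mul_comm.2 (mul_comm _ _)]
  exact hle hg'

end Sep

variable {n : ℕ} {F : Type*} [Field F] [Fintype F] {q : ℕ} {σ : F ≃+* F} {f : (Fin n → F) → (Fin n → F) → F}
  {F₀ : Subfield F} {P : GL (Fin n) F}

local notation "GG" => GL (Fin n) F
local notation "Mat" => Matrix (Fin n) (Fin n) F

theorem Hz.inv (hf : IsUnitaryForm σ f) {M : Subgroup GG} {y c : Fin n → F} {μ : F} (hy : f y y = 0) (hc : f c y = 0)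
    (h : Hz f M y c μ) : Hz f M y (-c) (- f c c - μ) := by
  obtain ⟨e, he, hx⟩ := h
  refine ⟨e⁻¹, M.inv_mem he, fun v => ?_⟩
  obtain ⟨z, hz⟩ : ∃ z, z = ((e⁻¹ : GG) : Mat) *ᵥ v := ⟨_, rfl⟩
  have h1 : (e : Mat) *ᵥ z = v := by rw [hz, inv_cancel]
  have hyc : f y c = 0 := anti hf hc
  rw [← hz]
  have h2 := hx z
  rw [h1] at h2
  have h3 : f v y = f z y := by
    rw [h2]
    simp only [hf.add_left, fsl hf, hf.smul_left, hc, hy]
    ring
  have h4 : f v c = f z c + f z y * f c c := by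
    rw [h2]
    simp only [hf.add_left, fsl hf, hf.smul_left, hyc]
    ring
  rw [h3, fnr hf, h4, h2]
  ext i
  simp only [Pi.add_apply, Pi.sub_apply, Pi.smul_apply, Pi.neg_apply, smul_eq_mul]
  ring

section Forms

variable (hP : IsFormRationalStructure f F₀ 1 P)

/-- The `F₀`-valued symmetric form. -/
def BF (u v : Fin n → F₀) : F₀ :=
  ⟨f (rr P u) (rr P v), by
    have := hP _ _ (fun i => (u i).2) (fun i => (v i).2)
    rwa [one_mul] at this⟩

lemma BF_coe (u v : Fin n → F₀) : (BF hP u v : F) = f (rr P u) (rr P v) := rfl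

/-- The associated quadratic form. -/
def QF (u : Fin n → F₀) : F₀ := BF hP u u / 2

variable {hP}

lemma BF_symm (hf : IsUnitaryForm σ f) (hfix : ∀ x, x ∈ F₀ ↔ σ x = x) (u v : Fin n → F₀) : BF hP u v = BF hP v u := by
  apply Subtype.ext
  rw [BF_coe, BF_coe, hf.herm, ← BF_coe hP, (hfix _).1 (BF hP v u).2]

lemma BF_add_left (hf : IsUnitaryForm σ f) (x y v : Fin n → F₀) : BF hP (x + y) v = BF hP x v + BF hP y v := by
  apply Subtype.ext
  rw [Subfield.coe_add, BF_coe, BF_coe, BF_coe, rr_add, hf.add_left]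

lemma BF_add_right (hf : IsUnitaryForm σ f) (v x y : Fin n → F₀) : BF hP v (x + y) = BF hP v x + BF hP v y := by
  apply Subtype.ext
  rw [Subfield.coe_add, BF_coe, BF_coe, BF_coe, rr_add, fr_add hf]

lemma BF_smul_left (hf : IsUnitaryForm σ f) (c : F₀) (x v : Fin n → F₀) : BF hP (c • x) v = c * BF hP x v := by
  apply Subtype.ext
  rw [Subfield.coe_mul, BF_coe, BF_coe, rr_smul, hf.smul_left]

lemma BF_smul_right (hf : IsUnitaryForm σ f) (hfix : ∀ x, x ∈ F₀ ↔ σ x = x) (c : F₀) (v x : Fin n → F₀) :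
    BF hP v (c • x) = c * BF hP v x := by
  apply Subtype.ext
  rw [Subfield.coe_mul, BF_coe, BF_coe, rr_smul, fr_smul hf, (hfix _).1 c.2]

lemma pl_QF (hf : IsUnitaryForm σ f) (hfix : ∀ x, x ∈ F₀ ↔ σ x = x) (h2 : (2 : F₀) ≠ 0) (u v : Fin n → F₀) :
    GO.pl (QF hP) u v = BF hP u v := by
  simp only [GO.pl, QuadraticMap.polar, QF]
  rw [BF_add_left hf, BF_add_right hf, BF_add_right hf, BF_symm hf hfix v u]
  field_simp
  ring

theorem QF_nd (hf : IsUnitaryForm σ f) (hfix : ∀ x, x ∈ F₀ ↔ σ x = x) {ω : F} (hω : σ ω ≠ ω) (h2 : (2 : F₀) ≠ 0) :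
    IsNondegenerateQuadraticForm (QF hP) := by
  have hpl : ∀ u v, QuadraticMap.polar (QF hP) u v = BF hP u v := pl_QF (hP := hP) hf hfix h2
  have key : ∀ v : Fin n → F₀, v ≠ 0 → ∃ x, BF hP x v ≠ 0 := by
    intro v hv
    obtain ⟨y, hy⟩ := (hf.nondegenerate _ (rr_ne_zero hv)).1
    obtain ⟨y₁, y₂, rfl⟩ := decompV (P := P) hfix hf.involutive hω y
    rw [hf.add_left, hf.smul_left] at hy
    by_cases h1 : BF hP y₁ v = 0
    · refine ⟨y₂, fun h0 => ?_⟩
      rw [← BF_coe hP, ← BF_coe hP, h1, h0] at hy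
      simp at hy
    · exact ⟨y₁, h1⟩
  refine ⟨fun c v => ?_, ⟨fun x y v => ?_, fun c x v => ?_, fun v x y => ?_, fun c v x => ?_⟩, fun v hv => ?_⟩
  · simp only [QF]
    rw [BF_smul_left hf, BF_smul_right hf hfix]
    ring
  · rw [hpl, hpl, hpl, BF_add_left hf]
  · rw [hpl, hpl, BF_smul_left hf]
  · rw [hpl, hpl, hpl, BF_add_right hf]
  · rw [hpl, hpl, BF_smul_right hf hfix]
  · obtain ⟨x, hx⟩ := key v hv
    refine ⟨⟨x, by rwa [hpl]⟩, ⟨x, by rw [hpl, BF_symm hf hfix]; exact hx⟩⟩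

lemma QF_zero_iff (h2 : (2 : F₀) ≠ 0) {u : Fin n → F₀} : QF hP u = 0 ↔ f (rr P u) (rr P u) = 0 := by
  constructor
  · intro h
    have h3 : BF hP u u = 0 := by
      simp only [QF] at h
      rcases div_eq_zero_iff.1 h with h | h
      · exact h
      · exact absurd h h2
    rw [← BF_coe hP, h3]
    rfl
  · intro h
    have h3 : BF hP u u = 0 := by
      apply Subtype.ext
      rw [BF_coe, h]
      rfl
    simp only [QF, h3, zero_div]

/-- Elements attached to a rational totally singular pair. -/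
theorem exists_rat_rho (hf : IsUnitaryForm σ f) (hfix : ∀ x, x ∈ F₀ ↔ σ x = x) (h2 : (2 : F₀) ≠ 0) {a d : Fin n → F₀}
    (ha : QF hP a = 0) (hd : QF hP d = 0) (had : BF hP a d = 0) :
    ∃ t : GG, t ∈ subfieldSubgroup F₀ P ∧ t ∈ specialLinear (Fin n) F ∧ IsoF f t ∧
      ∀ v, (t : Mat) *ᵥ v = v + f v (rr P d) • rr P a - f v (rr P a) • rr P d := by
  have h0 : f (rr P a) (rr P d) = 0 := by
    rw [← BF_coe hP, had]
    rfl
  obtain ⟨t, ht, hi, hx⟩ := UP.exists_rho hf h0 ((QF_zero_iff h2).1 ha) ((QF_zero_iff h2).1 hd) 1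
  have hx' : ∀ v, (t : Mat) *ᵥ v = v + f v (rr P d) • rr P a - f v (rr P a) • rr P d := by
    intro v
    rw [hx]
    simp
  refine ⟨t, ?_, ht, hi, hx'⟩
  refine mem_of_rat (μ := 1) one_ne_zero fun u => ⟨u + BF hP u d • a - BF hP u a • d, ?_⟩
  rw [hx', one_smul, rr_sub, rr_add, rr_smul, rr_smul]
  rfl

/-- The form on a decomposed vector against a rational vector. -/
lemma f_dec_left (hf : IsUnitaryForm σ f) (ω : F) (x₁ x₂ v : Fin n → F₀) :
    f (rr P x₁ + ω • rr P x₂) (rr P v) = (BF hP x₁ v : F) + ω * (BF hP x₂ v : F) := by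
  rw [hf.add_left, hf.smul_left]
  rfl

lemma f_dec_right (hf : IsUnitaryForm σ f) (ω : F) (x₁ x₂ v : Fin n → F₀) :
    f (rr P v) (rr P x₁ + ω • rr P x₂) = (BF hP v x₁ : F) + σ ω * (BF hP v x₂ : F) := by
  rw [fr_add hf, fr_smul hf]
  rfl

/-- Step one: a singular vector moved to a non-rational point. -/
theorem exists_bad [Fintype F₀] (hf : IsUnitaryForm σ f) (hfix : ∀ x, x ∈ F₀ ↔ σ x = x) {ω : F} (hω : σ ω ≠ ω) (h2 : (2 : F₀) ≠ 0)
    (hn : 13 ≤ n) {g : GG} (hg : g ∉ subfieldSubgroup F₀ P) :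
    ∃ u, QF hP u = 0 ∧ ¬ RatPt P F₀ ((g : Mat) *ᵥ rr P u) := by
  have hQ : IsNondegenerateQuadraticForm (QF hP) := QF_nd hf hfix hω h2
  have hpl := pl_QF (hP := hP) hf hfix h2
  by_contra hcon
  push Not at hcon
  apply hg
  have hinj : ∀ {x : Fin n → F}, x ≠ 0 → (g : Mat) *ᵥ x ≠ 0 := by
    intro x hx h0
    apply hx
    have := congrArg (fun w => ((g⁻¹ : GG) : Mat) *ᵥ w) h0
    simpa [Matrix.mulVec_mulVec] using this
  obtain ⟨u₀, hQu₀, -, hu₀⟩ := exists_perp_sing hQ ⊥ (by rw [finrank_bot]; omega)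
  have hu₀0 : u₀ ≠ 0 := fun h => hu₀ (by rw [h]; exact Submodule.zero_mem _)
  obtain ⟨c₀, e₀, he₀⟩ := hcon u₀ hQu₀
  have hgu₀ : (g : Mat) *ᵥ rr P u₀ ≠ 0 := hinj (rr_ne_zero hu₀0)
  have hc₀ : c₀ ≠ 0 := by
    rintro rfl
    rw [zero_smul] at he₀
    exact hgu₀ he₀
  -- one step
  have step : ∀ {c : F} {u v : Fin n → F₀}, QF hP u = 0 → QF hP v = 0 → BF hP v u = 0 → u ≠ 0 → v ∉ Submodule.span F₀ {u} →
      (∃ e : Fin n → F₀, (g : Mat) *ᵥ rr P u = c • rr P e) → ∃ e : Fin n → F₀, (g : Mat) *ᵥ rr P v = c • rr P e := by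
    intro c u v hu hv huv hu0 hvn ⟨e, he⟩
    obtain ⟨c', e', he'⟩ := hcon v hv
    have hsum : QF hP (v + u) = 0 := by
      rw [GO.Q_add (QF hP), hu, hv, hpl, huv]
      simp
    obtain ⟨c'', e'', he''⟩ := hcon (v + u) hsum
    obtain ⟨hr, hc, -⟩ := ratio_of_points hu0 hvn he he' he''
    refine ⟨(⟨_, hr⟩ : F₀) • e', ?_⟩
    rw [he', rr_smul, smul_smul]
    congr 1
    simp only
    field_simp
  have hall : ∀ v, QF hP v = 0 → ∃ e : Fin n → F₀, (g : Mat) *ᵥ rr P v = c₀ • rr P e := by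
    intro v hv
    by_cases hv0 : v = 0
    · refine ⟨0, ?_⟩
      rw [hv0, rr_zero, smul_zero, Matrix.mulVec_zero]
    obtain ⟨t, hQt, htS, htn⟩ := exists_perp_sing hQ (Submodule.span F₀ {u₀, v}) (by
      have := GO.finrank_span_two (F := F₀) u₀ v
      omega)
    have ht0 : t ≠ 0 := fun h => htn (by rw [h]; exact Submodule.zero_mem _)
    have htu : BF hP t u₀ = 0 := by
      rw [← hpl]
      exact htS _ (GO.mem_span_two_l u₀ v)
    have htv : BF hP t v = 0 := by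
      rw [← hpl]
      exact htS _ (GO.mem_span_two_r u₀ v)
    have htn1 : t ∉ Submodule.span F₀ {u₀} := fun hm =>
      htn (Submodule.span_mono (by simp) hm)
    have hvn : v ∉ Submodule.span F₀ {t} := by
      intro hm
      obtain ⟨s, hs⟩ := Submodule.mem_span_singleton.1 hm
      have hs0 : s ≠ 0 := by
        rintro rfl
        rw [zero_smul] at hs
        exact hv0 hs.symm
      apply htn
      have : t = s⁻¹ • v := by rw [← hs, smul_smul, inv_mul_cancel₀ hs0, one_smul]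
      rw [this]
      exact Submodule.smul_mem _ _ (GO.mem_span_two_r u₀ v)
    have h1 := step hQu₀ hQt htu hu₀0 htn1 ⟨e₀, he₀⟩
    exact step hQt hv (by rw [BF_symm hf hfix]; exact htv) ht0 hvn h1
  refine mem_of_rat hc₀ fun v => ?_
  by_cases hv : QF hP v = 0
  · exact hall v hv
  -- split into two singular vectors
  have hd : 2 * Module.finrank F₀ (Submodule.span F₀ {v}) + 3 ≤ Module.finrank F₀ (⊤ : Submodule F₀ (Fin n → F₀)) := by
    rw [finrank_top, Module.finrank_fintype_fun_eq_card, Fintype.card_fin]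
    have := GO.finrank_span_one (F := F₀) v
    omega
  obtain ⟨p, -, hQp, hp⟩ := GO.singularize hQ (GO.ndg_top hQ) le_top hd (Submodule.mem_top (x := (2 : F₀)⁻¹ • v))
  have hpv : GO.pl (QF hP) p v = QF hP v := by
    rw [hp v (Submodule.mem_span_singleton_self v), GO.pl_smul_left hQ, GO.pl_self hQ]
    field_simp
  have hsub : QF hP (v - p) = 0 := by
    rw [GO.Q_sub hQ, hQp, GO.pl_symm, hpv]
    ring
  obtain ⟨e₁, he₁⟩ := hall p hQp
  obtain ⟨e₂, he₂⟩ := hall _ hsub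
  refine ⟨e₁ + e₂, ?_⟩
  have : rr P v = rr P p + rr P (v - p) := by
    rw [← rr_add]
    congr 1
    abel
  rw [this, Matrix.mulVec_add, he₁, he₂, rr_add, smul_add]

lemma combo_zero (hfix : ∀ x, x ∈ F₀ ↔ σ x = x) {ω : F} (hω : σ ω ≠ ω) {s₁ s₂ : F₀} (h : (s₁ : F) + ω * (s₂ : F) = 0) :
    s₁ = 0 ∧ s₂ = 0 := by
  have h1 := congrArg σ h
  rw [map_add, map_mul, (hfix _).1 s₁.2, (hfix _).1 s₂.2, map_zero] at h1
  have h3 : (σ ω - ω) * (s₂ : F) = 0 := by linear_combination h1 - h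
  have h4 : (s₂ : F) = 0 := (mul_eq_zero.1 h3).resolve_left (sub_ne_zero.2 hω)
  have h5 : s₂ = 0 := Subtype.ext h4
  refine ⟨Subtype.ext ?_, h5⟩
  rw [h4, mul_zero, add_zero] at h
  exact h

/-- Steps two and three: a full root group at a rational vector. -/
theorem exists_root [Fintype F₀] (hf : IsUnitaryForm σ f) (hfix : ∀ x, x ∈ F₀ ↔ σ x = x) {ω : F} (hω : σ ω ≠ ω) (h2F : (2 : F) ≠ 0)
    (hn : 13 ≤ n) {M : Subgroup GG}
    (hHM : ∀ t, t ∈ subfieldSubgroup F₀ P → t ∈ specialLinear (Fin n) F → IsoF f t → t ∈ M) {g : GG} (hgM : g ∈ M) (hiso : IsoF f g)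
    {u : Fin n → F₀} (hu : QF hP u = 0) (hbad : ¬ RatPt P F₀ ((g : Mat) *ᵥ rr P u)) :
    ∃ a, a ≠ 0 ∧ QF hP a = 0 ∧ ∀ κ, κ + σ κ = 0 → TT f M (rr P a) κ := by
  have h2 : (2 : F₀) ≠ 0 := fun h => h2F (by
    have h' : ((2 : F₀) : F) = ((0 : F₀) : F) := by rw [h]
    exact h')
  have hQ : IsNondegenerateQuadraticForm (QF hP) := QF_nd hf hfix hω h2
  have hpl : ∀ u v, QuadraticMap.polar (QF hP) u v = BF hP u v := pl_QF (hP := hP) hf hfix h2
  have hinv := hf.involutive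
  obtain ⟨x, hxdef⟩ : ∃ x, x = (g : Mat) *ᵥ rr P u := ⟨_, rfl⟩
  rw [← hxdef] at hbad
  obtain ⟨x₁, x₂, hx⟩ := decompV (P := P) hfix hinv hω x
  have hbad' := hbad
  rw [hx] at hbad'
  obtain ⟨hx₁, hx₂⟩ := of_not_rat hbad'
  obtain ⟨d, hQd, hdS, hdn⟩ := exists_perp_sing hQ (Submodule.span F₀ {x₁, x₂}) (by
    have := GO.finrank_span_two (F := F₀) x₁ x₂
    omega)
  have hd0 : d ≠ 0 := fun h => hdn (by rw [h]; exact Submodule.zero_mem _)
  have hdx₁ : BF hP d x₁ = 0 := by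
    rw [← hpl]
    exact hdS _ (GO.mem_span_two_l x₁ x₂)
  have hdx₂ : BF hP d x₂ = 0 := by
    rw [← hpl]
    exact hdS _ (GO.mem_span_two_r x₁ x₂)
  have hdx : f (rr P d) x = 0 := by
    rw [hx, f_dec_right (hP := hP) hf, hdx₁, hdx₂]
    simp
  obtain ⟨v, hvdef⟩ : ∃ v, v = ((g⁻¹ : GG) : Mat) *ᵥ rr P d := ⟨_, rfl⟩
  have hgv : (g : Mat) *ᵥ v = rr P d := by rw [hvdef, inv_cancel]
  obtain ⟨v₁, v₂, hv⟩ := decompV (P := P) hfix hinv hω v
  have hvn : v₁ ∉ Submodule.span F₀ {u} ∨ v₂ ∉ Submodule.span F₀ {u} := by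
    by_contra hcon
    push Not at hcon
    obtain ⟨hm1, hm2⟩ := hcon
    obtain ⟨t₁, ht₁⟩ := Submodule.mem_span_singleton.1 hm1
    obtain ⟨t₂, ht₂⟩ := Submodule.mem_span_singleton.1 hm2
    have h1 : v = ((t₁ : F) + ω * (t₂ : F)) • rr P u := by
      rw [hv, ← ht₁, ← ht₂, rr_smul, rr_smul, add_smul, smul_smul]
    have h3 : rr P d = ((t₁ : F) + ω * (t₂ : F)) • x := by
      rw [← hgv, h1, Matrix.mulVec_smul, ← hxdef]
    obtain ⟨c', hc'⟩ : ∃ c', c' = (t₁ : F) + ω * (t₂ : F) := ⟨_, rfl⟩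
    rw [← hc'] at h3
    have hc'0 : c' ≠ 0 := by
      rintro rfl
      rw [zero_smul] at h3
      exact rr_ne_zero hd0 h3
    exact hbad ⟨c'⁻¹, d, by rw [h3, smul_smul, inv_mul_cancel₀ hc'0, one_smul]⟩
  obtain ⟨w, hQw, hwu, hwv⟩ : ∃ w, QF hP w = 0 ∧ BF hP w u = 0 ∧ f v (rr P w) ≠ 0 := by
    rcases hvn with h | h
    · obtain ⟨w, hQw, hwS, hwp⟩ := exists_sing_sep hQ h (by
        have := GO.finrank_span_one (F := F₀) u
        omega) 1
      refine ⟨w, hQw, by rw [← hpl]; exact hwS _ (Submodule.mem_span_singleton_self u), ?_⟩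
      rw [hv, f_dec_left (hP := hP) hf]
      have h1 : BF hP v₁ w = 1 := by
        rw [BF_symm hf hfix, ← hpl]
        exact hwp
      intro h0
      have := (combo_zero hfix hω h0).1
      rw [h1] at this
      exact one_ne_zero this
    · obtain ⟨w, hQw, hwS, hwp⟩ := exists_sing_sep hQ h (by
        have := GO.finrank_span_one (F := F₀) u
        omega) 1
      refine ⟨w, hQw, by rw [← hpl]; exact hwS _ (Submodule.mem_span_singleton_self u), ?_⟩
      rw [hv, f_dec_left (hP := hP) hf]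
      have h1 : BF hP v₂ w = 1 := by
        rw [BF_symm hf hfix, ← hpl]
        exact hwp
      intro h0
      have := (combo_zero hfix hω h0).2
      rw [h1] at this
      exact one_ne_zero this
  obtain ⟨y, hydef⟩ : ∃ y, y = (g : Mat) *ᵥ rr P w := ⟨_, rfl⟩
  have hdy : f (rr P d) y ≠ 0 := by
    rw [← hgv, hydef, hiso]
    exact hwv
  obtain ⟨c, hcdef⟩ : ∃ c, c = f y (rr P d) := ⟨_, rfl⟩
  have hc0 : c ≠ 0 := by
    rw [hcdef, hf.herm]
    simpa using hdy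
  have hxx : f x x = 0 := by
    rw [hxdef, hiso]
    exact (QF_zero_iff h2).1 hu
  have hyy : f y y = 0 := by
    rw [hydef, hiso]
    exact (QF_zero_iff h2).1 hQw
  have hxy : f x y = 0 := by
    rw [hxdef, hydef, hiso, ← BF_coe hP, BF_symm hf hfix, hwu]
    rfl
  obtain ⟨y₁, y₂, hy⟩ := decompV (P := P) hfix hinv hω y
  obtain ⟨a, hQa, haS, han⟩ := exists_perp_sing hQ (Submodule.span F₀ {x₁, x₂, y₁, y₂, d}) (by
    have := OS.finrank_span_five (F := F₀) x₁ x₂ y₁ y₂ d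
    omega)
  have hmemS : ∀ s : Fin n → F₀, s ∈ ({x₁, x₂, y₁, y₂, d} : Set (Fin n → F₀)) → BF hP s a = 0 := by
    intro s hs
    rw [BF_symm hf hfix, ← hpl]
    exact haS s (Submodule.subset_span hs)
  have hax₁ := hmemS x₁ (by simp)
  have hax₂ := hmemS x₂ (by simp)
  have hay₁ := hmemS y₁ (by simp)
  have hay₂ := hmemS y₂ (by simp)
  have had := hmemS d (by simp)
  have hax : f x (rr P a) = 0 := by
    rw [hx, f_dec_left (hP := hP) hf, hax₁, hax₂]
    simp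
  have hay : f y (rr P a) = 0 := by
    rw [hy, f_dec_left (hP := hP) hf, hay₁, hay₂]
    simp
  have hxd : f x (rr P d) = 0 := by
    rw [hf.herm, hdx, map_zero]
  have haa : f (rr P a) (rr P a) = 0 := (QF_zero_iff h2).1 hQa
  have ha0 : a ≠ 0 := fun h => han (by rw [h]; exact Submodule.zero_mem _)
  have hanX : a ∉ Submodule.span F₀ {x₁, x₂} := fun hm => han (Submodule.span_mono (by
    intro s hs
    simp only [Set.mem_insert_iff, Set.mem_singleton_iff] at hs ⊢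
    rcases hs with rfl | rfl <;> simp) hm)
  obtain ⟨t, ht1, ht2, ht3, ht4⟩ := exists_rat_rho hf hfix h2 hQa hQd (by rw [BF_symm hf hfix]; exact had)
  have htM : t ∈ M := hHM t ht1 ht2 ht3
  have htx : (t : Mat) *ᵥ x = x := by
    rw [ht4, hxd, hax]
    simp
  have hty : (t : Mat) *ᵥ y = y + c • rr P a := by
    rw [ht4, hay, ← hcdef]
    simp
  obtain ⟨t₀, ht₀1, ht₀2, ht₀3, ht₀4⟩ := exists_rat_rho (a := w) (d := u) hf hfix h2 hQw hu hwu
  have hE₀ : Hz f M (rr P u) (rr P w) 0 := ⟨t₀, hHM _ ht₀1 ht₀2 ht₀3, fun v => by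
    rw [ht₀4]
    simp⟩
  have hE : Hz f M x y 0 := by
    have := hE₀.conj hgM hiso
    rwa [← hxdef, ← hydef] at this
  have hE' : Hz f M x (y + c • rr P a) 0 := by
    have := hE.conj htM ht3
    rwa [htx, hty] at this
  have hyx : f y x = 0 := anti hf hxy
  have hax' : f (rr P a) x = 0 := anti hf hax
  have hyax : f (y + c • rr P a) x = 0 := by
    rw [hf.add_left, hf.smul_left, hyx, hax', mul_zero, add_zero]
  have hI := Hz.inv hf hxx hyx hE
  have hN := UP.Hz.mul hf hxx hyax (by rw [fnl hf, hyx, neg_zero]) hE' hI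
  have e1 : y + c • rr P a + -y = c • rr P a := by abel
  have e2 : (0 : F) + (- f y y - 0) - f (-y) (y + c • rr P a) = 0 := by
    rw [fnl hf, fr_add hf, fr_smul hf, hay, hyy]
    ring
  rw [e1, e2] at hN
  have hN' : Hz f M (rr P a) ((- σ c) • x) 0 := by
    obtain ⟨e, he, hex⟩ := hN
    refine ⟨e, he, fun v => ?_⟩
    rw [hex, fr_smul hf, fr_smul hf, map_neg, hinv]
    ext i
    simp only [Pi.add_apply, Pi.sub_apply, Pi.smul_apply, smul_eq_mul]
    ring
  refine ⟨a, ha0, hQa, fun κ hκ => ?_⟩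
  have hσκ : σ κ = - κ := by linear_combination hκ
  have hσ2 : σ 2 = 2 := map_ofNat σ 2
  have hσc : σ c ≠ 0 := by simpa using hc0
  obtain ⟨s, s', hs⟩ := decomp hfix hinv hω (- κ / (2 * σ c))
  have hin1 : x₁ ∉ Submodule.span F₀ {x₂, a} := by
    intro hm
    obtain ⟨α, β, he⟩ := Submodule.mem_span_pair.1 hm
    by_cases hβ : β = 0
    · rw [hβ, zero_smul, add_zero] at he
      have hα : α ≠ 0 := by
        rintro rfl
        rw [zero_smul] at he
        exact hx₁ he.symm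
      apply hx₂
      rw [Submodule.mem_span_singleton]
      exact ⟨α⁻¹, by rw [← he, smul_smul, inv_mul_cancel₀ hα, one_smul]⟩
    · apply hanX
      rw [Submodule.mem_span_pair]
      refine ⟨β⁻¹, -(β⁻¹ * α), ?_⟩
      rw [← he]
      funext i
      simp only [Pi.add_apply, Pi.smul_apply, smul_eq_mul]
      field_simp
      ring
  have hin2 : x₂ ∉ Submodule.span F₀ {x₁, a} := by
    intro hm
    obtain ⟨α, β, he⟩ := Submodule.mem_span_pair.1 hm
    by_cases hβ : β = 0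
    · rw [hβ, zero_smul, add_zero] at he
      apply hx₂
      rw [Submodule.mem_span_singleton]
      exact ⟨α, he⟩
    · apply hanX
      rw [Submodule.mem_span_pair]
      refine ⟨-(β⁻¹ * α), β⁻¹, ?_⟩
      rw [← he]
      funext i
      simp only [Pi.add_apply, Pi.smul_apply, smul_eq_mul]
      field_simp
      ring
  obtain ⟨c₂, hQc₂, h1, h3, h4⟩ := exists_sing_two hQ hin1 hin2 (by omega) s s'
  have hc₂a : BF hP c₂ a = 0 := by
    rw [← hpl]
    exact h4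
  have hxc₂ : f x (rr P c₂) = - κ / (2 * σ c) := by
    rw [hx, f_dec_left (hP := hP) hf, hs, BF_symm hf hfix x₁, BF_symm hf hfix x₂, ← hpl, ← hpl]
    change ((GO.pl (QF hP) c₂ x₁ : F₀) : F) + ω * ((GO.pl (QF hP) c₂ x₂ : F₀) : F) = _
    rw [h1, h3]
    ring
  obtain ⟨t₂, ht₂1, ht₂2, ht₂3, ht₂4⟩ := exists_rat_rho (a := c₂) (d := a) hf hfix h2 hQc₂ hQa hc₂a
  have hR : Hz f M (rr P a) (rr P c₂) 0 := ⟨t₂, hHM _ ht₂1 ht₂2 ht₂3, fun v => by
    rw [ht₂4]
    simp⟩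
  have hξa : f ((- σ c) • x) (rr P a) = 0 := by
    rw [hf.smul_left, hax, mul_zero]
  have hc₂a' : f (rr P c₂) (rr P a) = 0 := by
    rw [← BF_coe hP, hc₂a]
    rfl
  have hT := UP.Hz.comm hf haa hξa hc₂a' hN' hR
  have e3 : f ((- σ c) • x) (rr P c₂) - f (rr P c₂) ((- σ c) • x) = κ := by
    have e4 : f ((- σ c) • x) (rr P c₂) = κ / 2 := by
      rw [hf.smul_left, hxc₂]
      field_simp
    rw [hf.herm (rr P c₂), e4, map_div₀, hσκ, hσ2]
    field_simp
    ring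
  rwa [e3] at hT

/-- Step four. -/
theorem all_rat [Fintype F₀] (hf : IsUnitaryForm σ f) (hfix : ∀ x, x ∈ F₀ ↔ σ x = x) {ω : F} (hω : σ ω ≠ ω) (h2 : (2 : F₀) ≠ 0)
    (hn : 7 ≤ n) {M : Subgroup GG}
    (hHM : ∀ t, t ∈ subfieldSubgroup F₀ P → t ∈ specialLinear (Fin n) F → IsoF f t → t ∈ M) {a : Fin n → F₀} (ha0 : a ≠ 0)
    (hQa : QF hP a = 0) (hr : ∀ κ, κ + σ κ = 0 → TT f M (rr P a) κ) :
    ∀ b, QF hP b = 0 → ∀ κ, κ + σ κ = 0 → TT f M (rr P b) κ := by
  intro b hb κ hκ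
  by_cases hb0 : b = 0
  · rw [hb0, rr_zero]
    exact TT_zero hf M κ
  have hQ : IsNondegenerateQuadraticForm (QF hP) := QF_nd hf hfix hω h2
  have hpl : ∀ u v, QuadraticMap.polar (QF hP) u v = BF hP u v := pl_QF (hP := hP) hf hfix h2
  have hn' : 7 ≤ Fintype.card (Fin n) := by simpa using hn
  have hdim : 7 ≤ Module.finrank F₀ (⊤ : Submodule F₀ (Fin n → F₀)) := by
    rw [finrank_top, Module.finrank_fintype_fun_eq_card, Fintype.card_fin]
    exact hn
  obtain ⟨t, ht, htab⟩ := GO.trans_sing hQ (GO.ndg_top hQ) hdim (GO.rootGp_allR ⊤ hQ hn') (Submodule.mem_top (x := a))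
    (Submodule.mem_top (x := b)) hQa hb ha0 hb0
  have hΩ := GO.rootGp_le_omega hQ hn' ht
  have hO := GO.omega_le_isom hΩ
  have hdet : (t : Matrix (Fin n) (Fin n) F₀).det = 1 := by
    have := congrArg Units.val (MonoidHom.mem_ker.1 (omega_sl hΩ))
    simpa using this
  have hli : IsoF f (lift P t) := by
    apply iso_of_rat hf hfix hω (P := P)
    intro u v
    rw [lift_rr, lift_rr, ← BF_coe hP, ← BF_coe hP, ← hpl, ← hpl]
    exact congrArg _ (GO.isom_pl hO u v)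
  have hl := hHM _ (lift_mem t) (lift_det t hdet) hli
  have := (hr κ hκ).conj hl hli
  rwa [lift_rr, htab] at this

/-- Step five. -/
theorem all_sing [Fintype F₀] (hf : IsUnitaryForm σ f) (hfix : ∀ x, x ∈ F₀ ↔ σ x = x) (h2 : (2 : F₀) ≠ 0) (hn : 13 ≤ n) {ω : F}
    (hωs : σ ω = - ω) (hω : σ ω ≠ ω) {ν : F₀} (hν : ω * ω = ν) {M : Subgroup GG} (hMiso : ∀ t ∈ M, IsoF f t)
    (hrat : ∀ b, QF hP b = 0 → ∀ κ, κ + σ κ = 0 → TT f M (rr P b) κ) :
    ∀ z, f z z = 0 → ∀ κ, κ + σ κ = 0 → TT f M z κ := by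
  have hQ : IsNondegenerateQuadraticForm (QF hP) := QF_nd hf hfix hω h2
  have hpl : ∀ u v, QuadraticMap.polar (QF hP) u v = BF hP u v := pl_QF (hP := hP) hf hfix h2
  have hinv := hf.involutive
  have hBB : ∀ {u : Fin n → F₀}, QF hP u = 0 → BF hP u u = 0 := by
    intro u hu
    simp only [QF] at hu
    rcases div_eq_zero_iff.1 hu with h | h
    · exact h
    · exact absurd h h2
  have move : ∀ (z₁ z₂ a : Fin n → F₀) (c : F₀), QF hP a = 0 →
      (∀ κ, κ + σ κ = 0 → TT f M (rr P (z₁ + (c * ν * BF hP z₂ a) • a) + ω • rr P (z₂ + (c * BF hP z₁ a) • a)) κ) →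
      ∀ κ, κ + σ κ = 0 → TT f M (rr P z₁ + ω • rr P z₂) κ := by
    intro z₁ z₂ a c ha hG κ hκ
    obtain ⟨t, ht, htx⟩ := hrat a ha ((c : F) * ω) (by
      rw [map_mul, (hfix _).1 c.2, hωs]
      ring)
    have ez : (t : Mat) *ᵥ (rr P z₁ + ω • rr P z₂) =
        rr P (z₁ + (c * ν * BF hP z₂ a) • a) + ω • rr P (z₂ + (c * BF hP z₁ a) • a) := by
      rw [htx, f_dec_left (hP := hP) hf, rr_add, rr_add, rr_smul, rr_smul]
      ext i
      simp only [Pi.add_apply, Pi.smul_apply, smul_eq_mul, Subfield.coe_mul]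
      linear_combination ((c : F) * (BF hP z₂ a : F) * rr P a i) * hν
    have h1 := hG κ hκ
    rw [← ez] at h1
    have h3 := h1.conj (M.inv_mem ht) (hMiso _ (M.inv_mem ht))
    rwa [inv_cancel'] at h3
  have rat_good : ∀ z, f z z = 0 → RatPt P F₀ z → ∀ κ, κ + σ κ = 0 → TT f M z κ := by
    rintro z hz ⟨c, u, rfl⟩ κ hκ
    by_cases hc : c = 0
    · rw [hc, zero_smul]
      exact TT_zero hf M κ
    have hu : QF hP u = 0 := by
      apply (QF_zero_iff h2).2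
      rw [hf.smul_left, fr_smul hf] at hz
      have hσc : σ c ≠ 0 := by simpa using hc
      exact (mul_eq_zero.1 ((mul_eq_zero.1 hz).resolve_left hc)).resolve_left hσc
    apply TT.unscale hf
    apply hrat u hu
    rw [map_mul, map_mul, hinv]
    linear_combination (c * σ c) * hκ
  have L5A : ∀ z₁ z₂ : Fin n → F₀, QF hP z₁ = 0 → QF hP z₂ = 0 → BF hP z₁ z₂ ≠ 0 →
      ∀ κ, κ + σ κ = 0 → TT f M (rr P z₁ + ω • rr P z₂) κ := by
    intro z₁ z₂ hz₁ hz₂ hb
    apply move z₁ z₂ z₂ (-(BF hP z₁ z₂)⁻¹) hz₂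
    have e2 : z₁ + (-(BF hP z₁ z₂)⁻¹ * ν * BF hP z₂ z₂) • z₂ = z₁ := by
      rw [hBB hz₂, mul_zero, zero_smul, add_zero]
    have e3 : z₂ + (-(BF hP z₁ z₂)⁻¹ * BF hP z₁ z₂) • z₂ = 0 := by
      rw [neg_mul, inv_mul_cancel₀ hb, neg_one_smul]
      abel
    rw [e2, e3, rr_zero, smul_zero, add_zero]
    exact hrat z₁ hz₁
  have ind1 : ∀ z₁ z₂ : Fin n → F₀, z₁ ≠ 0 → z₂ ∉ Submodule.span F₀ {z₁} → z₁ ∉ Submodule.span F₀ {z₂} := by
    intro z₁ z₂ h1 h3 hm
    obtain ⟨t, ht⟩ := Submodule.mem_span_singleton.1 hm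
    have ht0 : t ≠ 0 := by
      rintro rfl
      rw [zero_smul] at ht
      exact h1 ht.symm
    apply h3
    rw [Submodule.mem_span_singleton]
    exact ⟨t⁻¹, by rw [← ht, smul_smul, inv_mul_cancel₀ ht0, one_smul]⟩
  have L5B : ∀ z₁ z₂ : Fin n → F₀, QF hP z₁ = 0 → QF hP z₂ = 0 → BF hP z₁ z₂ = 0 →
      ∀ κ, κ + σ κ = 0 → TT f M (rr P z₁ + ω • rr P z₂) κ := by
    intro z₁ z₂ hz₁ hz₂ hb
    by_cases hr : RatPt P F₀ (rr P z₁ + ω • rr P z₂)
    · apply rat_good _ _ hr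
      have hb' : f (rr P z₁) (rr P z₂) = 0 := by
        rw [← BF_coe hP, hb]
        rfl
      have hb'' : f (rr P z₂) (rr P z₁) = 0 := anti hf hb'
      rw [f_expand hf, (QF_zero_iff h2).1 hz₁, (QF_zero_iff h2).1 hz₂, hb', hb'']
      ring
    obtain ⟨h1, h3⟩ := of_not_rat hr
    obtain ⟨b₀, hb₀, hbS, hbp⟩ := exists_sing_sep hQ (ind1 z₁ z₂ h1 h3) (by
      have := GO.finrank_span_one (F := F₀) z₂
      omega) 1
    apply move z₁ z₂ b₀ 1 hb₀
    have e1 : BF hP z₂ b₀ = 0 := by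
      rw [BF_symm hf hfix, ← hpl]
      exact hbS _ (Submodule.mem_span_singleton_self z₂)
    have e2 : BF hP z₁ b₀ = 1 := by
      rw [BF_symm hf hfix, ← hpl]
      exact hbp
    rw [e1, e2, mul_zero, zero_smul, add_zero, mul_one, one_smul]
    apply L5A z₁ (z₂ + b₀) hz₁
    · rw [GO.Q_add (QF hP), hz₂, hb₀, pl_QF hf hfix h2, e1]
      simp
    · rw [BF_add_right hf, hb, e2, zero_add]
      exact one_ne_zero
  intro z hz
  obtain ⟨z₁, z₂, rfl⟩ := decompV (P := P) hfix hinv hω z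
  have hrel : QF hP z₁ = ν * QF hP z₂ := by
    have h1 := hz
    rw [f_expand hf, hωs, ← BF_coe hP, ← BF_coe hP, ← BF_coe hP, ← BF_coe hP, BF_symm hf hfix z₂ z₁] at h1
    have h3 : (BF hP z₁ z₁ : F) = ν * (BF hP z₂ z₂ : F) := by
      rw [← hν]
      linear_combination h1
    have h4 : BF hP z₁ z₁ = ν * BF hP z₂ z₂ := Subtype.ext h3
    simp only [QF]
    rw [h4]
    ring
  by_cases hz₂ : QF hP z₂ = 0
  · have hz₁ : QF hP z₁ = 0 := by rw [hrel, hz₂, mul_zero]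
    by_cases hb : BF hP z₁ z₂ = 0
    · exact L5B z₁ z₂ hz₁ hz₂ hb
    · exact L5A z₁ z₂ hz₁ hz₂ hb
  by_cases hr : RatPt P F₀ (rr P z₁ + ω • rr P z₂)
  · exact rat_good _ hz hr
  obtain ⟨h1, h3⟩ := of_not_rat hr
  have hn₁ : z₁ ∉ Submodule.span F₀ {z₂, (0 : Fin n → F₀)} := by
    intro hm
    obtain ⟨α, β, he⟩ := Submodule.mem_span_pair.1 hm
    rw [smul_zero, add_zero] at he
    apply ind1 z₁ z₂ h1 h3
    rw [Submodule.mem_span_singleton]
    exact ⟨α, he⟩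
  have hn₂ : z₂ ∉ Submodule.span F₀ {z₁, (0 : Fin n → F₀)} := by
    intro hm
    obtain ⟨α, β, he⟩ := Submodule.mem_span_pair.1 hm
    rw [smul_zero, add_zero] at he
    apply h3
    rw [Submodule.mem_span_singleton]
    exact ⟨α, he⟩
  obtain ⟨a, ha, ha1, ha2, -⟩ := exists_sing_two hQ hn₁ hn₂ (by omega) 1 1
  have e1 : BF hP z₁ a = 1 := by
    rw [BF_symm hf hfix, ← hpl]
    exact ha1
  have e2 : BF hP z₂ a = 1 := by
    rw [BF_symm hf hfix, ← hpl]
    exact ha2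
  apply move z₁ z₂ a (- QF hP z₂) ha
  rw [e1, e2, mul_one, mul_one]
  have hQadd : ∀ (x : Fin n → F₀) (c : F₀), BF hP x a = 1 → QF hP (x + c • a) = QF hP x + c := by
    intro x c hx
    rw [GO.Q_add (QF hP), hQ.smul, ha, pl_QF hf hfix h2, BF_smul_right hf hfix, hx]
    ring
  have hz₁' : QF hP (z₁ + (- QF hP z₂ * ν) • a) = 0 := by
    rw [hQadd _ _ e1, hrel]
    ring
  have hz₂' : QF hP (z₂ + (- QF hP z₂) • a) = 0 := by
    rw [hQadd _ _ e2]
    ring
  by_cases hb : BF hP (z₁ + (- QF hP z₂ * ν) • a) (z₂ + (- QF hP z₂) • a) = 0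
  · exact L5B _ _ hz₁' hz₂' hb
  · exact L5A _ _ hz₁' hz₂' hb

end Forms

/-- `O_n(q)` in `SU_n(q)`. -/
theorem orth_max (hS : HS F q σ) (hn : 13 ≤ n) (hfix : ∀ x, x ∈ F₀ ↔ σ x = x) (h2F : (2 : F) ≠ 0)
    (hP : IsFormRationalStructure (hermForm n F q) F₀ 1 P) :
    IsMaximalIn (GU n F q ⊓ specialLinear (Fin n) F) (subfieldSubgroup F₀ P ⊓ (GU n F q ⊓ specialLinear (Fin n) F)) := by
  classical
  haveI : Fintype F₀ := Fintype.ofFinite _
  have hf : IsUnitaryForm σ (hermForm n F q) := Cfsg.Agent.H28.herm_unitary hS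
  obtain ⟨f, hfdef⟩ : ∃ f, f = hermForm n F q := ⟨_, rfl⟩
  rw [← hfdef] at hf hP
  have hGU : ∀ g : GG, g ∈ GU n F q ↔ IsoF f g := by
    intro g
    rw [hfdef]
    exact Iff.rfl
  have hinv := hf.involutive
  have h2 : (2 : F₀) ≠ 0 := fun h => h2F (by
    have h' : ((2 : F₀) : F) = ((0 : F₀) : F) := by rw [h]
    exact h')
  obtain ⟨w, hw⟩ := hS.exists_ne
  obtain ⟨ω, hωdef⟩ : ∃ ω, ω = w - σ w := ⟨_, rfl⟩
  have hωs : σ ω = - ω := by
    rw [hωdef, map_sub, hinv]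
    ring
  have hω0 : ω ≠ 0 := by
    rw [hωdef]
    exact sub_ne_zero.2 hw.symm
  have hω : σ ω ≠ ω := by
    rw [hωs]
    intro h
    have : (2 : F) * ω = 0 := by linear_combination - h
    exact (mul_ne_zero h2F hω0) this
  have hνm : ω * ω ∈ F₀ := by
    rw [hfix, map_mul, hωs]
    ring
  have hQ : IsNondegenerateQuadraticForm (QF hP) := QF_nd hf hfix hω h2
  have hpl : ∀ u v, QuadraticMap.polar (QF hP) u v = BF hP u v := pl_QF (hP := hP) hf hfix h2
  constructor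
  · refine lt_of_le_of_ne inf_le_right fun heq => ?_
    obtain ⟨a, hQa, -, ha⟩ := exists_perp_sing hQ ⊥ (by rw [finrank_bot]; omega)
    have ha0 : a ≠ 0 := fun h => ha (by rw [h]; exact Submodule.zero_mem _)
    obtain ⟨v, -, -, hv⟩ := exists_sing_sep hQ ha (by rw [finrank_bot]; omega) 1
    have hva : BF hP v a = 1 := by
      rw [← hpl]
      exact hv
    have haa : f (rr P a) (rr P a) = 0 := (QF_zero_iff h2).1 hQa
    obtain ⟨t, htSL, hti, htx⟩ := exists_ut hf haa (κ := ω) (by rw [hωs]; ring)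
    have htH : t ∈ subfieldSubgroup F₀ P := by
      have : t ∈ subfieldSubgroup F₀ P ⊓ (GU n F q ⊓ specialLinear (Fin n) F) := by
        rw [heq]
        exact ⟨(hGU t).2 hti, htSL⟩
      exact this.1
    obtain ⟨μ, hμ⟩ := rat_of_mem htH
    obtain ⟨u, hu⟩ := hμ v
    have h3 : (t : Mat) *ᵥ rr P v = rr P v + ω • rr P a := by
      rw [htx, ← BF_coe hP, hva]
      simp
    have hv0 : v ≠ 0 := by
      rintro rfl
      have h6 : BF hP 0 a = 0 := by
        apply Subtype.ext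
        rw [BF_coe, rr_zero, f0l hf]
        rfl
      rw [h6] at hva
      exact zero_ne_one hva
    have hn3 : a ∉ Submodule.span F₀ {v} := by
      intro hm
      obtain ⟨s, hs⟩ := Submodule.mem_span_singleton.1 hm
      have hs0 : s ≠ 0 := by
        rintro rfl
        rw [zero_smul] at hs
        exact ha0 hs.symm
      have hvs : v = s⁻¹ • a := by rw [← hs, smul_smul, inv_mul_cancel₀ hs0, one_smul]
      rw [hvs, BF_smul_left hf] at hva
      have h6 : BF hP a a = 0 := by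
        apply Subtype.ext
        rw [BF_coe, haa]
        rfl
      rw [h6, mul_zero] at hva
      exact zero_ne_one hva
    apply nonrat hfix hω hv0 hn3
    rw [← h3]
    exact ⟨μ, u, hu⟩
  · intro M hHM hMSU
    by_cases hMH : M ≤ subfieldSubgroup F₀ P ⊓ (GU n F q ⊓ specialLinear (Fin n) F)
    · left
      exact le_antisymm hMH hHM
    right
    obtain ⟨g, hgM, hgH⟩ := SetLike.not_le_iff_exists.1 hMH
    have hgSU := hMSU hgM
    have hgnot : g ∉ subfieldSubgroup F₀ P := fun h => hgH ⟨h, hgSU⟩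
    have hMiso : ∀ t ∈ M, IsoF f t := fun t ht => (hGU t).1 (hMSU ht).1
    have hHM' : ∀ t, t ∈ subfieldSubgroup F₀ P → t ∈ specialLinear (Fin n) F → IsoF f t → t ∈ M :=
      fun t h1 h3 h4 => hHM ⟨h1, (hGU t).2 h4, h3⟩
    obtain ⟨u, hu, hbad⟩ := exists_bad (hP := hP) hf hfix hω h2 hn hgnot
    obtain ⟨a, ha0, hQa, hr⟩ := exists_root hf hfix hω h2F hn hHM' hgM (hMiso g hgM) hu hbad
    have hrat := all_rat (hP := hP) hf hfix hω h2 (by omega) hHM' ha0 hQa hr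
    have hall := all_sing (hP := hP) hf hfix h2 hn hωs hω (ν := ⟨_, hνm⟩) rfl hMiso hrat
    have hT : Cfsg.Agent.H27.SG.AllT hS M := allT_of hS (fun z hz κ hκ => by
      rw [← hfdef]
      exact hall z (by rw [hfdef]; exact hz) κ hκ)
    exact le_antisymm hMSU (Cfsg.Agent.H27.SG.gsu_le hS (by omega) hT)

end Cfsg.Agent.H27.RO
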