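import Mathlib
import Cfsg.Prelude.Def_GeometricClasses
import Cfsg.Agent.Lib.H27.GeoRS
import Cfsg.Agent.Lib.H27.GeoMaxSL
import Cfsg.Agent.Lib.H27.GeoDC4

/-!
# Subfield subgroups of `SL_n`: calculus of transvections
-/

set_option autoImplicit false
set_option linter.unusedSectionVars false
set_option linter.unusedSimpArgs false
set_option linter.unusedVariables false
set_option linter.style.haveILetI false

namespace Cfsg.Agent.H27.SF

open scoped Matrix MatrixGroups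
open Cfsg Cfsg.Geo
open Cfsg.Agent.H27.RS (rr co lift inv_rr rr_add rr_sub rr_neg rr_smul rr_zero rr_inj rr_ne_zero lift_mem lift_rr lift_det RatPt)

variable {n : ℕ} {F : Type*} [Field F]

/-- The group contains the transvection `x ↦ x + χ x • v`. -/
def TT (M : Subgroup (GL (Fin n) F)) (χ : Module.Dual F (Fin n → F)) (v : Fin n → F) : Prop :=
  ∃ t ∈ M, ∀ x, (t : Matrix (Fin n) (Fin n) F) *ᵥ x = x + χ x • v

section tcalc

variable {M : Subgroup (GL (Fin n) F)} {χ χ' φ ψ θ : Module.Dual F (Fin n → F)} {v v' x : Fin n → F} {c : F}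

lemma inv_act (g : GL (Fin n) F) (y : Fin n → F) : ((g⁻¹ : GL (Fin n) F) : Matrix (Fin n) (Fin n) F) *ᵥ ((g : Matrix (Fin n) (Fin n) F) *ᵥ y) = y := by
  rw [Matrix.mulVec_mulVec, ← Units.val_mul, inv_mul_cancel, Units.val_one, Matrix.one_mulVec]

lemma act_inv (g : GL (Fin n) F) (y : Fin n → F) : (g : Matrix (Fin n) (Fin n) F) *ᵥ (((g⁻¹ : GL (Fin n) F) : Matrix (Fin n) (Fin n) F) *ᵥ y) = y := by
  rw [Matrix.mulVec_mulVec, ← Units.val_mul, mul_inv_cancel, Units.val_one, Matrix.one_mulVec]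

lemma TT.conj (ht : TT M χ v) {h : GL (Fin n) F} (hh : h ∈ M) (hχ : ∀ y, χ' ((h : Matrix (Fin n) (Fin n) F) *ᵥ y) = χ y) :
    TT M χ' ((h : Matrix (Fin n) (Fin n) F) *ᵥ v) := by
  obtain ⟨t, htM, ht⟩ := ht
  refine ⟨h * t * h⁻¹, M.mul_mem (M.mul_mem hh htM) (M.inv_mem hh), fun y => ?_⟩
  rw [Units.val_mul, Units.val_mul, ← Matrix.mulVec_mulVec, ← Matrix.mulVec_mulVec, ht, Matrix.mulVec_add, Matrix.mulVec_smul,
    act_inv, ← hχ, act_inv]

lemma TT.congr (ht : TT M χ v) {χ' : Module.Dual F (Fin n → F)} {v' : Fin n → F} (h : ∀ y, χ y • v = χ' y • v') : TT M χ' v' := by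
  obtain ⟨t, htM, ht⟩ := ht
  exact ⟨t, htM, fun y => by rw [ht, h]⟩

lemma TT.scale_right (ht : TT M χ v) (c : F) : TT M (c • χ) ((c⁻¹) • v) ∨ c = 0 := by
  by_cases hc : c = 0
  · exact Or.inr hc
  · left
    refine ht.congr fun y => ?_
    simp only [LinearMap.smul_apply, smul_eq_mul, smul_smul]
    congr 1
    field_simp

lemma TT.move_left (ht : TT M (c • χ) v) : TT M χ (c • v) := by
  refine ht.congr fun y => ?_
  simp only [LinearMap.smul_apply, smul_eq_mul, smul_smul]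
  congr 1
  ring

lemma TT.move_right (ht : TT M χ (c • v)) : TT M (c • χ) v := by
  refine ht.congr fun y => ?_
  simp only [LinearMap.smul_apply, smul_eq_mul, smul_smul]
  congr 1
  ring

lemma TT.add_vec (ht : TT M χ v) (ht' : TT M χ v') (h : χ v' = 0) : TT M χ (v + v') := by
  obtain ⟨t, htM, ht⟩ := ht
  obtain ⟨t', htM', ht'⟩ := ht'
  refine ⟨t * t', M.mul_mem htM htM', fun y => ?_⟩
  rw [Units.val_mul, ← Matrix.mulVec_mulVec, ht', ht]
  simp only [map_add, map_smul, h, smul_eq_mul, mul_zero, add_zero, smul_add]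
  abel

lemma TT.add_fun (ht : TT M χ v) (ht' : TT M χ' v) (h : χ v = 0) : TT M (χ + χ') v := by
  obtain ⟨t, htM, ht⟩ := ht
  obtain ⟨t', htM', ht'⟩ := ht'
  refine ⟨t * t', M.mul_mem htM htM', fun y => ?_⟩
  rw [Units.val_mul, ← Matrix.mulVec_mulVec, ht', ht]
  simp only [map_add, map_smul, h, smul_eq_mul, mul_zero, add_zero, LinearMap.add_apply, add_smul]
  abel

lemma TT.neg_fun (ht : TT M χ v) (h : χ v = 0) : TT M (-χ) v := by
  obtain ⟨t, htM, ht⟩ := ht
  refine ⟨t⁻¹, M.inv_mem htM, fun y => ?_⟩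
  have h1 : (t : Matrix (Fin n) (Fin n) F) *ᵥ (y + (-χ) y • v) = y := by
    have h0 : χ ((-χ) y • v) = 0 := by rw [map_smul, h, smul_zero]
    rw [ht, map_add, h0, add_zero]
    simp only [LinearMap.neg_apply, neg_smul]
    abel
  have h2 := inv_act t (y + (-χ) y • v)
  rw [h1] at h2
  exact h2

lemma TT.neg_vec (ht : TT M χ v) (h : χ v = 0) : TT M χ (-v) := by
  refine (ht.neg_fun h).congr fun y => ?_
  simp

/-- The commutator formula, fixed vector. -/
lemma TT.comm_vec (hT : TT M φ x) (h1 : φ x = 0) (h2 : φ v = 0) (hR : TT M ψ v) (h3 : ψ v = 0) : TT M (ψ x • φ) v := by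
  obtain ⟨T, hTM, hTa⟩ := id hT
  have hTv : (T : Matrix (Fin n) (Fin n) F) *ᵥ v = v := by
    rw [hTa, h2, zero_smul, add_zero]
  have h4 : TT M (ψ - ψ x • φ) v := by
    have := hR.conj (χ' := ψ - ψ x • φ) hTM (fun y => by
      rw [hTa]
      simp only [map_add, map_smul, LinearMap.sub_apply, LinearMap.smul_apply, h1, smul_eq_mul, mul_zero, add_zero]
      ring)
    rwa [hTv] at this
  have h5 : (ψ - ψ x • φ) v = 0 := by
    simp [h2, h3]
  have h6 := (h4.add_fun (hR.neg_fun h3) h5).neg_fun (by simp [h2, h3])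
  refine h6.congr fun y => ?_
  simp

/-- The commutator formula, fixed functional. -/
lemma TT.comm_fun (hT : TT M φ x) (h1 : φ x = 0) (h2 : θ x = 0) (hR : TT M θ v) (h3 : θ v = 0) : TT M θ (φ v • x) := by
  obtain ⟨T, hTM, hTa⟩ := id hT
  have h4 : TT M θ (v + φ v • x) := by
    have := hR.conj (χ' := θ) hTM (fun y => by
      rw [hTa]
      simp only [map_add, map_smul, h2, smul_eq_mul, mul_zero, add_zero])
    rwa [hTa] at this
  have h5 := (hR.neg_vec h3).add_vec h4 (by simp [h2, h3])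
  refine h5.congr fun y => ?_
  simp

end tcalc

variable {F₀ : Subfield F} {P : GL (Fin n) F}

/-- A rational functional. -/
def rf (P : GL (Fin n) F) (θ : Fin n → F₀) : Module.Dual F (Fin n → F) where
  toFun x := co θ ⬝ᵥ (((P⁻¹ : GL (Fin n) F) : Matrix (Fin n) (Fin n) F) *ᵥ x)
  map_add' a b := by simp [Matrix.mulVec_add, dotProduct_add]
  map_smul' c a := by simp [Matrix.mulVec_smul, dotProduct_smul]

lemma rf_apply (θ : Fin n → F₀) (x : Fin n → F) : rf P θ x = co θ ⬝ᵥ (((P⁻¹ : GL (Fin n) F) : Matrix (Fin n) (Fin n) F) *ᵥ x) := rfl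

lemma co_dot (θ u : Fin n → F₀) : co θ ⬝ᵥ co u = ((θ ⬝ᵥ u : F₀) : F) := by
  simp only [dotProduct, RS.co_apply]
  rw [AddSubmonoidClass.coe_finsetSum]
  rfl

lemma rf_rr (θ u : Fin n → F₀) : rf P θ (rr P u) = ((θ ⬝ᵥ u : F₀) : F) := by
  rw [rf_apply, inv_rr, co_dot]

lemma co_single (i : Fin n) : co (Pi.single i (1 : F₀) : Fin n → F₀) = Pi.single i (1 : F) := by
  ext k
  by_cases hk : k = i
  · subst hk
    simp [co]
  · simp [co, hk]

lemma expand (P : GL (Fin n) F) (F₀ : Subfield F) (x : Fin n → F) :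
    x = ∑ i, (((P⁻¹ : GL (Fin n) F) : Matrix (Fin n) (Fin n) F) *ᵥ x) i • rr P (Pi.single i (1 : F₀)) := by
  have h1 : ∀ i, rr P (Pi.single i (1 : F₀)) = (P : Matrix (Fin n) (Fin n) F) *ᵥ Pi.single i (1 : F) := by
    intro i
    rw [rr, co_single]
  simp only [h1]
  simp only [← Matrix.mulVec_smul]
  rw [← Matrix.mulVec_sum]
  have h2 : ∑ i, (((P⁻¹ : GL (Fin n) F) : Matrix (Fin n) (Fin n) F) *ᵥ x) i • (Pi.single i (1 : F) : Fin n → F) =
      ((P⁻¹ : GL (Fin n) F) : Matrix (Fin n) (Fin n) F) *ᵥ x := by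
    ext k
    simp [Finset.sum_apply, Pi.single_apply]
  rw [h2, act_inv]

lemma dual_ext {χ χ' : Module.Dual F (Fin n → F)} (h : ∀ u : Fin n → F₀, χ (rr P u) = χ' (rr P u)) : χ = χ' := by
  refine LinearMap.ext fun x => ?_
  have e := expand P F₀ x
  calc χ x = χ (∑ i, (((P⁻¹ : GL (Fin n) F) : Matrix (Fin n) (Fin n) F) *ᵥ x) i • rr P (Pi.single i (1 : F₀))) := congrArg χ e
    _ = χ' (∑ i, (((P⁻¹ : GL (Fin n) F) : Matrix (Fin n) (Fin n) F) *ᵥ x) i • rr P (Pi.single i (1 : F₀))) := by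
      simp only [map_sum, map_smul, h]
    _ = χ' x := (congrArg χ' e).symm

lemma rf_single (i : Fin n) (x : Fin n → F) :
    rf P (Pi.single i (1 : F₀)) x = (((P⁻¹ : GL (Fin n) F) : Matrix (Fin n) (Fin n) F) *ᵥ x) i := by
  rw [rf_apply, co_single]
  simp

lemma rv_of {y : Fin n → F} (h : ∀ i, (((P⁻¹ : GL (Fin n) F) : Matrix (Fin n) (Fin n) F) *ᵥ y) i ∈ F₀) :
    ∃ u : Fin n → F₀, y = rr P u := by
  refine ⟨fun i => ⟨_, h i⟩, ?_⟩
  have e : co (fun i => (⟨_, h i⟩ : F₀)) = ((P⁻¹ : GL (Fin n) F) : Matrix (Fin n) (Fin n) F) *ᵥ y := by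
    ext i
    simp [co]
  rw [rr, e, act_inv]

lemma rf_of {χ : Module.Dual F (Fin n → F)} (h : ∀ i, χ (rr P (Pi.single i (1 : F₀))) ∈ F₀) :
    ∃ θ : Fin n → F₀, χ = rf P θ := by
  refine ⟨fun i => ⟨_, h i⟩, dual_ext (F₀ := F₀) (P := P) fun u => ?_⟩
  rw [rf_rr]
  have h2 : rr P u = ∑ i, (u i : F) • rr P (Pi.single i (1 : F₀)) := by
    simp only [rr, co_single, ← Matrix.mulVec_smul]
    rw [← Matrix.mulVec_sum]
    congr 1
    ext k
    simp [Finset.sum_apply, co, Pi.single_apply]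
  rw [h2, map_sum]
  simp only [map_smul, smul_eq_mul, dotProduct]
  rw [AddSubmonoidClass.coe_finsetSum]
  refine Finset.sum_congr rfl fun i _ => ?_
  simp only [MulMemClass.coe_mul]
  ring

section group

variable {M : Subgroup (GL (Fin n) F)}

lemma rat_tv (hH : subfieldSubgroup F₀ P ⊓ specialLinear (Fin n) F ≤ M) {θ u : Fin n → F₀} (h : θ ⬝ᵥ u = 0) :
    TT M (rf P θ) (rr P u) := by
  obtain ⟨t, htSL, ht⟩ := Cfsg.Agent.H27.Tv.exists_tv (rf P θ) (rr P u) (by rw [rf_rr, h]; simp)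
  refine ⟨t, hH ⟨RS.mem_of_rat one_ne_zero (fun a => ⟨a + (θ ⬝ᵥ a) • u, ?_⟩), htSL⟩, ht⟩
  rw [ht, rf_rr, one_smul, rr_add, rr_smul]

/-- The functional given by a vector over the small field. -/
def dl (θ : Fin n → F₀) : Module.Dual F₀ (Fin n → F₀) where
  toFun y := θ ⬝ᵥ y
  map_add' a b := dotProduct_add _ _ _
  map_smul' c a := dotProduct_smul _ _ _

lemma dl_apply (θ y : Fin n → F₀) : dl θ y = θ ⬝ᵥ y := rfl

lemma exists_one {θ : Fin n → F₀} (h : θ ≠ 0) : ∃ a : Fin n → F₀, θ ⬝ᵥ a = 1 := by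
  obtain ⟨i, hi⟩ : ∃ i, θ i ≠ 0 := by
    by_contra hcon
    push Not at hcon
    exact h (funext hcon)
  refine ⟨(θ i)⁻¹ • Pi.single i 1, ?_⟩
  rw [dotProduct_smul]
  simp [hi]

lemma exists_x {θ θ' : Fin n → F₀} (h : θ ≠ 0) (h' : θ' ≠ 0) : ∃ x : Fin n → F₀, θ ⬝ᵥ x = 1 ∧ θ' ⬝ᵥ x ≠ 0 := by
  obtain ⟨a, ha⟩ := exists_one h
  obtain ⟨a', ha'⟩ := exists_one h'
  by_cases h1 : θ' ⬝ᵥ a ≠ 0
  · exact ⟨a, ha, h1⟩
  push Not at h1
  by_cases h2 : θ ⬝ᵥ a' ≠ 0
  · refine ⟨(θ ⬝ᵥ a')⁻¹ • a', ?_, ?_⟩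
    · rw [dotProduct_smul, smul_eq_mul, inv_mul_cancel₀ h2]
    · rw [dotProduct_smul, ha', smul_eq_mul, mul_one]
      exact inv_ne_zero h2
  push Not at h2
  refine ⟨a + a', ?_, ?_⟩
  · rw [dotProduct_add, ha, h2, add_zero]
  · rw [dotProduct_add, h1, ha', zero_add]
    exact one_ne_zero

theorem rat_transport (hn : 3 ≤ n) {v v' θ θ' : Fin n → F₀} (hv : v ≠ 0) (hv' : v' ≠ 0) (hθ : θ ≠ 0) (hθ' : θ' ≠ 0)
    (h : θ ⬝ᵥ v = 0) (h' : θ' ⬝ᵥ v' = 0) :
    ∃ h₀ : GL (Fin n) F₀, (h₀ : Matrix (Fin n) (Fin n) F₀).det = 1 ∧ (h₀ : Matrix (Fin n) (Fin n) F₀) *ᵥ v = v' ∧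
      ∀ y, θ' ⬝ᵥ ((h₀ : Matrix (Fin n) (Fin n) F₀) *ᵥ y) = θ ⬝ᵥ y := by
  obtain ⟨x, hx1, hx2⟩ := exists_x hθ hθ'
  let W : Submodule F₀ (Fin n → F₀) := Submodule.span F₀ {x}
  have hxW : x ∈ W := Submodule.mem_span_singleton_self x
  have hvW : v ∉ W := by
    intro hm
    obtain ⟨f, rfl⟩ := Submodule.mem_span_singleton.1 hm
    rw [dotProduct_smul, hx1, smul_eq_mul, mul_one] at h
    apply hv
    rw [h, zero_smul]
  have hvW' : v' ∉ W := by
    intro hm
    obtain ⟨f, rfl⟩ := Submodule.mem_span_singleton.1 hm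
    rw [dotProduct_smul, smul_eq_mul] at h'
    have hf : f = 0 := (mul_eq_zero.1 h').resolve_right hx2
    apply hv'
    rw [hf, zero_smul]
  have hW1 : W ≠ ⊤ := by
    intro e
    apply hvW
    rw [e]
    trivial
  obtain ⟨g, hg, hg1, hg2⟩ := ML.exists_transport (W := W) (φ := dl θ) (φ' := dl θ') (v := v) (v' := v') (x := x)
    (x' := (θ' ⬝ᵥ x)⁻¹ • x) hn hW1 hxW hx1 h hvW (W.smul_mem _ hxW)
    (by rw [map_smul, dl_apply, smul_eq_mul, inv_mul_cancel₀ hx2]) h' hvW'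
  refine ⟨g, ?_, hg1, hg2⟩
  have h1 : Matrix.GeneralLinearGroup.det g = 1 := hg.2
  have h2 := congrArg Units.val h1
  simpa [Matrix.GeneralLinearGroup.val_det_apply] using h2

/-- The set of coefficients that occur for all rational pairs. -/
def AA (M : Subgroup (GL (Fin n) F)) (P : GL (Fin n) F) (F₀ : Subfield F) (c : F) : Prop :=
  ∀ v θ : Fin n → F₀, v ≠ 0 → θ ≠ 0 → θ ⬝ᵥ v = 0 → TT M (rf P θ) (c • rr P v)

variable (hH : subfieldSubgroup F₀ P ⊓ specialLinear (Fin n) F ≤ M) (hn : 3 ≤ n)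

include hH hn in
lemma AA_of_one {c : F} {v₀ θ₀ : Fin n → F₀} (hv₀ : v₀ ≠ 0) (hθ₀ : θ₀ ≠ 0) (h₀ : θ₀ ⬝ᵥ v₀ = 0) (ht : TT M (rf P θ₀) (c • rr P v₀)) :
    AA M P F₀ c := by
  intro v θ hv hθ hθv
  obtain ⟨g, hg1, hg2, hg3⟩ := rat_transport hn hv₀ hv hθ₀ hθ h₀ hθv
  have hh : lift P g ∈ M := hH ⟨lift_mem g, lift_det g hg1⟩
  have hχ : ∀ y, rf P θ (((lift P g : GL (Fin n) F) : Matrix (Fin n) (Fin n) F) *ᵥ y) = rf P θ₀ y := by
    have h1 : (rf P θ) ∘ₗ (Matrix.mulVecLin ((lift P g : GL (Fin n) F) : Matrix (Fin n) (Fin n) F)) = rf P θ₀ := by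
      apply dual_ext (F₀ := F₀) (P := P)
      intro u
      simp only [LinearMap.comp_apply, Matrix.mulVecLin_apply]
      rw [lift_rr, rf_rr, rf_rr, hg3]
    intro y
    exact congrArg (fun z => z y) h1
  have := ht.conj hh hχ
  rwa [Matrix.mulVec_smul, lift_rr, hg2] at this

include hH in
lemma AA_rat {c : F} (hc : c ∈ F₀) : AA M P F₀ c := by
  intro v θ hv hθ hθv
  have h1 : c • rr P v = rr P ((⟨c, hc⟩ : F₀) • v) := by
    rw [rr_smul]
  rw [h1]
  apply rat_tv hH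
  rw [dotProduct_smul, hθv, smul_zero]

lemma rf_cv {c : F} {θ v : Fin n → F₀} (h : θ ⬝ᵥ v = 0) : rf P θ (c • rr P v) = 0 := by
  rw [map_smul, rf_rr, h]
  simp

lemma AA_add {a b : F} (ha : AA M P F₀ a) (hb : AA M P F₀ b) : AA M P F₀ (a + b) := by
  intro v θ hv hθ hθv
  have := (ha v θ hv hθ hθv).add_vec (hb v θ hv hθ hθv) (rf_cv hθv)
  rwa [← add_smul] at this

lemma AA_neg {a : F} (ha : AA M P F₀ a) : AA M P F₀ (-a) := by
  intro v θ hv hθ hθv
  have := (ha v θ hv hθ hθv).neg_vec (rf_cv hθv)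
  rwa [← neg_smul] at this

include hn in
lemma AA_mul {a b : F} (ha : AA M P F₀ a) (hb : AA M P F₀ b) : AA M P F₀ (a * b) := by
  intro v θ hv hθ hθv
  obtain ⟨ξ, hξ⟩ := exists_one hv
  rw [dotProduct_comm] at hξ
  obtain ⟨w, hw0, hw1, hw2⟩ := Cfsg.Agent.H28.exists_common_zero θ ξ (by simpa using hn)
  have hwv : w ∉ Submodule.span F₀ {v} := by
    intro hm
    obtain ⟨f, rfl⟩ := Submodule.mem_span_singleton.1 hm
    rw [dotProduct_smul, hξ, smul_eq_mul, mul_one] at hw2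
    apply hw0
    rw [hw2, zero_smul]
  obtain ⟨θ₁, h1, h2⟩ := RS.exists_fun hwv
  have h1' : θ₁ ⬝ᵥ w = 1 := h1
  have h2' : θ₁ ⬝ᵥ v = 0 := h2
  have hθ₁ : θ₁ ≠ 0 := by
    rintro rfl
    simp at h1'
  have hT := ha v θ₁ hv hθ₁ h2'
  have hR := hb w θ hw0 hθ hw1
  have h3 := hT.comm_fun (rf_cv h2') (rf_cv hθv) hR (rf_cv hw1)
  refine h3.congr fun y => ?_
  have e : rf P θ₁ (b • rr P w) = b := by
    rw [map_smul, rf_rr, h1']
    simp
  rw [e]
  simp only [smul_smul]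
  congr 1
  ring

include hH hn in
lemma AA_pow {a : F} (ha : AA M P F₀ a) (k : ℕ) : AA M P F₀ (a ^ k) := by
  induction k with
  | zero =>
    rw [pow_zero]
    exact AA_rat hH F₀.one_mem
  | succ k ih =>
    rw [pow_succ]
    exact AA_mul hn ih ha

include hH hn in
/-- If one non-rational coefficient occurs, all coefficients occur. -/
theorem AA_all [Fintype F] {r : ℕ} (hr : r.Prime) (hcard : Fintype.card F = Nat.card F₀ ^ r) {c₀ : F} (hc₀ : c₀ ∉ F₀)
    (h : AA M P F₀ c₀) (c : F) : AA M P F₀ c := by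
  let E : Subfield F :=
    { carrier := {x | AA M P F₀ x}
      mul_mem' := fun {x y} hx hy => AA_mul hn hx hy
      one_mem' := AA_rat hH F₀.one_mem
      add_mem' := fun {x y} hx hy => AA_add hx hy
      zero_mem' := AA_rat hH F₀.zero_mem
      neg_mem' := fun {x} hx => AA_neg hx
      inv_mem' := fun x hx => by
        by_cases hx0 : x = 0
        · subst hx0
          rw [inv_zero]
          exact AA_rat hH F₀.zero_mem
        · have h1 : x⁻¹ = x ^ (Fintype.card F - 2) := by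
            have h2 : 2 ≤ Fintype.card F := Fintype.one_lt_card
            have h3 : x ^ (Fintype.card F - 1) = 1 := FiniteField.pow_card_sub_one_eq_one x hx0
            have h4 : Fintype.card F - 1 = (Fintype.card F - 2) + 1 := by omega
            rw [h4, pow_succ] at h3
            exact (eq_inv_of_mul_eq_one_left h3).symm
          rw [h1]
          exact AA_pow hH hn hx _ }
  exact Cfsg.Agent.H27.DC.subfield_eq_top hr (by rwa [Nat.card_eq_fintype_card]) (E := E) (fun f hf => AA_rat hH hf) h hc₀ c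

include hH hn in
/-- All coefficients give everything. -/
theorem sl_le_of_AA (h : ∀ c, AA M P F₀ c) : specialLinear (Fin n) F ≤ M := by
  classical
  haveI : NeZero n := ⟨by omega⟩
  haveI : Nontrivial (Fin n) := Fin.nontrivial_iff_two_le.2 (by omega)
  have key : ∀ A : Matrix.SpecialLinearGroup (Fin n) F, P * Matrix.SpecialLinearGroup.toGL A * P⁻¹ ∈ M := by
    apply Cfsg.Agent.Lead.transvection_induction'
    · intro i j hij c
      have hne1 : (Pi.single i (1 : F₀) : Fin n → F₀) ≠ 0 := by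
        intro h0
        have := congrFun h0 i
        simp at this
      have hne2 : (Pi.single j (1 : F₀) : Fin n → F₀) ≠ 0 := by
        intro h0
        have := congrFun h0 j
        simp at this
      obtain ⟨t, htM, ht⟩ := h c _ _ hne1 hne2 (by simp [hij.symm, Pi.single_apply])
      have e : P * Matrix.SpecialLinearGroup.toGL (Matrix.SpecialLinearGroup.transvection hij c) * P⁻¹ = t := by
        apply Cfsg.Agent.H27.GO.gl_ext
        intro x
        rw [ht, rf_single, Units.val_mul, Units.val_mul, ← Matrix.mulVec_mulVec, ← Matrix.mulVec_mulVec]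
        obtain ⟨w, hw⟩ : ∃ w, w = ((P⁻¹ : GL (Fin n) F) : Matrix (Fin n) (Fin n) F) *ᵥ x := ⟨_, rfl⟩
        rw [← hw]
        have h1 : ((Matrix.SpecialLinearGroup.toGL (Matrix.SpecialLinearGroup.transvection hij c) : GL (Fin n) F) : Matrix (Fin n) (Fin n) F) *ᵥ w =
            w + (c * w j) • Pi.single i (1 : F) := by
          ext k
          change ((Matrix.transvection i j c) *ᵥ w) k = _
          rw [Matrix.transvection, Matrix.add_mulVec, Matrix.one_mulVec, Matrix.single_mulVec]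
          by_cases hk : i = k
          · subst hk
            simp
          · simp [Pi.single_apply, Ne.symm hk]
        rw [h1, Matrix.mulVec_add, hw, act_inv, Matrix.mulVec_smul, rr, co_single, smul_smul, mul_comm]
      rw [e]
      exact htM
    · intro A B hA hB
      rw [map_mul]
      have := M.mul_mem hA hB
      have e : P * Matrix.SpecialLinearGroup.toGL A * P⁻¹ * (P * Matrix.SpecialLinearGroup.toGL B * P⁻¹) =
          P * (Matrix.SpecialLinearGroup.toGL A * Matrix.SpecialLinearGroup.toGL B) * P⁻¹ := by group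
      rwa [e] at this
  intro g hg
  have hgdet : (g : Matrix (Fin n) (Fin n) F).det = 1 := by
    have h1 : Matrix.GeneralLinearGroup.det g = 1 := hg
    have h2 := congrArg Units.val h1
    simpa [Matrix.GeneralLinearGroup.val_det_apply] using h2
  have hdet : (((P⁻¹ * g * P : GL (Fin n) F)) : Matrix (Fin n) (Fin n) F).det = 1 := by
    rw [Units.val_mul, Units.val_mul, Matrix.det_mul, Matrix.det_mul, hgdet, mul_one, ← Matrix.det_mul]
    simp
  have h2 := key ⟨_, hdet⟩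
  have h3 : Matrix.SpecialLinearGroup.toGL (⟨_, hdet⟩ : Matrix.SpecialLinearGroup (Fin n) F) = P⁻¹ * g * P := Units.ext rfl
  rw [h3] at h2
  have e : P * (P⁻¹ * g * P) * P⁻¹ = g := by group
  rwa [e] at h2

include hH hn in
/-- A rational pair with a non-rational coefficient gives everything. -/
theorem final [Fintype F] {r : ℕ} (hr : r.Prime) (hcard : Fintype.card F = Nat.card F₀ ^ r) {c₀ : F} (hc₀ : c₀ ∉ F₀)
    {v θ : Fin n → F₀} (hv : v ≠ 0) (hθ : θ ≠ 0) (hθv : θ ⬝ᵥ v = 0) (h : TT M (rf P θ) (c₀ • rr P v)) :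
    specialLinear (Fin n) F ≤ M :=
  sl_le_of_AA hH hn (AA_all hH hn hr hcard hc₀ (AA_of_one hH hn hv hθ hθv h))

include hH hn in
/-- A transvection with rational functional and non-rational vector. -/
theorem of_rf [Fintype F] {r : ℕ} (hr : r.Prime) (hcard : Fintype.card F = Nat.card F₀ ^ r) {θ : Fin n → F₀} {y : Fin n → F} (hθ : θ ≠ 0)
    (hy : rf P θ y = 0) (ht : TT M (rf P θ) y) (hnr : ¬ ∃ u : Fin n → F₀, y = rr P u) : specialLinear (Fin n) F ≤ M := by
  obtain ⟨i, hi⟩ : ∃ i, (((P⁻¹ : GL (Fin n) F) : Matrix (Fin n) (Fin n) F) *ᵥ y) i ∉ F₀ := by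
    by_contra hcon
    push Not at hcon
    exact hnr (rv_of hcon)
  obtain ⟨v, hv0, hv1, hv2⟩ := Cfsg.Agent.H28.exists_common_zero θ (Pi.single i (1 : F₀)) (by simpa using hn)
  have h1 := ht.comm_vec (v := rr P v) (ψ := rf P (Pi.single i (1 : F₀))) hy (by rw [rf_rr, hv1]; simp) (rat_tv hH hv2)
    (by rw [rf_rr, hv2]; simp)
  rw [rf_single] at h1
  exact final hH hn hr hcard hi hv0 hθ hv1 h1.move_left

include hH hn in
/-- A transvection with rational vector and non-rational functional. -/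
theorem of_rv [Fintype F] {r : ℕ} (hr : r.Prime) (hcard : Fintype.card F = Nat.card F₀ ^ r) {u : Fin n → F₀} {χ : Module.Dual F (Fin n → F)} (hu : u ≠ 0)
    (hy : χ (rr P u) = 0) (ht : TT M χ (rr P u)) (hnr : ¬ ∃ θ : Fin n → F₀, χ = rf P θ) : specialLinear (Fin n) F ≤ M := by
  obtain ⟨i, hi⟩ : ∃ i, χ (rr P (Pi.single i (1 : F₀))) ∉ F₀ := by
    by_contra hcon
    push Not at hcon
    exact hnr (rf_of hcon)
  obtain ⟨θ, hθ0, hθ1, hθ2⟩ := Cfsg.Agent.H28.exists_common_zero u (Pi.single i (1 : F₀)) (by simpa using hn)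
  have hθ1' : θ ⬝ᵥ u = 0 := by rwa [dotProduct_comm]
  have hθ2' : θ ⬝ᵥ Pi.single i (1 : F₀) = 0 := by rwa [dotProduct_comm]
  have h1 := ht.comm_fun (θ := rf P θ) (v := rr P (Pi.single i (1 : F₀))) hy (by rw [rf_rr, hθ1']; simp) (rat_tv hH hθ2') (by rw [rf_rr, hθ2']; simp)
  exact final hH hn hr hcard hi hu hθ0 hθ1' h1

end group

end Cfsg.Agent.H27.SF
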