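import Mathlib
import Cfsg.Agent.Lib.H27.GeoSF

/-!
# Subfield subgroups of `SL_n`: maximality
-/

set_option autoImplicit false
set_option linter.unusedSectionVars false
set_option linter.unusedSimpArgs false
set_option linter.unusedVariables false
set_option linter.style.haveILetI false

namespace Cfsg.Agent.H27.SF

open scoped Matrix MatrixGroups
open Cfsg Cfsg.Geo
open Cfsg.Agent.H14 (e00 e01 e10 e11 sl_det sl_ext e00_mul e01_mul e10_mul e11_mul e00_inv e01_inv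
  e10_inv e11_inv e00_one e01_one e10_one e11_one)
open Cfsg.Agent.Lead.DicksonSL (xE yE e00_xE e01_xE e10_xE e11_xE e00_yE e01_yE e10_yE e11_yE)
open Cfsg.Agent.H27.RS (rr co lift inv_rr rr_add rr_sub rr_neg rr_smul rr_zero rr_inj rr_ne_zero lift_mem lift_rr lift_det RatPt)

variable {n : ℕ} {F : Type*} [Field F]

/-- The image of the elements of `M` acting on a plane, as a subgroup of `SL₂`. -/
def planeG (M : Subgroup (GL (Fin n) F)) (w₁ w₂ : Fin n → F) : Subgroup SL(2, F) where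
  carrier := {s | ∃ y ∈ M, (∀ v, ∃ α β : F, (y : Matrix (Fin n) (Fin n) F) *ᵥ v = v + α • w₁ + β • w₂) ∧
    (y : Matrix (Fin n) (Fin n) F) *ᵥ w₁ = e00 s • w₁ + e10 s • w₂ ∧
    (y : Matrix (Fin n) (Fin n) F) *ᵥ w₂ = e01 s • w₁ + e11 s • w₂}
  mul_mem' := by
    rintro s s' ⟨y, hy, h1, h2, h3⟩ ⟨y', hy', h1', h2', h3'⟩
    refine ⟨y * y', M.mul_mem hy hy', fun v => ?_, ?_, ?_⟩
    · obtain ⟨α', β', e'⟩ := h1' v
      obtain ⟨α, β, e⟩ := h1 v
      refine ⟨α + α' * e00 s + β' * e01 s, β + α' * e10 s + β' * e11 s, ?_⟩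
      rw [Units.val_mul, ← Matrix.mulVec_mulVec, e', Matrix.mulVec_add, Matrix.mulVec_add, Matrix.mulVec_smul, Matrix.mulVec_smul,
        e, h2, h3]
      ext i
      simp only [Pi.add_apply, Pi.smul_apply, smul_eq_mul]
      ring
    · rw [Units.val_mul, ← Matrix.mulVec_mulVec, h2', Matrix.mulVec_add, Matrix.mulVec_smul, Matrix.mulVec_smul, h2, h3,
        e00_mul, e10_mul]
      ext i
      simp only [Pi.add_apply, Pi.smul_apply, smul_eq_mul]
      ring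
    · rw [Units.val_mul, ← Matrix.mulVec_mulVec, h3', Matrix.mulVec_add, Matrix.mulVec_smul, Matrix.mulVec_smul, h2, h3,
        e01_mul, e11_mul]
      ext i
      simp only [Pi.add_apply, Pi.smul_apply, smul_eq_mul]
      ring
  one_mem' := by
    refine ⟨1, M.one_mem, fun v => ⟨0, 0, by simp⟩, ?_, ?_⟩ <;> simp [e00_one, e01_one, e10_one, e11_one]
  inv_mem' := by
    rintro s ⟨y, hy, h1, h2, h3⟩
    have hd := sl_det s
    have e1 : ((y⁻¹ : GL (Fin n) F) : Matrix (Fin n) (Fin n) F) *ᵥ w₁ = e11 s • w₁ + (- e10 s) • w₂ := by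
      have h4 : (y : Matrix (Fin n) (Fin n) F) *ᵥ (e11 s • w₁ + (- e10 s) • w₂) = w₁ := by
        rw [Matrix.mulVec_add, Matrix.mulVec_smul, Matrix.mulVec_smul, h2, h3]
        ext i
        simp only [Pi.add_apply, Pi.smul_apply, smul_eq_mul]
        linear_combination (w₁ i) * hd
      have h5 := inv_act y (e11 s • w₁ + (- e10 s) • w₂)
      rwa [h4] at h5
    have e2 : ((y⁻¹ : GL (Fin n) F) : Matrix (Fin n) (Fin n) F) *ᵥ w₂ = (- e01 s) • w₁ + e00 s • w₂ := by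
      have h4 : (y : Matrix (Fin n) (Fin n) F) *ᵥ ((- e01 s) • w₁ + e00 s • w₂) = w₂ := by
        rw [Matrix.mulVec_add, Matrix.mulVec_smul, Matrix.mulVec_smul, h2, h3]
        ext i
        simp only [Pi.add_apply, Pi.smul_apply, smul_eq_mul]
        linear_combination (w₂ i) * hd
      have h5 := inv_act y ((- e01 s) • w₁ + e00 s • w₂)
      rwa [h4] at h5
    refine ⟨y⁻¹, M.inv_mem hy, fun v => ?_, ?_, ?_⟩
    · obtain ⟨α, β, e⟩ := h1 (((y⁻¹ : GL (Fin n) F) : Matrix (Fin n) (Fin n) F) *ᵥ v)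
      rw [act_inv] at e
      refine ⟨-α, -β, ?_⟩
      rw [neg_smul, neg_smul]
      conv_rhs => rw [e]
      abel
    · rw [e1, e00_inv, e10_inv]
    · rw [e2, e01_inv, e11_inv]

variable {F₀ : Subfield F} {P : GL (Fin n) F}

lemma rf_sub (θ θ' : Fin n → F₀) : rf P (θ - θ') = rf P θ - rf P θ' := by
  refine LinearMap.ext fun x => ?_
  simp only [rf_apply, LinearMap.sub_apply, RS.co_sub, sub_dotProduct]

lemma rf_zero : rf P (0 : Fin n → F₀) = 0 := by
  refine LinearMap.ext fun x => ?_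
  simp [rf_apply, RS.co_zero]

lemma rf_smul (f : F₀) (θ : Fin n → F₀) : rf P (f • θ) = (f : F) • rf P θ := by
  refine LinearMap.ext fun x => ?_
  simp only [rf_apply, LinearMap.smul_apply, RS.co_smul, smul_dotProduct]

/-- A vector not rational up to scalars is detected by a rational functional vanishing on a rational vector. -/
lemma exists_perp_ne {u : Fin n → F₀} (hu : u ≠ 0) {x : Fin n → F} (hx : ¬ RatPt P F₀ x) :
    ∃ ψ : Fin n → F₀, ψ ⬝ᵥ u = 0 ∧ rf P ψ x ≠ 0 := by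
  by_contra hcon
  push Not at hcon
  apply hx
  obtain ⟨i₀, hi₀⟩ : ∃ i, u i ≠ 0 := by
    by_contra h0
    push Not at h0
    exact hu (funext h0)
  have hi₀' : (u i₀ : F) ≠ 0 := by simpa using hi₀
  obtain ⟨ξ, hξ⟩ : ∃ ξ, ξ = ((P⁻¹ : GL (Fin n) F) : Matrix (Fin n) (Fin n) F) *ᵥ x := ⟨_, rfl⟩
  have key : ∀ j, (u i₀ : F) * ξ j = (u j : F) * ξ i₀ := by
    intro j
    have h1 := hcon (u i₀ • Pi.single j 1 - u j • Pi.single i₀ 1) (by
      rw [sub_dotProduct, smul_dotProduct, smul_dotProduct]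
      simp [mul_comm])
    rw [rf_sub, rf_smul, rf_smul, LinearMap.sub_apply, LinearMap.smul_apply, LinearMap.smul_apply, rf_single, rf_single, ← hξ] at h1
    simp only [smul_eq_mul] at h1
    linear_combination h1
  obtain ⟨κ, hκ⟩ : ∃ κ, κ = ξ i₀ / (u i₀ : F) := ⟨_, rfl⟩
  refine ⟨κ, u, ?_⟩
  have e : ξ = κ • co u := by
    ext j
    simp only [Pi.smul_apply, RS.co_apply, smul_eq_mul, hκ]
    field_simp
    linear_combination key j
  have e2 : x = (P : Matrix (Fin n) (Fin n) F) *ᵥ ξ := by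
    rw [hξ, act_inv]
  rw [e2, e, Matrix.mulVec_smul]
  rfl

section main

variable {M : Subgroup (GL (Fin n) F)} (hH : subfieldSubgroup F₀ P ⊓ specialLinear (Fin n) F ≤ M) (hn : 3 ≤ n) [Fintype F]
  {r : ℕ} (hr : r.Prime) (hcard : Fintype.card F = Nat.card F₀ ^ r)

include hH hn hr hcard in
/-- The generic case, via the study of subgroups of `SL₂`. -/
theorem generic_case {x : Fin n → F} {φ : Module.Dual F (Fin n → F)} (ht : TT M φ x) (hφx : φ x = 0)
    (G1 : ∀ θ : Fin n → F₀, θ ≠ 0 → rf P θ x ≠ 0) (G2 : ∀ u : Fin n → F₀, u ≠ 0 → φ (rr P u) ≠ 0) :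
    specialLinear (Fin n) F ≤ M := by
  classical
  let i₀ : Fin n := ⟨0, by omega⟩
  let i₁ : Fin n := ⟨1, by omega⟩
  let i₂ : Fin n := ⟨2, by omega⟩
  have h01 : i₀ ≠ i₁ := by simp [i₀, i₁, Fin.ext_iff]
  have h02 : i₀ ≠ i₂ := by simp [i₀, i₂, Fin.ext_iff]
  have h12 : i₁ ≠ i₂ := by simp [i₁, i₂, Fin.ext_iff]
  obtain ⟨u, hudef⟩ : ∃ u : Fin n → F₀, u = Pi.single i₀ 1 := ⟨_, rfl⟩
  obtain ⟨θ₀, hθ₀⟩ : ∃ θ : Fin n → F₀, θ = Pi.single i₀ 1 := ⟨_, rfl⟩
  obtain ⟨θ₁, hθ₁⟩ : ∃ θ : Fin n → F₀, θ = Pi.single i₁ 1 := ⟨_, rfl⟩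
  obtain ⟨θ₂, hθ₂⟩ : ∃ θ : Fin n → F₀, θ = Pi.single i₂ 1 := ⟨_, rfl⟩
  have hu0 : u ≠ 0 := by
    intro h0
    have := congrFun h0 i₀
    simp [hudef] at this
  have hθ₀u : θ₀ ⬝ᵥ u = 1 := by simp [hθ₀, hudef]
  have hθ₁u : θ₁ ⬝ᵥ u = 0 := by simp [hθ₁, hudef, h01, h01.symm]
  have hθ₂u : θ₂ ⬝ᵥ u = 0 := by simp [hθ₂, hudef, h02, h02.symm]
  have hθ₁0 : θ₁ ≠ 0 := by
    intro h0
    have := congrFun h0 i₁
    simp [hθ₁] at this
  have hθ₂0 : θ₂ ≠ 0 := by
    intro h0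
    have := congrFun h0 i₂
    simp [hθ₂] at this
  obtain ⟨c₁, hc₁⟩ : ∃ c, c = rf P θ₁ x := ⟨_, rfl⟩
  obtain ⟨c₂, hc₂⟩ : ∃ c, c = rf P θ₂ x := ⟨_, rfl⟩
  have hc₁0 : c₁ ≠ 0 := hc₁ ▸ G1 θ₁ hθ₁0
  have hc₂0 : c₂ ≠ 0 := hc₂ ▸ G1 θ₂ hθ₂0
  have hind : c₂ / c₁ ∉ F₀ := by
    intro hm
    have h1 := G1 (θ₂ - (⟨c₂ / c₁, hm⟩ : F₀) • θ₁) (by
      intro h0
      have := congrFun h0 i₂
      simp [hθ₁, hθ₂, h12.symm] at this)
    apply h1
    rw [rf_sub, rf_smul, LinearMap.sub_apply, LinearMap.smul_apply, ← hc₁, ← hc₂]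
    simp only [smul_eq_mul]
    field_simp
    ring
  obtain ⟨w, hw⟩ : ∃ w, w = rr P u := ⟨_, rfl⟩
  obtain ⟨b, hb⟩ : ∃ b, b = φ w := ⟨_, rfl⟩
  have hb0 : b ≠ 0 := by
    rw [hb, hw]
    exact G2 u hu0
  have hrat : ∀ θ : Fin n → F₀, θ ⬝ᵥ u = 0 → ∀ f ∈ F₀, xE (f * rf P θ x) ∈ planeG M w x := by
    intro θ hθ f hf
    obtain ⟨t, htM, hta⟩ := rat_tv hH (θ := (⟨f, hf⟩ : F₀) • θ) (u := u) (by rw [smul_dotProduct, hθ, smul_zero])
    refine ⟨t, htM, fun v => ⟨rf P ((⟨f, hf⟩ : F₀) • θ) v, 0, ?_⟩, ?_, ?_⟩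
    · rw [hta, zero_smul, add_zero, hw]
    · have h0 : rf P ((⟨f, hf⟩ : F₀) • θ) w = 0 := by
        rw [hw, rf_rr, smul_dotProduct, hθ]
        simp
      rw [hta, h0, zero_smul, add_zero, e00_xE, e10_xE, one_smul, zero_smul, add_zero]
    · rw [hta, rf_smul, LinearMap.smul_apply, e01_xE, e11_xE, ← hw]
      simp only [smul_eq_mul, one_smul]
      abel
  have hyb : yE b ∈ planeG M w x := by
    obtain ⟨t, htM, hta⟩ := ht
    refine ⟨t, htM, fun v => ⟨0, φ v, ?_⟩, ?_, ?_⟩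
    · rw [hta, zero_smul, add_zero]
    · rw [hta, ← hb, e00_yE, e10_yE, one_smul]
    · rw [hta, hφx, e01_yE, e11_yE, zero_smul, zero_smul, add_zero, zero_add, one_smul]
  have hall := Cfsg.Agent.H27.DC.all_x hr hcard hc₁0 hind (by
      intro f hf
      rw [hc₁]
      exact hrat θ₁ hθ₁u f hf) (by
      intro f hf
      rw [hc₂]
      exact hrat θ₂ hθ₂u f hf) hb0 hyb
  obtain ⟨c, hc⟩ : ∃ c, c = rf P θ₀ x := ⟨_, rfl⟩
  obtain ⟨y, hyM, hy1, hy2, hy3⟩ := hall c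
  rw [e00_xE, e10_xE, one_smul, zero_smul, add_zero] at hy2
  rw [e01_xE, e11_xE, one_smul] at hy3
  -- coordinate functionals on the plane
  have hθ₁w : rf P θ₁ w = 0 := by
    rw [hw, rf_rr, hθ₁u]
    simp
  have hθ₂w : rf P θ₂ w = 0 := by
    rw [hw, rf_rr, hθ₂u]
    simp
  have hθ₀w : rf P θ₀ w = 1 := by
    rw [hw, rf_rr, hθ₀u]
    simp
  obtain ⟨π₂, hπ₂⟩ : ∃ π : Module.Dual F (Fin n → F), π = c₁⁻¹ • rf P θ₁ := ⟨_, rfl⟩
  have hπ₂w : π₂ w = 0 := by
    rw [hπ₂, LinearMap.smul_apply, hθ₁w, smul_zero]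
  have hπ₂x : π₂ x = 1 := by
    rw [hπ₂, LinearMap.smul_apply, ← hc₁, smul_eq_mul, inv_mul_cancel₀ hc₁0]
  obtain ⟨π₁, hπ₁⟩ : ∃ π : Module.Dual F (Fin n → F), π = rf P θ₀ - c • π₂ := ⟨_, rfl⟩
  have hπ₁w : π₁ w = 1 := by
    rw [hπ₁, LinearMap.sub_apply, LinearMap.smul_apply, hπ₂w, hθ₀w]
    simp
  have hπ₁x : π₁ x = 0 := by
    rw [hπ₁, LinearMap.sub_apply, LinearMap.smul_apply, hπ₂x, ← hc]
    simp
  obtain ⟨L, hL⟩ : ∃ L : (Fin n → F) →ₗ[F] (Fin n → F), L = Matrix.mulVecLin (y : Matrix (Fin n) (Fin n) F) - LinearMap.id := ⟨_, rfl⟩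
  have hLa : ∀ v, L v = (y : Matrix (Fin n) (Fin n) F) *ᵥ v - v := by
    intro v
    rw [hL]
    rfl
  obtain ⟨χ₁, hχ₁⟩ : ∃ χ : Module.Dual F (Fin n → F), χ = π₁ ∘ₗ L := ⟨_, rfl⟩
  obtain ⟨χ₂, hχ₂⟩ : ∃ χ : Module.Dual F (Fin n → F), χ = π₂ ∘ₗ L := ⟨_, rfl⟩
  have hyact : ∀ v, (y : Matrix (Fin n) (Fin n) F) *ᵥ v = v + χ₁ v • w + χ₂ v • x := by
    intro v
    obtain ⟨α, β, e⟩ := hy1 v
    have e1 : L v = α • w + β • x := by
      rw [hLa, e]
      abel
    have e2 : χ₁ v = α := by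
      rw [hχ₁, LinearMap.comp_apply, e1, map_add, map_smul, map_smul, hπ₁w, hπ₁x]
      simp
    have e3 : χ₂ v = β := by
      rw [hχ₂, LinearMap.comp_apply, e1, map_add, map_smul, map_smul, hπ₂w, hπ₂x]
      simp
    rw [e2, e3, e]
  have hLw : L w = 0 := by
    rw [hLa, hy2, sub_self]
  have hLx : L x = c • w := by
    rw [hLa, hy3]
    abel
  have hχ₁w : χ₁ w = 0 := by
    rw [hχ₁, LinearMap.comp_apply, hLw, map_zero]
  have hχ₂w : χ₂ w = 0 := by
    rw [hχ₂, LinearMap.comp_apply, hLw, map_zero]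
  have hχ₁x : χ₁ x = c := by
    rw [hχ₁, LinearMap.comp_apply, hLx, map_smul, hπ₁w]
    simp
  have hχ₂x : χ₂ x = 0 := by
    rw [hχ₂, LinearMap.comp_apply, hLx, map_smul, hπ₂w]
    simp
  by_cases hχ₂0 : χ₂ = 0
  · -- the element is a transvection
    have hTT : TT M χ₁ (rr P u) := by
      refine ⟨y, hyM, fun v => ?_⟩
      rw [hyact, hχ₂0, ← hw]
      simp
    refine of_rv hH hn hr hcard hu0 (by rw [← hw]; exact hχ₁w) hTT ?_
    rintro ⟨θ'', e⟩
    have e1 : θ'' = θ₀ := by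
      by_contra hne
      apply G1 (θ'' - θ₀) (sub_ne_zero.2 hne)
      rw [rf_sub, LinearMap.sub_apply, ← e, hχ₁x, ← hc, sub_self]
    rw [e, e1, hθ₀w] at hχ₁w
    exact one_ne_zero hχ₁w
  · -- a commutator with the rational transvections
    have hcomm : ∀ θ : Fin n → F₀, θ ⬝ᵥ u = 0 → TT M (rf P θ x • χ₂) w := by
      intro θ hθ
      have hθw : rf P θ w = 0 := by
        rw [hw, rf_rr, hθ]
        simp
      have hR : TT M (rf P θ) w := by
        rw [hw]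
        exact rat_tv hH hθ
      have h1 : TT M (rf P θ - rf P θ x • χ₂) w := by
        have := hR.conj (χ' := rf P θ - rf P θ x • χ₂) hyM (fun z => by
          have h2 : χ₂ ((y : Matrix (Fin n) (Fin n) F) *ᵥ z) = χ₂ z := by
            rw [hyact, map_add, map_add, map_smul, map_smul, hχ₂w, hχ₂x]
            simp
          rw [LinearMap.sub_apply, LinearMap.smul_apply, h2, hyact, map_add, map_add, map_smul, map_smul, hθw]
          simp only [smul_eq_mul, mul_zero, add_zero]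
          ring)
        rwa [hy2] at this
      have h2 := (h1.add_fun (hR.neg_fun hθw) (by simp [hθw, hχ₂w])).neg_fun (by simp [hθw, hχ₂w])
      refine h2.congr fun z => ?_
      simp
    by_cases hr₁ : ∃ θ : Fin n → F₀, c₁ • χ₂ = rf P θ
    · by_cases hr₂ : ∃ θ : Fin n → F₀, c₂ • χ₂ = rf P θ
      · exfalso
        obtain ⟨θa, ha⟩ := hr₁
        obtain ⟨θb, hb'⟩ := hr₂
        obtain ⟨w', hw'⟩ : ∃ w' : Fin n → F₀, χ₂ (rr P w') ≠ 0 := by
          by_contra hcon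
          push Not at hcon
          apply hχ₂0
          apply dual_ext (F₀ := F₀) (P := P)
          intro v
          rw [hcon v]
          simp
        have h1 : c₁ * χ₂ (rr P w') ∈ F₀ := by
          have := congrArg (fun z => z (rr P w')) ha
          simp only [LinearMap.smul_apply, smul_eq_mul, rf_rr] at this
          rw [this]
          exact SetLike.coe_mem _
        have h2 : c₂ * χ₂ (rr P w') ∈ F₀ := by
          have := congrArg (fun z => z (rr P w')) hb'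
          simp only [LinearMap.smul_apply, smul_eq_mul, rf_rr] at this
          rw [this]
          exact SetLike.coe_mem _
        apply hind
        have e : c₂ / c₁ = (c₂ * χ₂ (rr P w')) / (c₁ * χ₂ (rr P w')) := by
          field_simp
        rw [e]
        exact div_mem h2 h1
      · have := hcomm θ₂ hθ₂u
        rw [← hc₂, hw] at this
        refine of_rv hH hn hr hcard hu0 ?_ this hr₂
        rw [LinearMap.smul_apply, ← hw, hχ₂w, smul_zero]
    · have := hcomm θ₁ hθ₁u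
      rw [← hc₁, hw] at this
      refine of_rv hH hn hr hcard hu0 ?_ this hr₁
      rw [LinearMap.smul_apply, ← hw, hχ₂w, smul_zero]

include hH hn hr hcard in
/-- An element outside the subfield group gives everything. -/
theorem sl_le_main {g : GL (Fin n) F} (hgM : g ∈ M) (hg : g ∉ subfieldSubgroup F₀ P) : specialLinear (Fin n) F ≤ M := by
  classical
  have hne : ∃ a : Fin n → F₀, a ≠ 0 := by
    refine ⟨Pi.single ⟨0, by omega⟩ 1, fun h0 => ?_⟩
    have := congrFun h0 ⟨0, by omega⟩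
    simp at this
  obtain ⟨a, ha⟩ : ∃ a : Fin n → F₀, ¬ RatPt P F₀ ((g : Matrix (Fin n) (Fin n) F) *ᵥ rr P a) := by
    by_contra hcon
    push Not at hcon
    exact hg (RS.mem_of_points hne hcon)
  have ha0 : a ≠ 0 := by
    rintro rfl
    apply ha
    refine ⟨0, 0, ?_⟩
    simp [rr_zero]
  obtain ⟨x, hx⟩ : ∃ x, x = (g : Matrix (Fin n) (Fin n) F) *ᵥ rr P a := ⟨_, rfl⟩
  rw [← hx] at ha
  obtain ⟨θ, hθ0, hθ1, -⟩ := Cfsg.Agent.H28.exists_common_zero a a (by simpa using hn)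
  have hθa : θ ⬝ᵥ a = 0 := by rwa [dotProduct_comm]
  obtain ⟨φ, hφ⟩ : ∃ φ : Module.Dual F (Fin n → F), φ = rf P θ ∘ₗ Matrix.mulVecLin ((g⁻¹ : GL (Fin n) F) : Matrix (Fin n) (Fin n) F) := ⟨_, rfl⟩
  have hφg : ∀ y, φ ((g : Matrix (Fin n) (Fin n) F) *ᵥ y) = rf P θ y := by
    intro y
    rw [hφ, LinearMap.comp_apply, Matrix.mulVecLin_apply, inv_act]
  have ht : TT M φ x := by
    have := (rat_tv hH hθa).conj hgM (χ' := φ) hφg
    rwa [← hx] at this
  have hφx : φ x = 0 := by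
    rw [hx, hφg, rf_rr, hθa]
    simp
  have hφ0 : φ ≠ 0 := by
    intro h0
    obtain ⟨v, hv⟩ := exists_one hθ0
    have := hφg (rr P v)
    rw [h0, rf_rr, hv] at this
    simp at this
  have hnv : ∀ c : F, c ≠ 0 → ¬ ∃ u : Fin n → F₀, c • x = rr P u := by
    rintro c hc ⟨u, hu⟩
    apply ha
    refine ⟨c⁻¹, u, ?_⟩
    rw [← hu, smul_smul, inv_mul_cancel₀ hc, one_smul]
  by_cases hA : ∃ u : Fin n → F₀, u ≠ 0 ∧ φ (rr P u) = 0
  · obtain ⟨u, hu, hφu⟩ := hA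
    obtain ⟨ψ, hψ1, hψ2⟩ := exists_perp_ne hu ha
    have h1 := ht.comm_vec (v := rr P u) (ψ := rf P ψ) hφx hφu (rat_tv hH hψ1) (by rw [rf_rr, hψ1]; simp)
    obtain ⟨c, hc⟩ : ∃ c, c = rf P ψ x := ⟨_, rfl⟩
    rw [← hc] at h1 hψ2
    have hφx' := hφx
    by_cases hr₁ : ∃ θ₁ : Fin n → F₀, c • φ = rf P θ₁
    · obtain ⟨θ₁, hθ₁⟩ := hr₁
      have hθ₁0 : θ₁ ≠ 0 := by
        rintro rfl
        apply hφ0
        have h2 : c • φ = 0 := by
          rw [hθ₁, rf_zero]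
        exact (smul_eq_zero.1 h2).resolve_left hψ2
      have h3 : TT M (rf P θ₁) (c⁻¹ • x) := by
        refine ht.congr fun y => ?_
        rw [← hθ₁, LinearMap.smul_apply, smul_smul, smul_eq_mul]
        congr 1
        field_simp
      refine of_rf hH hn hr hcard hθ₁0 ?_ h3 (hnv _ (inv_ne_zero hψ2))
      rw [← hθ₁, map_smul, LinearMap.smul_apply, hφx']
      simp
    · exact of_rv hH hn hr hcard hu (by simp [hφu]) h1 hr₁
  by_cases hB : ∃ θ' : Fin n → F₀, θ' ≠ 0 ∧ rf P θ' x = 0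
  · obtain ⟨θ', hθ'0, hθ'x⟩ := hB
    by_cases hC : ∃ v : Fin n → F₀, θ' ⬝ᵥ v = 0 ∧ φ (rr P v) ≠ 0
    · obtain ⟨v, hv1, hv2⟩ := hC
      have h1 := ht.comm_fun (θ := rf P θ') (v := rr P v) hφx hθ'x (rat_tv hH hv1) (by rw [rf_rr, hv1]; simp)
      refine of_rf hH hn hr hcard hθ'0 ?_ h1 (hnv _ hv2)
      rw [map_smul, hθ'x, smul_zero]
    · push Not at hC
      obtain ⟨v₀, hv₀⟩ := exists_one hθ'0
      have e : φ = φ (rr P v₀) • rf P θ' := by
        apply dual_ext (F₀ := F₀) (P := P)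
        intro u
        have h2 := hC (u - (θ' ⬝ᵥ u) • v₀) (by
          rw [dotProduct_sub, dotProduct_smul, hv₀]
          simp)
        rw [rr_sub, rr_smul, map_sub, map_smul, sub_eq_zero] at h2
        rw [h2, LinearMap.smul_apply, rf_rr]
        simp [mul_comm]
      have hκ : φ (rr P v₀) ≠ 0 := by
        intro h0
        rw [h0, zero_smul] at e
        exact hφ0 e
      have h3 : TT M (φ (rr P v₀) • rf P θ') x := by
        rw [← e]
        exact ht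
      refine of_rf hH hn hr hcard hθ'0 ?_ h3.move_left (hnv _ hκ)
      rw [map_smul, hθ'x, smul_zero]
  · push Not at hA hB
    exact generic_case hH hn hr hcard ht hφx hB hA

end main

/-- The subfield group is maximal in `SL_n`, for every `n ≥ 3`. -/
theorem sf_max [Fintype F] (hn : 3 ≤ n) {r : ℕ} (hr : r.Prime) (hcard : Fintype.card F = Nat.card F₀ ^ r) :
    IsMaximalIn (specialLinear (Fin n) F) (subfieldSubgroup F₀ P ⊓ specialLinear (Fin n) F) := by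
  classical
  constructor
  · rw [lt_iff_le_and_ne]
    refine ⟨inf_le_right, fun heq => ?_⟩
    -- a non-rational coefficient
    obtain ⟨c, hc⟩ : ∃ c : F, c ∉ F₀ := by
      by_contra hcon
      push Not at hcon
      have h1 : Nat.card F₀ = Fintype.card F := by
        rw [← Nat.card_eq_fintype_card]
        exact Nat.card_congr (Equiv.subtypeUnivEquiv hcon)
      have h2 : 2 ≤ Fintype.card F := Fintype.one_lt_card
      rw [← h1] at hcard h2
      have h3 : Nat.card F₀ ^ 1 < Nat.card F₀ ^ r := Nat.pow_lt_pow_right (by omega) hr.one_lt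
      rw [pow_one] at h3
      omega
    let i₀ : Fin n := ⟨0, by omega⟩
    let i₁ : Fin n := ⟨1, by omega⟩
    let i₂ : Fin n := ⟨2, by omega⟩
    have h01 : i₀ ≠ i₁ := by simp [i₀, i₁, Fin.ext_iff]
    have h02 : i₀ ≠ i₂ := by simp [i₀, i₂, Fin.ext_iff]
    have h12 : i₁ ≠ i₂ := by simp [i₁, i₂, Fin.ext_iff]
    obtain ⟨t, htSL, ht⟩ := Cfsg.Agent.H27.Tv.exists_tv (rf P (Pi.single i₁ (1 : F₀))) (c • rr P (Pi.single i₀ (1 : F₀)))
      (by rw [map_smul, rf_rr]; simp [h01, h01.symm])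
    rw [← heq] at htSL
    obtain ⟨μ, hμ⟩ := RS.rat_of_mem htSL.1
    obtain ⟨u₂, hu₂⟩ := hμ (Pi.single i₂ 1)
    obtain ⟨u₁, hu₁⟩ := hμ (Pi.single i₁ 1)
    rw [ht, rf_rr] at hu₁ hu₂
    have e2 : (Pi.single i₁ (1 : F₀) : Fin n → F₀) ⬝ᵥ (Pi.single i₂ (1 : F₀)) = 0 := by simp [h12, h12.symm]
    have e1 : (Pi.single i₁ (1 : F₀) : Fin n → F₀) ⬝ᵥ (Pi.single i₁ (1 : F₀)) = 1 := by simp
    rw [e2] at hu₂
    rw [e1] at hu₁
    have f2 : co (Pi.single i₂ (1 : F₀) : Fin n → F₀) = (μ : F) • co u₂ := by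
      have := congrArg (fun w => ((P⁻¹ : GL (Fin n) F) : Matrix (Fin n) (Fin n) F) *ᵥ w) hu₂
      simp only [Subfield.coe_zero, zero_smul, add_zero, Matrix.mulVec_smul, inv_rr] at this
      exact this
    have f1 : co (Pi.single i₁ (1 : F₀) : Fin n → F₀) + c • co (Pi.single i₀ (1 : F₀) : Fin n → F₀) = (μ : F) • co u₁ := by
      have := congrArg (fun w => ((P⁻¹ : GL (Fin n) F) : Matrix (Fin n) (Fin n) F) *ᵥ w) hu₁
      simp only [Subfield.coe_one, one_smul, Matrix.mulVec_add, Matrix.mulVec_smul, inv_rr] at this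
      exact this
    have g2 := congrFun f2 i₂
    have g1 := congrFun f1 i₀
    simp only [RS.co_apply, Pi.smul_apply, smul_eq_mul, Pi.add_apply, Pi.single_eq_same, OneMemClass.coe_one] at g2 g1
    rw [Pi.single_eq_of_ne h01] at g1
    simp only [ZeroMemClass.coe_zero, zero_add, mul_one] at g1
    apply hc
    have hμ0 : (μ : F) ≠ 0 := μ.ne_zero
    have hμ1 : (μ : F) = ((u₂ i₂ : F))⁻¹ := by
      have : (u₂ i₂ : F) ≠ 0 := by
        intro h0
        rw [h0, mul_zero] at g2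
        exact one_ne_zero g2
      field_simp
      linear_combination - g2
    rw [g1, hμ1]
    exact mul_mem (inv_mem (u₂ i₂).2) (u₁ i₀).2
  · intro M hPM hMG
    by_cases hex : ∃ g ∈ M, g ∉ subfieldSubgroup F₀ P
    · right
      obtain ⟨g, hgM, hgn⟩ := hex
      exact le_antisymm hMG (sl_le_main hPM hn hr hcard hgM hgn)
    · left
      push Not at hex
      exact le_antisymm (fun g hg => ⟨hex g hg, hMG hg⟩) hPM

end Cfsg.Agent.H27.SF
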