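import Mathlib
import Cfsg.Agent.Lib.H27.GeoSQ3

/-!
# Subfield subgroups of symplectic groups: maximality
-/

set_option autoImplicit false
set_option linter.unusedSectionVars false
set_option linter.unusedSimpArgs false
set_option linter.unusedVariables false
set_option linter.style.haveILetI false

namespace Cfsg.Agent.H27.SQ

open scoped Matrix MatrixGroups
open Cfsg Cfsg.Geo
open Cfsg.Agent.H14 (e00 e01 e10 e11)
open Cfsg.Agent.Lead.DicksonSL (xE yE e00_xE e01_xE e10_xE e11_xE e00_yE e01_yE e10_yE e11_yE)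
open Cfsg.Agent.H27.RS (rr co lift inv_rr rr_add rr_sub rr_neg rr_smul rr_zero rr_inj rr_ne_zero lift_mem lift_rr lift_det RatPt)
open Cfsg.Agent.H27.TC (inv_act act_inv planeR)

variable {m : ℕ} {F : Type*} [Field F] {F₀ : Subfield F} {P : GL (Fin m ⊕ Fin m) F} {ζ : F}

local notation "VV" => (Fin m ⊕ Fin m → F)
local notation "GG" => GL (Fin m ⊕ Fin m) F
local notation "MM" => Matrix (Fin m ⊕ Fin m) (Fin m ⊕ Fin m) F
local notation "V₀" => (Fin m ⊕ Fin m → F₀)

lemma exists_common_zero4 {ι K : Type*} [Fintype ι] [DecidableEq ι] [Field K] (a b c d : ι → K) (h : 5 ≤ Fintype.card ι) :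
    ∃ v : ι → K, v ≠ 0 ∧ a ⬝ᵥ v = 0 ∧ b ⬝ᵥ v = 0 ∧ c ⬝ᵥ v = 0 ∧ d ⬝ᵥ v = 0 := by
  let A : Matrix (Fin 4) ι K := Matrix.of ![a, b, c, d]
  have hker : LinearMap.ker A.mulVecLin ≠ ⊥ := by
    apply LinearMap.ker_ne_bot_of_finrank_lt
    simp only [Module.finrank_fintype_fun_eq_card, Fintype.card_fin]
    omega
  obtain ⟨v, hv, hv0⟩ := Submodule.exists_mem_ne_zero_of_ne_bot hker
  have hh := LinearMap.mem_ker.1 hv
  refine ⟨v, hv0, ?_, ?_, ?_, ?_⟩
  · have := congrFun hh 0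
    simpa [Matrix.mulVec, A] using this
  · have := congrFun hh 1
    simpa [Matrix.mulVec, A] using this
  · have := congrFun hh 2
    simpa [Matrix.mulVec, A] using this
  · have := congrFun hh 3
    simpa [Matrix.mulVec, A] using this

lemma τ_zero_vec (c : F) : τ ζ (0 : VV) c = 1 := by
  apply Cfsg.Agent.H27.GO.gl_ext
  intro x
  rw [τ_act]
  simp

section main

variable [Fintype F] {r : ℕ} (hr : r.Prime) (hcard : Fintype.card F = Nat.card F₀ ^ r) (hζ : ζ ≠ 0)
  (hP : IsFormRationalStructure (Cfsg.sympForm m F) F₀ ζ P) {M : Subgroup (GL (Fin m ⊕ Fin m) F)} (hMs : M ≤ spGL m F)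
  (hH : subfieldSubgroup F₀ P ⊓ spGL m F ≤ M)

include hr hcard hP hMs hH in
/-- A non-rational coefficient on a rational transvection gives all coefficients. -/
theorem all_c {u a : V₀} (hua : ν hP u a = 1) {c₀ : F} (hc₀ : c₀ ∉ F₀) (h : ∀ f ∈ F₀, τ ζ (rr P u) (f * c₀) ∈ M) (c : F) :
    τ ζ (rr P u) c ∈ M := by
  obtain ⟨w, hw⟩ : ∃ w, w = rr P u := ⟨_, rfl⟩
  obtain ⟨w', hw'⟩ : ∃ w', w' = rr P a := ⟨_, rfl⟩
  have hww' : ff ζ w w' = 1 := by
    have := congrArg Subtype.val hua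
    simpa [← hw, ← hw'] using this
  have hw'w : ff ζ w' w = -1 := by
    rw [ff_skew, hww']
  have hww : ff ζ w w = 0 := ff_self _
  have hw'w' : ff ζ w' w' = 0 := ff_self _
  have h1 : ∀ f : F, τ ζ w f ∈ M → xE (f * (-1)) ∈ planeR M w w' 0 := by
    intro f hf
    refine ⟨τ ζ w f, hf, fun v => ⟨f * ff ζ v w, 0, 0, ?_⟩, ?_, ⟨0, ?_⟩, ⟨0, ?_⟩⟩
    · rw [τ_act]
      simp
    · rw [τ_act]
      simp [ff_zero_left]
    · rw [τ_act, hww, e00_xE, e10_xE]
      simp
    · rw [τ_act, hw'w, e01_xE, e11_xE]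
      simp [add_comm]
  have h3 : yE 1 ∈ planeR M w w' 0 := by
    have h0 : τ ζ w' 1 ∈ M := by
      rw [hw']
      exact τ_rat hP hH a F₀.one_mem
    refine ⟨τ ζ w' 1, h0, fun v => ⟨0, 1 * ff ζ v w', 0, ?_⟩, ?_, ⟨0, ?_⟩, ⟨0, ?_⟩⟩
    · rw [τ_act]
      simp
    · rw [τ_act]
      simp [ff_zero_left]
    · rw [τ_act, e00_yE, e10_yE, hww']
      simp
    · rw [τ_act, hw'w', e01_yE, e11_yE]
      simp
  have hc₀0 : c₀ ≠ 0 := by
    rintro rfl
    exact hc₀ F₀.zero_mem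
  have hall := Cfsg.Agent.H27.DC.all_x hr hcard (a₁ := (-1 : F)) (a₂ := c₀ * (-1)) (neg_ne_zero.2 one_ne_zero)
    (by
      have e : c₀ * (-1) / (-1 : F) = c₀ := by field_simp
      rwa [e])
    (fun f hf => h1 f (by rw [hw]; exact τ_rat hP hH u hf))
    (fun f hf => by
      have := h1 (f * c₀) (by rw [hw]; exact h f hf)
      rwa [mul_assoc] at this) one_ne_zero h3 (-c)
  obtain ⟨y, hy, hy1, -, ⟨t₁, hy2⟩, ⟨t₂, hy3⟩⟩ := hall
  rw [e00_xE, e10_xE, smul_zero, add_zero, zero_smul, add_zero, one_smul] at hy2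
  rw [e01_xE, e11_xE, smul_zero, add_zero, one_smul] at hy3
  rw [← hw]
  convert hy using 1
  apply Cfsg.Agent.H27.GO.gl_ext
  intro v
  obtain ⟨α, β, γ, e⟩ := hy1 v
  rw [smul_zero, add_zero] at e
  have hs := hMs hy
  have h4 : ff ζ ((y : MM) *ᵥ v) ((y : MM) *ᵥ w) = ff ζ v w := ff_mem y hs v w
  have h5 : ff ζ ((y : MM) *ᵥ v) ((y : MM) *ᵥ w') = ff ζ v w' := ff_mem y hs v w'
  rw [e, hy2, ff_add_left, ff_add_left, ff_smul_left, ff_smul_left, hww, hw'w] at h4
  have hβ : β = 0 := by linear_combination - h4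
  subst hβ
  rw [e, hy3, zero_smul, add_zero] at h5
  simp only [ff_add_left, ff_add_right, ff_smul_left, ff_smul_right, hww, hww'] at h5
  have hα : α = c * ff ζ v w := by linear_combination h5
  rw [τ_act, e, hα]
  simp

include hP hMs hH in
lemma τ_move {p q : V₀} (h : ν hP p q ≠ 0) {c : F} (hc : τ ζ (rr P p) c ∈ M) : τ ζ (rr P q) c ∈ M := by
  have hg : ff ζ (rr P p) (rr P q) ≠ 0 := by
    intro h0
    apply h
    apply Subtype.ext
    simpa using h0
  have hκ : (ff ζ (rr P p) (rr P q))⁻¹ ∈ F₀ := inv_mem (ff_rr_mem hP p q)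
  have h1 := τ_of_conj hMs (τ_rat hP hH (p - q) hκ) hc
  have e : ((τ ζ (rr P (p - q)) (ff ζ (rr P p) (rr P q))⁻¹ : GG) : MM) *ᵥ rr P p = rr P q := by
    rw [τ_act, rr_sub, ff_sub_right, ff_self, zero_sub, mul_neg, inv_mul_cancel₀ hg]
    simp
  rwa [e] at h1

include hζ hP hMs hH in
lemma τ_all {u₀ : V₀} (hu₀ : u₀ ≠ 0) (h : ∀ c, τ ζ (rr P u₀) c ∈ M) (u : V₀) (c : F) : τ ζ (rr P u) c ∈ M := by
  by_cases hu : u = 0
  · subst hu
    rw [rr_zero, τ_zero_vec]
    exact M.one_mem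
  by_cases h1 : ν hP u₀ u = 0
  · obtain ⟨a, ha⟩ := ν_nd hζ hP hu₀
    obtain ⟨b, hb⟩ := ν_nd hζ hP hu
    have hex : ∃ s, ν hP u₀ s ≠ 0 ∧ ν hP u s ≠ 0 := by
      by_cases h2 : ν hP u a ≠ 0
      · exact ⟨a, ha, h2⟩
      push Not at h2
      by_cases h3 : ν hP u₀ b ≠ 0
      · exact ⟨b, h3, hb⟩
      push Not at h3
      exact ⟨a + b, by rw [ν_add_right, h3, add_zero]; exact ha, by rw [ν_add_right, h2, zero_add]; exact hb⟩
    obtain ⟨s, hs1, hs2⟩ := hex
    have h4 : ν hP s u ≠ 0 := by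
      rw [ν_skew]
      exact neg_ne_zero.2 hs2
    exact τ_move hP hMs hH h4 (τ_move hP hMs hH hs1 (h c))
  · exact τ_move hP hMs hH h1 (h c)

include hζ hP hMs in
/-- All transvections, by induction on the rational support. -/
theorem τ_V (hm : 0 < m) (h : ∀ (u : V₀) (c : F), τ ζ (rr P u) c ∈ M) (v : VV) (c : F) : τ ζ v c ∈ M := by
  classical
  suffices H : ∀ n : ℕ, ∀ v : VV, (Finset.univ.filter (fun i => (((P⁻¹ : GG) : MM) *ᵥ v) i ≠ 0)).card = n → ∀ c, τ ζ v c ∈ M from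
    H _ v rfl c
  intro n
  induction n using Nat.strong_induction_on with
  | _ n ih =>
    intro v hn c
    obtain ⟨ξ, hξ⟩ : ∃ ξ, ξ = ((P⁻¹ : GG) : MM) *ᵥ v := ⟨_, rfl⟩
    rw [← hξ] at hn
    have hexp : v = ∑ i, ξ i • rr P (Pi.single i (1 : F₀)) := by
      rw [hξ]
      exact expand_rat v
    by_cases hex : ∃ i₁ i₂, i₁ ≠ i₂ ∧ ξ i₁ ≠ 0 ∧ ξ i₂ ≠ 0
    · obtain ⟨i₁, i₂, hne, h1, h2⟩ := hex
      obtain ⟨b, hb⟩ : ∃ b, b = rr P (Pi.single i₁ (1 : F₀)) := ⟨_, rfl⟩
      obtain ⟨v', hv'⟩ : ∃ v', v' = v - ξ i₁ • b := ⟨_, rfl⟩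
      have hcoord : ∀ j, (((P⁻¹ : GG) : MM) *ᵥ v') j = if j = i₁ then 0 else ξ j := by
        intro j
        have e1 : ((P⁻¹ : GG) : MM) *ᵥ b = co (Pi.single i₁ (1 : F₀)) := by
          rw [hb]
          exact inv_rr _
        rw [hv', Matrix.mulVec_sub, Matrix.mulVec_smul, e1, ← hξ]
        by_cases hj : j = i₁
        · subst hj
          simp [co]
        · simp [co, hj]
      have hlt : (Finset.univ.filter (fun i => (((P⁻¹ : GG) : MM) *ᵥ v') i ≠ 0)).card < n := by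
        rw [← hn]
        apply Finset.card_lt_card
        rw [Finset.ssubset_iff_of_subset]
        · refine ⟨i₁, Finset.mem_filter.2 ⟨Finset.mem_univ _, h1⟩, fun hm => (Finset.mem_filter.1 hm).2 ((hcoord i₁).trans (if_pos rfl))⟩
        · intro j hj
          simp only [Finset.mem_filter, Finset.mem_univ, true_and, hcoord] at hj ⊢
          by_cases hji : j = i₁
          · subst hji
            simp at hj
          · simpa [hji] using hj
      have hv'M := ih _ hlt v' rfl c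
      -- an element moving `v` to `v'`
      have hy : ∃ y ∈ M, (y : MM) *ᵥ v = v' := by
        by_cases hf : ff ζ v b = 0
        · obtain ⟨z, hz⟩ := rat_riesz hζ hP (Pi.single i₂ (1 : F₀))
          have hzv : ff ζ v (rr P z) = ξ i₂ := by
            have e1 : ∀ i, ff ζ (rr P (Pi.single i (1 : F₀))) (rr P z) = if i = i₂ then 1 else 0 := by
              intro i
              rw [hz]
              by_cases hi : i = i₂
              · subst hi
                simp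
              · simp [hi]
            conv_lhs => rw [hexp]
            rw [ff_skew, ff_sum_right, ← Finset.sum_neg_distrib]
            simp only [ff_skew (rr P z), e1]
            simp
          have hbz : ff ζ b (rr P z) = 0 := by
            rw [hb, hz]
            simp [hne]
          obtain ⟨κ, hκ⟩ : ∃ κ, κ = -(ξ i₁ / ξ i₂) := ⟨_, rfl⟩
          refine ⟨τ ζ (b + rr P z) κ * τ ζ b (-κ) * τ ζ (rr P z) (-κ), M.mul_mem (M.mul_mem ?_ ?_) ?_, ?_⟩
          · rw [hb, ← rr_add]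
            exact h _ _
          · rw [hb]
            exact h _ _
          · exact h _ _
          · rw [E_act hbz, hf, hzv, mul_zero, zero_smul, add_zero, hv', hκ]
            rw [sub_eq_add_neg, ← neg_smul]
            congr 2
            field_simp
        · refine ⟨τ ζ b (-(ξ i₁) / ff ζ v b), ?_, ?_⟩
          · rw [hb]
            exact h _ _
          · rw [τ_act, hv', sub_eq_add_neg, ← neg_smul]
            congr 2
            field_simp
      obtain ⟨y, hyM, hyv⟩ := hy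
      have h3 := τ_of_conj hMs (M.inv_mem hyM) hv'M
      rw [← hyv, inv_act] at h3
      exact h3
    · push Not at hex
      by_cases hne : ∃ i, ξ i ≠ 0
      · obtain ⟨i, hi⟩ := hne
        have e : v = ξ i • rr P (Pi.single i (1 : F₀)) := by
          rw [hexp]
          apply Finset.sum_eq_single
          · intro j _ hj
            have : ξ j = 0 := by
              by_contra h0
              exact hi (hex j i hj h0)
            rw [this, zero_smul]
          · simp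
        rw [e, τ_smul]
        exact h _ _
      · push Not at hne
        have e : v = 0 := by
          rw [hexp]
          simp [hne]
        rw [e, τ_zero_vec]
        exact M.one_mem

include hr hcard hζ hP hMs hH in
/-- An element outside the subfield group gives everything. -/
theorem sp_le_main (hm : 3 ≤ m) {g : GG} (hgM : g ∈ M) (hg : g ∉ subfieldSubgroup F₀ P) : spGL m F ≤ M := by
  classical
  have hcardι : 5 ≤ Fintype.card (Fin m ⊕ Fin m) := by
    simp only [Fintype.card_sum, Fintype.card_fin]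
    omega
  have hne : ∃ a : V₀, a ≠ 0 := by
    refine ⟨Pi.single (Sum.inl ⟨0, by omega⟩) 1, fun h0 => ?_⟩
    have := congrFun h0 (Sum.inl ⟨0, by omega⟩)
    simp at this
  obtain ⟨a, ha⟩ : ∃ a : V₀, ¬ RatPt P F₀ ((g : MM) *ᵥ rr P a) := by
    by_contra hcon
    push Not at hcon
    exact hg (RS.mem_of_points hne hcon)
  obtain ⟨x, hx⟩ : ∃ x, x = (g : MM) *ᵥ rr P a := ⟨_, rfl⟩
  rw [← hx] at ha
  have hxM : ∀ c ∈ F₀, τ ζ x c ∈ M := by
    intro c hc
    rw [hx]
    exact τ_of_conj hMs hgM (τ_rat hP hH a hc)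
  obtain ⟨u₁, u₂, hν, hβ, hθ⟩ := exists_ts2 hζ hP (by omega) ha
  obtain ⟨γ₁, γ₂, hz, hbad⟩ := exists_nonbad hr hcard hP hMs hH hxM hν hβ hθ
  obtain ⟨g₁, hg₁, g₂, hg₂, hl⟩ := exists_l hbad
  -- independence
  have hθ' : ff ζ x (rr P u₂) / ff ζ x (rr P u₁) ∉ F₀ := by
    intro hm'
    exact hθ (mul_mem hm' hm')
  have hβ₂ : ff ζ x (rr P u₂) ≠ 0 := by
    intro h0
    apply hθ'
    rw [h0, zero_div]
    exact F₀.zero_mem
  have hi1 : u₁ ∉ Submodule.span F₀ {u₂} := by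
    intro hm'
    obtain ⟨f, rfl⟩ := Submodule.mem_span_singleton.1 hm'
    apply hθ'
    rw [rr_smul, ff_smul_right]
    have hf : (f : F) ≠ 0 := by
      intro h0
      apply hβ
      rw [rr_smul, ff_smul_right, h0, zero_mul]
    have e : ff ζ x (rr P u₂) / ((f : F) * ff ζ x (rr P u₂)) = (f : F)⁻¹ := by
      field_simp
    rw [e]
    exact inv_mem f.2
  have hi2 : u₂ ∉ Submodule.span F₀ {u₁} := by
    intro hm'
    obtain ⟨f, rfl⟩ := Submodule.mem_span_singleton.1 hm'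
    apply hθ'
    rw [rr_smul, ff_smul_right]
    have e : (f : F) * ff ζ x (rr P u₁) / ff ζ x (rr P u₁) = (f : F) := by
      field_simp
    rw [e]
    exact f.2
  obtain ⟨t₁, ht₁, ht₁'⟩ := RS.exists_fun hi1
  obtain ⟨t₂, ht₂, ht₂'⟩ := RS.exists_fun hi2
  obtain ⟨a₁, ha₁⟩ := rat_riesz hζ hP t₁
  obtain ⟨a₂, ha₂⟩ := rat_riesz hζ hP t₂
  have h11 : ν hP u₁ a₁ = 1 := by
    apply Subtype.ext
    rw [ν_coe, ha₁]
    change (((∑ i, t₁ i * u₁ i : F₀)) : F) = _
    rw [ht₁]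
  have h21 : ν hP u₂ a₁ = 0 := by
    apply Subtype.ext
    rw [ν_coe, ha₁]
    change (((∑ i, t₁ i * u₂ i : F₀)) : F) = _
    rw [ht₁']
  have h22 : ν hP u₂ a₂ = 1 := by
    apply Subtype.ext
    rw [ν_coe, ha₂]
    change (((∑ i, t₂ i * u₂ i : F₀)) : F) = _
    rw [ht₂]
  have h12 : ν hP u₁ a₂ = 0 := by
    apply Subtype.ext
    rw [ν_coe, ha₂]
    change (((∑ i, t₂ i * u₁ i : F₀)) : F) = _
    rw [ht₂']
  obtain ⟨u₃, hu₃0, h31, h32, h33, h34⟩ := exists_common_zero4 (rowv hP u₁) (rowv hP u₂) (rowv hP a₁) (rowv hP a₂) hcardι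
  rw [rowv_dot] at h31 h32 h33 h34
  obtain ⟨a₀, ha₀⟩ := ν_one hζ hP hu₃0
  have hsub : ∀ p q s : V₀, ν hP p (q - s) = ν hP p q - ν hP p s := by
    intro p q s
    rw [sub_eq_add_neg, ν_add_right, ← neg_one_smul F₀ s, ν_smul_right]
    ring
  obtain ⟨a₃, ha₃⟩ : ∃ a₃, a₃ = a₀ - ν hP u₁ a₀ • a₁ - ν hP u₂ a₀ • a₂ := ⟨_, rfl⟩
  have h3a₁ : ν hP u₃ a₁ = 0 := by rw [ν_skew, h33, neg_zero]
  have h3a₂ : ν hP u₃ a₂ = 0 := by rw [ν_skew, h34, neg_zero]
  have h13 : ν hP u₁ a₃ = 0 := by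
    rw [ha₃, hsub, hsub, ν_smul_right, ν_smul_right, h11, h12]
    ring
  have h23 : ν hP u₂ a₃ = 0 := by
    rw [ha₃, hsub, hsub, ν_smul_right, ν_smul_right, h21, h22]
    ring
  have h33' : ν hP u₃ a₃ = 1 := by
    rw [ha₃, hsub, hsub, ν_smul_right, ν_smul_right, h3a₁, h3a₂, ha₀]
    ring
  let u : Fin 3 → V₀ := ![u₁, u₂, u₃]
  let b : Fin 3 → V₀ := ![a₁, a₂, a₃]
  have hν' : ν hP u₂ u₁ = 0 := by rw [ν_skew, hν, neg_zero]
  have h31' : ν hP u₃ u₁ = 0 := by rw [ν_skew, h31, neg_zero]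
  have h32' : ν hP u₃ u₂ = 0 := by rw [ν_skew, h32, neg_zero]
  have hu : ∀ i j, ν hP (u i) (u j) = 0 := by
    intro i j
    fin_cases i <;> fin_cases j <;> simp [u, ν_self, hν, hν', h31, h32, h31', h32']
  have hb : ∀ k j, ν hP (u k) (b j) = if k = j then 1 else 0 := by
    intro k j
    fin_cases k <;> fin_cases j <;> simp [u, b, h11, h12, h13, h21, h22, h23, h3a₁, h3a₂, h33']
  have hc₀ : ∀ f ∈ F₀, τ ζ (rr P u₃) (f * ((g₁ * γ₁ + g₂ * γ₂) * (g₁ * γ₁ + g₂ * γ₂))) ∈ M := by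
    intro f hf
    exact rank1 hP hMs hH hu hb (hz f hf) hg₁ hg₂
  have hall := all_c hr hcard hP hMs hH h33' hl hc₀
  have hall2 := τ_all hζ hP hMs hH hu₃0 hall
  have hall3 := τ_V hζ hP hMs (by omega) hall2
  apply Cfsg.Agent.H27.MS.spGL_le_of_tv
  intro w c
  have e : Cfsg.Agent.H27.MS.tv w c = τ ζ w (ζ⁻¹ * c) := by
    unfold τ
    rw [mul_inv_cancel_left₀ hζ]
  rw [e]
  exact hall3 w _

end main

/-- The subfield group is maximal in `Sp`. -/
theorem sq_max [Fintype F] (hm : 3 ≤ m) {r : ℕ} (hr : r.Prime) (hcard : Fintype.card F = Nat.card F₀ ^ r) (hζ : ζ ≠ 0)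
    (hP : IsFormRationalStructure (Cfsg.sympForm m F) F₀ ζ P) :
    IsMaximalIn (spGL m F) (subfieldSubgroup F₀ P ⊓ spGL m F) := by
  classical
  constructor
  · rw [lt_iff_le_and_ne]
    refine ⟨inf_le_right, fun heq => ?_⟩
    obtain ⟨c, hc⟩ : ∃ c : F, c ∉ F₀ := by
      by_contra hcon
      push Not at hcon
      have h1 : Nat.card F₀ = Fintype.card F := by
        rw [← Nat.card_eq_fintype_card]
        exact Nat.card_congr (Equiv.subtypeUnivEquiv hcon)
      have h2 : 2 ≤ Fintype.card F := Fintype.one_lt_card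
      rw [← h1] at hcard h2
      have h3 : Nat.card F₀ ^ 1 < Nat.card F₀ ^ r := Nat.pow_lt_pow_right (by omega) hr.one_lt
      rw [pow_one] at h3
      omega
    obtain ⟨u₀, hu₀⟩ : ∃ a : V₀, a ≠ 0 := by
      refine ⟨Pi.single (Sum.inl ⟨0, by omega⟩) 1, fun h0 => ?_⟩
      have := congrFun h0 (Sum.inl ⟨0, by omega⟩)
      simp at this
    have htSp := τ_mem (ζ := ζ) (rr P u₀) c
    rw [← heq] at htSp
    obtain ⟨μ, hμ⟩ := RS.rat_of_mem htSp.1
    obtain ⟨y, hy⟩ := ν_one hζ hP hu₀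
    obtain ⟨b, hb⟩ := hμ u₀
    obtain ⟨b', hb'⟩ := hμ y
    have hyu : ff ζ (rr P y) (rr P u₀) = -1 := by
      have := congrArg Subtype.val hy
      rw [ν_coe] at this
      rw [ff_skew, this]
      simp
    rw [τ_act, ff_self, mul_zero, zero_smul, add_zero] at hb
    rw [τ_act, hyu] at hb'
    have f1 : co u₀ = (μ : F) • co b := by
      have := congrArg (fun w => ((P⁻¹ : GG) : MM) *ᵥ w) hb
      simp only [Matrix.mulVec_smul, inv_rr] at this
      exact this
    have f2 : co y + (c * -1) • co u₀ = (μ : F) • co b' := by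
      have := congrArg (fun w => ((P⁻¹ : GG) : MM) *ᵥ w) hb'
      simp only [Matrix.mulVec_add, Matrix.mulVec_smul, inv_rr] at this
      exact this
    obtain ⟨i, hi⟩ : ∃ i, u₀ i ≠ 0 := by
      by_contra hcon
      push Not at hcon
      exact hu₀ (funext hcon)
    have hi' : (u₀ i : F) ≠ 0 := by simpa using hi
    have g1 := congrFun f1 i
    have g2 := congrFun f2 i
    simp only [RS.co_apply, Pi.smul_apply, Pi.add_apply, smul_eq_mul] at g1 g2
    have hbi : (b i : F) ≠ 0 := by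
      intro h0
      rw [h0, mul_zero] at g1
      exact hi' g1
    have hμ0 : (μ : F) = (u₀ i : F) / (b i : F) := by
      rw [g1]
      field_simp
    apply hc
    have e : c = ((y i : F) - (μ : F) * (b' i : F)) / (u₀ i : F) := by
      field_simp
      linear_combination - g2
    rw [e, hμ0]
    exact div_mem (sub_mem (y i).2 (mul_mem (div_mem (u₀ i).2 (b i).2) (b' i).2)) (u₀ i).2
  · intro M hPM hMG
    by_cases hex : ∃ g ∈ M, g ∉ subfieldSubgroup F₀ P
    · right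
      obtain ⟨g, hgM, hgn⟩ := hex
      exact le_antisymm hMG (sp_le_main hr hcard hζ hP hMG hPM hm hgM hgn)
    · left
      push Not at hex
      exact le_antisymm (fun g hg => ⟨hex g hg, hMG hg⟩) hPM

end Cfsg.Agent.H27.SQ
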