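import Mathlib
import Cfsg.Prelude.Def_GeometricClasses
import Cfsg.Agent.Lib.H27.GeoRU
import Cfsg.Agent.Lib.H27.GeoSQ4

/-!
# Subfield subgroups of unitary groups: the arithmetic of the subfield
-/

set_option autoImplicit false
set_option linter.unusedSectionVars false
set_option linter.unusedSimpArgs false
set_option linter.unusedVariables false
set_option linter.style.haveILetI false

namespace Cfsg.Agent.H27.SH

open Cfsg Cfsg.Geo
open Cfsg.Agent.H28 (HS)

variable {F : Type*} [Field F]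

/-- The data of a subfield of odd prime index in a field with involution. -/
structure FD (F₀ : Subfield F) (σ : F ≃+* F) : Prop where
  inv : ∀ x, σ (σ x) = x
  mem : ∀ x ∈ F₀, σ x ∈ F₀
  nrm : ∀ c ∈ F₀, σ c = c → ∃ d ∈ F₀, d * σ d = c
  eta : ∃ η ∈ F₀, η * σ η = 1 ∧ η ≠ 1
  h0 : ∃ h ∈ F₀, σ h ≠ h
  rho : ∃ ρ, σ ρ = ρ ∧ ρ * ρ ∉ F₀
  mid : ∀ E : Subfield F, (∀ x ∈ F₀, σ x = x → x ∈ E) → ∀ τ ∈ E, σ τ = τ → τ ∉ F₀ → ∀ y, σ y = y → y ∈ E

namespace FD

variable {F₀ : Subfield F} {σ : F ≃+* F}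

lemma exists_tr_ne (h : FD F₀ σ) : ∃ d ∈ F₀, d + σ d ≠ 0 := by
  by_contra hcon
  push Not at hcon
  have h1 : (1 : F) + 1 = 0 := by
    have := hcon 1 F₀.one_mem
    simpa using this
  obtain ⟨a, ha, hne⟩ := h.h0
  apply hne
  have h2 := hcon a ha
  have h3 : σ a = -a := eq_neg_of_add_eq_zero_right h2
  rw [h3]
  linear_combination (-a) * h1

/-- The trace is surjective. -/
lemma trc (h : FD F₀ σ) {c : F} (hc : c ∈ F₀) (hσ : σ c = c) : ∃ d ∈ F₀, d + σ d = c := by
  obtain ⟨a, ha, hne⟩ := h.exists_tr_ne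
  refine ⟨c * a / (a + σ a), div_mem (mul_mem hc ha) (add_mem ha (h.mem a ha)), ?_⟩
  rw [map_div₀, map_mul, map_add, h.inv, hσ]
  have e : σ a + a = a + σ a := add_comm _ _
  rw [e]
  field_simp

/-- A nonzero element of trace zero. -/
lemma om (h : FD F₀ σ) : ∃ ω ∈ F₀, ω ≠ 0 ∧ ω + σ ω = 0 := by
  obtain ⟨a, ha, hne⟩ := h.h0
  refine ⟨a - σ a, sub_mem ha (h.mem a ha), sub_ne_zero.2 hne.symm, ?_⟩
  rw [map_sub, h.inv]
  ring

lemma mem_of_tr (h : FD F₀ σ) {Z : F} (hZ : ∀ a ∈ F₀, a * Z + σ (a * Z) ∈ F₀) : Z ∈ F₀ := by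
  obtain ⟨a, ha, hne⟩ := h.h0
  have h1 := hZ 1 F₀.one_mem
  have h2 := hZ a ha
  have h3 : a - σ a ≠ 0 := sub_ne_zero.2 hne.symm
  have e : Z = ((a * Z + σ (a * Z)) - σ a * (1 * Z + σ (1 * Z))) / (a - σ a) := by
    rw [map_mul, map_mul, map_one]
    field_simp
    ring
  rw [e]
  exact div_mem (sub_mem h2 (mul_mem (h.mem a ha) h1)) (sub_mem ha (h.mem a ha))

/-- Elements of the field are combinations of trace zero elements with rational coefficients. -/
lemma decomp (h : FD F₀ σ) (c : F) :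
    ∃ κ₁ κ₂ c₁ c₂ : F, κ₁ + σ κ₁ = 0 ∧ κ₂ + σ κ₂ = 0 ∧ c₁ ∈ F₀ ∧ c₂ ∈ F₀ ∧ c = κ₁ * c₁ + κ₂ * c₂ := by
  obtain ⟨a, ha, hne⟩ := h.h0
  obtain ⟨ω, hω, hω0, hωs⟩ := h.om
  have h3 : a - σ a ≠ 0 := sub_ne_zero.2 hne.symm
  have h3' : σ a - a ≠ 0 := sub_ne_zero.2 hne
  obtain ⟨y, hy⟩ : ∃ y, y = (c - σ c) / (a - σ a) := ⟨_, rfl⟩
  obtain ⟨x, hx⟩ : ∃ x, x = c - y * a := ⟨_, rfl⟩
  have hσy : σ y = y := by
    rw [hy, map_div₀, map_sub, map_sub, h.inv, h.inv, div_eq_div_iff h3' h3]
    ring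
  have hσx : σ x = x := by
    rw [hx, map_sub, map_mul, hσy]
    have e : (c - σ c) = y * (a - σ a) := by
      rw [hy]
      field_simp
    linear_combination - e
  refine ⟨ω * x, ω * y, ω⁻¹, a * ω⁻¹, ?_, ?_, inv_mem hω, mul_mem ha (inv_mem hω), ?_⟩
  · rw [map_mul, hσx]
    linear_combination x * hωs
  · rw [map_mul, hσy]
    linear_combination y * hωs
  · rw [hx]
    field_simp
    ring

end FD

section Arith

variable [Fintype F] {q : ℕ} {σ : F ≃+* F}

/-- Membership in a subfield is detected by the power map. -/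
lemma mem_iff_pow (K : Subfield F) (x : F) : x ∈ K ↔ x ^ (Nat.card K) = x := by
  classical
  haveI : Fintype K := Fintype.ofFinite _
  have hc : 1 < Nat.card K := by
    rw [Nat.card_eq_fintype_card]
    exact Fintype.one_lt_card
  have hpow : ∀ y ∈ K, y ^ (Nat.card K) = y := by
    intro y hy
    have := FiniteField.pow_card (⟨y, hy⟩ : K)
    rw [← Nat.card_eq_fintype_card] at this
    exact congrArg Subtype.val this
  refine ⟨hpow x, fun hx => ?_⟩
  let p : Polynomial F := Polynomial.X ^ (Nat.card K) - Polynomial.X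
  have hp : p ≠ 0 := FiniteField.X_pow_card_sub_X_ne_zero F hc
  have hdeg : p.natDegree = Nat.card K := FiniteField.X_pow_card_sub_X_natDegree_eq F hc
  let R : Finset F := p.roots.toFinset
  have hR : R.card ≤ Nat.card K := by
    calc R.card ≤ Multiset.card p.roots := Multiset.toFinset_card_le _
      _ ≤ p.natDegree := Polynomial.card_roots' _
      _ = Nat.card K := hdeg
  let S : Finset F := (Finset.univ : Finset K).image Subtype.val
  have hScard : S.card = Nat.card K := by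
    rw [Finset.card_image_of_injective _ Subtype.val_injective, Finset.card_univ, ← Nat.card_eq_fintype_card]
  have hmemR : ∀ y, y ∈ R ↔ y ^ (Nat.card K) = y := by
    intro y
    simp only [R, Multiset.mem_toFinset, Polynomial.mem_roots hp, Polynomial.IsRoot.def, p, Polynomial.eval_sub,
      Polynomial.eval_pow, Polynomial.eval_X, sub_eq_zero]
  have hSR : S ⊆ R := by
    intro y hy
    simp only [S, Finset.mem_image, Finset.mem_univ, true_and] at hy
    obtain ⟨y₀, rfl⟩ := hy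
    rw [hmemR]
    exact hpow _ y₀.2
  have hEq : S = R := Finset.eq_of_subset_of_card_le hSR (by omega)
  have hxR : x ∈ R := by
    rw [hmemR]
    exact hx
  rw [← hEq] at hxR
  simp only [S, Finset.mem_image, Finset.mem_univ, true_and] at hxR
  obtain ⟨y₀, rfl⟩ := hxR
  exact y₀.2

/-- The fixed field of an automorphism. -/
def fixS (σ : F ≃+* F) : Subfield F where
  carrier := {x | σ x = x}
  mul_mem' := by
    intro a b ha hb
    simp only [Set.mem_ofPred_eq] at ha hb ⊢
    rw [map_mul, ha, hb]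
  one_mem' := map_one σ
  add_mem' := by
    intro a b ha hb
    simp only [Set.mem_ofPred_eq] at ha hb ⊢
    rw [map_add, ha, hb]
  zero_mem' := map_zero σ
  neg_mem' := by
    intro a ha
    simp only [Set.mem_ofPred_eq] at ha ⊢
    rw [map_neg, ha]
  inv_mem' := by
    intro a ha
    simp only [Set.mem_ofPred_eq] at ha ⊢
    rw [map_inv₀, ha]

@[simp] lemma mem_fixS {x : F} : x ∈ fixS σ ↔ σ x = x := Iff.rfl

/-- The fixed field of the involution has `q` elements. -/
theorem card_fix (hS : HS F q σ) : Nat.card (fixS σ) = q := by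
  classical
  have hq := hS.two_le
  obtain ⟨a, ha0, ha⟩ := hS.exists_trace_zero
  have hσa : σ a = - a := eq_neg_of_add_eq_zero_right ha
  -- the upper bound
  have hle : Nat.card (fixS σ) ≤ q := by
    let p : Polynomial F := Polynomial.X ^ q - Polynomial.X
    have hp : p ≠ 0 := FiniteField.X_pow_card_sub_X_ne_zero F (by omega)
    have hdeg : p.natDegree = q := FiniteField.X_pow_card_sub_X_natDegree_eq F (by omega)
    let R : Finset F := p.roots.toFinset
    have hR : R.card ≤ q := by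
      calc R.card ≤ Multiset.card p.roots := Multiset.toFinset_card_le _
        _ ≤ p.natDegree := Polynomial.card_roots' _
        _ = q := hdeg
    have hmemR : ∀ y, y ∈ R ↔ y ^ q = y := by
      intro y
      simp only [R, Multiset.mem_toFinset, Polynomial.mem_roots hp, Polynomial.IsRoot.def, p, Polynomial.eval_sub,
        Polynomial.eval_pow, Polynomial.eval_X, sub_eq_zero]
    have hinj : Function.Injective (fun x : fixS σ => (⟨x.1, by
        rw [hmemR, ← hS.pow]
        exact x.2⟩ : {y // y ∈ R})) := by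
      intro x y e
      have e' : x.1 = y.1 := Subtype.mk.inj e
      exact Subtype.ext e'
    have h1 := Nat.card_le_card_of_injective _ hinj
    rw [Nat.card_eq_fintype_card (α := {y // y ∈ R}), Fintype.card_coe] at h1
    omega
  let φ : F →+ F := AddMonoidHom.mk' (fun x => σ x - x) (by
    intro x y
    simp only [map_add]
    ring)
  have hcard : Nat.card φ.ker * Nat.card φ.range = q ^ 2 := by
    rw [← hS.card, ← Nat.card_eq_fintype_card, ← AddSubgroup.card_mul_index φ.ker, AddSubgroup.index_ker]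
  have hker : Nat.card φ.ker = Nat.card (fixS σ) := by
    apply Nat.card_congr
    refine ⟨fun x => ⟨x.1, ?_⟩, fun x => ⟨x.1, ?_⟩, fun x => rfl, fun x => rfl⟩
    · have := x.2
      rw [AddMonoidHom.mem_ker] at this
      exact sub_eq_zero.1 this
    · rw [AddMonoidHom.mem_ker]
      exact sub_eq_zero.2 x.2
  have hran : Nat.card φ.range ≤ Nat.card (fixS σ) := by
    have hmem : ∀ y : φ.range, y.1 / a ∈ fixS σ := by
      rintro ⟨y, x, rfl⟩
      rw [mem_fixS, map_div₀, hσa]
      change σ (σ x - x) / (-a) = (σ x - x) / a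
      rw [map_sub, hS.inv]
      field_simp
      ring
    have hinj : Function.Injective (fun y : φ.range => (⟨y.1 / a, hmem y⟩ : fixS σ)) := by
      intro y y' e
      have e' : y.1 / a = y'.1 / a := congrArg Subtype.val e
      apply Subtype.ext
      field_simp at e'
      exact e'
    exact Nat.card_le_card_of_injective _ hinj
  rw [hker] at hcard
  apply le_antisymm hle
  by_contra hlt
  push Not at hlt
  have h1 : Nat.card (fixS σ) * Nat.card φ.range ≤ Nat.card (fixS σ) * Nat.card (fixS σ) := Nat.mul_le_mul_left _ hran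
  have h2 : Nat.card (fixS σ) * Nat.card (fixS σ) < q * q := Nat.mul_self_lt_mul_self hlt
  nlinarith

variable {F₀ : Subfield F} {r : ℕ}

/-- The arithmetic of a subfield of odd prime index. -/
theorem fd_of (hS : HS F q σ) (hcard : Fintype.card F = Nat.card F₀ ^ r) (hr : r.Prime) (hro : Odd r) : FD F₀ σ := by
  classical
  haveI : Fintype F₀ := Fintype.ofFinite _
  obtain ⟨s, hs⟩ := hro
  have hq2 := hS.two_le
  obtain ⟨c, hc⟩ : ∃ c, c = Nat.card F₀ := ⟨_, rfl⟩
  have hc2 : 2 ≤ c := by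
    rw [hc, Nat.card_eq_fintype_card]
    exact Fintype.one_lt_card
  have hcq : c ^ r = q ^ 2 := by
    rw [hc, ← hcard, hS.card]
  -- `c` is a square
  have hdvd : c ^ s ∣ q := by
    rw [← Nat.pow_dvd_pow_iff (n := 2) (by norm_num), ← hcq, hs, ← pow_mul]
    apply pow_dvd_pow
    omega
  obtain ⟨q₀, hq₀⟩ := hdvd
  have hcpos : 0 < c ^ s := by positivity
  have hcs : c = q₀ ^ 2 := by
    have h1 : c ^ (2 * s + 1) = (c ^ s * q₀) ^ 2 := by
      rw [← hq₀, ← hcq, hs]
    have h2 : (c ^ s) ^ 2 * c = (c ^ s) ^ 2 * q₀ ^ 2 := by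
      calc (c ^ s) ^ 2 * c = c ^ (2 * s + 1) := by ring
        _ = (c ^ s * q₀) ^ 2 := h1
        _ = (c ^ s) ^ 2 * q₀ ^ 2 := by ring
    exact Nat.eq_of_mul_eq_mul_left (by positivity) h2
  have hq₀2 : 2 ≤ q₀ := by
    by_contra h
    have : q₀ = 0 ∨ q₀ = 1 := by omega
    rcases this with rfl | rfl <;> simp at hcs <;> omega
  have hqq : q = q₀ ^ r := by
    rw [hq₀, hcs, hs]
    ring
  have hF₀card : Fintype.card F₀ = q₀ ^ 2 := by
    rw [← Nat.card_eq_fintype_card, ← hc, hcs]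
  obtain ⟨σ', hS'⟩ := Cfsg.Agent.H28.exists_hs hF₀card
  have hmem : ∀ x ∈ F₀, σ x ∈ F₀ := by
    intro x hx
    rw [mem_iff_pow]
    rw [mem_iff_pow] at hx
    rw [← map_pow, hx]
  have hpowF₀ : ∀ x : F₀, x ^ ((q₀ ^ 2) ^ s) = x := by
    intro x
    have := FiniteField.pow_card_pow s x
    rwa [hF₀card] at this
  have hσ' : ∀ x : F₀, ((σ' x : F₀) : F) = σ x := by
    intro x
    rw [hS'.pow, hS.pow, hqq, hs]
    have e : q₀ ^ (2 * s + 1) = (q₀ ^ 2) ^ s * q₀ := by
      rw [pow_succ, pow_mul]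
    rw [e, pow_mul]
    have h1 : (x : F) ^ ((q₀ ^ 2) ^ s) = x := congrArg Subtype.val (hpowF₀ x)
    rw [h1]
    rfl
  have hcardq : Nat.card (fixS σ) = q := card_fix hS
  have hq3 : q₀ ^ 2 < q := by
    rw [hqq]
    apply Nat.pow_lt_pow_right (by omega)
    have := hr.two_le
    omega
  have hnot : ¬ ∀ ρ, σ ρ = ρ → ρ ∈ F₀ := by
    intro h
    have hinj : Function.Injective (fun x : fixS σ => (⟨x.1, h _ x.2⟩ : F₀)) := by
      intro x y e
      have e' : x.1 = y.1 := Subtype.mk.inj e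
      exact Subtype.ext e'
    have h1 := Nat.card_le_card_of_injective _ hinj
    rw [hcardq, ← hc, hcs] at h1
    omega
  refine ⟨hS.inv, hmem, ?_, ?_, ?_, ?_, ?_⟩
  · intro a ha hσa
    have h1 : σ' ⟨a, ha⟩ = ⟨a, ha⟩ := Subtype.ext (by rw [hσ']; exact hσa)
    obtain ⟨d, hd⟩ := hS'.norm_surj h1
    refine ⟨d, d.2, ?_⟩
    have := congrArg Subtype.val hd
    simp only [MulMemClass.coe_mul, hσ'] at this
    exact this
  · obtain ⟨η, h1, h2, -, -⟩ := hS'.exists_norm_one
    refine ⟨η, η.2, ?_, ?_⟩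
    · have := congrArg Subtype.val h1
      simp only [MulMemClass.coe_mul, hσ', OneMemClass.coe_one] at this
      exact this
    · intro h3
      exact h2 (Subtype.ext h3)
  · obtain ⟨x, hx⟩ := hS'.exists_ne
    refine ⟨x, x.2, fun h => hx (Subtype.ext ?_)⟩
    rw [hσ', h]
  · push Not at hnot
    obtain ⟨ρ, hρ, hρ₀⟩ := hnot
    by_cases h2 : (2 : F) = 0
    · refine ⟨ρ, hρ, fun hm => hρ₀ (Cfsg.Agent.H27.SQ.mem_of_sq_two h2 hm)⟩
    · by_cases hm : ρ * ρ ∈ F₀
      · refine ⟨1 + ρ, by rw [map_add, map_one, hρ], fun h3 => hρ₀ ?_⟩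
        have h2mem : (2 : F) ∈ F₀ := by
          have : (2 : F) = 1 + 1 := by norm_num
          rw [this]
          exact add_mem F₀.one_mem F₀.one_mem
        have e : ρ = ((1 + ρ) * (1 + ρ) - 1 - ρ * ρ) / 2 := by
          field_simp
          ring
        rw [e]
        exact div_mem (sub_mem (sub_mem h3 F₀.one_mem) hm) h2mem
      · exact ⟨ρ, hρ, hm⟩
  · intro E hE τ hτE hτ hτ₀ y hy
    have hKcard : Nat.card (fixS σ) = q := hcardq
    let E' : Subfield (fixS σ) := E.comap (fixS σ).subtype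
    let F₁ : Subfield (fixS σ) := F₀.comap (fixS σ).subtype
    have hF₁card : Nat.card F₁ = q₀ := by
      rw [← card_fix hS']
      apply Nat.card_congr
      refine ⟨fun x => ⟨⟨x.1.1, x.2⟩, ?_⟩, fun x => ⟨⟨x.1.1, ?_⟩, x.1.2⟩, fun x => rfl, fun x => rfl⟩
      · rw [mem_fixS]
        apply Subtype.ext
        rw [hσ']
        exact x.1.2
      · rw [mem_fixS, ← hσ']
        have := x.2
        rw [mem_fixS] at this
        rw [this]
    have hcard' : Nat.card (fixS σ) = Nat.card F₁ ^ r := by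
      rw [hKcard, hF₁card, hqq]
    have hle : F₁ ≤ E' := by
      intro x hx
      exact hE x.1 hx x.2
    have h5 : (⟨y, hy⟩ : fixS σ) ∈ E' := by
      apply Cfsg.Agent.H27.DC.subfield_eq_top hr hcard' hle (x := ⟨τ, hτ⟩) hτE hτ₀
    exact h5

end Arith

end Cfsg.Agent.H27.SH
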