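import Mathlib
import Cfsg.Agent.Lib.H27.GeoSH

/-!
# Subfield subgroups of unitary groups: the rational Hermitian space
-/

set_option autoImplicit false
set_option linter.unusedSectionVars false
set_option linter.unusedSimpArgs false
set_option linter.unusedVariables false
set_option linter.style.haveILetI false

namespace Cfsg.Agent.H27.SH

open scoped Matrix MatrixGroups
open Cfsg Cfsg.Geo
open Cfsg.Agent.H28 (HS)
open Cfsg.Agent.H27.UF (fr_add fr_smul f0l f0r fnl fnr fsl fsr anti anti_ne qfix fr_sum)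
open Cfsg.Agent.H27.UP (IsoF TT f_sum_left inv_cancel inv_cancel' exists_ut exists_rho)

variable {n : ℕ} {F : Type*} [Field F] [Fintype F] {σ : F ≃+* F} {f : (Fin n → F) → (Fin n → F) → F} {F₀ : Subfield F} {b : Fin n → Fin n → F}

local notation "GG" => GL (Fin n) F
local notation "Mat" => Matrix (Fin n) (Fin n) F

/-- A rational structure given by an orthonormal basis. -/
structure OB (σ : F ≃+* F) (f : (Fin n → F) → (Fin n → F) → F) (F₀ : Subfield F) (b : Fin n → Fin n → F) : Prop where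
  hf : IsUnitaryForm σ f
  fd : FD F₀ σ
  hb : ∀ i j, f (b i) (b j) = if i = j then 1 else 0

/-- Rational vectors. -/
def Rat (f : (Fin n → F) → (Fin n → F) → F) (F₀ : Subfield F) (b : Fin n → Fin n → F) (x : Fin n → F) : Prop :=
  ∀ i, f x (b i) ∈ F₀

/-- Rational points. -/
def RatPt (f : (Fin n → F) → (Fin n → F) → F) (F₀ : Subfield F) (b : Fin n → Fin n → F) (x : Fin n → F) : Prop :=
  ∃ (c : F) (y : Fin n → F), Rat f F₀ b y ∧ x = c • y

namespace OB

variable (h : OB σ f F₀ b)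
include h

lemma f_sum_b (c : Fin n → F) (j : Fin n) : f (∑ i, c i • b i) (b j) = c j := by
  classical
  rw [f_sum_left h.hf]
  simp only [h.hb, mul_ite, mul_one, mul_zero]
  simp

lemma top_span : Submodule.span F (Set.range b) = ⊤ := by
  classical
  have hli : LinearIndependent F b := by
    rw [Fintype.linearIndependent_iff]
    intro c hc j
    have := h.f_sum_b c j
    rw [hc, f0l h.hf] at this
    exact this.symm
  apply hli.span_eq_top_of_card_eq_finrank'
  simp

lemma eq_zero_of_b {y : Fin n → F} (hy : ∀ j, f y (b j) = 0) : y = 0 := by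
  have key : ∀ z ∈ Submodule.span F (Set.range b), f y z = 0 := by
    intro z hz'
    induction hz' using Submodule.span_induction with
    | mem x hx =>
      obtain ⟨j, rfl⟩ := hx
      exact hy j
    | zero => exact f0r h.hf y
    | add a c _ _ ha hc => rw [fr_add h.hf, ha, hc, add_zero]
    | smul c a _ ha => rw [fr_smul h.hf, ha, mul_zero]
  by_contra h0
  obtain ⟨-, ⟨z, hz⟩⟩ := h.hf.nondegenerate y h0
  apply hz
  apply key
  rw [h.top_span]
  trivial

/-- The expansion in the orthonormal basis. -/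
lemma expand (x : Fin n → F) : x = ∑ i, f x (b i) • b i := by
  have : x - ∑ i, f x (b i) • b i = 0 := by
    apply h.eq_zero_of_b
    intro j
    rw [fsl h.hf, h.f_sum_b, sub_self]
  exact sub_eq_zero.1 this

lemma f_expand (x y : Fin n → F) : f x y = ∑ i, f x (b i) * σ (f y (b i)) := by
  conv_lhs => rw [h.expand y]
  rw [fr_sum h.hf]
  refine Finset.sum_congr rfl fun i _ => ?_
  ring

lemma rat_b (i : Fin n) : Rat f F₀ b (b i) := by
  intro j
  rw [h.hb]
  split_ifs
  · exact F₀.one_mem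
  · exact F₀.zero_mem

lemma rat_add {x y : Fin n → F} (hx : Rat f F₀ b x) (hy : Rat f F₀ b y) : Rat f F₀ b (x + y) := by
  intro j
  rw [h.hf.add_left]
  exact add_mem (hx j) (hy j)

lemma rat_sub {x y : Fin n → F} (hx : Rat f F₀ b x) (hy : Rat f F₀ b y) : Rat f F₀ b (x - y) := by
  intro j
  rw [fsl h.hf]
  exact sub_mem (hx j) (hy j)

lemma rat_neg {x : Fin n → F} (hx : Rat f F₀ b x) : Rat f F₀ b (-x) := by
  intro j
  rw [fnl h.hf]
  exact neg_mem (hx j)

lemma rat_smul {x : Fin n → F} {c : F} (hc : c ∈ F₀) (hx : Rat f F₀ b x) : Rat f F₀ b (c • x) := by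
  intro j
  rw [h.hf.smul_left]
  exact mul_mem hc (hx j)

lemma rat_zero : Rat f F₀ b 0 := by
  intro j
  rw [f0l h.hf]
  exact F₀.zero_mem

lemma rat_sum {ι : Type*} (s : Finset ι) {c : ι → F} {v : ι → Fin n → F} (hc : ∀ i, c i ∈ F₀) (hv : ∀ i, Rat f F₀ b (v i)) :
    Rat f F₀ b (∑ i ∈ s, c i • v i) := by
  classical
  induction s using Finset.induction_on with
  | empty => simpa using h.rat_zero
  | insert a s ha ih =>
    rw [Finset.sum_insert ha]
    exact h.rat_add (h.rat_smul (hc a) (hv a)) ih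

lemma rat_vec {c : Fin n → F} (hc : ∀ i, c i ∈ F₀) : Rat f F₀ b (∑ i, c i • b i) := h.rat_sum _ hc h.rat_b

/-- The form takes rational values on rational vectors. -/
lemma rat_f {x y : Fin n → F} (hx : Rat f F₀ b x) (hy : Rat f F₀ b y) : f x y ∈ F₀ := by
  rw [h.f_expand]
  exact sum_mem fun i _ => mul_mem (hx i) (h.fd.mem _ (hy i))

lemma sfix (x y : Fin n → F) : σ (f x y) = f y x := (h.hf.herm y x).symm

lemma exists_ne_b {x : Fin n → F} (hx : x ≠ 0) : ∃ i, f x (b i) ≠ 0 := by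
  by_contra hcon
  push Not at hcon
  exact hx (h.eq_zero_of_b hcon)

/-- A nonzero rational vector orthogonal to given rational vectors. -/
theorem rat_perp {ι : Type} [Fintype ι] [DecidableEq ι] (hk : Fintype.card ι < n) (x : ι → Fin n → F) (hx : ∀ i, Rat f F₀ b (x i)) :
    ∃ y, Rat f F₀ b y ∧ y ≠ 0 ∧ ∀ i, f (x i) y = 0 := by
  classical
  let A : Matrix ι (Fin n) F₀ := fun i j => ⟨σ (f (x i) (b j)), h.fd.mem _ (hx i j)⟩
  have hker : LinearMap.ker A.mulVecLin ≠ ⊥ := by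
    apply LinearMap.ker_ne_bot_of_finrank_lt
    simp only [Module.finrank_fintype_fun_eq_card, Fintype.card_fin]
    omega
  obtain ⟨c, hc, hc0⟩ := Submodule.exists_mem_ne_zero_of_ne_bot hker
  have hh := LinearMap.mem_ker.1 hc
  have hmem : ∀ i, (c i : F) ∈ F₀ := fun i => (c i).2
  refine ⟨∑ j, (c j : F) • b j, h.rat_vec hmem, ?_, ?_⟩
  · intro h0
    apply hc0
    ext j
    have h1 := h.f_sum_b (fun i => (c i : F)) j
    rw [h0, f0l h.hf] at h1
    simpa using h1.symm
  · intro i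
    rw [fr_sum h.hf]
    have h2 := congrArg Subtype.val (congrFun hh i)
    simp only [Matrix.mulVecLin_apply, Matrix.mulVec, dotProduct, Pi.zero_apply] at h2
    rw [AddSubmonoidClass.coe_finsetSum] at h2
    have h3 := congrArg σ h2
    rw [map_sum] at h3
    simp only [MulMemClass.coe_mul, map_mul, A, h.fd.inv] at h3
    have h4 : σ ((0 : F₀) : F) = 0 := by simp
    rw [h4] at h3
    rw [← h3]
    refine Finset.sum_congr rfl fun j _ => ?_
    simp only [h.fd.inv, mul_comm]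

/-- A dual rational vector. -/
theorem rat_dual {x x' : Fin n → F} (hx : Rat f F₀ b x) (hx' : Rat f F₀ b x') (hind : ∀ c ∈ F₀, x ≠ c • x') :
    ∃ y, Rat f F₀ b y ∧ f x y = 1 ∧ f x' y = 0 := by
  classical
  let u : Fin n → F₀ := fun i => ⟨f x (b i), hx i⟩
  let u₀ : Fin n → F₀ := fun i => ⟨f x' (b i), hx' i⟩
  have hu : u ∉ Submodule.span F₀ {u₀} := by
    intro hm
    obtain ⟨c, hc⟩ := Submodule.mem_span_singleton.1 hm
    apply hind c c.2
    rw [h.expand x, h.expand x', Finset.smul_sum]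
    refine Finset.sum_congr rfl fun i _ => ?_
    have := congrArg Subtype.val (congrFun hc i)
    simp only [Pi.smul_apply, smul_eq_mul, MulMemClass.coe_mul, u, u₀] at this
    rw [← this, smul_smul]
  obtain ⟨θ, h1, h2⟩ := Cfsg.Agent.H27.RS.exists_fun hu
  refine ⟨∑ i, σ (θ i : F) • b i, h.rat_vec fun i => h.fd.mem _ (θ i).2, ?_, ?_⟩
  · rw [fr_sum h.hf]
    have := congrArg Subtype.val h1
    rw [AddSubmonoidClass.coe_finsetSum] at this
    simp only [MulMemClass.coe_mul, u, OneMemClass.coe_one] at this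
    simp only [h.fd.inv]
    exact this
  · rw [fr_sum h.hf]
    have := congrArg Subtype.val h2
    rw [AddSubmonoidClass.coe_finsetSum] at this
    simp only [MulMemClass.coe_mul, u₀, ZeroMemClass.coe_zero] at this
    simp only [h.fd.inv]
    exact this

lemma rat_one {x : Fin n → F} (hx : Rat f F₀ b x) (hx0 : x ≠ 0) : ∃ y, Rat f F₀ b y ∧ f x y = 1 := by
  obtain ⟨y, hy, h1, -⟩ := h.rat_dual hx h.rat_zero (x' := 0) (fun c _ => by
    rw [smul_zero]
    exact hx0)
  exact ⟨y, hy, h1⟩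

lemma sfix_self (x : Fin n → F) : σ (f x x) = f x x := h.sfix x x

/-- Correction by the trace. -/
theorem singularize {x y : Fin n → F} (hx : Rat f F₀ b x) (hy : Rat f F₀ b y) (hxx : f x x = 0) (hxy : f x y = 1) :
    ∃ y', Rat f F₀ b y' ∧ f y' y' = 0 ∧ f x y' = 1 ∧ ∀ z, f z x = 0 → f z y' = f z y := by
  obtain ⟨t, ht, htr⟩ := h.fd.trc (c := - f y y) (neg_mem (h.rat_f hy hy)) (by rw [map_neg, h.sfix_self])
  have hyx : f y x = 1 := by rw [← h.sfix x y, hxy, map_one]
  refine ⟨y + t • x, h.rat_add hy (h.rat_smul ht hx), ?_, ?_, fun z hz => ?_⟩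
  · simp only [fr_add h.hf, fr_smul h.hf, h.hf.add_left, h.hf.smul_left, hxx, hxy, hyx]
    linear_combination htr
  · rw [fr_add h.hf, fr_smul h.hf, hxx, hxy]
    ring
  · rw [fr_add h.hf, fr_smul h.hf, hz]
    ring

theorem exists_partner {x : Fin n → F} (hx : Rat f F₀ b x) (hxx : f x x = 0) (hx0 : x ≠ 0) :
    ∃ y, Rat f F₀ b y ∧ f y y = 0 ∧ f x y = 1 := by
  obtain ⟨y, hy, hxy⟩ := h.rat_one hx hx0
  obtain ⟨y', h1, h2, h3, -⟩ := h.singularize hx hy hxx hxy
  exact ⟨y', h1, h2, h3⟩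

/-- A nonzero singular rational vector orthogonal to given rational vectors. -/
theorem exists_sing_perp {ι : Type} [Fintype ι] [DecidableEq ι] (hk : Fintype.card ι + 2 ≤ n) (x : ι → Fin n → F) (hx : ∀ i, Rat f F₀ b (x i)) :
    ∃ y, Rat f F₀ b y ∧ y ≠ 0 ∧ f y y = 0 ∧ ∀ i, f (x i) y = 0 := by
  classical
  obtain ⟨v₁, hv₁, hv₁0, hv₁p⟩ := h.rat_perp (by omega) x hx
  by_cases h1 : f v₁ v₁ = 0
  · exact ⟨v₁, hv₁, hv₁0, h1, hv₁p⟩
  let x' : Option ι → Fin n → F := fun o => o.elim v₁ x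
  obtain ⟨v₂, hv₂, hv₂0, hv₂p⟩ := h.rat_perp (ι := Option ι) (by simp; omega) x' (by
    rintro (_ | i)
    · exact hv₁
    · exact hx i)
  have h12 : f v₁ v₂ = 0 := hv₂p none
  have h21 : f v₂ v₁ = 0 := anti h.hf h12
  have hip : ∀ i, f (x i) v₂ = 0 := fun i => hv₂p (some i)
  by_cases h2 : f v₂ v₂ = 0
  · exact ⟨v₂, hv₂, hv₂0, h2, hip⟩
  obtain ⟨t, ht, hN⟩ := h.fd.nrm (c := - f v₁ v₁ / f v₂ v₂) (div_mem (neg_mem (h.rat_f hv₁ hv₁)) (h.rat_f hv₂ hv₂)) (by
    rw [map_div₀, map_neg, h.sfix_self, h.sfix_self])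
  refine ⟨v₁ + t • v₂, h.rat_add hv₁ (h.rat_smul ht hv₂), fun h0 => ?_, ?_, fun i => ?_⟩
  · apply h1
    have e : v₁ = (-t) • v₂ := by
      rw [neg_smul]
      exact eq_neg_of_add_eq_zero_left h0
    have h5 : f v₁ v₁ = f ((-t) • v₂) v₁ := by rw [← e]
    rw [h5, h.hf.smul_left, h21, mul_zero]
  · simp only [fr_add h.hf, fr_smul h.hf, h.hf.add_left, h.hf.smul_left, h12, h21]
    have e : t * σ t * f v₂ v₂ = - f v₁ v₁ := by
      rw [hN]
      field_simp
    linear_combination e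
  · rw [fr_add h.hf, fr_smul h.hf, hv₁p, hip]
    ring

/-- Two singular points have a common non-orthogonal singular point. -/
theorem connect {x y : Fin n → F} (hx : Rat f F₀ b x) (hy : Rat f F₀ b y) (hxx : f x x = 0) (hyy : f y y = 0) (hx0 : x ≠ 0) (hy0 : y ≠ 0) :
    ∃ z, Rat f F₀ b z ∧ f z z = 0 ∧ f x z ≠ 0 ∧ f y z ≠ 0 := by
  obtain ⟨a, ha, haa, hxa⟩ := h.exists_partner hx hxx hx0
  obtain ⟨c, hc, hcc, hyc⟩ := h.exists_partner hy hyy hy0
  by_cases h1 : f y a = 0
  · by_cases h2 : f x c = 0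
    · -- a combination
      obtain ⟨ω, hω, hω0, hωs⟩ := h.fd.om
      by_cases h3 : f a c = 0
      · have h4 : f c a = 0 := anti h.hf h3
        refine ⟨a + c, h.rat_add ha hc, ?_, ?_, ?_⟩
        · simp only [fr_add h.hf, h.hf.add_left, haa, hcc, h3, h4]
          ring
        · rw [fr_add h.hf, hxa, h2]
          simp
        · rw [fr_add h.hf, hyc, h1]
          simp
      · obtain ⟨d, hd⟩ : ∃ d, d = σ (ω / f a c) := ⟨_, rfl⟩
        have hσd : σ d = ω / f a c := by rw [hd, h.fd.inv]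
        have hd0 : d ≠ 0 := by
          intro h0
          rw [h0, map_zero] at hσd
          exact div_ne_zero hω0 h3 hσd.symm
        have hdm : d ∈ F₀ := by
          rw [hd]
          exact h.fd.mem _ (div_mem hω (h.rat_f ha hc))
        refine ⟨a + d • c, h.rat_add ha (h.rat_smul hdm hc), ?_, ?_, ?_⟩
        · simp only [fr_add h.hf, fr_smul h.hf, h.hf.add_left, h.hf.smul_left, haa, hcc]
          have e1 : σ d * f a c = ω := by
            rw [hσd]
            field_simp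
          have e2 : d * f c a = σ ω := by
            have := congrArg σ e1
            rw [map_mul, h.fd.inv, h.sfix a c] at this
            exact this
          linear_combination e1 + e2 + hωs
        · rw [fr_add h.hf, fr_smul h.hf, hxa, h2]
          simp
        · rw [fr_add h.hf, fr_smul h.hf, hyc, h1, mul_one, zero_add]
          exact fun h0 => hd0 (by rw [← h.fd.inv d, h0, map_zero])
    · exact ⟨c, hc, hcc, h2, by rw [hyc]; exact one_ne_zero⟩
  · exact ⟨a, ha, haa, by rw [hxa]; exact one_ne_zero, h1⟩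

/-- Basis vectors are combinations of singular vectors. -/
theorem pair_span {i j : Fin n} (hij : i ≠ j) :
    ∃ s s' : Fin n → F, Rat f F₀ b s ∧ Rat f F₀ b s' ∧ f s s = 0 ∧ f s' s' = 0 ∧ f s s' ≠ 0 ∧
      (∃ α ∈ F₀, ∃ β ∈ F₀, b i = α • s + β • s') ∧ (∃ α ∈ F₀, ∃ β ∈ F₀, b j = α • s + β • s') ∧
      (∀ k, k ≠ i → k ≠ j → f (b k) s = 0 ∧ f (b k) s' = 0) ∧ (∃ c ∈ F₀, ∃ c' ∈ F₀, s = b i + c • b j ∧ s' = b i + c' • b j) := by
  obtain ⟨c, hc, hN⟩ := h.fd.nrm (c := -1) (neg_mem F₀.one_mem) (by simp)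
  obtain ⟨η, hη, hNη, hη1⟩ := h.fd.eta
  have hc0 : c ≠ 0 := by
    rintro rfl
    have : (0 : F) * σ 0 = -1 := hN
    simp at this
  have hσc : c * σ c = -1 := hN
  have hη0 : η ≠ 0 := by
    rintro rfl
    simp at hNη
  have hd : η - 1 ≠ 0 := sub_ne_zero.2 hη1
  have hd' : σ η - 1 ≠ 0 := by
    intro h0
    apply hd
    have := congrArg σ h0
    rw [map_sub, map_one, h.fd.inv, map_zero] at this
    exact this
  have hii : f (b i) (b i) = 1 := by rw [h.hb, if_pos rfl]
  have hjj : f (b j) (b j) = 1 := by rw [h.hb, if_pos rfl]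
  have hij' : f (b i) (b j) = 0 := by rw [h.hb, if_neg hij]
  have hji' : f (b j) (b i) = 0 := by rw [h.hb, if_neg hij.symm]
  have hηc : η * c ∈ F₀ := mul_mem hη hc
  refine ⟨b i + c • b j, b i + (η * c) • b j, h.rat_add (h.rat_b i) (h.rat_smul hc (h.rat_b j)),
    h.rat_add (h.rat_b i) (h.rat_smul hηc (h.rat_b j)), ?_, ?_, ?_, ⟨η / (η - 1), div_mem hη (sub_mem hη F₀.one_mem), - (1 / (η - 1)), neg_mem (div_mem F₀.one_mem (sub_mem hη F₀.one_mem)), ?_⟩,
    ⟨- (1 / ((η - 1) * c)), neg_mem (div_mem F₀.one_mem (mul_mem (sub_mem hη F₀.one_mem) hc)), 1 / ((η - 1) * c), div_mem F₀.one_mem (mul_mem (sub_mem hη F₀.one_mem) hc), ?_⟩, fun k hk hk' => ?_, ⟨c, hc, η * c, hηc, rfl, rfl⟩⟩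
  · simp only [fr_add h.hf, fr_smul h.hf, h.hf.add_left, h.hf.smul_left, hii, hjj, hij', hji']
    linear_combination hσc
  · simp only [fr_add h.hf, fr_smul h.hf, h.hf.add_left, h.hf.smul_left, hii, hjj, hij', hji', map_mul]
    linear_combination (η * σ η) * hσc - hNη
  · simp only [fr_add h.hf, fr_smul h.hf, h.hf.add_left, h.hf.smul_left, hii, hjj, hij', hji', map_mul]
    intro h0
    apply hd'
    linear_combination (-1 : F) * h0 + (σ η) * hσc
  · ext k
    simp only [Pi.add_apply, Pi.smul_apply, smul_eq_mul]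
    field_simp
    ring
  · ext k
    simp only [Pi.add_apply, Pi.smul_apply, smul_eq_mul]
    field_simp
    ring
  · have h1 : f (b k) (b i) = 0 := by rw [h.hb, if_neg hk]
    have h2 : f (b k) (b j) = 0 := by rw [h.hb, if_neg hk']
    constructor <;> simp [fr_add h.hf, fr_smul h.hf, h1, h2]

end OB

/-- The data for the overgroup. -/
structure MD (σ : F ≃+* F) (f : (Fin n → F) → (Fin n → F) → F) (F₀ : Subfield F) (b : Fin n → Fin n → F) (M : Subgroup (GL (Fin n) F)) : Prop where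
  ob : OB σ f F₀ b
  iso : ∀ g ∈ M, IsoF f g
  rat : ∀ t : GL (Fin n) F, t ∈ specialLinear (Fin n) F → IsoF f t → (∀ x, Rat f F₀ b x → Rat f F₀ b ((t : Matrix (Fin n) (Fin n) F) *ᵥ x)) → t ∈ M

namespace MD

variable {M : Subgroup (GL (Fin n) F)} (h : MD σ f F₀ b M)
include h

/-- Rational transvections. -/
theorem T_rat {x : Fin n → F} (hx : Rat f F₀ b x) (hxx : f x x = 0) {κ : F} (hκ : κ ∈ F₀) (hκs : κ + σ κ = 0) : TT f M x κ := by
  obtain ⟨t, ht, hi, hv⟩ := exists_ut h.ob.hf hxx hκs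
  refine ⟨t, h.rat t ht hi fun y hy => ?_, hv⟩
  rw [hv]
  exact h.ob.rat_add hy (h.ob.rat_smul (mul_mem hκ (h.ob.rat_f hy hx)) hx)

/-- Rational long root elements. -/
theorem R_rat {x y : Fin n → F} (hx : Rat f F₀ b x) (hy : Rat f F₀ b y) (hxx : f x x = 0) (hyy : f y y = 0) (hxy : f x y = 0) {c : F} (hc : c ∈ F₀) :
    ∃ r ∈ M, IsoF f r ∧ ∀ v, (r : Mat) *ᵥ v = v + (c * f v y) • x - (σ c * f v x) • y := by
  obtain ⟨r, hr, hi, hv⟩ := exists_rho h.ob.hf hxy hxx hyy c
  refine ⟨r, h.rat r hr hi fun z hz => ?_, hi, hv⟩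
  rw [hv]
  exact h.ob.rat_sub (h.ob.rat_add hz (h.ob.rat_smul (mul_mem hc (h.ob.rat_f hz hy)) hx))
    (h.ob.rat_smul (mul_mem (h.ob.fd.mem _ hc) (h.ob.rat_f hz hx)) hy)

lemma TT_conj' {y : Fin n → F} {l : F} (ht : TT f M y l) {g : GG} (hg : g ∈ M) : TT f M ((g : Mat) *ᵥ y) l :=
  ht.conj hg (h.iso g hg)

end MD

end Cfsg.Agent.H27.SH
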