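import Mathlib
import Cfsg.Agent.Lib.H27.GeoSH2

/-!
# Subfield subgroups of unitary groups: a non-rational singular point
-/

set_option autoImplicit false
set_option linter.unusedSectionVars false
set_option linter.unusedSimpArgs false
set_option linter.unusedVariables false
set_option linter.style.haveILetI false

namespace Cfsg.Agent.H27.SH

open scoped Matrix MatrixGroups
open Cfsg Cfsg.Geo
open Cfsg.Agent.H28 (HS)
open Cfsg.Agent.H27.UF (fr_add fr_smul f0l f0r fnl fnr fsl fsr anti anti_ne qfix fr_sum)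
open Cfsg.Agent.H27.UP (IsoF TT f_sum_left inv_cancel inv_cancel' exists_ut exists_rho)

variable {n : ℕ} {F : Type*} [Field F] [Fintype F] {σ : F ≃+* F} {f : (Fin n → F) → (Fin n → F) → F} {F₀ : Subfield F} {b : Fin n → Fin n → F}

local notation "GG" => GL (Fin n) F
local notation "Mat" => Matrix (Fin n) (Fin n) F

lemma exists_ne_idx (hn : 2 ≤ n) (k : Fin n) : ∃ j : Fin n, j ≠ k := by
  haveI : Nontrivial (Fin n) := Fin.nontrivial_iff_two_le.2 hn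
  exact exists_ne k

section ratio

variable (h : OB σ f F₀ b) {g : GL (Fin n) F} (hi : IsoF f g) (hall : ∀ a, Rat f F₀ b a → f a a = 0 → RatPt f F₀ b ((g : Matrix (Fin n) (Fin n) F) *ᵥ a))

include h hi hall

/-- The scalars on two non-orthogonal singular points differ by a rational factor. -/
lemma ratio_key {a a' u u' : Fin n → F} {lam lam' : F} (ha : Rat f F₀ b a) (ha' : Rat f F₀ b a') (hs : f a a = 0) (hs' : f a' a' = 0)
    (hw : f a a' ≠ 0) (hu : Rat f F₀ b u) (hu' : Rat f F₀ b u') (e : (g : Mat) *ᵥ a = lam • u) (e' : (g : Mat) *ᵥ a' = lam' • u') :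
    lam ≠ 0 ∧ lam' / lam ∈ F₀ := by
  obtain ⟨w, hwdef⟩ : ∃ w, w = f a a' := ⟨_, rfl⟩
  rw [← hwdef] at hw
  have hwm : w ∈ F₀ := hwdef ▸ h.rat_f ha ha'
  have hG : lam * σ lam' * f u u' = w := by
    have := hi a a'
    rw [e, e', h.hf.smul_left, fr_smul h.hf, ← hwdef] at this
    rw [← this]
    ring
  have hlam : lam ≠ 0 := by
    rintro rfl
    rw [zero_mul, zero_mul] at hG
    exact hw hG.symm
  have hlam' : lam' ≠ 0 := by
    rintro rfl
    rw [map_zero, mul_zero, zero_mul] at hG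
    exact hw hG.symm
  have hσlam : σ lam ≠ 0 := fun h0 => hlam ((map_eq_zero σ).1 h0)
  have hσlam' : σ lam' ≠ 0 := fun h0 => hlam' ((map_eq_zero σ).1 h0)
  obtain ⟨v, hv⟩ : ∃ v, v = f u u' := ⟨_, rfl⟩
  rw [← hv] at hG
  have hv0 : v ≠ 0 := by
    rintro rfl
    rw [mul_zero] at hG
    exact hw hG.symm
  have hvm : v ∈ F₀ := hv ▸ h.rat_f hu hu'
  have huu : f u u = 0 := by
    have := hi a a
    rw [e, h.hf.smul_left, fr_smul h.hf, hs] at this
    have h2 : lam * σ lam * f u u = 0 := by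
      rw [← this]
      ring
    exact (mul_eq_zero.1 h2).resolve_left (mul_ne_zero hlam hσlam)
  have hu'u' : f u' u' = 0 := by
    have := hi a' a'
    rw [e', h.hf.smul_left, fr_smul h.hf, hs'] at this
    have h2 : lam' * σ lam' * f u' u' = 0 := by
      rw [← this]
      ring
    exact (mul_eq_zero.1 h2).resolve_left (mul_ne_zero hlam' hσlam')
  have hu'u : f u' u = σ v := by rw [hv, h.sfix]
  obtain ⟨ω, hω, hω0, hωs⟩ := h.fd.om
  obtain ⟨c, hc⟩ : ∃ c, c = σ (ω / w) := ⟨_, rfl⟩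
  have hcm : c ∈ F₀ := hc ▸ h.fd.mem _ (div_mem hω hwm)
  have hσc : σ c = ω / w := by rw [hc, h.fd.inv]
  have hc0 : c ≠ 0 := by
    intro h0
    rw [h0, map_zero] at hσc
    exact div_ne_zero hω0 hw hσc.symm
  have e1 : σ c * w = ω := by
    rw [hσc]
    field_simp
  have e2 : c * f a' a = σ ω := by
    have := congrArg σ e1
    rw [map_mul, h.fd.inv, hwdef, h.sfix a a'] at this
    exact this
  have hA : f (a + c • a') (a + c • a') = 0 := by
    simp only [fr_add h.hf, fr_smul h.hf, h.hf.add_left, h.hf.smul_left, hs, hs', ← hwdef]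
    linear_combination e1 + e2 + hωs
  obtain ⟨lam'', u'', hu'', eA⟩ := hall _ (h.rat_add ha (h.rat_smul hcm ha')) hA
  have eA' : lam • u + (c * lam') • u' = lam'' • u'' := by
    rw [← eA, Matrix.mulVec_add, Matrix.mulVec_smul, e, e', smul_smul]
  have h1 := congrArg (fun z => f z u') eA'
  have h2 := congrArg (fun z => f z u) eA'
  simp only [h.hf.add_left, h.hf.smul_left, hu'u', ← hv, huu, hu'u] at h1 h2
  rw [mul_zero, add_zero] at h1
  rw [mul_zero, zero_add] at h2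
  obtain ⟨X, hX⟩ : ∃ X, X = f u'' u' := ⟨_, rfl⟩
  obtain ⟨Y, hY⟩ : ∃ Y, Y = f u'' u := ⟨_, rfl⟩
  rw [← hX] at h1
  rw [← hY] at h2
  have hXm : X ∈ F₀ := hX ▸ h.rat_f hu'' hu'
  have hYm : Y ∈ F₀ := hY ▸ h.rat_f hu'' hu
  have hX0 : X ≠ 0 := by
    rintro rfl
    rw [mul_zero] at h1
    exact mul_ne_zero hlam hv0 h1
  have hσv : σ v ≠ 0 := fun h0 => hv0 ((map_eq_zero σ).1 h0)
  refine ⟨hlam, ?_⟩
  have e3 : lam' / lam = (Y * v) / (X * (c * σ v)) := by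
    rw [div_eq_div_iff hlam (mul_ne_zero hX0 (mul_ne_zero hc0 hσv))]
    linear_combination X * h2 - Y * h1
  rw [e3]
  exact div_mem (mul_mem hYm hvm) (mul_mem hXm (mul_mem hcm (h.fd.mem _ hvm)))

lemma ratio_all {a a' u u' : Fin n → F} {lam lam' : F} (ha : Rat f F₀ b a) (ha' : Rat f F₀ b a') (hs : f a a = 0) (hs' : f a' a' = 0)
    (ha0 : a ≠ 0) (ha'0 : a' ≠ 0) (hu : Rat f F₀ b u) (hu' : Rat f F₀ b u') (e : (g : Mat) *ᵥ a = lam • u) (e' : (g : Mat) *ᵥ a' = lam' • u') :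
    lam ≠ 0 ∧ lam' / lam ∈ F₀ := by
  obtain ⟨z, hz, hzz, h1, h2⟩ := h.connect ha ha' hs hs' ha0 ha'0
  obtain ⟨lz, uz, huz, ez⟩ := hall z hz hzz
  obtain ⟨h3, h4⟩ := ratio_key h hi hall ha hz hs hzz h1 hu huz e ez
  obtain ⟨h5, h6⟩ := ratio_key h hi hall hz ha' hzz hs' (by
    rw [← h.sfix]
    exact fun h0 => h2 ((map_eq_zero σ).1 h0)) huz hu' ez e'
  refine ⟨h3, ?_⟩
  have e3 : lam' / lam = (lam' / lz) * (lz / lam) := by
    field_simp
  rw [e3]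
  exact mul_mem h6 h4

end ratio

variable {M : Subgroup (GL (Fin n) F)}

/-- An element outside the subfield group moves some singular rational point to a non-rational point. -/
theorem exists_nonrat (h : MD σ f F₀ b M) (hn : 2 ≤ n) {g : GG} (hg : g ∈ M)
    (hgn : ¬ ∃ μ : F, μ ≠ 0 ∧ ∀ x, Rat f F₀ b x → ∃ y, Rat f F₀ b y ∧ (g : Mat) *ᵥ x = μ • y) :
    ∃ a, Rat f F₀ b a ∧ f a a = 0 ∧ ¬ RatPt f F₀ b ((g : Mat) *ᵥ a) := by
  classical
  by_contra hcon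
  push Not at hcon
  have ob := h.ob
  have hi := h.iso g hg
  apply hgn
  obtain ⟨j₀, hj₀⟩ := exists_ne_idx hn (⟨0, by omega⟩ : Fin n)
  obtain ⟨s, s', hs, hs', hss, hs's', hss', -, -, -⟩ := ob.pair_span hj₀
  have hs0 : s ≠ 0 := by
    rintro rfl
    exact hss' (f0l ob.hf _)
  obtain ⟨lam₀, u₀, hu₀, e₀⟩ := hcon s hs hss
  have hlam₀ : lam₀ ≠ 0 := by
    rintro rfl
    rw [zero_smul] at e₀
    apply hs0
    have := inv_cancel' g s
    rw [e₀, Matrix.mulVec_zero] at this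
    exact this.symm
  have hsing : ∀ a, Rat f F₀ b a → f a a = 0 → ∃ y, Rat f F₀ b y ∧ (g : Mat) *ᵥ a = lam₀ • y := by
    intro a ha haa
    by_cases ha0 : a = 0
    · refine ⟨0, ob.rat_zero, ?_⟩
      rw [ha0, Matrix.mulVec_zero, smul_zero]
    obtain ⟨lam, u, hu, e⟩ := hcon a ha haa
    obtain ⟨-, h2⟩ := ratio_all ob hi hcon hs ha hss haa hs0 ha0 hu₀ hu e₀ e
    refine ⟨(lam / lam₀) • u, ob.rat_smul h2 hu, ?_⟩
    rw [e, smul_smul]
    congr 1
    field_simp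
  have hbase : ∀ i, ∃ y, Rat f F₀ b y ∧ (g : Mat) *ᵥ b i = lam₀ • y := by
    intro i
    obtain ⟨j, hj⟩ := exists_ne_idx hn i
    obtain ⟨p, p', hp, hp', hpp, hp'p', -, ⟨α, hα, β, hβ, e⟩, -, -⟩ := ob.pair_span hj.symm
    obtain ⟨y, hy, ey⟩ := hsing p hp hpp
    obtain ⟨y', hy', ey'⟩ := hsing p' hp' hp'p'
    refine ⟨α • y + β • y', ob.rat_add (ob.rat_smul hα hy) (ob.rat_smul hβ hy'), ?_⟩
    rw [e, Matrix.mulVec_add, Matrix.mulVec_smul, Matrix.mulVec_smul, ey, ey']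
    ext k
    simp only [Pi.add_apply, Pi.smul_apply, smul_eq_mul]
    ring
  choose y hy ey using hbase
  refine ⟨lam₀, hlam₀, fun x hx => ⟨∑ i, f x (b i) • y i, ob.rat_sum _ hx hy, ?_⟩⟩
  conv_lhs => rw [ob.expand x]
  rw [Matrix.mulVec_sum, Finset.smul_sum]
  refine Finset.sum_congr rfl fun i _ => ?_
  rw [Matrix.mulVec_smul, ey, smul_comm]

/-- Values on a non-rational point. -/
theorem exists_ind (h : OB σ f F₀ b) (hn : 2 ≤ n) {x : Fin n → F} (hx : ¬ RatPt f F₀ b x) :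
    ∃ a a', Rat f F₀ b a ∧ f a a = 0 ∧ Rat f F₀ b a' ∧ f a' a' = 0 ∧ f x a ≠ 0 ∧ f x a' / f x a ∉ F₀ := by
  classical
  by_contra hcon
  push Not at hcon
  have hx0 : x ≠ 0 := by
    rintro rfl
    exact hx ⟨0, 0, h.rat_zero, by simp⟩
  obtain ⟨i, hi⟩ := h.exists_ne_b hx0
  have hLin : ∀ (p q : Fin n → F) (α β : F), f x (α • p + β • q) = σ α * f x p + σ β * f x q := by
    intro p q α β
    rw [fr_add h.hf, fr_smul h.hf, fr_smul h.hf]
  obtain ⟨a₀, ha₀, haa₀, hL₀⟩ : ∃ a₀, Rat f F₀ b a₀ ∧ f a₀ a₀ = 0 ∧ f x a₀ ≠ 0 := by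
    obtain ⟨j, hj⟩ := exists_ne_idx hn i
    obtain ⟨p, p', hp, hp', hpp, hp'p', -, ⟨α, hα, β, hβ, e⟩, -, -⟩ := h.pair_span hj.symm
    by_cases h1 : f x p = 0
    · refine ⟨p', hp', hp'p', fun h2 => hi ?_⟩
      rw [e, hLin, h1, h2]
      ring
    · exact ⟨p, hp, hpp, h1⟩
  have hb : ∀ k, f x (b k) / f x a₀ ∈ F₀ := by
    intro k
    obtain ⟨j, hj⟩ := exists_ne_idx hn k
    obtain ⟨p, p', hp, hp', hpp, hp'p', -, ⟨α, hα, β, hβ, e⟩, -, -⟩ := h.pair_span hj.symm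
    have h1 := hcon a₀ p ha₀ haa₀ hp hpp hL₀
    have h2 := hcon a₀ p' ha₀ haa₀ hp' hp'p' hL₀
    rw [e, hLin, add_div, mul_div_assoc, mul_div_assoc]
    exact add_mem (mul_mem (h.fd.mem _ hα) h1) (mul_mem (h.fd.mem _ hβ) h2)
  apply hx
  refine ⟨f x a₀, ∑ k, (f x (b k) / f x a₀) • b k, h.rat_vec hb, ?_⟩
  conv_lhs => rw [h.expand x]
  rw [Finset.smul_sum]
  refine Finset.sum_congr rfl fun k _ => ?_
  rw [smul_smul]
  congr 1
  field_simp

/-- A totally singular rational pair with independent values. -/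
theorem exists_ts (h : OB σ f F₀ b) (hn : 4 ≤ n) {x : Fin n → F} (hx : ¬ RatPt f F₀ b x) :
    ∃ u₁ u₂, Rat f F₀ b u₁ ∧ Rat f F₀ b u₂ ∧ f u₁ u₁ = 0 ∧ f u₂ u₂ = 0 ∧ f u₁ u₂ = 0 ∧ f x u₁ ≠ 0 ∧ f x u₂ / f x u₁ ∉ F₀ := by
  classical
  obtain ⟨a, a', ha, haa, ha', ha'a', hA, hind⟩ := exists_ind h (by omega) hx
  by_cases hg : f a a' = 0
  · exact ⟨a, a', ha, ha', haa, ha'a', hg, hA, hind⟩
  by_contra hcon
  push Not at hcon
  obtain ⟨w, hw⟩ : ∃ w, w = f a a' := ⟨_, rfl⟩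
  rw [← hw] at hg
  have hwm : w ∈ F₀ := hw ▸ h.rat_f ha ha'
  have hw' : f a' a = σ w := by rw [hw, h.sfix]
  have hσw : σ w ≠ 0 := fun h0 => hg ((map_eq_zero σ).1 h0)
  have hB : f x a' ≠ 0 := by
    intro h0
    apply hind
    rw [h0, zero_div]
    exact F₀.zero_mem
  have key : ∀ c, Rat f F₀ b c → f c c = 0 → f a c = 0 → f a' c = 0 → f x c = 0 := by
    intro c hc hcc h1 h2
    by_contra hL
    have h3 := hcon a c ha hc haa hcc h1 hA
    have h4 := hcon a' c ha' hc ha'a' hcc h2 hB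
    apply hind
    have e : f x a' / f x a = (f x c / f x a) / (f x c / f x a') := by
      field_simp
    rw [e]
    exact div_mem h3 h4
  obtain ⟨c, hc, hc0, hcc, hcp⟩ := h.exists_sing_perp (ι := Fin 2) (by simp; omega) ![a, a'] (by
    intro i
    fin_cases i
    · exact ha
    · exact ha')
  have hac : f a c = 0 := hcp 0
  have ha'c : f a' c = 0 := hcp 1
  have hca : f c a = 0 := anti h.hf hac
  have hca' : f c a' = 0 := anti h.hf ha'c
  obtain ⟨d₁, hd₁, hcd₁⟩ := h.rat_one hc hc0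
  obtain ⟨β, hβ⟩ : ∃ β, β = σ (f a d₁ / w) := ⟨_, rfl⟩
  obtain ⟨α, hα⟩ : ∃ α, α = σ (f a' d₁ / σ w) := ⟨_, rfl⟩
  have hβm : β ∈ F₀ := hβ ▸ h.fd.mem _ (div_mem (h.rat_f ha hd₁) hwm)
  have hαm : α ∈ F₀ := hα ▸ h.fd.mem _ (div_mem (h.rat_f ha' hd₁) (h.fd.mem _ hwm))
  have hσβ : σ β = f a d₁ / w := by rw [hβ, h.fd.inv]
  have hσα : σ α = f a' d₁ / σ w := by rw [hα, h.fd.inv]
  obtain ⟨d₀, hd₀⟩ : ∃ d₀, d₀ = d₁ - α • a - β • a' := ⟨_, rfl⟩
  have hd₀r : Rat f F₀ b d₀ := by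
    rw [hd₀]
    exact h.rat_sub (h.rat_sub hd₁ (h.rat_smul hαm ha)) (h.rat_smul hβm ha')
  have h1 : f a d₀ = 0 := by
    rw [hd₀, fsr h.hf, fsr h.hf, fr_smul h.hf, fr_smul h.hf, haa, ← hw, hσβ]
    field_simp
    ring
  have h2 : f a' d₀ = 0 := by
    rw [hd₀, fsr h.hf, fsr h.hf, fr_smul h.hf, fr_smul h.hf, ha'a', hw', hσα]
    field_simp
    ring
  have h3 : f c d₀ = 1 := by
    rw [hd₀, fsr h.hf, fsr h.hf, fr_smul h.hf, fr_smul h.hf, hca, hca', hcd₁]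
    ring
  obtain ⟨d, hd, hdd, hcd, hzd⟩ := h.singularize hc hd₀r hcc h3
  have had : f a d = 0 := by rw [hzd a hac, h1]
  have ha'd : f a' d = 0 := by rw [hzd a' ha'c, h2]
  have hLc := key c hc hcc hac ha'c
  have hLd := key d hd hdd had ha'd
  have hda' : f d a' = 0 := anti h.hf ha'd
  have hda : f d a = 0 := anti h.hf had
  have hmain := hcon (a + c) (a' - σ w • d) (h.rat_add ha hc) (h.rat_sub ha' (h.rat_smul (h.fd.mem _ hwm) hd)) (by
    simp only [fr_add h.hf, h.hf.add_left, haa, hcc, hac, hca]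
    ring) (by
    simp only [fsr h.hf, fsl h.hf, fr_smul h.hf, h.hf.smul_left, ha'a', ha'd, hda', hdd]
    ring) (by
    simp only [fsr h.hf, h.hf.add_left, fr_smul h.hf, ← hw, had, hcd, hca', h.fd.inv]
    ring) (by
    rw [fr_add h.hf, hLc, add_zero]
    exact hA)
  apply hind
  rw [fr_add h.hf, hLc, add_zero, fsr h.hf, fr_smul h.hf, hLd, mul_zero, sub_zero] at hmain
  exact hmain

/-- A totally singular rational pair whose ratio has norm outside the subfield. -/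
theorem exists_ts2 (h : OB σ f F₀ b) (hn : 4 ≤ n) {x : Fin n → F} (hx : ¬ RatPt f F₀ b x) :
    ∃ u₁ u₂, Rat f F₀ b u₁ ∧ Rat f F₀ b u₂ ∧ f u₁ u₁ = 0 ∧ f u₂ u₂ = 0 ∧ f u₁ u₂ = 0 ∧ f x u₁ ≠ 0 ∧
      (f x u₂ / f x u₁) * σ (f x u₂ / f x u₁) ∉ F₀ := by
  obtain ⟨u₁, u₂, h1, h2, h3, h4, h5, h6, h7⟩ := exists_ts h hn hx
  obtain ⟨θ, hθ⟩ : ∃ θ, θ = f x u₂ / f x u₁ := ⟨_, rfl⟩
  rw [← hθ] at h7
  by_cases hN : θ * σ θ ∈ F₀
  · have hex : ∃ c ∈ F₀, (θ + c) * σ (θ + c) ∉ F₀ := by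
      by_contra hcon
      push Not at hcon
      apply h7
      have h8 : σ θ ∈ F₀ := by
        apply h.fd.mem_of_tr
        intro a ha
        have h9 := hcon a ha
        have e : a * σ θ + σ (a * σ θ) = (θ + a) * σ (θ + a) - θ * σ θ - a * σ a := by
          rw [map_mul, map_add, h.fd.inv]
          ring
        rw [e]
        exact sub_mem (sub_mem h9 hN) (mul_mem ha (h.fd.mem _ ha))
      rw [← h.fd.inv θ]
      exact h.fd.mem _ h8
    obtain ⟨c, hc, hcN⟩ := hex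
    refine ⟨u₁, u₂ + σ c • u₁, h1, h.rat_add h2 (h.rat_smul (h.fd.mem _ hc) h1), h3, ?_, ?_, h6, ?_⟩
    · have h51 : f u₂ u₁ = 0 := anti h.hf h5
      simp only [fr_add h.hf, fr_smul h.hf, h.hf.add_left, h.hf.smul_left, h3, h4, h5, h51]
      ring
    · rw [fr_add h.hf, fr_smul h.hf, h3, h5]
      ring
    · have e : f x (u₂ + σ c • u₁) / f x u₁ = θ + c := by
        rw [fr_add h.hf, fr_smul h.hf, h.fd.inv, hθ]
        field_simp
      rw [e]
      exact hcN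
  · exact ⟨u₁, u₂, h1, h2, h3, h4, h5, h6, by rwa [← hθ]⟩

end Cfsg.Agent.H27.SH
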