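import Mathlib
import Cfsg.Agent.Lib.H27.GeoSH3

/-!
# Subfield subgroups of unitary groups: a plane subgroup and a new singular vector
-/

set_option autoImplicit false
set_option linter.unusedSectionVars false
set_option linter.unusedSimpArgs false
set_option linter.unusedVariables false
set_option linter.style.haveILetI false

namespace Cfsg.Agent.H27.SH

open scoped Matrix MatrixGroups
open Cfsg Cfsg.Geo
open Cfsg.Agent.H14 (e00 e01 e10 e11)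
open Cfsg.Agent.Lead.DicksonSL (xE yE e00_xE e01_xE e10_xE e11_xE e00_yE e01_yE e10_yE e11_yE)
open Cfsg.Agent.H28 (HS)
open Cfsg.Agent.H27.UF (fr_add fr_smul f0l f0r fnl fnr fsl fsr anti anti_ne qfix fr_sum)
open Cfsg.Agent.H27.UP (IsoF TT f_sum_left inv_cancel inv_cancel' exists_ut exists_rho)
open Cfsg.Agent.H27.TC (planeR)

variable {n : ℕ} {F : Type*} [Field F] [Fintype F] {σ : F ≃+* F} {f : (Fin n → F) → (Fin n → F) → F} {F₀ : Subfield F} {b : Fin n → Fin n → F}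

local notation "GG" => GL (Fin n) F
local notation "Mat" => Matrix (Fin n) (Fin n) F

section Dickson

variable {G : Subgroup SL(2, F)}

/-- Four elements in the root group. -/
lemma four_le {a τ : F} (ha : a ≠ 0) (hτ₀ : τ ≠ 0) (hτ₁ : τ ≠ 1) (hτ₂ : 1 + τ ≠ 0) (h1 : xE a ∈ G) (h2 : xE (τ * a) ∈ G) :
    4 ≤ Nat.card {a : F // xE a ∈ G} := by
  classical
  let S : Finset F := {0, a, τ * a, (1 + τ) * a}
  have hS : S.card = 4 := by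
    have h01 : (0 : F) ∉ ({a, τ * a, (1 + τ) * a} : Finset F) := by
      simp only [Finset.mem_insert, Finset.mem_singleton, not_or]
      exact ⟨ha.symm, (mul_ne_zero hτ₀ ha).symm, (mul_ne_zero hτ₂ ha).symm⟩
    have h02 : a ∉ ({τ * a, (1 + τ) * a} : Finset F) := by
      simp only [Finset.mem_insert, Finset.mem_singleton, not_or]
      refine ⟨fun e => hτ₁ ?_, fun e => hτ₀ ?_⟩
      · apply mul_right_cancel₀ ha
        rw [one_mul]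
        exact e.symm
      · apply mul_right_cancel₀ ha
        linear_combination - e
    have h03 : τ * a ∉ ({(1 + τ) * a} : Finset F) := by
      simp only [Finset.mem_singleton]
      intro e
      apply ha
      linear_combination - e
    simp only [S]
    rw [Finset.card_insert_of_notMem h01, Finset.card_insert_of_notMem h02, Finset.card_insert_of_notMem h03, Finset.card_singleton]
  have hSub : S ⊆ Finset.univ.filter (fun a => xE a ∈ G) := by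
    intro y hy
    simp only [S, Finset.mem_insert, Finset.mem_singleton] at hy
    simp only [Finset.mem_filter, Finset.mem_univ, true_and]
    rcases hy with rfl | rfl | rfl | rfl
    · have : xE (0 : F) = 1 := by
        apply Cfsg.Agent.H14.sl_ext <;> simp [e00_xE, e01_xE, e10_xE, e11_xE, Cfsg.Agent.H14.e00_one, Cfsg.Agent.H14.e01_one, Cfsg.Agent.H14.e10_one, Cfsg.Agent.H14.e11_one]
      rw [this]
      exact G.one_mem
    · exact h1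
    · exact h2
    · have := G.mul_mem h1 h2
      rw [Cfsg.Agent.Lead.DicksonSL.xE_add] at this
      have e : (1 + τ) * a = a + τ * a := by ring
      rw [e]
      exact this
  have h3 := Finset.card_le_card hSub
  rw [hS] at h3
  rw [Nat.card_eq_fintype_card, Fintype.card_subtype]
  exact h3

/-- The whole fixed field is obtained from a new coefficient. -/
theorem x_all (fd : FD F₀ σ) {ω β τ c : F} (hω0 : ω ≠ 0) (hωm : ω ∈ F₀) (hωs : ω + σ ω = 0) (hβ : β ≠ 0) (hτσ : σ τ = τ) (hτ : τ ∉ F₀)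
    (h1 : ∀ κ ∈ F₀, κ + σ κ = 0 → xE (κ * β) ∈ G) (h2 : xE (ω * (τ * β)) ∈ G) (hc : c ≠ 0) (hyc : yE c ∈ G) {y : F} (hy : σ y = y) :
    xE (y * (ω * β)) ∈ G := by
  have ha₁ : ω * β ≠ 0 := mul_ne_zero hω0 hβ
  have hx₁ : xE (ω * β) ∈ G := h1 ω hωm hωs
  have hτ₀ : τ ≠ 0 := fun h0 => hτ (h0 ▸ F₀.zero_mem)
  have hτ₁ : τ ≠ 1 := fun h0 => hτ (h0 ▸ F₀.one_mem)
  have hτ₂ : 1 + τ ≠ 0 := fun h0 => hτ (by
    have : τ = -1 := by linear_combination h0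
    rw [this]
    exact neg_mem F₀.one_mem)
  have hx₂ : xE (τ * (ω * β)) ∈ G := by
    have e : τ * (ω * β) = ω * (τ * β) := by ring
    rwa [e]
  have h4 := four_le ha₁ hτ₀ hτ₁ hτ₂ hx₁ hx₂
  obtain ⟨E, hE⟩ := Cfsg.Agent.H27.DC.exists_subfield h4 hc hyc ha₁ hx₁
  have hF₁ : ∀ x ∈ F₀, σ x = x → x ∈ E := by
    intro x hx hσx
    rw [hE]
    have h3 := h1 (x * ω) (mul_mem hx hωm) (by
      rw [map_mul, hσx]
      linear_combination x * hωs)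
    have e : x * ω * β = x * (ω * β) := by ring
    rwa [e] at h3
  exact (hE y).1 (fd.mid E hF₁ τ ((hE τ).2 hx₂) hτσ hτ y hy)

/-- Weyl elements. -/
theorem weyl (h4 : 4 ≤ Nat.card {a : F // xE a ∈ G}) {a c : F} (ha : a ≠ 0) (hxa : xE a ∈ G) (hc : c ≠ 0) (hyc : yE c ∈ G) :
    ∃ s ∈ G, e00 s = 0 ∧ e01 s = a ∧ e10 s = - a⁻¹ ∧ e11 s = 0 := by
  have hy := (Cfsg.Agent.H27.DC.inv_F G h4 ha hxa hc hyc).2
  refine ⟨xE a * yE (-a⁻¹) * xE a, G.mul_mem (G.mul_mem hxa ?_) hxa, ?_, ?_, ?_, ?_⟩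
  · rw [← Cfsg.Agent.H27.DC.yE_inv]
    exact G.inv_mem hy
  all_goals
    simp only [Cfsg.Agent.H14.e00_mul, Cfsg.Agent.H14.e01_mul, Cfsg.Agent.H14.e10_mul, Cfsg.Agent.H14.e11_mul, e00_xE, e01_xE, e10_xE, e11_xE, e00_yE, e01_yE, e10_yE, e11_yE]
    field_simp
    try ring

end Dickson

/-- All the monomials of a pair are rational. -/
def Bad (F₀ : Subfield F) (σ : F ≃+* F) (p q : F) : Prop := p * σ p ∈ F₀ ∧ p * σ q ∈ F₀ ∧ q * σ q ∈ F₀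

lemma Bad.det_N (fd : FD F₀ σ) {p q p' q' : F} (h : Bad F₀ σ p q) (h' : Bad F₀ σ p' q') :
    (p * q' - q * p') * σ (p * q' - q * p') ∈ F₀ := by
  have e : (p * q' - q * p') * σ (p * q' - q * p') =
      (p * σ p) * (q' * σ q') - (p * σ q) * σ (p' * σ q') - σ (p * σ q) * (p' * σ q') + (q * σ q) * (p' * σ p') := by
    simp only [map_sub, map_mul, fd.inv]
    ring
  rw [e]
  exact add_mem (sub_mem (sub_mem (mul_mem h.1 h'.2.2) (mul_mem h.2.1 (fd.mem _ h'.2.1))) (mul_mem (fd.mem _ h.2.1) h'.2.1)) (mul_mem h.2.2 h'.1)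

variable {M : Subgroup (GL (Fin n) F)}

/-- Using the analysis of subgroups of `SL₂`. -/
theorem exists_nonbad (h : MD σ f F₀ b M) {x w w' : Fin n → F} (hxx : f x x = 0) (hT : ∀ κ ∈ F₀, κ + σ κ = 0 → TT f M x κ)
    (hw : Rat f F₀ b w) (hw' : Rat f F₀ b w') (hww : f w w = 0) (hw'w' : f w' w' = 0) (hww' : f w w' = 0) (hβ : f x w ≠ 0)
    (hθ : (f x w' / f x w) * σ (f x w' / f x w) ∉ F₀) :
    ∃ γ₁ γ₂ : F, (∀ κ ∈ F₀, κ + σ κ = 0 → TT f M (γ₁ • w + γ₂ • w') κ) ∧ ¬ Bad F₀ σ γ₁ γ₂ := by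
  classical
  have ob := h.ob
  have hf := ob.hf
  have fd := ob.fd
  obtain ⟨β₁, hβ₁⟩ : ∃ c, c = f x w := ⟨_, rfl⟩
  obtain ⟨β₂, hβ₂⟩ : ∃ c, c = f x w' := ⟨_, rfl⟩
  rw [← hβ₁, ← hβ₂] at hθ
  rw [← hβ₁] at hβ
  have hwx : f w x = σ β₁ := by rw [hβ₁, ob.sfix]
  have hw'x : f w' x = σ β₂ := by rw [hβ₂, ob.sfix]
  have hσβ : σ β₁ ≠ 0 := fun h0 => hβ ((map_eq_zero σ).1 h0)
  obtain ⟨θ, hθdef⟩ : ∃ θ, θ = β₂ / β₁ := ⟨_, rfl⟩
  rw [← hθdef] at hθ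
  have hσθ : σ θ = σ β₂ / σ β₁ := by rw [hθdef, map_div₀]
  have hw'w : f w' w = 0 := anti hf hww'
  obtain ⟨r₀, hr₀⟩ : ∃ r₀, r₀ = σ β₂ • w - σ β₁ • w' := ⟨_, rfl⟩
  have hxr : f x r₀ = 0 := by
    rw [hr₀, fsr hf, fr_smul hf, fr_smul hf, fd.inv, fd.inv, ← hβ₁, ← hβ₂]
    ring
  have hrx : f r₀ x = 0 := anti hf hxr
  have hrw : f r₀ w = 0 := by
    rw [hr₀, fsl hf, hf.smul_left, hf.smul_left, hww, hw'w]
    ring
  have hrw' : f r₀ w' = 0 := by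
    rw [hr₀, fsl hf, hf.smul_left, hf.smul_left, hww', hw'w']
    ring
  have hxw' : ∀ c : F, c • w' = (c * σ θ) • w + (-(c * (σ β₁)⁻¹)) • r₀ := by
    intro c
    rw [hr₀, hσθ]
    ext i
    simp only [Pi.add_apply, Pi.smul_apply, Pi.sub_apply, smul_eq_mul]
    field_simp
    ring
  have h1 : ∀ κ ∈ F₀, κ + σ κ = 0 → xE (κ * β₁) ∈ planeR M w x r₀ := by
    intro κ hκ hκs
    obtain ⟨t, ht, hta⟩ := h.T_rat hw hww hκ hκs
    refine ⟨t, ht, fun v => ⟨κ * f v w, 0, 0, ?_⟩, ?_, ⟨0, ?_⟩, ⟨0, ?_⟩⟩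
    · rw [hta]
      simp
    · rw [hta, hrw]
      simp
    · rw [hta, hww, e00_xE, e10_xE]
      simp
    · rw [hta, ← hβ₁, e01_xE, e11_xE]
      simp [add_comm]
  have h2 : ∀ κ ∈ F₀, κ + σ κ = 0 → xE (κ * ((θ * σ θ) * β₁)) ∈ planeR M w x r₀ := by
    intro κ hκ hκs
    obtain ⟨t, ht, hta⟩ := h.T_rat hw' hw'w' hκ hκs
    refine ⟨t, ht, fun v => ⟨κ * f v w' * σ θ, 0, -(κ * f v w' * (σ β₁)⁻¹), ?_⟩, ?_, ⟨0, ?_⟩, ⟨-(κ * β₂ * (σ β₁)⁻¹), ?_⟩⟩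
    · rw [hta, hxw']
      simp only [zero_smul, add_zero, add_assoc]
    · rw [hta, hrw']
      simp
    · rw [hta, hww', e00_xE, e10_xE]
      simp
    · rw [hta, ← hβ₂, hxw', e01_xE, e11_xE]
      have e : κ * β₂ * σ θ = κ * ((θ * σ θ) * β₁) := by
        rw [hθdef]
        field_simp
      rw [e]
      simp only [one_smul, zero_smul, add_zero]
      abel
  have h3 : ∀ κ ∈ F₀, κ + σ κ = 0 → yE (κ * σ β₁) ∈ planeR M w x r₀ := by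
    intro κ hκ hκs
    obtain ⟨t, ht, hta⟩ := hT κ hκ hκs
    refine ⟨t, ht, fun v => ⟨0, κ * f v x, 0, ?_⟩, ?_, ⟨0, ?_⟩, ⟨0, ?_⟩⟩
    · rw [hta]
      simp
    · rw [hta, hrx]
      simp
    · rw [hta, e00_yE, e10_yE, hwx]
      simp
    · rw [hta, hxx, e01_yE, e11_yE]
      simp
  obtain ⟨ω, hωm, hω0, hωs⟩ := fd.om
  obtain ⟨τ, hτ⟩ : ∃ τ, τ = θ * σ θ := ⟨_, rfl⟩
  rw [← hτ] at hθ h2
  have hτσ : σ τ = τ := by
    rw [hτ, map_mul, fd.inv]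
    ring
  have hτ₀ : τ ≠ 0 := fun h0 => hθ (h0 ▸ F₀.zero_mem)
  have hτ₁ : τ ≠ 1 := fun h0 => hθ (h0 ▸ F₀.one_mem)
  have hτ₂ : 1 + τ ≠ 0 := fun h0 => hθ (by
    have : τ = -1 := by linear_combination h0
    rw [this]
    exact neg_mem F₀.one_mem)
  have hb₀ : ω * σ β₁ ≠ 0 := mul_ne_zero hω0 hσβ
  have hyb := h3 ω hωm hωs
  have hxall : ∀ y, σ y = y → xE (y * (ω * β₁)) ∈ planeR M w x r₀ := fun y hy =>
    x_all fd hω0 hωm hωs hβ hτσ hθ h1 (h2 ω hωm hωs) hb₀ hyb hy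
  have h4 : 4 ≤ Nat.card {a : F // xE a ∈ planeR M w x r₀} := by
    apply four_le (mul_ne_zero hω0 hβ) hτ₀ hτ₁ hτ₂ (h1 ω hωm hωs)
    have e : τ * (ω * β₁) = ω * (τ * β₁) := by ring
    rw [e]
    exact h2 ω hωm hωs
  have hlift : ∀ y, σ y = y → y ≠ 0 → ∃ g ∈ M, (g : Mat) *ᵥ r₀ = r₀ ∧ ∃ t : F, (g : Mat) *ᵥ x = (y * (ω * β₁)) • w + t • r₀ := by
    intro y hy hy0
    obtain ⟨s, hs, h00, h01, h10, h11⟩ := weyl h4 (mul_ne_zero hy0 (mul_ne_zero hω0 hβ)) (hxall y hy) hb₀ hyb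
    obtain ⟨g, hg, -, h0, -, ⟨t, ht⟩⟩ := hs
    refine ⟨g, hg, h0, t, ?_⟩
    rw [ht, h01, h11]
    simp
  obtain ⟨ρ, hρσ, hρ⟩ := fd.rho
  have hρ0 : ρ ≠ 0 := by
    rintro rfl
    apply hρ
    rw [zero_mul]
    exact F₀.zero_mem
  obtain ⟨a₁, ha₁⟩ : ∃ a₁, a₁ = ω * β₁ := ⟨_, rfl⟩
  have ha₁0 : a₁ ≠ 0 := ha₁ ▸ mul_ne_zero hω0 hβ
  obtain ⟨g₁, hg₁, hg₁r, t₁, hg₁x⟩ := hlift 1 (map_one σ) one_ne_zero
  obtain ⟨g₂, hg₂, hg₂r, t₂, hg₂x⟩ := hlift ρ hρσ hρ0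
  rw [one_mul, ← ha₁] at hg₁x
  rw [← ha₁] at hg₂x
  have hT₁ : ∀ κ ∈ F₀, κ + σ κ = 0 → TT f M (a₁ • w + t₁ • r₀) κ := by
    intro κ hκ hκs
    rw [← hg₁x]
    exact h.TT_conj' (hT κ hκ hκs) hg₁
  have hT₂ : ∀ κ ∈ F₀, κ + σ κ = 0 → TT f M ((ρ * a₁) • w + t₂ • r₀) κ := by
    intro κ hκ hκs
    rw [← hg₂x]
    exact h.TT_conj' (hT κ hκ hκs) hg₂
  have hginv : ((g₁⁻¹ : GG) : Mat) *ᵥ r₀ = r₀ := by
    have h5 := inv_cancel' g₁ r₀
    rwa [hg₁r] at h5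
  obtain ⟨κ', hκ'⟩ : ∃ κ', κ' = t₂ - ρ * t₁ := ⟨_, rfl⟩
  have hg₃ : ((g₂ * g₁⁻¹ : GG) : Mat) *ᵥ ((ρ * a₁) • w + t₂ • r₀) = (ρ * ρ * a₁) • w + (ρ * t₂ + κ') • r₀ := by
    have e1 : (ρ * a₁) • w + t₂ • r₀ = ρ • (a₁ • w + t₁ • r₀) + κ' • r₀ := by
      rw [hκ']
      ext i
      simp only [Pi.add_apply, Pi.smul_apply, smul_eq_mul]
      ring
    rw [Units.val_mul, ← Matrix.mulVec_mulVec]
    conv_lhs => rw [e1]
    rw [Matrix.mulVec_add, Matrix.mulVec_smul, Matrix.mulVec_smul, ← hg₁x, inv_cancel', hginv, Matrix.mulVec_add, Matrix.mulVec_smul,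
      Matrix.mulVec_smul, hg₂x, hg₂r]
    ext i
    simp only [Pi.add_apply, Pi.smul_apply, smul_eq_mul]
    ring
  have hT₃ : ∀ κ ∈ F₀, κ + σ κ = 0 → TT f M ((ρ * ρ * a₁) • w + (ρ * t₂ + κ') • r₀) κ := by
    intro κ hκ hκs
    rw [← hg₃]
    exact h.TT_conj' (hT₂ κ hκ hκs) (M.mul_mem hg₂ (M.inv_mem hg₁))
  by_contra hcon
  push Not at hcon
  obtain ⟨S, hS⟩ : ∃ S, S = σ β₂ := ⟨_, rfl⟩
  obtain ⟨T, hTd⟩ : ∃ T, T = σ β₁ := ⟨_, rfl⟩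
  have hT0 : T ≠ 0 := hTd ▸ hσβ
  have hcoord : ∀ A B : F, A • w + B • r₀ = (A + B * S) • w + (-(B * T)) • w' := by
    intro A B
    rw [hr₀, hS, hTd]
    ext i
    simp only [Pi.add_apply, Pi.smul_apply, Pi.sub_apply, smul_eq_mul]
    ring
  have hB : ∀ A B : F, (∀ κ ∈ F₀, κ + σ κ = 0 → TT f M (A • w + B • r₀) κ) → Bad F₀ σ (A + B * S) (-(B * T)) := by
    intro A B hAB
    apply hcon
    intro κ hκ hκs
    rw [← hcoord]
    exact hAB κ hκ hκs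
  have hB₁ := hB _ _ hT₁
  have hB₂ := hB _ _ hT₂
  have hB₃ := hB _ _ hT₃
  have hD₁ := hB₁.det_N fd hB₂
  have hD₂ := hB₂.det_N fd hB₃
  have eD₁ : (a₁ + t₁ * S) * (-(t₂ * T)) - (-(t₁ * T)) * (ρ * a₁ + t₂ * S) = - (a₁ * T * κ') := by
    rw [hκ']
    ring
  have eD₂ : (ρ * a₁ + t₂ * S) * (-((ρ * t₂ + κ') * T)) - (-(t₂ * T)) * (ρ * ρ * a₁ + (ρ * t₂ + κ') * S) = ρ * (- (a₁ * T * κ')) := by
    ring
  rw [eD₁] at hD₁
  rw [eD₂] at hD₂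
  by_cases hκ0 : κ' = 0
  · have ht : t₂ = ρ * t₁ := by
      rw [hκ0] at hκ'
      linear_combination - hκ'
    apply hρ
    have hnz : (a₁ + t₁ * S) ≠ 0 ∨ (-(t₁ * T)) ≠ 0 := by
      by_contra h0
      push Not at h0
      obtain ⟨h5, h6⟩ := h0
      have h7 : t₁ = 0 := by
        have : t₁ * T = 0 := by linear_combination - h6
        exact (mul_eq_zero.1 this).resolve_right hT0
      rw [h7, zero_mul, add_zero] at h5
      exact ha₁0 h5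
    rw [ht] at hB₂
    rcases hnz with h5 | h5
    · have h6 : σ (a₁ + t₁ * S) ≠ 0 := fun h0 => h5 ((map_eq_zero σ).1 h0)
      have e : ρ * ρ = ((ρ * a₁ + ρ * t₁ * S) * σ (ρ * a₁ + ρ * t₁ * S)) / ((a₁ + t₁ * S) * σ (a₁ + t₁ * S)) := by
        have e2 : ρ * a₁ + ρ * t₁ * S = ρ * (a₁ + t₁ * S) := by ring
        rw [e2, map_mul, hρσ]
        field_simp
      rw [e]
      exact div_mem hB₂.1 hB₁.1
    · have h6 : σ (-(t₁ * T)) ≠ 0 := fun h0 => h5 ((map_eq_zero σ).1 h0)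
      have h7 : t₁ ≠ 0 := by
        rintro rfl
        apply h5
        ring
      have e : ρ * ρ = ((-(ρ * t₁ * T)) * σ (-(ρ * t₁ * T))) / ((-(t₁ * T)) * σ (-(t₁ * T))) := by
        have e2 : -(ρ * t₁ * T) = ρ * (-(t₁ * T)) := by ring
        rw [e2, map_mul, hρσ]
        field_simp
      rw [e]
      exact div_mem hB₂.2.2 hB₁.2.2
  · apply hρ
    have h5 : - (a₁ * T * κ') ≠ 0 := neg_ne_zero.2 (mul_ne_zero (mul_ne_zero ha₁0 hT0) hκ0)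
    have h6 : σ (- (a₁ * T * κ')) ≠ 0 := fun h0 => h5 ((map_eq_zero σ).1 h0)
    have e : ρ * ρ = ((ρ * (- (a₁ * T * κ'))) * σ (ρ * (- (a₁ * T * κ')))) / ((- (a₁ * T * κ')) * σ (- (a₁ * T * κ'))) := by
      rw [map_mul, hρσ]
      field_simp
    rw [e]
    exact div_mem hD₂ hD₁

end Cfsg.Agent.H27.SH
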