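import Mathlib
import Cfsg.Agent.Lib.H27.GeoSH4

/-!
# Subfield subgroups of unitary groups: transvections with new coefficients
-/

set_option autoImplicit false
set_option linter.unusedSectionVars false
set_option linter.unusedSimpArgs false
set_option linter.unusedVariables false
set_option linter.style.haveILetI false

namespace Cfsg.Agent.H27.SH

open scoped Matrix MatrixGroups
open Cfsg Cfsg.Geo
open Cfsg.Agent.H14 (e00 e01 e10 e11)
open Cfsg.Agent.Lead.DicksonSL (xE yE e00_xE e01_xE e10_xE e11_xE e00_yE e01_yE e10_yE e11_yE)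
open Cfsg.Agent.H28 (HS)
open Cfsg.Agent.H27.UF (fr_add fr_smul f0l f0r fnl fnr fsl fsr anti anti_ne qfix fr_sum)
open Cfsg.Agent.H27.UP (IsoF TT f_sum_left inv_cancel inv_cancel' exists_ut exists_rho f_inv)
open Cfsg.Agent.H27.TC (planeR)
open Cfsg.Agent.H27.SQ (Gm)

variable {n : ℕ} {F : Type*} [Field F] [Fintype F] {σ : F ≃+* F} {f : (Fin n → F) → (Fin n → F) → F} {F₀ : Subfield F} {b : Fin n → Fin n → F}

local notation "GG" => GL (Fin n) F
local notation "Mat" => Matrix (Fin n) (Fin n) F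

lemma sum_id' (G C : Matrix (Fin 3) (Fin 3) F) (A : Fin 3 → F) (U : Fin 3 → Fin n → F) :
    ∑ i, ∑ j, (C i j * (∑ l, G l i * A l)) • (∑ q, G q j • U q) = ∑ p, ∑ q, ((G * C * G.transpose) p q * A p) • U q := by
  ext k
  simp only [Fin.sum_univ_three, Finset.sum_apply, Pi.add_apply, Pi.smul_apply, smul_eq_mul, Matrix.mul_apply, Matrix.transpose_apply]
  ring

/-- The element of a totally singular abelian group with a given coefficient matrix lies in `M`. -/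
def CC (M : Subgroup (GL (Fin n) F)) (f : (Fin n → F) → (Fin n → F) → F) (U : Fin 3 → Fin n → F) (C : Matrix (Fin 3) (Fin 3) F) : Prop :=
  ∃ t ∈ M, ∀ v, ((t : GL (Fin n) F) : Matrix (Fin n) (Fin n) F) *ᵥ v = v + ∑ i, ∑ j, (C i j * f v (U i)) • U j

section CCsec

variable {M : Subgroup (GL (Fin n) F)} {U : Fin 3 → Fin n → F} {C C' : Matrix (Fin 3) (Fin 3) F}

lemma f_sum_U (hf : IsUnitaryForm σ f) (hU : ∀ i j, f (U i) (U j) = 0) (C : Matrix (Fin 3) (Fin 3) F) (v : Fin n → F) (k : Fin 3) :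
    f (∑ i, ∑ j, (C i j * f v (U i)) • U j) (U k) = 0 := by
  simp only [Fin.sum_univ_three, hf.add_left, hf.smul_left, hU, mul_zero, add_zero]

lemma CC.add (hf : IsUnitaryForm σ f) (hU : ∀ i j, f (U i) (U j) = 0) (h : CC M f U C) (h' : CC M f U C') : CC M f U (C + C') := by
  obtain ⟨t, ht, ha⟩ := h
  obtain ⟨t', ht', ha'⟩ := h'
  refine ⟨t * t', M.mul_mem ht ht', fun v => ?_⟩
  rw [Units.val_mul, ← Matrix.mulVec_mulVec, ha', ha]
  have e : ∀ i, f (v + ∑ i, ∑ j, (C' i j * f v (U i)) • U j) (U i) = f v (U i) := by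
    intro i
    rw [hf.add_left, f_sum_U hf hU, add_zero]
  simp only [e, Matrix.add_apply, add_mul, add_smul, Finset.sum_add_distrib]
  abel

lemma CC.neg (hf : IsUnitaryForm σ f) (hU : ∀ i j, f (U i) (U j) = 0) (h : CC M f U C) : CC M f U (-C) := by
  obtain ⟨t, ht, ha⟩ := h
  refine ⟨t⁻¹, M.inv_mem ht, fun v => ?_⟩
  have h1 : ((t : GG) : Mat) *ᵥ (v + ∑ i, ∑ j, ((-C) i j * f v (U i)) • U j) = v := by
    rw [ha]
    have e : ∀ i, f (v + ∑ i, ∑ j, ((-C) i j * f v (U i)) • U j) (U i) = f v (U i) := by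
      intro i
      rw [hf.add_left, f_sum_U hf hU, add_zero]
    simp only [e]
    simp only [Matrix.neg_apply, neg_mul, neg_smul, Finset.sum_neg_distrib]
    abel
  have h2 := inv_cancel' t (v + ∑ i, ∑ j, ((-C) i j * f v (U i)) • U j)
  rw [h1] at h2
  exact h2

lemma CC.sub (hf : IsUnitaryForm σ f) (hU : ∀ i j, f (U i) (U j) = 0) (h : CC M f U C) (h' : CC M f U C') : CC M f U (C - C') := by
  rw [sub_eq_add_neg]
  exact h.add hf hU (h'.neg hf hU)

lemma CC.conj (hf : IsUnitaryForm σ f) (h : CC M f U C) {g : GG} (hg : g ∈ M) (hgs : IsoF f g) {G : Matrix (Fin 3) (Fin 3) F}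
    (hσ : ∀ l k, σ (G l k) = G l k) (hG : ∀ k, (g : Mat) *ᵥ U k = ∑ l, G l k • U l) : CC M f U (G * C * G.transpose) := by
  obtain ⟨t, ht, ha⟩ := h
  refine ⟨g * t * g⁻¹, M.mul_mem (M.mul_mem hg ht) (M.inv_mem hg), fun v => ?_⟩
  rw [Units.val_mul, Units.val_mul, ← Matrix.mulVec_mulVec, ← Matrix.mulVec_mulVec, ha, Matrix.mulVec_add, inv_cancel]
  congr 1
  have hff : ∀ i, f v (∑ l, G l i • U l) = ∑ l, G l i * f v (U l) := by
    intro i
    rw [fr_sum hf]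
    simp only [hσ]
  simp only [Matrix.mulVec_sum, Matrix.mulVec_smul, f_inv hgs, hG, hff]
  exact sum_id' G C (fun p => f v (U p)) U

/-- The coefficient matrix of a vector. -/
def Cv (κ : F) (σ : F ≃+* F) (γ : Fin 3 → F) : Matrix (Fin 3) (Fin 3) F := fun i j => κ * σ (γ i) * γ j

lemma CC_of_TT (hf : IsUnitaryForm σ f) {κ : F} {γ : Fin 3 → F} (h : TT f M (∑ i, γ i • U i) κ) : CC M f U (Cv κ σ γ) := by
  obtain ⟨t, ht, hta⟩ := h
  refine ⟨t, ht, fun v => ?_⟩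
  rw [hta, fr_sum hf]
  congr 1
  ext k
  simp only [Cv, Fin.sum_univ_three, Pi.add_apply, Pi.smul_apply, smul_eq_mul]
  ring

/-- The matrices occurring in the reduction. -/
def EE (x y x' y' w : F) : Matrix (Fin 3) (Fin 3) F := !![0, 0, x; 0, 0, y; x', y', w]

lemma EE_step1 (x y x' y' w : F) : Gm 0 1 1 * EE x y x' y' w * (Gm 0 1 1).transpose - EE x y x' y' w = EE y 0 y' 0 0 := by
  ext i j
  fin_cases i <;> fin_cases j <;>
    simp [Gm, EE, Matrix.mul_apply, Matrix.one_apply, Matrix.single_apply, Fin.sum_univ_three, Matrix.transpose_apply]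

lemma EE_step2 (x y x' y' w : F) : Gm 1 0 1 * EE x y x' y' w * (Gm 1 0 1).transpose - EE x y x' y' w = EE 0 x 0 x' 0 := by
  ext i j
  fin_cases i <;> fin_cases j <;>
    simp [Gm, EE, Matrix.mul_apply, Matrix.one_apply, Matrix.single_apply, Fin.sum_univ_three, Matrix.transpose_apply]

lemma EE_split (x y x' y' w : F) : EE x y x' y' w - EE 0 y 0 y' 0 - EE x 0 x' 0 0 = Matrix.single 2 2 w := by
  ext i j
  fin_cases i <;> fin_cases j <;> simp [EE, Matrix.single_apply]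

lemma Cv_diff (κ γ₁ γ₂ l : F) : Cv κ σ ![γ₁, γ₂, l] - Cv κ σ ![γ₁, γ₂, 0] =
    EE (κ * σ γ₁ * l) (κ * σ γ₂ * l) (κ * σ l * γ₁) (κ * σ l * γ₂) (κ * σ l * l) := by
  ext i j
  fin_cases i <;> fin_cases j <;> simp [Cv, EE]

end CCsec

section rank

variable {M : Subgroup (GL (Fin n) F)} (h : MD σ f F₀ b M) {u a : Fin 3 → Fin n → F} (hu : ∀ i, Rat f F₀ b (u i)) (ha : ∀ i, Rat f F₀ b (a i))
  (hus : ∀ i j, f (u i) (u j) = 0) (has : ∀ i, f (a i) (a i) = 0) (hua : ∀ k j, f (u k) (a j) = if k = j then 1 else 0)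

include h hu ha hus has hua

lemma CC_elem {C : Matrix (Fin 3) (Fin 3) F} (hC : CC M f u C) {i j : Fin 3} (hij : i ≠ j) :
    CC M f u (Gm i j 1 * C * (Gm i j 1).transpose) := by
  have huaij : f (u i) (a j) = 0 := by rw [hua, if_neg hij]
  obtain ⟨r, hr, hri, hra⟩ := h.R_rat (hu i) (ha j) (hus i i) (has j) huaij F₀.one_mem
  refine hC.conj h.ob.hf hr hri (fun l k => ?_) fun k => ?_
  · simp only [Gm, Matrix.add_apply, Matrix.one_apply, Matrix.single_apply]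
    split_ifs <;> simp
  · rw [hra, hua, hus]
    simp only [Gm, Fin.sum_univ_three, Matrix.add_apply, Matrix.one_apply, Matrix.single_apply]
    fin_cases i <;> fin_cases j <;> fin_cases k <;> simp at hij ⊢ <;> try first | exact add_comm _ _ | simp [add_comm]

/-- From a singular vector in the span of two rational vectors to a rational transvection with new coefficient. -/
theorem rank1 {γ₁ γ₂ g₁ g₂ κ : F} (hz : TT f M (γ₁ • u 0 + γ₂ • u 1) κ) (hg₁ : g₁ ∈ F₀) (hg₂ : g₂ ∈ F₀) :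
    TT f M (u 2) (κ * (σ (γ₁ * g₁ + γ₂ * g₂) * (γ₁ * g₁ + γ₂ * g₂))) := by
  have hf := h.ob.hf
  obtain ⟨l, hl⟩ : ∃ l, l = γ₁ * g₁ + γ₂ * g₂ := ⟨_, rfl⟩
  rw [← hl]
  have h01 : f (u 2) (a 0) = 0 := by rw [hua]; simp
  have h11 : f (u 2) (a 1) = 0 := by rw [hua]; simp
  obtain ⟨r₁, hr₁, -, hr₁a⟩ := h.R_rat (hu 2) (ha 0) (hus 2 2) (has 0) h01 hg₁
  obtain ⟨r₂, hr₂, -, hr₂a⟩ := h.R_rat (hu 2) (ha 1) (hus 2 2) (has 1) h11 hg₂
  have e1 : (r₁ : Mat) *ᵥ (γ₁ • u 0 + γ₂ • u 1) = γ₁ • u 0 + γ₂ • u 1 + (γ₁ * g₁) • u 2 := by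
    rw [hr₁a]
    simp only [hf.add_left, hf.smul_left, hua, hus]
    simp
    ext k
    simp only [Pi.add_apply, Pi.smul_apply, smul_eq_mul]
    ring
  have e2 : (r₂ : Mat) *ᵥ (γ₁ • u 0 + γ₂ • u 1 + (γ₁ * g₁) • u 2) = γ₁ • u 0 + γ₂ • u 1 + l • u 2 := by
    rw [hr₂a]
    simp only [hf.add_left, hf.smul_left, hua, hus]
    simp
    rw [hl]
    ext k
    simp only [Pi.add_apply, Pi.smul_apply, smul_eq_mul]
    ring
  have hz2 : TT f M (γ₁ • u 0 + γ₂ • u 1 + l • u 2) κ := by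
    rw [← e2, ← e1]
    exact h.TT_conj' (h.TT_conj' hz hr₁) hr₂
  have c0 : CC M f u (Cv κ σ ![γ₁, γ₂, 0]) := by
    apply CC_of_TT hf
    simp only [Fin.sum_univ_three]
    simpa using hz
  have c1 : CC M f u (Cv κ σ ![γ₁, γ₂, l]) := by
    apply CC_of_TT hf
    simp only [Fin.sum_univ_three]
    simpa using hz2
  have hd := c1.sub hf hus c0
  rw [Cv_diff] at hd
  have hstep1 : ∀ x y x' y' w : F, CC M f u (EE x y x' y' w) → CC M f u (EE y 0 y' 0 0) := by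
    intro x y x' y' w hc
    have := (CC_elem h hu ha hus has hua hc (by decide : (0 : Fin 3) ≠ 1)).sub hf hus hc
    rwa [EE_step1] at this
  have hstep2 : ∀ x y x' y' w : F, CC M f u (EE x y x' y' w) → CC M f u (EE 0 x 0 x' 0) := by
    intro x y x' y' w hc
    have := (CC_elem h hu ha hus has hua hc (by decide : (1 : Fin 3) ≠ 0)).sub hf hus hc
    rwa [EE_step2] at this
  have h2 := hstep2 _ _ _ _ _ (hstep1 _ _ _ _ _ hd)
  have h3 := hstep1 _ _ _ _ _ (hstep2 _ _ _ _ _ hd)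
  have h4 := (hd.sub hf hus h2).sub hf hus h3
  rw [EE_split] at h4
  obtain ⟨t, ht, hta⟩ := h4
  refine ⟨t, ht, fun v => ?_⟩
  rw [hta]
  congr 1
  simp only [Fin.sum_univ_three, Matrix.single_apply]
  simp
  ext k
  simp only [Pi.smul_apply, smul_eq_mul]
  ring

end rank

/-- A non-bad pair has a rational combination with norm outside the subfield. -/
lemma exists_l (fd : FD F₀ σ) {γ₁ γ₂ : F} (hbad : ¬ Bad F₀ σ γ₁ γ₂) :
    ∃ g₁ ∈ F₀, ∃ g₂ ∈ F₀, σ (γ₁ * g₁ + γ₂ * g₂) * (γ₁ * g₁ + γ₂ * g₂) ∉ F₀ := by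
  by_contra hcon
  push Not at hcon
  apply hbad
  have h1 : γ₁ * σ γ₁ ∈ F₀ := by
    have := hcon 1 F₀.one_mem 0 F₀.zero_mem
    simp only [mul_one, mul_zero, add_zero] at this
    rwa [mul_comm]
  have h2 : γ₂ * σ γ₂ ∈ F₀ := by
    have := hcon 0 F₀.zero_mem 1 F₀.one_mem
    simp only [mul_one, mul_zero, zero_add] at this
    rwa [mul_comm]
  refine ⟨h1, ?_, h2⟩
  apply fd.mem_of_tr
  intro c hc
  have h3 := hcon c hc 1 F₀.one_mem
  have e : c * (γ₁ * σ γ₂) + σ (c * (γ₁ * σ γ₂)) = σ (γ₁ * c + γ₂ * 1) * (γ₁ * c + γ₂ * 1) - (c * σ c) * (γ₁ * σ γ₁) - γ₂ * σ γ₂ := by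
    simp only [map_add, map_mul, map_one, fd.inv]
    ring
  rw [e]
  exact sub_mem (sub_mem h3 (mul_mem (mul_mem hc (fd.mem _ hc)) h1)) h2

variable {M : Subgroup (GL (Fin n) F)}

/-- A non-rational coefficient on a rational transvection gives all coefficients. -/
theorem all_c (h : MD σ f F₀ b M) {u a : Fin n → F} (hu : Rat f F₀ b u) (ha : Rat f F₀ b a) (huu : f u u = 0) (haa : f a a = 0) (hua : f u a = 1)
    {c₀ : F} (hc₀ : c₀ ∉ F₀) (hσc₀ : σ c₀ = c₀) (hT : ∀ κ ∈ F₀, κ + σ κ = 0 → TT f M u (κ * c₀)) {κ' : F} (hκ' : κ' + σ κ' = 0) : TT f M u κ' := by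
  have ob := h.ob
  have hf := ob.hf
  have fd := ob.fd
  have hau : f a u = 1 := by rw [← ob.sfix, hua, map_one]
  have h1 : ∀ l : F, TT f M u l → xE (l * 1) ∈ planeR M u a 0 := by
    rintro l ⟨t, ht, hta⟩
    refine ⟨t, ht, fun v => ⟨l * f v u, 0, 0, ?_⟩, ?_, ⟨0, ?_⟩, ⟨0, ?_⟩⟩
    · rw [hta]
      simp
    · rw [hta]
      simp [f0l hf]
    · rw [hta, huu, e00_xE, e10_xE]
      simp
    · rw [hta, hau, e01_xE, e11_xE]
      simp [add_comm]
  obtain ⟨ω, hωm, hω0, hωs⟩ := fd.om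
  have h3 : yE (ω * 1) ∈ planeR M u a 0 := by
    obtain ⟨t, ht, hta⟩ := h.T_rat ha haa hωm hωs
    refine ⟨t, ht, fun v => ⟨0, ω * f v a, 0, ?_⟩, ?_, ⟨0, ?_⟩, ⟨0, ?_⟩⟩
    · rw [hta]
      simp
    · rw [hta]
      simp [f0l hf]
    · rw [hta, e00_yE, e10_yE, hua]
      simp
    · rw [hta, haa, e01_yE, e11_yE]
      simp
  have hall := x_all fd (β := 1) (τ := c₀) hω0 hωm hωs one_ne_zero hσc₀ hc₀ (fun κ hκ hκs => h1 κ (h.T_rat hu huu hκ hκs))
    (by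
      have := h1 _ (hT ω hωm hωs)
      have e : ω * (c₀ * 1) = ω * c₀ * 1 := by ring
      rw [e]
      exact this) (mul_ne_zero hω0 one_ne_zero) h3 (y := κ' / ω) (by
      rw [map_div₀]
      have e1 : σ κ' = - κ' := eq_neg_of_add_eq_zero_right hκ'
      have e2 : σ ω = - ω := eq_neg_of_add_eq_zero_right hωs
      rw [e1, e2, neg_div_neg_eq])
  have e : κ' / ω * (ω * 1) = κ' := by
    field_simp
  rw [e] at hall
  obtain ⟨y, hy, hy1, -, ⟨t₁, hy2⟩, ⟨t₂, hy3⟩⟩ := hall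
  rw [e00_xE, e10_xE, smul_zero, add_zero, zero_smul, add_zero, one_smul] at hy2
  rw [e01_xE, e11_xE, smul_zero, add_zero, one_smul] at hy3
  refine ⟨y, hy, fun v => ?_⟩
  obtain ⟨α, β, γ, e⟩ := hy1 v
  rw [smul_zero, add_zero] at e
  have hs := h.iso y hy
  have h4 : f ((y : Mat) *ᵥ v) ((y : Mat) *ᵥ u) = f v u := hs v u
  have h5 : f ((y : Mat) *ᵥ v) ((y : Mat) *ᵥ a) = f v a := hs v a
  rw [e, hy2, hf.add_left, hf.add_left, hf.smul_left, hf.smul_left, huu, hau] at h4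
  have hβ : β = 0 := by linear_combination h4
  subst hβ
  rw [e, hy3, zero_smul, add_zero] at h5
  simp only [hf.add_left, fr_add hf, hf.smul_left, fr_smul hf, huu, hua] at h5
  have e3 : σ κ' = - κ' := eq_neg_of_add_eq_zero_right hκ'
  rw [e3] at h5
  have hα : α = κ' * f v u := by linear_combination h5
  rw [e, hα]
  simp

/-- Moving transvections between rational singular points. -/
theorem T_move (h : MD σ f F₀ b M) {p r : Fin n → F} (hp : Rat f F₀ b p) (hr : Rat f F₀ b r) (hpp : f p p = 0) (hrr : f r r = 0) (hpr : f p r ≠ 0)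
    (hT : ∀ κ, κ + σ κ = 0 → TT f M p κ) : ∀ κ, κ + σ κ = 0 → TT f M r κ := by
  have ob := h.ob
  have hf := ob.hf
  have fd := ob.fd
  obtain ⟨ω, hωm, hω0, hωs⟩ := fd.om
  obtain ⟨w, hw⟩ : ∃ w, w = f p r := ⟨_, rfl⟩
  rw [← hw] at hpr
  have hwm : w ∈ F₀ := hw ▸ ob.rat_f hp hr
  obtain ⟨l, hl⟩ : ∃ l, l = σ (ω / w) := ⟨_, rfl⟩
  have hlm : l ∈ F₀ := hl ▸ fd.mem _ (div_mem hωm hwm)
  have hσl : σ l = ω / w := by rw [hl, fd.inv]
  have hl0 : l ≠ 0 := by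
    intro h0
    rw [h0, map_zero] at hσl
    exact div_ne_zero hω0 hpr hσl.symm
  have hσl0 : σ l ≠ 0 := fun h0 => hl0 ((map_eq_zero σ).1 h0)
  obtain ⟨r', hr'⟩ : ∃ r', r' = l • r := ⟨_, rfl⟩
  have hr'r : Rat f F₀ b r' := hr' ▸ ob.rat_smul hlm hr
  have hpr' : f p r' = ω := by
    rw [hr', fr_smul hf, ← hw, hσl]
    field_simp
  have hr'p : f r' p = σ ω := by rw [← ob.sfix, hpr']
  have hr'r' : f r' r' = 0 := by
    rw [hr', fr_smul hf, hf.smul_left, hrr]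
    ring
  have hs : f (p - r') (p - r') = 0 := by
    simp only [fsl hf, fsr hf, hpp, hr'r', hpr', hr'p]
    linear_combination - hωs
  have hσω : σ ω = - ω := eq_neg_of_add_eq_zero_right hωs
  have hω' : ω⁻¹ + σ ω⁻¹ = 0 := by
    rw [map_inv₀, hσω, inv_neg]
    ring
  obtain ⟨t, ht, hta⟩ := h.T_rat (ob.rat_sub hp hr'r) hs (inv_mem hωm) hω'
  have htp : (t : Mat) *ᵥ p = r' := by
    rw [hta, fsr hf, hpp, hpr']
    ext i
    simp only [Pi.add_apply, Pi.smul_apply, Pi.sub_apply, smul_eq_mul]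
    field_simp
    ring
  intro κ hκ
  have hN : σ (κ * (l⁻¹ * σ l⁻¹)) = - (κ * (l⁻¹ * σ l⁻¹)) := by
    rw [map_mul, map_mul, fd.inv, eq_neg_of_add_eq_zero_right hκ]
    ring
  have h1 : TT f M r' (κ * (l⁻¹ * σ l⁻¹)) := by
    rw [← htp]
    apply h.TT_conj' _ ht
    apply hT
    rw [hN]
    ring
  have h2 := Cfsg.Agent.H27.RU.TT.unscale hf (a := l⁻¹) h1
  have e : l⁻¹ • r' = r := by
    rw [hr', smul_smul, inv_mul_cancel₀ hl0, one_smul]
  rwa [e] at h2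

theorem T_all (h : MD σ f F₀ b M) {p r : Fin n → F} (hp : Rat f F₀ b p) (hr : Rat f F₀ b r) (hpp : f p p = 0) (hrr : f r r = 0) (hp0 : p ≠ 0)
    (hT : ∀ κ, κ + σ κ = 0 → TT f M p κ) : ∀ κ, κ + σ κ = 0 → TT f M r κ := by
  by_cases hr0 : r = 0
  · intro κ hκ
    refine ⟨1, M.one_mem, fun v => ?_⟩
    rw [hr0]
    simp
  obtain ⟨z, hz, hzz, h1, h2⟩ := h.ob.connect hp hr hpp hrr hp0 hr0
  have h3 := T_move h hp hz hpp hzz h1 hT
  exact T_move h hz hr hzz hrr (anti_ne h.ob.hf h2) h3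

end Cfsg.Agent.H27.SH
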