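import Mathlib
import Cfsg.Agent.Lib.H27.GeoSH5

/-!
# Subfield subgroups of unitary groups: all transvections
-/

set_option autoImplicit false
set_option linter.unusedSectionVars false
set_option linter.unusedSimpArgs false
set_option linter.unusedVariables false
set_option linter.style.haveILetI false

namespace Cfsg.Agent.H27.SH

open scoped Matrix MatrixGroups
open Cfsg Cfsg.Geo
open Cfsg.Agent.H28 (HS)
open Cfsg.Agent.H27.UF (fr_add fr_smul f0l f0r fnl fnr fsl fsr anti anti_ne qfix fr_sum)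
open Cfsg.Agent.H27.UP (IsoF TT Hz f_sum_left inv_cancel inv_cancel' exists_ut exists_rho f_inv)

variable {n : ℕ} {F : Type*} [Field F] [Fintype F] {σ : F ≃+* F} {f : (Fin n → F) → (Fin n → F) → F} {F₀ : Subfield F} {b : Fin n → Fin n → F}

local notation "GG" => GL (Fin n) F
local notation "Mat" => Matrix (Fin n) (Fin n) F

variable {M : Subgroup (GL (Fin n) F)}

lemma TT_pull (h : MD σ f F₀ b M) {z : Fin n → F} {g : GG} (hg : g ∈ M) {κ : F} (ht : TT f M ((g : Mat) *ᵥ z) κ) : TT f M z κ := by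
  have := h.TT_conj' ht (M.inv_mem hg)
  rwa [inv_cancel'] at this

section Hstep

variable (h : MD σ f F₀ b M) (hR : ∀ p, Rat f F₀ b p → f p p = 0 → ∀ κ, κ + σ κ = 0 → TT f M p κ)
include h hR

theorem R_one {p y : Fin n → F} (hp : Rat f F₀ b p) (hy : Rat f F₀ b y) (hpp : f p p = 0) (hyy : f y y = 0) (hpy : f p y = 0) {κ d : F}
    (hκ : κ + σ κ = 0) (hd : d ∈ F₀) : ∃ r ∈ M, ∀ v, (r : Mat) *ᵥ v = v + (κ * σ d * f v y) • p + (κ * d * f v p) • y := by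
  have ob := h.ob
  have hf := ob.hf
  have hyp : f y p = 0 := anti hf hpy
  have hκ' : -κ + σ (-κ) = 0 := by
    rw [map_neg]
    linear_combination - hκ
  have hdy : Rat f F₀ b (d • y) := ob.rat_smul hd hy
  have hs1 : f (d • y) (d • y) = 0 := by
    rw [fr_smul hf, hf.smul_left, hyy]
    ring
  have hs2 : f (p + d • y) (p + d • y) = 0 := by
    simp only [fr_add hf, fr_smul hf, hf.add_left, hf.smul_left, hpp, hyy, hpy, hyp]
    ring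
  obtain ⟨t₁, ht₁, ha₁⟩ := hR _ (ob.rat_add hp hdy) hs2 κ hκ
  obtain ⟨t₂, ht₂, ha₂⟩ := hR _ hp hpp (-κ) hκ'
  obtain ⟨t₃, ht₃, ha₃⟩ := hR _ hdy hs1 (-κ) hκ'
  refine ⟨t₁ * t₂ * t₃, M.mul_mem (M.mul_mem ht₁ ht₂) ht₃, fun v => ?_⟩
  rw [Units.val_mul, Units.val_mul, ← Matrix.mulVec_mulVec, ← Matrix.mulVec_mulVec, ha₃, ha₂, ha₁]
  simp only [fr_add hf, fr_smul hf, hf.add_left, hf.smul_left, hpp, hyy, hpy, hyp]
  ext i
  simp only [Pi.add_apply, Pi.smul_apply, smul_eq_mul]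
  ring

theorem R_all {p y : Fin n → F} (hp : Rat f F₀ b p) (hy : Rat f F₀ b y) (hpp : f p p = 0) (hyy : f y y = 0) (hpy : f p y = 0) (c : F) :
    ∃ r ∈ M, ∀ v, (r : Mat) *ᵥ v = v + (c * f v y) • p - (σ c * f v p) • y := by
  have ob := h.ob
  have hf := ob.hf
  have fd := ob.fd
  have hyp : f y p = 0 := anti hf hpy
  obtain ⟨κ₁, κ₂, c₁, c₂, h1, h2, hc₁, hc₂, e⟩ := fd.decomp c
  obtain ⟨r₁, hr₁, ha₁⟩ := R_one h hR hp hy hpp hyy hpy h1 (fd.mem _ hc₁)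
  obtain ⟨r₂, hr₂, ha₂⟩ := R_one h hR hp hy hpp hyy hpy h2 (fd.mem _ hc₂)
  have e1 : σ κ₁ = - κ₁ := eq_neg_of_add_eq_zero_right h1
  have e2 : σ κ₂ = - κ₂ := eq_neg_of_add_eq_zero_right h2
  refine ⟨r₁ * r₂, M.mul_mem hr₁ hr₂, fun v => ?_⟩
  rw [Units.val_mul, ← Matrix.mulVec_mulVec, ha₂, ha₁]
  simp only [hf.add_left, hf.smul_left, hpp, hyy, hpy, hyp, fd.inv]
  rw [e]
  simp only [map_add, map_mul, e1, e2]
  ext i
  simp only [Pi.add_apply, Pi.smul_apply, Pi.sub_apply, smul_eq_mul]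
  ring

theorem Hz_sing {y s : Fin n → F} (hy : Rat f F₀ b y) (hs : Rat f F₀ b s) (hyy : f y y = 0) (hss : f s s = 0) (hsy : f s y = 0) (c : F) :
    Hz f M y (c • s) 0 := by
  obtain ⟨r, hr, ha⟩ := R_all h hR hs hy hss hyy hsy c
  refine ⟨r, hr, fun v => ?_⟩
  rw [ha, fr_smul h.ob.hf, smul_smul]
  simp only [zero_mul, zero_smul, add_zero]
  congr 2
  ring

theorem Hz_b {y : Fin n → F} (hy : Rat f F₀ b y) (hyy : f y y = 0) (I : Finset (Fin n)) (hI : ∀ i ∈ I, f (b i) y = 0) (hJ : ∀ i ∈ I, ∃ j ∈ I, j ≠ i)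
    (ξ : Fin n → F) : ∃ μ, Hz f M y (∑ i ∈ I, ξ i • b i) μ := by
  classical
  have ob := h.ob
  have hf := ob.hf
  have hone : ∀ a ∈ I, ∃ μ, Hz f M y (ξ a • b a) μ := by
    intro a ha
    obtain ⟨j, hj, hja⟩ := hJ a ha
    obtain ⟨s, s', hs, hs', hss, hs's', -, ⟨α, hα, β, hβ, e⟩, -, -, ⟨c, hc, c', hc', es, es'⟩⟩ := ob.pair_span hja.symm
    have hsy : f s y = 0 := by
      rw [es, hf.add_left, hf.smul_left, hI a ha, hI j hj]
      ring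
    have hs'y : f s' y = 0 := by
      rw [es', hf.add_left, hf.smul_left, hI a ha, hI j hj]
      ring
    have h1 := Hz_sing h hR hy hs hyy hss hsy (ξ a * α)
    have h2 := Hz_sing h hR hy hs' hyy hs's' hs'y (ξ a * β)
    have h3 := Hz.mul hf hyy (by rw [hf.smul_left, hsy, mul_zero]) (by rw [hf.smul_left, hs'y, mul_zero]) h1 h2
    have e2 : (ξ a * α) • s + (ξ a * β) • s' = ξ a • b a := by
      rw [e]
      ext k
      simp only [Pi.add_apply, Pi.smul_apply, smul_eq_mul]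
      ring
    rw [e2] at h3
    exact ⟨_, h3⟩
  have key : ∀ I' : Finset (Fin n), I' ⊆ I → ∃ μ, Hz f M y (∑ i ∈ I', ξ i • b i) μ := by
    intro I'
    induction I' using Finset.induction_on with
    | empty =>
      intro _
      refine ⟨0, 1, M.one_mem, fun v => ?_⟩
      simp [f0r hf]
    | insert a s ha ih =>
      intro hsub
      obtain ⟨μ, hμ⟩ := ih (fun i hi => hsub (Finset.mem_insert_of_mem hi))
      obtain ⟨μ', hμ'⟩ := hone a (hsub (Finset.mem_insert_self _ _))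
      rw [Finset.sum_insert ha]
      have hsum : f (∑ i ∈ s, ξ i • b i) y = 0 := by
        rw [f_sum_left hf]
        exact Finset.sum_eq_zero fun i hi => by rw [hI i (hsub (Finset.mem_insert_of_mem hi)), mul_zero]
      have h3 := Hz.mul hf hyy (by rw [hf.smul_left, hI a (hsub (Finset.mem_insert_self _ _)), mul_zero]) hsum hμ' hμ
      exact ⟨_, h3⟩
  exact key I (Finset.Subset.refl _)

/-- Moving a singular vector with a nonzero coordinate to a rational point. -/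
theorem Phi_of_ne {e₁ e₂ : Fin n → F} (he₁ : Rat f F₀ b e₁) (he₂ : Rat f F₀ b e₂) (h11 : f e₁ e₁ = 0) (h22 : f e₂ e₂ = 0) (h12 : f e₁ e₂ = 1)
    (hHz : ∀ w, f w e₁ = 0 → f w e₂ = 0 → ∃ μ, Hz f M e₂ w μ) {z : Fin n → F} (hz : f z z = 0) (hα : f z e₂ ≠ 0) :
    ∀ κ, κ + σ κ = 0 → TT f M z κ := by
  have ob := h.ob
  have hf := ob.hf
  have fd := ob.fd
  have h21 : f e₂ e₁ = 1 := by rw [← ob.sfix, h12, map_one]
  obtain ⟨α, hαd⟩ : ∃ α, α = f z e₂ := ⟨_, rfl⟩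
  obtain ⟨β, hβd⟩ : ∃ β, β = f z e₁ := ⟨_, rfl⟩
  rw [← hαd] at hα
  have hσα : σ α ≠ 0 := fun h0 => hα ((map_eq_zero σ).1 h0)
  obtain ⟨w, hw⟩ : ∃ w, w = z - α • e₁ - β • e₂ := ⟨_, rfl⟩
  have hw1 : f w e₁ = 0 := by
    rw [hw, fsl hf, fsl hf, hf.smul_left, hf.smul_left, h11, h21, ← hβd]
    ring
  have hw2 : f w e₂ = 0 := by
    rw [hw, fsl hf, fsl hf, hf.smul_left, hf.smul_left, h12, h22, ← hαd]
    ring
  obtain ⟨μ, E, hE, hEa⟩ := hHz ((-α⁻¹) • w) (by rw [hf.smul_left, hw1, mul_zero]) (by rw [hf.smul_left, hw2, mul_zero])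
  obtain ⟨β', hβ'⟩ : ∃ β', β' = β - f z ((-α⁻¹) • w) + μ * α := ⟨_, rfl⟩
  have hEz : (E : Mat) *ᵥ z = α • e₁ + β' • e₂ := by
    rw [hEa, ← hαd, hβ', hw]
    ext i
    simp only [Pi.add_apply, Pi.smul_apply, Pi.sub_apply, smul_eq_mul]
    field_simp
    ring
  have hsing : f (α • e₁ + β' • e₂) (α • e₁ + β' • e₂) = 0 := by
    rw [← hEz, h.iso E hE, hz]
  simp only [fr_add hf, fr_smul hf, hf.add_left, hf.smul_left, h11, h12, h21, h22] at hsing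
  have hs0 : α * σ β' + β' * σ α = 0 := by linear_combination hsing
  obtain ⟨κ₀, hκ₀⟩ : ∃ κ₀, κ₀ = - (β' / α) := ⟨_, rfl⟩
  have hκ₀s : κ₀ + σ κ₀ = 0 := by
    rw [hκ₀, map_neg, map_div₀]
    field_simp
    linear_combination - hs0
  obtain ⟨t, ht, hta⟩ := hR _ he₂ h22 κ₀ hκ₀s
  have htz : (t : Mat) *ᵥ (α • e₁ + β' • e₂) = α • e₁ := by
    rw [hta, hf.add_left, hf.smul_left, hf.smul_left, h12, h22, hκ₀]
    ext i
    simp only [Pi.add_apply, Pi.smul_apply, smul_eq_mul]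
    field_simp
    ring
  intro κ hκ
  apply TT_pull h hE
  rw [hEz]
  apply TT_pull h ht
  rw [htz]
  apply Cfsg.Agent.H27.RU.TT.unscale hf
  apply hR _ he₁ h11
  rw [map_mul, map_mul, fd.inv, eq_neg_of_add_eq_zero_right hκ]
  ring

/-- All transvections lie in `M`. -/
theorem all_sing (hn : 4 ≤ n) {z : Fin n → F} (hz : f z z = 0) : ∀ κ, κ + σ κ = 0 → TT f M z κ := by
  classical
  have ob := h.ob
  have hf := ob.hf
  have fd := ob.fd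
  obtain ⟨i₁, hi₁⟩ : ∃ i : Fin n, i = ⟨0, by omega⟩ := ⟨_, rfl⟩
  obtain ⟨i₂, hi₂⟩ : ∃ i : Fin n, i = ⟨1, by omega⟩ := ⟨_, rfl⟩
  have hi : i₁ ≠ i₂ := by
    rw [hi₁, hi₂]
    simp
  obtain ⟨s, s', hs, hs', hss, hs's', hδ, ⟨α₁, hα₁, β₁, hβ₁, e₁'⟩, ⟨α₂, hα₂, β₂, hβ₂, e₂'⟩, hperp, -⟩ := ob.pair_span hi
  obtain ⟨δ, hδd⟩ : ∃ δ, δ = f s s' := ⟨_, rfl⟩
  rw [← hδd] at hδ
  have hδm : δ ∈ F₀ := hδd ▸ ob.rat_f hs hs'
  obtain ⟨c, hc⟩ : ∃ c, c = σ δ⁻¹ := ⟨_, rfl⟩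
  have hcm : c ∈ F₀ := hc ▸ fd.mem _ (inv_mem hδm)
  have hσc : σ c = δ⁻¹ := by rw [hc, fd.inv]
  have hc0 : c ≠ 0 := by
    intro h0
    rw [h0, map_zero] at hσc
    exact inv_ne_zero hδ hσc.symm
  obtain ⟨e₁, he₁d⟩ : ∃ e₁, e₁ = s := ⟨_, rfl⟩
  obtain ⟨e₂, he₂d⟩ : ∃ e₂, e₂ = c • s' := ⟨_, rfl⟩
  have he₁ : Rat f F₀ b e₁ := he₁d ▸ hs
  have he₂ : Rat f F₀ b e₂ := he₂d ▸ ob.rat_smul hcm hs'
  have h11 : f e₁ e₁ = 0 := by rw [he₁d, hss]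
  have h22 : f e₂ e₂ = 0 := by
    rw [he₂d, fr_smul hf, hf.smul_left, hs's']
    ring
  have h12 : f e₁ e₂ = 1 := by
    rw [he₁d, he₂d, fr_smul hf, ← hδd, hσc]
    field_simp
  have h21 : f e₂ e₁ = 1 := by rw [← ob.sfix, h12, map_one]
  let I : Finset (Fin n) := (Finset.univ.erase i₁).erase i₂
  have hIcard : 1 < I.card := by
    have h1 : (Finset.univ.erase i₁).card = n - 1 := by
      rw [Finset.card_erase_of_mem (Finset.mem_univ _), Finset.card_univ, Fintype.card_fin]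
    have h2 : I.card = n - 1 - 1 := by
      rw [Finset.card_erase_of_mem (Finset.mem_erase.2 ⟨hi.symm, Finset.mem_univ _⟩), h1]
    omega
  have hImem : ∀ k, k ∈ I ↔ k ≠ i₂ ∧ k ≠ i₁ := by
    intro k
    simp [I]
  have hJ : ∀ i ∈ I, ∃ j ∈ I, j ≠ i := fun i _ => Finset.exists_mem_ne hIcard i
  have hI₁ : ∀ i ∈ I, f (b i) e₁ = 0 := by
    intro i hi'
    obtain ⟨h2, h1⟩ := (hImem i).1 hi'
    rw [he₁d]
    exact (hperp i h1 h2).1
  have hI₂ : ∀ i ∈ I, f (b i) e₂ = 0 := by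
    intro i hi'
    obtain ⟨h2, h1⟩ := (hImem i).1 hi'
    rw [he₂d, fr_smul hf, (hperp i h1 h2).2, mul_zero]
  have hw0 : ∀ w, f w e₁ = 0 → f w e₂ = 0 → f w (b i₁) = 0 ∧ f w (b i₂) = 0 := by
    intro w h1 h2
    have hws : f w s = 0 := by rw [← he₁d, h1]
    have hws' : f w s' = 0 := by
      rw [he₂d, fr_smul hf] at h2
      exact (mul_eq_zero.1 h2).resolve_left fun h0 => hc0 ((map_eq_zero σ).1 h0)
    constructor
    · rw [e₁', fr_add hf, fr_smul hf, fr_smul hf, hws, hws']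
      ring
    · rw [e₂', fr_add hf, fr_smul hf, fr_smul hf, hws, hws']
      ring
  have hsum : ∀ w, f w e₁ = 0 → f w e₂ = 0 → w = ∑ i ∈ I, f w (b i) • b i := by
    intro w h1 h2
    obtain ⟨h3, h4⟩ := hw0 w h1 h2
    conv_lhs => rw [ob.expand w]
    symm
    apply Finset.sum_subset (Finset.subset_univ _)
    intro k _ hk
    have : k = i₁ ∨ k = i₂ := by
      by_contra hcon
      push Not at hcon
      exact hk ((hImem k).2 ⟨hcon.2, hcon.1⟩)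
    rcases this with rfl | rfl
    · rw [h3, zero_smul]
    · rw [h4, zero_smul]
  have hHz₁ : ∀ w, f w e₁ = 0 → f w e₂ = 0 → ∃ μ, Hz f M e₁ w μ := by
    intro w h1 h2
    rw [hsum w h1 h2]
    exact Hz_b h hR he₁ h11 I hI₁ hJ _
  have hHz₂ : ∀ w, f w e₁ = 0 → f w e₂ = 0 → ∃ μ, Hz f M e₂ w μ := by
    intro w h1 h2
    rw [hsum w h1 h2]
    exact Hz_b h hR he₂ h22 I hI₂ hJ _
  by_cases hα : f z e₂ = 0
  · by_cases hβ : f z e₁ = 0
    · by_cases hz0 : z = 0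
      · intro κ _
        refine ⟨1, M.one_mem, fun v => ?_⟩
        rw [hz0]
        simp
      obtain ⟨k, hk⟩ := ob.exists_ne_b hz0
      obtain ⟨h3, h4⟩ := hw0 z hβ hα
      have hkI : k ∈ I := by
        rw [hImem]
        constructor
        · rintro rfl
          exact hk h4
        · rintro rfl
          exact hk h3
      obtain ⟨μ, E, hE, hEa⟩ := hHz₁ (b k) (hI₁ k hkI) (hI₂ k hkI)
      have hEz : (E : Mat) *ᵥ z = z - f z (b k) • e₁ := by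
        rw [hEa, hβ]
        simp
      have hz' : f (z - f z (b k) • e₁) (z - f z (b k) • e₁) = 0 := by
        rw [← hEz, h.iso E hE, hz]
      have hne : f (z - f z (b k) • e₁) e₂ ≠ 0 := by
        rw [fsl hf, hf.smul_left, hα, h12]
        simpa using hk
      intro κ hκ
      apply TT_pull h hE
      rw [hEz]
      exact Phi_of_ne h hR he₁ he₂ h11 h22 h12 hHz₂ hz' hne κ hκ
    · exact Phi_of_ne h hR he₂ he₁ h22 h11 h21 (fun w h1 h2 => hHz₁ w h2 h1) hz hβ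
  · exact Phi_of_ne h hR he₁ he₂ h11 h22 h12 hHz₂ hz hα

end Hstep

/-- A frame of rational vectors. -/
theorem exists_frame (ob : OB σ f F₀ b) (hn : 6 ≤ n) {u₀ u₁ : Fin n → F} (h0 : Rat f F₀ b u₀) (h1 : Rat f F₀ b u₁) (h00 : f u₀ u₀ = 0) (h11 : f u₁ u₁ = 0)
    (h01 : f u₀ u₁ = 0) (hi₀ : ∀ c ∈ F₀, u₀ ≠ c • u₁) (hi₁ : ∀ c ∈ F₀, u₁ ≠ c • u₀) :
    ∃ u a : Fin 3 → Fin n → F, u 0 = u₀ ∧ u 1 = u₁ ∧ (∀ i, Rat f F₀ b (u i)) ∧ (∀ i, Rat f F₀ b (a i)) ∧ (∀ i j, f (u i) (u j) = 0) ∧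
      (∀ i, f (a i) (a i) = 0) ∧ ∀ k j, f (u k) (a j) = if k = j then 1 else 0 := by
  classical
  have hf := ob.hf
  have fd := ob.fd
  have h10 : f u₁ u₀ = 0 := anti hf h01
  obtain ⟨y₀, hy₀, hy₀1, hy₀2⟩ := ob.rat_dual h0 h1 hi₀
  obtain ⟨y₁, hy₁, hy₁1, hy₁2⟩ := ob.rat_dual h1 h0 hi₁
  obtain ⟨a₀, ha₀, ha₀s, ha₀1, ha₀z⟩ := ob.singularize h0 hy₀ h00 hy₀1
  obtain ⟨a₁, ha₁, ha₁s, ha₁1, ha₁z⟩ := ob.singularize h1 hy₁ h11 hy₁1
  have h1a₀ : f u₁ a₀ = 0 := by rw [ha₀z u₁ h10, hy₀2]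
  have h0a₁ : f u₀ a₁ = 0 := by rw [ha₁z u₀ h01, hy₁2]
  obtain ⟨u₂, hu₂, hu₂0, hu₂s, hu₂p⟩ := ob.exists_sing_perp (ι := Fin 4) (by simp; omega) ![u₀, u₁, a₀, a₁] (by
    intro i
    fin_cases i
    · exact h0
    · exact h1
    · exact ha₀
    · exact ha₁)
  have h02 : f u₀ u₂ = 0 := hu₂p 0
  have h12 : f u₁ u₂ = 0 := hu₂p 1
  have ha₀2 : f a₀ u₂ = 0 := hu₂p 2
  have ha₁2 : f a₁ u₂ = 0 := hu₂p 3
  have h20 : f u₂ u₀ = 0 := anti hf h02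
  have h21 : f u₂ u₁ = 0 := anti hf h12
  have h2a₀ : f u₂ a₀ = 0 := anti hf ha₀2
  have h2a₁ : f u₂ a₁ = 0 := anti hf ha₁2
  obtain ⟨d₁, hd₁, hd₁1⟩ := ob.rat_one hu₂ hu₂0
  obtain ⟨d₀, hd₀⟩ : ∃ d₀, d₀ = d₁ - σ (f u₀ d₁) • a₀ - σ (f u₁ d₁) • a₁ := ⟨_, rfl⟩
  have hd₀r : Rat f F₀ b d₀ := by
    rw [hd₀]
    exact ob.rat_sub (ob.rat_sub hd₁ (ob.rat_smul (fd.mem _ (ob.rat_f h0 hd₁)) ha₀)) (ob.rat_smul (fd.mem _ (ob.rat_f h1 hd₁)) ha₁)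
  have e0 : f u₀ d₀ = 0 := by
    rw [hd₀, fsr hf, fsr hf, fr_smul hf, fr_smul hf, fd.inv, fd.inv, ha₀1, h0a₁]
    ring
  have e1 : f u₁ d₀ = 0 := by
    rw [hd₀, fsr hf, fsr hf, fr_smul hf, fr_smul hf, fd.inv, fd.inv, h1a₀, ha₁1]
    ring
  have e2 : f u₂ d₀ = 1 := by
    rw [hd₀, fsr hf, fsr hf, fr_smul hf, fr_smul hf, h2a₀, h2a₁, hd₁1]
    ring
  obtain ⟨a₂, ha₂, ha₂s, ha₂1, ha₂z⟩ := ob.singularize hu₂ hd₀r hu₂s e2
  have h0a₂ : f u₀ a₂ = 0 := by rw [ha₂z u₀ h02, e0]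
  have h1a₂ : f u₁ a₂ = 0 := by rw [ha₂z u₁ h12, e1]
  refine ⟨![u₀, u₁, u₂], ![a₀, a₁, a₂], rfl, rfl, ?_, ?_, ?_, ?_, ?_⟩
  · intro i
    fin_cases i
    · exact h0
    · exact h1
    · exact hu₂
  · intro i
    fin_cases i
    · exact ha₀
    · exact ha₁
    · exact ha₂
  · intro i j
    fin_cases i <;> fin_cases j <;> simp [h00, h01, h02, h10, h11, h12, h20, h21, hu₂s]
  · intro i
    fin_cases i
    · exact ha₀s
    · exact ha₁s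
    · exact ha₂s
  · intro k j
    fin_cases k <;> fin_cases j <;> simp [ha₀1, h0a₁, h0a₂, h1a₀, ha₁1, h1a₂, h2a₀, h2a₁, ha₂1]

/-- An element outside the subfield group gives all transvections. -/
theorem main_T (h : MD σ f F₀ b M) (hn : 6 ≤ n) {g : GG} (hg : g ∈ M)
    (hgn : ¬ ∃ μ : F, μ ≠ 0 ∧ ∀ x, Rat f F₀ b x → ∃ y, Rat f F₀ b y ∧ (g : Mat) *ᵥ x = μ • y) {z : Fin n → F} (hz : f z z = 0) :
    ∀ κ, κ + σ κ = 0 → TT f M z κ := by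
  have ob := h.ob
  have hf := ob.hf
  have fd := ob.fd
  obtain ⟨a, ha, haa, hna⟩ := exists_nonrat h (by omega) hg hgn
  obtain ⟨x, hx⟩ : ∃ x, x = (g : Mat) *ᵥ a := ⟨_, rfl⟩
  rw [← hx] at hna
  have hxx : f x x = 0 := by rw [hx, h.iso g hg, haa]
  have hTx : ∀ κ ∈ F₀, κ + σ κ = 0 → TT f M x κ := by
    intro κ hκ hκs
    rw [hx]
    exact h.TT_conj' (h.T_rat ha haa hκ hκs) hg
  obtain ⟨u₀, u₁, h0, h1, h00, h11, h01, hβ, hθ⟩ := exists_ts2 ob (by omega) hna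
  obtain ⟨γ₁, γ₂, hγ, hbad⟩ := exists_nonbad h hxx hTx h0 h1 h00 h11 h01 hβ hθ
  obtain ⟨g₁, hg₁, g₂, hg₂, hl⟩ := exists_l fd hbad
  have hθ' : f x u₁ / f x u₀ ∉ F₀ := by
    intro hm
    exact hθ (mul_mem hm (fd.mem _ hm))
  have hi₀ : ∀ c ∈ F₀, u₀ ≠ c • u₁ := by
    rintro c hc rfl
    apply hθ'
    rw [fr_smul hf] at hβ
    have hσc : σ c ≠ 0 := left_ne_zero_of_mul hβ
    have hL : f x u₁ ≠ 0 := right_ne_zero_of_mul hβ
    have e : f x u₁ / f x (c • u₁) = (σ c)⁻¹ := by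
      rw [fr_smul hf]
      field_simp
    rw [e]
    exact inv_mem (fd.mem _ hc)
  have hi₁ : ∀ c ∈ F₀, u₁ ≠ c • u₀ := by
    rintro c hc rfl
    apply hθ'
    have e : f x (c • u₀) / f x u₀ = σ c := by
      rw [fr_smul hf]
      field_simp
    rw [e]
    exact fd.mem _ hc
  obtain ⟨u, a', hu0, hu1, hur, har, hus, has, hua⟩ := exists_frame ob hn h0 h1 h00 h11 h01 hi₀ hi₁
  obtain ⟨c₀, hc₀⟩ : ∃ c₀, c₀ = σ (γ₁ * g₁ + γ₂ * g₂) * (γ₁ * g₁ + γ₂ * g₂) := ⟨_, rfl⟩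
  rw [← hc₀] at hl
  have hσc₀ : σ c₀ = c₀ := by
    rw [hc₀, map_mul, fd.inv]
    ring
  have hT₃ : ∀ κ ∈ F₀, κ + σ κ = 0 → TT f M (u 2) (κ * c₀) := by
    intro κ hκ hκs
    rw [hc₀]
    apply rank1 h hur har hus has hua _ hg₁ hg₂
    rw [hu0, hu1]
    exact hγ κ hκ hκs
  have h22 : f (u 2) (a' 2) = 1 := by
    rw [hua]
    simp
  have hu₂0 : u 2 ≠ 0 := by
    intro h0
    rw [h0, f0l hf] at h22
    exact zero_ne_one h22
  have hall : ∀ κ, κ + σ κ = 0 → TT f M (u 2) κ := fun κ hκ =>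
    all_c h (hur 2) (har 2) (hus 2 2) (has 2) h22 hl hσc₀ hT₃ hκ
  have hR : ∀ p, Rat f F₀ b p → f p p = 0 → ∀ κ, κ + σ κ = 0 → TT f M p κ := fun p hp hpp =>
    T_all h (hur 2) hp (hus 2 2) hpp hu₂0 hall
  exact all_sing h hR (by omega) hz

/-- An element of the unitary group which is not rational. -/
theorem exists_nonmem (ob : OB σ f F₀ b) (hn : 2 ≤ n) :
    ∃ t : GG, t ∈ specialLinear (Fin n) F ∧ IsoF f t ∧ ¬ ∃ μ : F, μ ≠ 0 ∧ ∀ x, Rat f F₀ b x → ∃ y, Rat f F₀ b y ∧ (t : Mat) *ᵥ x = μ • y := by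
  have hf := ob.hf
  have fd := ob.fd
  obtain ⟨j, hj⟩ := exists_ne_idx hn (⟨0, by omega⟩ : Fin n)
  obtain ⟨u, s', hu, hs', huu, -, hδ, -⟩ := ob.pair_span hj
  have hu0 : u ≠ 0 := by
    rintro rfl
    exact hδ (f0l hf _)
  obtain ⟨a, ha, haa, hua⟩ := ob.exists_partner hu huu hu0
  have hau : f a u = 1 := by rw [← ob.sfix, hua, map_one]
  obtain ⟨ρ, hρσ, hρ⟩ := fd.rho
  obtain ⟨ω, hωm, hω0, hωs⟩ := fd.om
  have hκ : ρ * ω + σ (ρ * ω) = 0 := by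
    rw [map_mul, hρσ]
    linear_combination ρ * hωs
  obtain ⟨t, htS, hti, hta⟩ := exists_ut hf huu hκ
  refine ⟨t, htS, hti, ?_⟩
  rintro ⟨μ, hμ, hrat⟩
  obtain ⟨y₁, hy₁, e₁⟩ := hrat u hu
  obtain ⟨y₂, hy₂, e₂⟩ := hrat a ha
  rw [hta, huu, mul_zero, zero_smul, add_zero] at e₁
  rw [hta, hau, mul_one] at e₂
  obtain ⟨i, hi⟩ := ob.exists_ne_b hu0
  have h1 := congrArg (fun z => f z (b i)) e₁
  simp only [hf.smul_left] at h1
  have hy₁i : f y₁ (b i) ≠ 0 := by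
    intro h0
    rw [h0, mul_zero] at h1
    exact hi h1
  have hμm : μ ∈ F₀ := by
    have e : μ = f u (b i) / f y₁ (b i) := by
      rw [h1]
      field_simp
    rw [e]
    exact div_mem (hu i) (hy₁ i)
  have h2 := congrArg (fun z => f z (b i)) e₂
  simp only [hf.add_left, hf.smul_left] at h2
  apply hρ
  have hρm : ρ ∈ F₀ := by
    have e : ρ = (μ * f y₂ (b i) - f a (b i)) / (ω * f u (b i)) := by
      field_simp
      linear_combination h2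
    rw [e]
    exact div_mem (sub_mem (mul_mem hμm (hy₂ i)) (ha i)) (mul_mem hωm (hu i))
  exact mul_mem hρm hρm

end Cfsg.Agent.H27.SH
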