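import Mathlib
import Cfsg.Agent.Lib.H27.GeoSH6

/-!
# Subfield subgroups of unitary groups: maximality
-/

set_option autoImplicit false
set_option linter.unusedSectionVars false
set_option linter.unusedSimpArgs false
set_option linter.unusedVariables false
set_option linter.style.haveILetI false

namespace Cfsg.Agent.H27.SH

open scoped Matrix MatrixGroups
open Cfsg Cfsg.Geo
open Cfsg.Agent.H28 (HS)
open Cfsg.Agent.H27.UF (fr_add fr_smul f0l f0r fnl fnr fsl fsr anti anti_ne qfix fr_sum)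
open Cfsg.Agent.H27.UP (IsoF TT Hz f_sum_left inv_cancel inv_cancel' exists_ut exists_rho f_inv)
open Cfsg.Agent.H27.RS (rr co rr_add rr_sub rr_neg rr_smul rr_zero rr_inj rr_ne_zero inv_rr)

variable {n : ℕ} {F : Type*} [Field F] [Fintype F] {σ : F ≃+* F} {f : (Fin n → F) → (Fin n → F) → F} {F₀ : Subfield F} {P : GL (Fin n) F}

local notation "GG" => GL (Fin n) F
local notation "Mat" => Matrix (Fin n) (Fin n) F
local notation "V₀" => (Fin n → F₀)

lemma expand_rat (x : Fin n → F) : x = ∑ i, (((P⁻¹ : GG) : Mat) *ᵥ x) i • rr P (Pi.single i (1 : F₀)) := by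
  have h1 : ∀ i, rr P (Pi.single i (1 : F₀)) = (P : Mat) *ᵥ Pi.single i (1 : F) := by
    intro i
    have e : co (Pi.single i (1 : F₀) : V₀) = Pi.single i (1 : F) := by
      ext k
      by_cases hk : k = i
      · subst hk
        simp [co]
      · simp [co, hk]
    rw [rr, e]
  simp only [h1]
  simp only [← Matrix.mulVec_smul]
  rw [← Matrix.mulVec_sum]
  have h2 : ∑ i, (((P⁻¹ : GG) : Mat) *ᵥ x) i • (Pi.single i (1 : F) : Fin n → F) = ((P⁻¹ : GG) : Mat) *ᵥ x := by
    ext k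
    simp [Finset.sum_apply, Pi.single_apply]
  rw [h2, inv_cancel]

lemma rr_sum {κ : Type*} (s : Finset κ) (t : κ → F₀) (c : κ → V₀) : rr P (∑ i ∈ s, t i • c i) = ∑ i ∈ s, (t i : F) • rr P (c i) := by
  classical
  induction s using Finset.induction_on with
  | empty => simp [rr_zero]
  | insert a s ha ih => rw [Finset.sum_insert ha, Finset.sum_insert ha, rr_add, rr_smul, ih]

section orth

variable (hf : IsUnitaryForm σ f) (fd : FD F₀ σ) (hP : ∀ u v : Fin n → F₀, f (rr P u) (rr P v) ∈ F₀)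
include hf fd hP

lemma rat_ne {x : V₀} (hx : x ≠ 0) : ∃ y : V₀, f (rr P x) (rr P y) = 1 := by
  have h0 : rr P x ≠ 0 := rr_ne_zero hx
  obtain ⟨-, ⟨z, hz⟩⟩ := hf.nondegenerate _ h0
  have h1 : ∃ i, f (rr P x) (rr P (Pi.single i (1 : F₀))) ≠ 0 := by
    by_contra hcon
    push Not at hcon
    apply hz
    rw [expand_rat (P := P) (F₀ := F₀) z, fr_sum hf]
    exact Finset.sum_eq_zero fun i _ => by rw [hcon, mul_zero]
  obtain ⟨i, hi⟩ := h1
  obtain ⟨w, hw⟩ : ∃ w, w = f (rr P x) (rr P (Pi.single i (1 : F₀))) := ⟨_, rfl⟩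
  rw [← hw] at hi
  have hwm : w ∈ F₀ := hw ▸ hP _ _
  refine ⟨(⟨σ w⁻¹, fd.mem _ (inv_mem hwm)⟩ : F₀) • Pi.single i (1 : F₀), ?_⟩
  rw [rr_smul, fr_smul hf, ← hw]
  simp only [fd.inv]
  field_simp

/-- Orthonormal rational tuples. -/
theorem exists_orth (k : ℕ) (hk : k ≤ n) : ∃ c : Fin k → V₀, ∀ i j, f (rr P (c i)) (rr P (c j)) = if i = j then 1 else 0 := by
  classical
  induction k with
  | zero => exact ⟨Fin.elim0, fun i => i.elim0⟩
  | succ k ih =>
    obtain ⟨c, hc⟩ := ih (by omega)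
    -- a vector orthogonal to the tuple
    let L : V₀ →ₗ[F₀] (Fin k → F₀) :=
      { toFun := fun x i => ⟨f (rr P x) (rr P (c i)), hP _ _⟩
        map_add' := fun a a' => by
          ext i
          simp [rr_add, hf.add_left]
        map_smul' := fun t a => by
          ext i
          simp [rr_smul, hf.smul_left] }
    have hker : LinearMap.ker L ≠ ⊥ := by
      apply LinearMap.ker_ne_bot_of_finrank_lt
      simp only [Module.finrank_fintype_fun_eq_card, Fintype.card_fin]
      omega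
    obtain ⟨x₀, hx₀, hx₀0⟩ := Submodule.exists_mem_ne_zero_of_ne_bot hker
    have hx₀c : ∀ i, f (rr P x₀) (rr P (c i)) = 0 := by
      intro i
      have := congrArg Subtype.val (congrFun (LinearMap.mem_ker.1 hx₀) i)
      simpa [L] using this
    obtain ⟨x, hxx, hxc⟩ : ∃ x : V₀, f (rr P x) (rr P x) ≠ 0 ∧ ∀ i, f (rr P x) (rr P (c i)) = 0 := by
      by_cases hs : f (rr P x₀) (rr P x₀) = 0
      · obtain ⟨y₁, hy₁⟩ := rat_ne hf fd hP hx₀0
        let y' : V₀ := y₁ - ∑ i, (⟨f (rr P y₁) (rr P (c i)), hP _ _⟩ : F₀) • c i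
        have hry' : rr P y' = rr P y₁ - ∑ i, f (rr P y₁) (rr P (c i)) • rr P (c i) := by
          simp only [y']
          rw [rr_sub, rr_sum]
        have hy'c : ∀ j, f (rr P y') (rr P (c j)) = 0 := by
          intro j
          rw [hry', fsl hf, f_sum_left hf]
          simp only [hc, mul_ite, mul_one, mul_zero]
          simp
        have hx₀y' : f (rr P x₀) (rr P y') = 1 := by
          rw [hry', fsr hf, fr_sum hf, hy₁]
          simp only [hx₀c, mul_zero]
          simp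
        have hy'x₀ : f (rr P y') (rr P x₀) = 1 := by
          rw [hf.herm, hx₀y', map_one]
        by_cases hs' : f (rr P y') (rr P y') = 0
        · obtain ⟨t, ht, htr⟩ := fd.exists_tr_ne
          refine ⟨x₀ + (⟨t, ht⟩ : F₀) • y', ?_, fun i => ?_⟩
          · rw [rr_add, rr_smul]
            simp only [fr_add hf, fr_smul hf, hf.add_left, hf.smul_left, hs, hs', hx₀y', hy'x₀]
            intro h0
            apply htr
            linear_combination h0
          · rw [rr_add, rr_smul, hf.add_left, hf.smul_left, hx₀c, hy'c]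
            ring
        · exact ⟨y', hs', hy'c⟩
      · exact ⟨x₀, hs, hx₀c⟩
    -- normalise
    have hxm : f (rr P x) (rr P x) ∈ F₀ := hP _ _
    obtain ⟨l, hl, hN⟩ := fd.nrm ((f (rr P x) (rr P x))⁻¹) (inv_mem hxm) (by
      rw [map_inv₀, ← hf.herm])
    obtain ⟨x', hx'⟩ : ∃ x' : V₀, x' = (⟨l, hl⟩ : F₀) • x := ⟨_, rfl⟩
    have hrx' : rr P x' = l • rr P x := by
      rw [hx', rr_smul]
    have hx'x' : f (rr P x') (rr P x') = 1 := by
      rw [hrx', fr_smul hf, hf.smul_left]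
      have e : σ l * (l * f (rr P x) (rr P x)) = (l * σ l) * f (rr P x) (rr P x) := by ring
      rw [e, hN]
      field_simp
    have hx'c : ∀ i, f (rr P x') (rr P (c i)) = 0 := by
      intro i
      rw [hrx', hf.smul_left, hxc, mul_zero]
    have hcx' : ∀ i, f (rr P (c i)) (rr P x') = 0 := fun i => anti hf (hx'c i)
    refine ⟨Fin.snoc c x', fun i j => ?_⟩
    induction i using Fin.lastCases with
    | last =>
      induction j using Fin.lastCases with
      | last =>
        simp [hx'x']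
      | cast j =>
        simp only [Fin.snoc_last, Fin.snoc_castSucc, hx'c]
        rw [if_neg]
        exact (Fin.castSucc_lt_last j).ne'
    | cast i =>
      induction j using Fin.lastCases with
      | last =>
        simp only [Fin.snoc_last, Fin.snoc_castSucc, hcx']
        rw [if_neg]
        exact (Fin.castSucc_lt_last i).ne
      | cast j =>
        simp only [Fin.snoc_castSucc, hc]
        simp only [Fin.castSucc_inj]

end orth

/-- The subfield group is maximal in `SU`. -/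
theorem su_max {q : ℕ} (hS : HS F q σ) (fd : FD F₀ σ) (hn : 6 ≤ n) (hP : IsFormRationalStructure (hermForm n F q) F₀ 1 P) :
    IsMaximalIn (GU n F q ⊓ specialLinear (Fin n) F) (subfieldSubgroup F₀ P ⊓ (GU n F q ⊓ specialLinear (Fin n) F)) := by
  classical
  have hf : IsUnitaryForm σ (hermForm n F q) := Cfsg.Agent.H28.herm_unitary hS
  obtain ⟨f, hfdef⟩ : ∃ f, f = hermForm n F q := ⟨_, rfl⟩
  rw [← hfdef] at hf hP
  have hGU : ∀ g : GG, g ∈ GU n F q ↔ IsoF f g := by
    intro g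
    rw [hfdef]
    exact Iff.rfl
  have hP' : ∀ u v : Fin n → F₀, f (rr P u) (rr P v) ∈ F₀ := by
    intro u v
    have := hP (co u) (co v) (fun i => (u i).2) (fun i => (v i).2)
    rwa [one_mul] at this
  obtain ⟨c, hc⟩ := exists_orth hf fd hP' n le_rfl
  obtain ⟨b, hbd⟩ : ∃ b : Fin n → Fin n → F, b = fun i => rr P (c i) := ⟨_, rfl⟩
  have ob : OB σ f F₀ b := ⟨hf, fd, by
    intro i j
    rw [hbd]
    exact hc i j⟩
  have hrat : ∀ x, Rat f F₀ b x ↔ ∃ u : V₀, x = rr P u := by
    intro x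
    constructor
    · intro hx
      refine ⟨∑ i, (⟨f x (b i), hx i⟩ : F₀) • c i, ?_⟩
      rw [rr_sum]
      conv_lhs => rw [ob.expand x]
      refine Finset.sum_congr rfl fun i _ => ?_
      have e : b i = rr P (c i) := by rw [hbd]
      change f x (b i) • b i = f x (b i) • rr P (c i)
      rw [e]
    · rintro ⟨u, rfl⟩ i
      rw [hbd]
      exact hP' _ _
  have hnot : ∀ g : GG, (∃ μ : F, μ ≠ 0 ∧ ∀ x, Rat f F₀ b x → ∃ y, Rat f F₀ b y ∧ (g : Mat) *ᵥ x = μ • y) → g ∈ subfieldSubgroup F₀ P := by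
    rintro g ⟨μ, hμ, h⟩
    apply Cfsg.Agent.H27.RS.mem_of_rat hμ
    intro a
    obtain ⟨y, hy, e⟩ := h (rr P a) ((hrat _).2 ⟨a, rfl⟩)
    obtain ⟨u, rfl⟩ := (hrat y).1 hy
    exact ⟨u, e⟩
  constructor
  · rw [lt_iff_le_and_ne]
    refine ⟨inf_le_right, fun heq => ?_⟩
    obtain ⟨t, htS, hti, hnt⟩ := exists_nonmem ob (by omega)
    have h1 : t ∈ GU n F q ⊓ specialLinear (Fin n) F := ⟨(hGU t).2 hti, htS⟩
    rw [← heq] at h1
    obtain ⟨μ, hμ⟩ := Cfsg.Agent.H27.RS.rat_of_mem h1.1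
    apply hnt
    refine ⟨μ, μ.ne_zero, fun x hx => ?_⟩
    obtain ⟨a, rfl⟩ := (hrat x).1 hx
    obtain ⟨u, hu⟩ := hμ a
    exact ⟨rr P u, (hrat _).2 ⟨u, rfl⟩, hu⟩
  · intro M hHM hMSU
    by_cases hMH : M ≤ subfieldSubgroup F₀ P ⊓ (GU n F q ⊓ specialLinear (Fin n) F)
    · left
      exact le_antisymm hMH hHM
    right
    obtain ⟨g, hgM, hgH⟩ := SetLike.not_le_iff_exists.1 hMH
    have hgSU := hMSU hgM
    have hgnot : g ∉ subfieldSubgroup F₀ P := fun h => hgH ⟨h, hgSU⟩
    have hMD : MD σ f F₀ b M := ⟨ob, fun g hg => (hGU g).1 (hMSU hg).1, fun t htS hti hrt => by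
      apply hHM
      refine ⟨hnot t ⟨1, one_ne_zero, fun x hx => ⟨_, hrt x hx, ?_⟩⟩, (hGU t).2 hti, htS⟩
      rw [one_smul]⟩
    have hT : Cfsg.Agent.H27.SG.AllT hS M := Cfsg.Agent.H27.RU.allT_of hS (fun z hz κ hκ => by
      rw [← hfdef]
      exact main_T hMD hn hgM (fun h => hgnot (hnot g h)) (by rw [hfdef]; exact hz) κ hκ)
    exact le_antisymm hMSU (Cfsg.Agent.H27.SG.gsu_le hS (by omega) hT)

end Cfsg.Agent.H27.SH
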