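import Mathlib
import Cfsg.Prelude.Def_GeometricClasses
import Cfsg.Agent.Lib.H27.GeoMaxSp2
import Cfsg.Agent.Lib.H27.GeoOrth
import Cfsg.Agent.Lib.H27.GeoOPar2

/-!
# The stabiliser of a pair of complementary totally singular subspaces in `Sp`
-/

set_option autoImplicit false
set_option linter.unusedSectionVars false
set_option linter.unusedSimpArgs false
set_option linter.unusedVariables false

namespace Cfsg.Agent.H27.SD

open scoped Matrix MatrixGroups
open Cfsg Cfsg.Geo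
open Cfsg.Agent.Lead (sympT sympTmat sympTmat_mulVec sympForm_mulVec sympForm_self sympForm_swap sympForm_add_left
  sympForm_add_right sympForm_smul_left sympForm_smul_right sympForm_sub_right sympForm_nondeg conj_sympT sp_induction
  IsPartial tuple_transitive spTransGroup)
open Cfsg.Agent.H27.GO (gl_ext)
open Cfsg.Agent.H27.MS (tv tv_mulVec tv_mem toGL exists_toGL conj_tv spGL_le_of_tv mem_spGL_iff exists_riesz sf_zero_right
  sf_zero_left union_sub sympForm_nd sympForm_sum_right sympForm_sum_left)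

variable {m : ℕ} {F : Type*} [Field F]

local notation "sf" => Cfsg.Agent.Lead.sympForm
local notation "VV" => (Fin m ⊕ Fin m → F)
local notation "GG" => GL (Fin m ⊕ Fin m) F
local notation "Mat" => Matrix (Fin m ⊕ Fin m) (Fin m ⊕ Fin m) F

lemma sf_neg_r (x y : Fin m ⊕ Fin m → F) : sf x (-y) = - sf x y := by
  have := sympForm_smul_right (-1 : F) x y
  simpa using this

lemma sf_neg_l (x y : Fin m ⊕ Fin m → F) : sf (-x) y = - sf x y := by
  have := sympForm_smul_left (-1 : F) x y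
  simpa using this

lemma sf_sub_l (x y z : Fin m ⊕ Fin m → F) : sf (x - y) z = sf x z - sf y z := by
  rw [sub_eq_add_neg, sympForm_add_left, sf_neg_l, sub_eq_add_neg]

lemma sf_anti {x y : Fin m ⊕ Fin m → F} (h : sf x y = 0) : sf y x = 0 := by
  rw [sympForm_swap, h]
  simp

/-- A pair of complementary totally singular subspaces. -/
structure TSP (A B : Submodule F (Fin m ⊕ Fin m → F)) : Prop where
  tsA : ∀ x ∈ A, ∀ y ∈ A, sf x y = 0
  tsB : ∀ x ∈ B, ∀ y ∈ B, sf x y = 0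
  sup : ∀ x, ∃ a ∈ A, ∃ b ∈ B, x = a + b
  dimA : Module.finrank F A = m
  dimB : Module.finrank F B = m

theorem TSP.symm {A B : Submodule F (Fin m ⊕ Fin m → F)} (h : TSP A B) : TSP B A :=
  ⟨h.tsB, h.tsA, fun x => by
    obtain ⟨a, ha, b, hb, rfl⟩ := h.sup x
    exact ⟨b, hb, a, ha, add_comm _ _⟩, h.dimB, h.dimA⟩

theorem TSP.inf {A B : Submodule F (Fin m ⊕ Fin m → F)} (h : TSP A B) {x : Fin m ⊕ Fin m → F} (ha : x ∈ A) (hb : x ∈ B) :
    x = 0 := by
  by_contra h0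
  obtain ⟨⟨z, hz⟩, -⟩ := sympForm_nd (m := m) (F := F) x h0
  obtain ⟨a, ha', b, hb', rfl⟩ := h.sup z
  apply hz
  rw [sympForm_add_left, h.tsA a ha' x ha, h.tsB b hb' x hb, add_zero]

/-- Functionals on `A` are represented by vectors of `B`. -/
theorem TSP.rep {A B : Submodule F (Fin m ⊕ Fin m → F)} (h : TSP A B) (ψ : A →ₗ[F] F) :
    ∃ b ∈ B, ∀ a : A, sf (a : Fin m ⊕ Fin m → F) b = ψ a := by
  obtain ⟨g, hg⟩ := LinearMap.exists_extend ψ
  obtain ⟨u, hu⟩ := exists_riesz g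
  obtain ⟨a', ha', b, hb, rfl⟩ := h.sup u
  refine ⟨b, hb, fun a => ?_⟩
  have h1 := hu (a : Fin m ⊕ Fin m → F)
  rw [sympForm_add_right, h.tsA _ a.2 _ ha', zero_add] at h1
  rw [h1, ← hg]
  rfl

theorem TSP.sep {A B : Submodule F (Fin m ⊕ Fin m → F)} (h : TSP A B) {S : Submodule F (Fin m ⊕ Fin m → F)}
    {p : Fin m ⊕ Fin m → F} (hp : p ∈ A) (hpS : p ∉ S) (c : F) :
    ∃ b ∈ B, (∀ s ∈ S, s ∈ A → sf s b = 0) ∧ sf p b = c := by
  have hp' : (⟨p, hp⟩ : A) ∉ S.comap A.subtype := by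
    simpa using hpS
  obtain ⟨f, hf, hfS⟩ := Submodule.exists_le_ker_of_notMem hp'
  obtain ⟨y, hy, hyf⟩ := h.rep f
  refine ⟨(c / f ⟨p, hp⟩) • y, B.smul_mem _ hy, fun s hs hsA => ?_, ?_⟩
  · have h1 : f ⟨s, hsA⟩ = 0 := hfS (by simpa using hs)
    have h2 := hyf ⟨s, hsA⟩
    rw [sympForm_smul_right]
    change sf s y = _ at h2
    rw [h2, h1, mul_zero]
  · have h2 := hyf ⟨p, hp⟩
    rw [sympForm_smul_right]
    change sf p y = _ at h2
    rw [h2]
    field_simp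

theorem exists_perp_ne (Y S : Submodule F (Fin m ⊕ Fin m → F)) {r : ℕ} (p : Fin r → Fin m ⊕ Fin m → F)
    (hd : Module.finrank F S + r < Module.finrank F Y) : ∃ y ∈ Y, (∀ i, sf (p i) y = 0) ∧ y ∉ S := by
  let L : Y →ₗ[F] (Fin r → F) :=
    { toFun := fun y i => sf (p i) y
      map_add' := fun a b => by
        ext i
        exact sympForm_add_right (p i) (a : Fin m ⊕ Fin m → F) (b : Fin m ⊕ Fin m → F)
      map_smul' := fun c a => by
        ext i
        exact sympForm_smul_right c (p i) (a : Fin m ⊕ Fin m → F) }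
  have h1 := LinearMap.finrank_range_add_finrank_ker L
  have h2 : Module.finrank F (LinearMap.range L) ≤ r := by
    have := Submodule.finrank_le (LinearMap.range L)
    simpa using this
  have h3 : Module.finrank F ((LinearMap.ker L).map Y.subtype) = Module.finrank F (LinearMap.ker L) :=
    Submodule.finrank_map_subtype_eq _ _
  have h4 : ¬ ((LinearMap.ker L).map Y.subtype ≤ S) := fun hle => by
    have := Submodule.finrank_mono hle
    omega
  obtain ⟨y, hy, hyS⟩ := SetLike.not_le_iff_exists.1 h4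
  obtain ⟨y', hy', rfl⟩ := hy
  refine ⟨y', y'.2, fun i => ?_, hyS⟩
  have := congrFun (LinearMap.mem_ker.1 hy') i
  exact this

theorem exists_avoid {A B : Submodule F (Fin m ⊕ Fin m → F)} (h : TSP A B) (hm : 3 ≤ m) {p w : Fin m ⊕ Fin m → F}
    (hp : p ∈ A) (hp0 : p ≠ 0) : ∃ v ∈ B, sf p v = 1 ∧ v ∉ Submodule.span F {w} := by
  obtain ⟨v₀, hv₀, -, hv₀p⟩ := h.sep (S := ⊥) hp (by simpa using hp0) 1
  have hd : Module.finrank F (Submodule.span F {w}) + 1 < Module.finrank F B := by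
    have : Module.finrank F (Submodule.span F {w}) ≤ 1 := finrank_span_le_card _ |>.trans (by simp)
    rw [h.dimB]
    omega
  obtain ⟨k, hk, hkp, hkS⟩ := exists_perp_ne B (Submodule.span F {w}) ![p] hd
  have hkp' : sf p k = 0 := hkp 0
  by_cases hv : v₀ ∈ Submodule.span F {w}
  · refine ⟨v₀ + k, B.add_mem hv₀ hk, ?_, ?_⟩
    · rw [sympForm_add_right, hv₀p, hkp', add_zero]
    · intro hm'
      apply hkS
      have := Submodule.sub_mem _ hm' hv
      simpa using this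
  · exact ⟨v₀, hv₀, hv₀p, hv⟩

theorem not_mem_span_comm {x y : Fin m ⊕ Fin m → F} (hy : y ≠ 0) (h : x ∉ Submodule.span F {y}) :
    y ∉ Submodule.span F {x} := by
  intro hm
  obtain ⟨c, rfl⟩ := Submodule.mem_span_singleton.1 hm
  apply h
  have hc : c ≠ 0 := by
    rintro rfl
    exact hy (zero_smul _ _)
  rw [Submodule.mem_span_singleton]
  exact ⟨c⁻¹, by rw [smul_smul, inv_mul_cancel₀ hc, one_smul]⟩

/-- Choosing `u ∈ A`, `v ∈ B` adapted to a mixed vector. -/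
theorem mix_pair {A B : Submodule F (Fin m ⊕ Fin m → F)} (h : TSP A B) (hm : 3 ≤ m) {x₀ x₁ : Fin m ⊕ Fin m → F}
    (h0 : x₀ ∈ A) (h1 : x₁ ∈ B) (hx₀ : x₀ ≠ 0) (hx₁ : x₁ ≠ 0) :
    ∃ u ∈ A, ∃ v ∈ B, sf u v = 0 ∧ sf (x₀ + x₁) u = 1 ∧ sf (x₀ + x₁) v = 1 := by
  obtain ⟨v, hv, hx₀v, hvn⟩ := exists_avoid h hm (w := x₁) h0 hx₀
  have hn := not_mem_span_comm hx₁ hvn
  obtain ⟨u, hu, huS, hx₁u⟩ := h.symm.sep (S := Submodule.span F {v}) h1 hn 1
  have hvu : sf v u = 0 := huS v (Submodule.mem_span_singleton_self v) hv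
  refine ⟨u, hu, v, hv, sf_anti hvu, ?_, ?_⟩
  · rw [sympForm_add_left, h.tsA _ h0 _ hu, hx₁u, zero_add]
  · rw [sympForm_add_left, h.tsB _ h1 _ hv, hx₀v, add_zero]

/-- The short root element. -/
theorem exists_rho {u v : Fin m ⊕ Fin m → F} (huv : sf u v = 0) :
    ∃ r ∈ spGL m F, ∀ x, (r : Mat) *ᵥ x = x + sf x v • u + sf x u • v := by
  have hvu : sf v u = 0 := sf_anti huv
  refine ⟨tv (u + v) 1 * tv u (-1) * tv v (-1), (spGL m F).mul_mem ((spGL m F).mul_mem (tv_mem _ _) (tv_mem _ _)) (tv_mem _ _), fun x => ?_⟩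
  rw [Units.val_mul, Units.val_mul, ← Matrix.mulVec_mulVec, ← Matrix.mulVec_mulVec, tv_mulVec, tv_mulVec, tv_mulVec]
  simp only [sympForm_add_left, sympForm_add_right, sympForm_smul_left, sympForm_self, huv, hvu, mul_zero, add_zero,
    zero_add]
  ext i
  simp only [Pi.add_apply, Pi.smul_apply, smul_eq_mul]
  ring

/-- The generalised root elements in a fixed Heisenberg group. -/
def Hz (M : Subgroup GG) (y c : Fin m ⊕ Fin m → F) (μ : F) : Prop :=
  ∃ e ∈ M, ∀ x, (e : Mat) *ᵥ x = x + sf x y • c + sf x c • y + (μ * sf x y) • y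

theorem Hz.mul {M : Subgroup GG} {y c₁ c₂ : Fin m ⊕ Fin m → F} {μ₁ μ₂ : F} (hc₁ : sf c₁ y = 0) (hc₂ : sf c₂ y = 0)
    (h₁ : Hz M y c₁ μ₁) (h₂ : Hz M y c₂ μ₂) : Hz M y (c₁ + c₂) (μ₁ + μ₂ + sf c₂ c₁) := by
  obtain ⟨e₁, he₁, hx₁⟩ := h₁
  obtain ⟨e₂, he₂, hx₂⟩ := h₂
  refine ⟨e₁ * e₂, M.mul_mem he₁ he₂, fun x => ?_⟩
  have hy₁ : sf y c₁ = 0 := sf_anti hc₁
  rw [Units.val_mul, ← Matrix.mulVec_mulVec, hx₂, hx₁]
  simp only [sympForm_add_left, sympForm_add_right, sympForm_smul_left, sympForm_self, hc₂, hy₁, mul_zero, add_zero,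
    zero_add]
  ext i
  simp only [Pi.add_apply, Pi.smul_apply, smul_eq_mul]
  ring

theorem Hz.sub {M : Subgroup GG} {y c : Fin m ⊕ Fin m → F} {μ μ' : F} (hc : sf c y = 0) (h : Hz M y c μ)
    (h' : Hz M y c μ') : tv y (μ - μ') ∈ M := by
  obtain ⟨e, he, hx⟩ := h
  obtain ⟨e', he', hx'⟩ := h'
  have : tv y (μ - μ') = e * e'⁻¹ := by
    rw [eq_mul_inv_iff_mul_eq]
    apply gl_ext
    intro x
    rw [Units.val_mul, ← Matrix.mulVec_mulVec, hx', hx, tv_mulVec]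
    simp only [sympForm_add_left, sympForm_add_right, sympForm_smul_left, sympForm_self, hc, sf_anti hc, mul_zero, add_zero,
      zero_add]
    ext i
    simp only [Pi.add_apply, Pi.smul_apply, smul_eq_mul]
    ring
  rw [this]
  exact M.mul_mem he (M.inv_mem he')

theorem Hz.comm {M : Subgroup GG} {y c₁ c₂ : Fin m ⊕ Fin m → F} {μ₁ μ₂ : F} (hc₁ : sf c₁ y = 0) (hc₂ : sf c₂ y = 0)
    (h₁ : Hz M y c₁ μ₁) (h₂ : Hz M y c₂ μ₂) : tv y (2 * sf c₂ c₁) ∈ M := by
  have h3 := Hz.mul hc₁ hc₂ h₁ h₂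
  have h4 := Hz.mul hc₂ hc₁ h₂ h₁
  rw [add_comm c₂ c₁] at h4
  have hc : sf (c₁ + c₂) y = 0 := by rw [sympForm_add_left, hc₁, hc₂, add_zero]
  have h5 := Hz.sub hc h3 h4
  have e : μ₁ + μ₂ + sf c₂ c₁ - (μ₂ + μ₁ + sf c₁ c₂) = 2 * sf c₂ c₁ := by
    rw [sympForm_swap c₁ c₂]
    ring
  rwa [e] at h5

theorem Hz.conj {M : Subgroup GG} {y c : Fin m ⊕ Fin m → F} {μ : F} (h : Hz M y c μ) {k : GG} (hk : k ∈ M)
    (hs : k ∈ spGL m F) : Hz M ((k : Mat) *ᵥ y) ((k : Mat) *ᵥ c) μ := by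
  obtain ⟨e, he, hx⟩ := h
  refine ⟨k * e * k⁻¹, M.mul_mem (M.mul_mem hk he) (M.inv_mem hk), fun x => ?_⟩
  have hx' : (k : Mat) *ᵥ (((k⁻¹ : GG) : Mat) *ᵥ x) = x := by
    rw [Matrix.mulVec_mulVec]
    simp
  have hi := mem_spGL_iff.1 hs
  have h1 := hi (((k⁻¹ : GG) : Mat) *ᵥ x) y
  have h2 := hi (((k⁻¹ : GG) : Mat) *ᵥ x) c
  rw [hx'] at h1 h2
  rw [Units.val_mul, Units.val_mul, ← Matrix.mulVec_mulVec, ← Matrix.mulVec_mulVec, hx]
  simp only [Matrix.mulVec_add, Matrix.mulVec_smul]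
  rw [hx', ← h1, ← h2]

theorem conj_tv' {g : GG} (hg : g ∈ spGL m F) (u : Fin m ⊕ Fin m → F) (c : F) :
    g * tv u c * g⁻¹ = tv ((g : Mat) *ᵥ u) c := by
  obtain ⟨A, rfl⟩ := exists_toGL hg
  exact conj_tv A u c

theorem tv_conj_mem {M : Subgroup GG} {g : GG} (hg : g ∈ M) (hs : g ∈ spGL m F) {u : Fin m ⊕ Fin m → F} {c : F}
    (h : tv u c ∈ M) : tv ((g : Mat) *ᵥ u) c ∈ M := by
  rw [← conj_tv' hs]
  exact M.mul_mem (M.mul_mem hg h) (M.inv_mem hg)

theorem tv_neg (u : Fin m ⊕ Fin m → F) (c : F) : tv u (-c) = (tv u c)⁻¹ := by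
  rw [eq_inv_iff_mul_eq_one]
  apply gl_ext
  intro x
  rw [Units.val_mul, ← Matrix.mulVec_mulVec, tv_mulVec, tv_mulVec]
  simp only [sympForm_add_left, sympForm_smul_left, sympForm_self, mul_zero, add_zero]
  simp only [Units.val_one, Matrix.one_mulVec]
  ext i
  simp only [Pi.add_apply, Pi.smul_apply, smul_eq_mul]
  ring

theorem tv_add (u : Fin m ⊕ Fin m → F) (c d : F) : tv u (c + d) = tv u c * tv u d := by
  apply gl_ext
  intro x
  rw [Units.val_mul, ← Matrix.mulVec_mulVec, tv_mulVec, tv_mulVec, tv_mulVec]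
  simp only [sympForm_add_left, sympForm_smul_left, sympForm_self, mul_zero, add_zero]
  ext i
  simp only [Pi.add_apply, Pi.smul_apply, smul_eq_mul]
  ring

theorem tv_smul (a : F) (u : Fin m ⊕ Fin m → F) (c : F) : tv (a • u) c = tv u (c * a ^ 2) := by
  apply gl_ext
  intro x
  rw [tv_mulVec, tv_mulVec, sympForm_smul_right, smul_smul]
  congr 2
  ring

theorem tv_zero (c : F) : tv (0 : Fin m ⊕ Fin m → F) c = 1 := by
  apply gl_ext
  intro x
  rw [tv_mulVec]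
  simp

/-- The set-up: the subgroup contains the short root elements of the Levi factor. -/
def HR (M : Subgroup GG) (A B : Submodule F (Fin m ⊕ Fin m → F)) : Prop :=
  ∀ u ∈ A, ∀ v ∈ B, sf u v = 0 → ∃ r ∈ M, r ∈ spGL m F ∧ ∀ x, (r : Mat) *ᵥ x = x + sf x v • u + sf x u • v

theorem HR.symm {M : Subgroup GG} {A B : Submodule F (Fin m ⊕ Fin m → F)} (h : HR M A B) : HR M B A := by
  intro u hu v hv huv
  obtain ⟨r, hr, hs, hx⟩ := h v hv u hu (sf_anti huv)
  refine ⟨r, hr, hs, fun x => ?_⟩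
  rw [hx]
  ext i
  simp only [Pi.add_apply, Pi.smul_apply, smul_eq_mul]
  ring

theorem sf_inv {g : GG} (hs : g ∈ spGL m F) (x y : Fin m ⊕ Fin m → F) :
    sf (((g⁻¹ : GG) : Mat) *ᵥ x) y = sf x ((g : Mat) *ᵥ y) := by
  have h1 := mem_spGL_iff.1 hs (((g⁻¹ : GG) : Mat) *ᵥ x) y
  rw [← h1, Matrix.mulVec_mulVec]
  simp

theorem inv_cancel (g : GG) (x : Fin m ⊕ Fin m → F) : (g : Mat) *ᵥ (((g⁻¹ : GG) : Mat) *ᵥ x) = x := by
  rw [Matrix.mulVec_mulVec]
  simp

theorem inv_cancel' (g : GG) (x : Fin m ⊕ Fin m → F) : ((g⁻¹ : GG) : Mat) *ᵥ ((g : Mat) *ᵥ x) = x := by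
  rw [Matrix.mulVec_mulVec]
  simp

/-- First step: a mixed image gives a transvection. -/
theorem step1 {A B : Submodule F (Fin m ⊕ Fin m → F)} (h : TSP A B) (hm : 4 ≤ m) {M : Subgroup GG} (hR : HR M A B)
    {g : GG} (hg : g ∈ M) (hs : g ∈ spGL m F) {a x₀ x₁ : Fin m ⊕ Fin m → F} (ha : a ∈ A) (h0 : x₀ ∈ A) (h1 : x₁ ∈ B)
    (hx₀ : x₀ ≠ 0) (hx₁ : x₁ ≠ 0) (hga : (g : Mat) *ᵥ a = x₀ + x₁) :
    ∃ y : Fin m ⊕ Fin m → F, y ≠ 0 ∧ tv y (-4) ∈ M := by
  obtain ⟨u, hu, v, hv, huv, hxu, hxv⟩ := mix_pair h (by omega) h0 h1 hx₀ hx₁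
  have hd : Module.finrank F (⊥ : Submodule F (Fin m ⊕ Fin m → F)) + 3 < Module.finrank F B := by
    rw [h.dimB, finrank_bot]
    omega
  obtain ⟨b, hb, hbp, hb0⟩ := exists_perp_ne B ⊥ ![a, ((g⁻¹ : GG) : Mat) *ᵥ u, ((g⁻¹ : GG) : Mat) *ᵥ v] hd
  have hab : sf a b = 0 := hbp 0
  have hub : sf (((g⁻¹ : GG) : Mat) *ᵥ u) b = 0 := hbp 1
  have hvb : sf (((g⁻¹ : GG) : Mat) *ᵥ v) b = 0 := hbp 2
  have hb0' : b ≠ 0 := by simpa using hb0
  set y := (g : Mat) *ᵥ b with hy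
  have hy0 : y ≠ 0 := by
    intro h2
    apply hb0'
    have := inv_cancel' g b
    rw [← this, ← hy, h2]
    simp
  refine ⟨y, hy0, ?_⟩
  obtain ⟨r₀, hr₀, -, hr₀x⟩ := hR a ha b hb hab
  have hH : Hz M b a 0 := ⟨r₀, hr₀, fun x => by rw [hr₀x]; simp⟩
  have hH1 := hH.conj hg hs
  rw [hga, ← hy] at hH1
  set x := x₀ + x₁ with hx
  obtain ⟨r, hr, hrs, hrx⟩ := hR u hu v hv huv
  have huy : sf u y = 0 := by
    rw [hy, ← sf_inv hs]
    exact hub
  have hvy : sf v y = 0 := by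
    rw [hy, ← sf_inv hs]
    exact hvb
  have hyy : (r : Mat) *ᵥ y = y := by
    rw [hrx, sf_anti hvy, sf_anti huy]
    simp
  have hH2 := hH1.conj hr hrs
  rw [hyy, hrx, hxv, hxu, one_smul, one_smul] at hH2
  have hxy : sf x y = 0 := by
    rw [← hga, hy, mem_spGL_iff.1 hs, hab]
  have hc2 : sf (x + u + v) y = 0 := by
    rw [sympForm_add_left, sympForm_add_left, hxy, huy, hvy]
    simp
  have h3 := Hz.comm hxy hc2 hH1 hH2
  have e : 2 * sf (x + u + v) x = -4 := by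
    rw [sympForm_add_left, sympForm_add_left, sympForm_self, sympForm_swap u x, sympForm_swap v x, hxu, hxv]
    ring
  rwa [e] at h3

/-- Second step: from a mixed centre to a centre in `A`. -/
theorem step2 {A B : Submodule F (Fin m ⊕ Fin m → F)} (h : TSP A B) (hm : 4 ≤ m) {M : Subgroup GG} (hR : HR M A B)
    {y₀ y₁ : Fin m ⊕ Fin m → F} {l : F} (h0 : y₀ ∈ A) (h1 : y₁ ∈ B) (hy₀ : y₀ ≠ 0) (hy₁ : y₁ ≠ 0)
    (ht : tv (y₀ + y₁) l ∈ M) : ∃ d ∈ A, d ≠ 0 ∧ tv d (-4 * l ^ 2) ∈ M := by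
  obtain ⟨u, hu, v, hv, huv, hyu, hyv⟩ := mix_pair h (by omega) h0 h1 hy₀ hy₁
  have hd : Module.finrank F (Submodule.span F {y₀}) + 2 < Module.finrank F A := by
    have : Module.finrank F (Submodule.span F {y₀}) ≤ 1 := finrank_span_le_card _ |>.trans (by simp)
    rw [h.dimA]
    omega
  obtain ⟨d, hdA, hdp, hdn⟩ := exists_perp_ne A (Submodule.span F {y₀}) ![y₁, v] hd
  have hy₁d : sf y₁ d = 0 := hdp 0
  have hvd : sf v d = 0 := hdp 1
  have hd0 : d ≠ 0 := by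
    rintro rfl
    exact hdn (Submodule.zero_mem _)
  refine ⟨d, hdA, hd0, ?_⟩
  set y := y₀ + y₁ with hy
  have hyd : sf y d = 0 := by
    rw [hy, sympForm_add_left, h.tsA _ h0 _ hdA, hy₁d, add_zero]
  have hn := not_mem_span_comm hy₀ hdn
  obtain ⟨v₁, hv₁, hv₁S, hy₀v₁⟩ := h.sep (S := Submodule.span F {d}) h0 hn 1
  have hdv₁ : sf d v₁ = 0 := hv₁S d (Submodule.mem_span_singleton_self d) hdA
  obtain ⟨r₁, hr₁, hr₁s, hr₁x⟩ := hR d hdA v₁ hv₁ hdv₁
  have hr₁y : (r₁ : Mat) *ᵥ y = y + d := by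
    rw [hr₁x, hyd, hy, sympForm_add_left, hy₀v₁, h.tsB _ h1 _ hv₁]
    simp
  have ht2 := tv_conj_mem hr₁ hr₁s ht
  rw [hr₁y] at ht2
  have hH : Hz M d (l • y) l := by
    refine ⟨tv (y + d) l * tv y (-l), M.mul_mem ht2 (by rw [tv_neg]; exact M.inv_mem ht), fun x => ?_⟩
    rw [Units.val_mul, ← Matrix.mulVec_mulVec, tv_mulVec, tv_mulVec]
    simp only [sympForm_add_left, sympForm_add_right, sympForm_smul_left, sympForm_smul_right, sympForm_self, hyd, mul_zero,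
      add_zero, zero_add]
    ext i
    simp only [Pi.add_apply, Pi.smul_apply, smul_eq_mul]
    ring
  obtain ⟨r, hr, hrs, hrx⟩ := hR u hu v hv huv
  have hrd : (r : Mat) *ᵥ d = d := by
    rw [hrx, sf_anti hvd, h.tsA _ hdA _ hu]
    simp
  have hH2 := hH.conj hr hrs
  rw [hrd, Matrix.mulVec_smul, hrx, hyv, hyu, one_smul, one_smul] at hH2
  have hc1 : sf (l • y) d = 0 := by
    rw [sympForm_smul_left, hyd, mul_zero]
  have hc2 : sf (l • (y + u + v)) d = 0 := by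
    rw [sympForm_smul_left, sympForm_add_left, sympForm_add_left, hyd, h.tsA _ hu _ hdA, hvd]
    simp
  have h3 := Hz.comm hc1 hc2 hH hH2
  have e : 2 * sf (l • (y + u + v)) (l • y) = -4 * l ^ 2 := by
    rw [sympForm_smul_left, sympForm_smul_right, sympForm_add_left, sympForm_add_left, sympForm_self, sympForm_swap u y,
      sympForm_swap v y, hyu, hyv]
    ring
  rwa [e] at h3

/-- Third step: all vectors of `A`, with all scalars. -/
theorem step3 {A B : Submodule F (Fin m ⊕ Fin m → F)} (h : TSP A B) (hm : 3 ≤ m) {M : Subgroup GG} (hR : HR M A B)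
    (h2 : (2 : F) ≠ 0) {d : Fin m ⊕ Fin m → F} {k : F} (hd : d ∈ A) (hd0 : d ≠ 0) (hk : k ≠ 0) (ht : tv d k ∈ M) :
    ∀ w ∈ A, ∀ c, tv w c ∈ M := by
  have hmove : ∀ a ∈ A, a ≠ 0 → ∀ w ∈ A, w ∉ Submodule.span F {a} → tv a k ∈ M → tv w k ∈ M := by
    intro a ha ha0 w hw hwn hta
    have hn := not_mem_span_comm ha0 hwn
    obtain ⟨v₁, hv₁, hv₁S, hav₁⟩ := h.sep (S := Submodule.span F {w}) ha hn 1
    obtain ⟨v₂, hv₂, hv₂S, hwv₂⟩ := h.sep (S := Submodule.span F {a}) hw hwn 1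
    have hwv₁ : sf w v₁ = 0 := hv₁S w (Submodule.mem_span_singleton_self w) hw
    have hav₂ : sf a v₂ = 0 := hv₂S a (Submodule.mem_span_singleton_self a) ha
    have hav : sf a (v₁ + v₂) = 1 := by rw [sympForm_add_right, hav₁, hav₂, add_zero]
    have hwv : sf w (v₁ + v₂) = 1 := by rw [sympForm_add_right, hwv₁, hwv₂, zero_add]
    have hwa : sf (w - a) (v₁ + v₂) = 0 := by rw [sf_sub_l, hav, hwv, sub_self]
    obtain ⟨r, hr, hrs, hrx⟩ := hR (w - a) (A.sub_mem hw ha) (v₁ + v₂) (B.add_mem hv₁ hv₂) hwa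
    have hra : (r : Mat) *ᵥ a = w := by
      rw [hrx, hav, sympForm_sub_right, sympForm_self, h.tsA _ ha _ hw]
      simp
    have := tv_conj_mem hr hrs hta
    rwa [hra] at this
  have hall : ∀ w ∈ A, tv w k ∈ M := by
    intro w hw
    by_cases hw0 : w = 0
    · rw [hw0, tv_zero]
      exact M.one_mem
    by_cases hwd : w ∈ Submodule.span F {d}
    · have hf : Module.finrank F (Submodule.span F {d}) + 0 < Module.finrank F A := by
        have : Module.finrank F (Submodule.span F {d}) ≤ 1 := finrank_span_le_card _ |>.trans (by simp)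
        rw [h.dimA]
        omega
      obtain ⟨d', hd', -, hd'n⟩ := exists_perp_ne A (Submodule.span F {d}) ![] hf
      have h3 := hmove d hd hd0 d' hd' hd'n ht
      have hd'0 : d' ≠ 0 := by
        rintro rfl
        exact hd'n (Submodule.zero_mem _)
      refine hmove d' hd' hd'0 w hw ?_ h3
      intro hm'
      obtain ⟨c, rfl⟩ := Submodule.mem_span_singleton.1 hm'
      apply hd'n
      have hc : c ≠ 0 := by
        rintro rfl
        exact hw0 (zero_smul _ _)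
      have h5 := Submodule.smul_mem _ c⁻¹ hwd
      rwa [smul_smul, inv_mul_cancel₀ hc, one_smul] at h5
    · exact hmove d hd hd0 w hw hwd ht
  have hsq : ∀ w ∈ A, ∀ a : F, tv w (k * a ^ 2) ∈ M := by
    intro w hw a
    rw [← tv_smul]
    exact hall _ (A.smul_mem _ hw)
  intro w hw c
  have e : c = k * ((c / k + 1) / 2) ^ 2 + -(k * ((c / k - 1) / 2) ^ 2) := by
    field_simp
    ring
  rw [e, tv_add, tv_neg]
  exact M.mul_mem (hsq w hw _) (M.inv_mem (hsq w hw _))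

/-- Fourth step: all transvections. -/
theorem step4 {A B : Submodule F (Fin m ⊕ Fin m → F)} (h : TSP A B) {M : Subgroup GG} (hA : ∀ w ∈ A, ∀ c, tv w c ∈ M)
    (hB : ∀ w ∈ B, ∀ c, tv w c ∈ M) (u : Fin m ⊕ Fin m → F) (c : F) : tv u c ∈ M := by
  have hconj : ∀ w a : Fin m ⊕ Fin m → F, ∀ s : F, (∀ c, tv w c ∈ M) → tv w s ∈ M → (∀ c, tv a c ∈ M) →
      ∀ c, tv (((tv w s : GG) : Mat) *ᵥ a) c ∈ M := fun w a s _ h1 h2 c => tv_conj_mem h1 (tv_mem _ _) (h2 c)
  have hgood : ∀ a ∈ A, ∀ b ∈ B, sf b a ≠ 0 → ∀ c, tv (a + b) c ∈ M := by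
    intro a ha b hb hba c
    have h1 := hconj a b (sf b a)⁻¹ (hA a ha) (hA a ha _) (hB b hb) c
    have e : ((tv a (sf b a)⁻¹ : GG) : Mat) *ᵥ b = a + b := by
      rw [tv_mulVec, inv_mul_cancel₀ hba, one_smul, add_comm]
    rwa [e] at h1
  obtain ⟨u₀, hu₀, u₁, hu₁, rfl⟩ := h.sup u
  by_cases h0 : sf u₁ u₀ = 0
  · by_cases h00 : u₀ = 0
    · rw [h00, zero_add]
      exact hB _ hu₁ _
    by_cases h01 : u₁ = 0
    · rw [h01, add_zero]
      exact hA _ hu₀ _
    obtain ⟨a₁, ha₁, -, h1a₁⟩ := h.symm.sep (S := ⊥) hu₁ (by simpa using h01) 1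
    have hx := hgood a₁ ha₁ u₁ hu₁ (by rw [h1a₁]; exact one_ne_zero)
    have h3 := hconj (u₀ - a₁) (a₁ + u₁) (-1) (hA _ (A.sub_mem hu₀ ha₁)) (hA _ (A.sub_mem hu₀ ha₁) _) hx c
    have e : ((tv (u₀ - a₁) (-1) : GG) : Mat) *ᵥ (a₁ + u₁) = u₀ + u₁ := by
      rw [tv_mulVec, sympForm_sub_right, sympForm_add_left, sympForm_add_left, h.tsA _ ha₁ _ hu₀, h.tsA _ ha₁ _ ha₁, h0, h1a₁]
      ext i
      simp only [Pi.add_apply, Pi.smul_apply, Pi.sub_apply, smul_eq_mul]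
      ring
    rwa [e] at h3
  · exact hgood u₀ hu₀ u₁ hu₁ h0 c

/-- A vector orthogonal to `A` lies in `A`. -/
theorem perp_mem {A B : Submodule F (Fin m ⊕ Fin m → F)} (h : TSP A B) {x : Fin m ⊕ Fin m → F} (hx : ∀ a ∈ A, sf a x = 0) :
    x ∈ A := by
  obtain ⟨a', ha', b', hb', rfl⟩ := h.sup x
  have hb0 : b' = 0 := by
    by_contra h0
    obtain ⟨⟨z, hz⟩, -⟩ := sympForm_nd (m := m) (F := F) b' h0
    obtain ⟨a, ha, b, hb, rfl⟩ := h.sup z
    apply hz
    have h1 := hx a ha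
    rw [sympForm_add_right, h.tsA _ ha _ ha', zero_add] at h1
    rw [sympForm_add_left, h1, h.tsB _ hb _ hb', add_zero]
  rw [hb0, add_zero]
  exact ha'

/-- An element of `Sp` interchanging the two subspaces. -/
theorem exists_swap [Fintype F] {A B : Submodule F (Fin m ⊕ Fin m → F)} (h : TSP A B) :
    ∃ s ∈ spGL m F, (∀ x ∈ A, (s : Mat) *ᵥ x ∈ B) ∧ ∀ x ∈ B, (s : Mat) *ᵥ x ∈ A := by
  classical
  let e : Module.Basis (Fin m) F A := Module.finBasisOfFinrankEq F A h.dimA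
  have hb : ∀ i, ∃ b ∈ B, ∀ a : A, sf (a : Fin m ⊕ Fin m → F) b = -(e.coord i a) := fun i => h.rep (-(e.coord i))
  choose b hbB hbv using hb
  let E : Fin m → Fin m ⊕ Fin m → F := fun i => (e i : Fin m ⊕ Fin m → F)
  have hE : ∀ i, E i ∈ A := fun i => (e i).2
  have hEb : ∀ i j, sf (E i) (b j) = if i = j then -1 else 0 := by
    intro i j
    have := hbv j (e i)
    rw [show sf (E i) (b j) = _ from this]
    simp [Module.Basis.coord_apply, Finsupp.single_apply]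
    split_ifs <;> simp
  have hp : IsPartial E b := ⟨fun i j => h.tsA _ (hE i) _ (hE j), fun i j => h.tsB _ (hbB i) _ (hbB j), hEb⟩
  have hp' : IsPartial b (fun i => - E i) := by
    refine ⟨fun i j => h.tsB _ (hbB i) _ (hbB j), fun i j => ?_, fun i j => ?_⟩
    · rw [sf_neg_l, sf_neg_r, h.tsA _ (hE i) _ (hE j)]
      simp
    · rw [sf_neg_r, sympForm_swap, hEb j i]
      by_cases hij : i = j
      · subst hij
        simp
      · simp [hij, Ne.symm hij]
  obtain ⟨g, -, hg1, hg2⟩ := tuple_transitive m E b b (fun i => - E i) hp hp'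
  have hexp : ∀ x ∈ A, ∃ c : Fin m → F, x = ∑ i, c i • E i := by
    intro x hx
    refine ⟨fun i => e.repr ⟨x, hx⟩ i, ?_⟩
    have := congrArg (Subtype.val) (e.sum_repr ⟨x, hx⟩)
    simp only [AddSubmonoidClass.coe_finsetSum, Submodule.coe_smul] at this
    exact this.symm
  have hspg : toGL g ∈ spGL m F := Cfsg.Agent.H27.MS.toGL_mem g
  refine ⟨toGL g, hspg, fun x hx => ?_, fun x hx => ?_⟩
  · obtain ⟨c, rfl⟩ := hexp x hx
    have : ((toGL g : GG) : Mat) *ᵥ (∑ i, c i • E i) = ∑ i, c i • b i := by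
      rw [Matrix.mulVec_sum]
      refine Finset.sum_congr rfl fun i _ => ?_
      rw [Matrix.mulVec_smul]
      congr 1
      exact hg1 i
    rw [this]
    exact B.sum_mem fun i _ => B.smul_mem _ (hbB i)
  · apply perp_mem h
    intro a ha
    obtain ⟨c, rfl⟩ := hexp a ha
    rw [sympForm_sum_left]
    refine Finset.sum_eq_zero fun i _ => ?_
    have h1 : sf (E i) ((toGL g : GG) *ᵥ x) = 0 := by
      have h2 : ((toGL g : GG) : Mat) *ᵥ (b i) = - E i := hg2 i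
      have h3 := mem_spGL_iff.1 hspg (b i) x
      rw [h2, sf_neg_l, h.tsB _ (hbB i) _ hx] at h3
      simpa using h3
    rw [h1, mul_zero]

theorem map_eq_of_maps {Z Z' : Submodule F (Fin m ⊕ Fin m → F)} {g : GG} (h : ∀ x ∈ Z, (g : Mat) *ᵥ x ∈ Z')
    (hd : Module.finrank F Z = Module.finrank F Z') : Z.map (Matrix.toLin' (g : Mat)) = Z' := by
  have hinj : Function.Injective (Matrix.toLin' (g : Mat)) := by
    intro a b hab
    have h1 : (g : Mat) *ᵥ a = (g : Mat) *ᵥ b := by simpa using hab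
    have h2 := congrArg (fun w => ((g⁻¹ : GG) : Mat) *ᵥ w) h1
    simpa [Matrix.mulVec_mulVec] using h2
  apply Submodule.eq_of_le_of_finrank_eq
  · rintro _ ⟨y, hy, rfl⟩
    simpa using h y hy
  · rw [← hd]
    exact (Submodule.equivMapOfInjective _ hinj Z).finrank_eq.symm

/-- The main theorem. -/
theorem pair_sp_max [Fintype F] (hm : 7 ≤ m) (hodd : Odd (Fintype.card F)) {D : Fin 2 → Submodule F (Fin m ⊕ Fin m → F)}
    (hD : IsMDecomposition m D) (hts : ∀ i, IsTotallySingularFor (Cfsg.sympForm m F) (D i)) :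
    IsMaximalIn (spGL m F) (decompositionStabilizer D ⊓ spGL m F) := by
  classical
  have h2 : (2 : F) ≠ 0 := Cfsg.Agent.H27.GO.two_ne_zero_of_odd hodd
  have hT : TSP (D 0) (D 1) := by
    refine ⟨hts 0, hts 1, ?_, hD.finrank_eq 0, hD.finrank_eq 1⟩
    intro x
    have h1 := hD.iSup_eq_top
    have h2 : iSup D = D 0 ⊔ D 1 := by
      apply le_antisymm
      · refine iSup_le fun i => ?_
        fin_cases i
        · exact le_sup_left
        · exact le_sup_right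
      · exact sup_le (le_iSup D 0) (le_iSup D 1)
    rw [h2] at h1
    have h3 : x ∈ D 0 ⊔ D 1 := by rw [h1]; trivial
    obtain ⟨a, ha, y, hy, rfl⟩ := Submodule.mem_sup.1 h3
    exact ⟨a, ha, y, hy, rfl⟩
  obtain ⟨s, hs, hs0, hs1⟩ := exists_swap hT
  have hfix : ∀ g : GG, (∀ x ∈ D 0, (g : Mat) *ᵥ x ∈ D 0) → (∀ x ∈ D 1, (g : Mat) *ᵥ x ∈ D 1) → g ∈ decompositionStabilizer D := by
    intro g h0 h1
    refine ⟨1, fun i => ?_⟩
    fin_cases i
    · exact map_eq_of_maps h0 rfl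
    · exact map_eq_of_maps h1 rfl
  have hsw : ∀ g : GG, (∀ x ∈ D 0, (g : Mat) *ᵥ x ∈ D 1) → (∀ x ∈ D 1, (g : Mat) *ᵥ x ∈ D 0) → g ∈ decompositionStabilizer D := by
    intro g h0 h1
    refine ⟨Equiv.swap 0 1, fun i => ?_⟩
    fin_cases i
    · exact map_eq_of_maps h0 (by rw [hD.finrank_eq, hD.finrank_eq])
    · exact map_eq_of_maps h1 (by rw [hD.finrank_eq, hD.finrank_eq])
  have hHR : ∀ M : Subgroup GG, decompositionStabilizer D ⊓ spGL m F ≤ M → HR M (D 0) (D 1) := by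
    intro M hM u hu v hv huv
    obtain ⟨r, hr, hrx⟩ := exists_rho huv
    refine ⟨r, hM ⟨hfix r (fun x hx => ?_) (fun x hx => ?_), hr⟩, hr, hrx⟩
    · rw [hrx, hT.tsA _ hx _ hu, zero_smul, add_zero]
      exact (D 0).add_mem hx ((D 0).smul_mem _ hu)
    · rw [hrx, hT.tsB _ hx _ hv, zero_smul, add_zero]
      exact (D 1).add_mem hx ((D 1).smul_mem _ hv)
  constructor
  · rw [lt_iff_le_and_ne]
    refine ⟨inf_le_right, fun heq => ?_⟩
    have hd0 : Module.finrank F (⊥ : Submodule F (Fin m ⊕ Fin m → F)) + 0 < Module.finrank F (D 0) := by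
      rw [hD.finrank_eq, finrank_bot]
      omega
    obtain ⟨u, hu, -, hu0⟩ := exists_perp_ne (D 0) ⊥ ![] hd0
    have hu0' : u ≠ 0 := by simpa using hu0
    obtain ⟨v, hv, -, huv⟩ := hT.sep (S := ⊥) hu (by simpa using hu0') 1
    have h1 : tv u 1 ∈ decompositionStabilizer D ⊓ spGL m F := by
      rw [heq]
      exact tv_mem _ _
    obtain ⟨⟨σ, hσ⟩, -⟩ := h1
    have hvu : sf v u = -1 := by rw [sympForm_swap, huv]
    have htv : ((tv u 1 : GG) : Mat) *ᵥ v = v + (-1 : F) • u := by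
      rw [tv_mulVec, hvu]
      simp
    have hmem : v + (-1 : F) • u ∈ D (σ 1) := by
      rw [← hσ 1, ← htv]
      exact ⟨v, hv, by simp⟩
    have hcases : σ 1 = 0 ∨ σ 1 = 1 := by
      have := (σ 1).2
      omega
    rcases hcases with hc | hc
    · rw [hc] at hmem
      have h3 : v ∈ D 0 := by
        have := (D 0).add_mem hmem hu
        simpa using this
      have := hT.inf h3 hv
      rw [this, Cfsg.Agent.H27.MS.sf_zero_right] at huv
      exact zero_ne_one huv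
    · rw [hc] at hmem
      have h3 : u ∈ D 1 := by
        have := (D 1).sub_mem hmem hv
        simpa using (D 1).neg_mem this
      exact hu0' (hT.inf hu h3)
  · intro M hHM hMK
    by_cases hex : ∃ g ∈ M, g ∉ decompositionStabilizer D ⊓ spGL m F
    · right
      apply le_antisymm hMK
      obtain ⟨g, hgM, hgn⟩ := hex
      have hgK := hMK hgM
      have hR := hHR M hHM
      have hsM : s ∈ M := hHM ⟨hsw s hs0 hs1, hs⟩
      -- a mixed vector
      have hmix : (∃ a ∈ D 0, ∃ x₀ ∈ D 0, ∃ x₁ ∈ D 1, x₀ ≠ 0 ∧ x₁ ≠ 0 ∧ (g : Mat) *ᵥ a = x₀ + x₁) ∨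
          (∃ a ∈ D 1, ∃ x₀ ∈ D 1, ∃ x₁ ∈ D 0, x₀ ≠ 0 ∧ x₁ ≠ 0 ∧ (g : Mat) *ᵥ a = x₀ + x₁) := by
        by_contra hcon
        push Not at hcon
        obtain ⟨hc0, hc1⟩ := hcon
        have hu0 : ∀ x ∈ D 0, (g : Mat) *ᵥ x ∈ D 0 ∨ (g : Mat) *ᵥ x ∈ D 1 := by
          intro x hx
          obtain ⟨x₀, hx₀, x₁, hx₁, hxe⟩ := hT.sup ((g : Mat) *ᵥ x)
          by_cases h00 : x₀ = 0
          · right
            rw [hxe, h00, zero_add]
            exact hx₁
          · left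
            by_cases h01 : x₁ = 0
            · rw [hxe, h01, add_zero]
              exact hx₀
            · exact absurd hxe (hc0 x hx x₀ hx₀ x₁ hx₁ h00 h01)
        have hu1 : ∀ x ∈ D 1, (g : Mat) *ᵥ x ∈ D 0 ∨ (g : Mat) *ᵥ x ∈ D 1 := by
          intro x hx
          obtain ⟨x₀, hx₀, x₁, hx₁, hxe⟩ := hT.sup ((g : Mat) *ᵥ x)
          by_cases h00 : x₀ = 0
          · right
            rw [hxe, h00, zero_add]
            exact hx₁
          · left
            by_cases h01 : x₁ = 0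
            · rw [hxe, h01, add_zero]
              exact hx₀
            · exact absurd (by rw [hxe, add_comm]) (hc1 x hx x₁ hx₁ x₀ hx₀ h01 h00)
        have hU0 := union_sub (U := (D 0).map (Matrix.toLin' (g : Mat))) (A := D 0) (B := D 1) (by
          rintro _ ⟨y, hy, rfl⟩
          simpa using hu0 y hy)
        have hU1 := union_sub (U := (D 1).map (Matrix.toLin' (g : Mat))) (A := D 0) (B := D 1) (by
          rintro _ ⟨y, hy, rfl⟩
          simpa using hu1 y hy)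
        have hm0 : ∀ {Z Z' : Submodule F (Fin m ⊕ Fin m → F)}, Z.map (Matrix.toLin' (g : Mat)) ≤ Z' → ∀ x ∈ Z, (g : Mat) *ᵥ x ∈ Z' := by
          intro Z Z' hle x hx
          have : Matrix.toLin' (g : Mat) x ∈ Z' := hle ⟨x, hx, rfl⟩
          simpa using this
        have hall : ∀ {Z : Submodule F (Fin m ⊕ Fin m → F)}, (∀ x ∈ D 0, (g : Mat) *ᵥ x ∈ Z) → (∀ x ∈ D 1, (g : Mat) *ᵥ x ∈ Z) → ∀ x, (g : Mat) *ᵥ x ∈ Z := by
          intro Z h0 h1 x
          obtain ⟨a, ha, b, hb, rfl⟩ := hT.sup x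
          rw [Matrix.mulVec_add]
          exact Z.add_mem (h0 a ha) (h1 b hb)
        have hd1 : Module.finrank F (⊥ : Submodule F (Fin m ⊕ Fin m → F)) + 0 < Module.finrank F (D 0) := by
          rw [hD.finrank_eq, finrank_bot]
          omega
        obtain ⟨u₀, hu₀, -, hu₀0⟩ := exists_perp_ne (D 0) ⊥ ![] hd1
        have hd2 : Module.finrank F (⊥ : Submodule F (Fin m ⊕ Fin m → F)) + 0 < Module.finrank F (D 1) := by
          rw [hD.finrank_eq, finrank_bot]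
          omega
        obtain ⟨u₁, hu₁, -, hu₁0⟩ := exists_perp_ne (D 1) ⊥ ![] hd2
        have hsurj : ∀ y, ∃ x, (g : Mat) *ᵥ x = y := fun y => ⟨_, inv_cancel g y⟩
        rcases hU0 with hA | hA <;> rcases hU1 with hB | hB
        · exfalso
          have h5 := hall (hm0 hA) (hm0 hB)
          obtain ⟨x, hx⟩ := hsurj u₁
          have h6 := h5 x
          rw [hx] at h6
          exact hu₁0 (by simpa using hT.inf h6 hu₁)
        · exact hgn ⟨hfix g (hm0 hA) (hm0 hB), hgK⟩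
        · exact hgn ⟨hsw g (hm0 hA) (hm0 hB), hgK⟩
        · exfalso
          have h5 := hall (hm0 hA) (hm0 hB)
          obtain ⟨x, hx⟩ := hsurj u₀
          have h6 := h5 x
          rw [hx] at h6
          exact hu₀0 (by simpa using hT.inf hu₀ h6)
      -- a transvection
      have h40 : (-4 : F) ≠ 0 := by
        have : (-4 : F) = -(2 * 2) := by ring
        rw [this]
        exact neg_ne_zero.2 (mul_ne_zero h2 h2)
      have hy : ∃ y : Fin m ⊕ Fin m → F, y ≠ 0 ∧ tv y (-4) ∈ M := by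
        rcases hmix with ⟨a, ha, x₀, hx₀, x₁, hx₁, h00, h01, hga⟩ | ⟨a, ha, x₀, hx₀, x₁, hx₁, h00, h01, hga⟩
        · exact step1 hT (by omega) hR hgM hgK ha hx₀ hx₁ h00 h01 hga
        · exact step1 hT.symm (by omega) hR.symm hgM hgK ha hx₀ hx₁ h00 h01 hga
      obtain ⟨y, hy0, hty⟩ := hy
      -- a centre in one of the subspaces
      have hk : ((-4 : F) * (-4) ^ 2) ≠ 0 := mul_ne_zero h40 (pow_ne_zero _ h40)
      have hcentre : (∃ d ∈ D 0, d ≠ 0 ∧ ∃ k : F, k ≠ 0 ∧ tv d k ∈ M) ∨ (∃ d ∈ D 1, d ≠ 0 ∧ ∃ k : F, k ≠ 0 ∧ tv d k ∈ M) := by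
        obtain ⟨y₀, hy₀, y₁, hy₁, rfl⟩ := hT.sup y
        by_cases h00 : y₀ = 0
        · right
          rw [h00, zero_add] at hty hy0
          exact ⟨y₁, hy₁, hy0, _, h40, hty⟩
        by_cases h01 : y₁ = 0
        · left
          rw [h01, add_zero] at hty hy0
          exact ⟨y₀, hy₀, hy0, _, h40, hty⟩
        left
        obtain ⟨d, hd, hd0, htd⟩ := step2 hT (by omega) hR hy₀ hy₁ h00 h01 hty
        exact ⟨d, hd, hd0, _, hk, htd⟩
      have hAB : (∀ w ∈ D 0, ∀ c, tv w c ∈ M) ∧ (∀ w ∈ D 1, ∀ c, tv w c ∈ M) := by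
        rcases hcentre with ⟨d, hd, hd0, k, hk', htd⟩ | ⟨d, hd, hd0, k, hk', htd⟩
        · have h0 := step3 hT (by omega) hR h2 hd hd0 hk' htd
          refine ⟨h0, fun w hw c => ?_⟩
          have h5 : (D 0).map (Matrix.toLin' (s : Mat)) = D 1 := map_eq_of_maps hs0 (by rw [hD.finrank_eq, hD.finrank_eq])
          rw [← h5] at hw
          obtain ⟨a, ha, rfl⟩ := hw
          have := tv_conj_mem hsM hs (h0 a ha c)
          simpa using this
        · have h0 := step3 hT.symm (by omega) hR.symm h2 hd hd0 hk' htd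
          refine ⟨fun w hw c => ?_, h0⟩
          have h5 : (D 1).map (Matrix.toLin' (s : Mat)) = D 0 := map_eq_of_maps hs1 (by rw [hD.finrank_eq, hD.finrank_eq])
          rw [← h5] at hw
          obtain ⟨a, ha, rfl⟩ := hw
          have := tv_conj_mem hsM hs (h0 a ha c)
          simpa using this
      exact spGL_le_of_tv M (step4 hT hAB.1 hAB.2)
    · left
      push Not at hex
      exact le_antisymm hex hHM

end Cfsg.Agent.H27.SD
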