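import Mathlib
import Cfsg.Prelude.Def_GeometricClasses
import Cfsg.Agent.Lib.H27.GeoSpPair
import Cfsg.Agent.Lib.H27.GeoOGen2

/-!
# Unitary subgroups of symplectic groups: basic set up
-/

set_option autoImplicit false
set_option linter.unusedSectionVars false
set_option linter.unusedSimpArgs false
set_option linter.unusedVariables false

namespace Cfsg.Agent.H27.SK

open scoped Matrix MatrixGroups
open Cfsg Cfsg.Geo
open Cfsg.Agent.H27
open Cfsg.Agent.H27.MS (tv tv_mulVec tv_mem toGL exists_toGL conj_tv spGL_le_of_tv mem_spGL_iff sf_zero_right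
  sf_zero_left sympForm_nd)
open Cfsg.Agent.Lead (sympT sympForm_self sympForm_swap sympForm_add_left sympForm_add_right sympForm_smul_left
  sympForm_smul_right sympForm_sub_right sympForm_nondeg)
open Cfsg.Agent.H27.SD (sf_neg_r sf_neg_l sf_sub_l sf_anti)

section Sep

variable {ι : Type} [Fintype ι] [DecidableEq ι] {K : Type*} [Field K] [Fintype K] {Q : (ι → K) → K}

/-- A singular vector with a prescribed value at `p`, orthogonal to `S`. -/
theorem exists_sing_sep (hQ : IsNondegenerateQuadraticForm Q) {S : Submodule K (ι → K)} {p : ι → K} (hp : p ∉ S)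
    (hdim : 2 * (Module.finrank K S + 1) + 3 ≤ Fintype.card ι) (c : K) :
    ∃ y, Q y = 0 ∧ (∀ s ∈ S, GO.pl Q y s = 0) ∧ GO.pl Q y p = c := by
  obtain ⟨y₀, -, hy₀S, hy₀p⟩ := GO.exists_sep hQ (GO.ndg_top hQ) (Submodule.mem_top (x := p)) hp c
  have h1 : Module.finrank K (S ⊔ Submodule.span K {p} : Submodule K (ι → K)) ≤ Module.finrank K S + 1 := by
    have h2 := Submodule.finrank_add_le_finrank_add_finrank S (Submodule.span K {p})
    have h3 := GO.finrank_span_one (F := K) p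
    omega
  have hd : 2 * Module.finrank K (S ⊔ Submodule.span K {p} : Submodule K (ι → K)) + 3 ≤ Module.finrank K (⊤ : Submodule K (ι → K)) := by
    rw [finrank_top, Module.finrank_fintype_fun_eq_card]
    omega
  obtain ⟨y, -, hQy, hy⟩ := GO.singularize hQ (GO.ndg_top hQ) le_top hd (Submodule.mem_top (x := y₀))
  refine ⟨y, hQy, fun s hs => ?_, ?_⟩
  · rw [hy s (Submodule.mem_sup_left hs)]
    exact hy₀S s ⟨hs, trivial⟩
  · rw [hy p (Submodule.mem_sup_right (Submodule.mem_span_singleton_self p)), hy₀p]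

/-- A non-zero singular vector orthogonal to `S` outside `T`. -/
theorem exists_sing_avoid (hQ : IsNondegenerateQuadraticForm Q) (S T : Submodule K (ι → K))
    (hd : Module.finrank K S + Module.finrank K T + 3 ≤ Fintype.card ι) :
    ∃ y, y ≠ 0 ∧ Q y = 0 ∧ (∀ s ∈ S, GO.pl Q y s = 0) ∧ y ∉ T := by
  obtain ⟨E, hE⟩ := Submodule.exists_isCompl T
  set P := GO.perpIn hQ ⊤ S with hP
  have h1 := GO.finrank_perpIn hQ ⊤ S
  have htop : Module.finrank K (⊤ : Submodule K (ι → K)) = Fintype.card ι := by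
    rw [finrank_top, Module.finrank_fintype_fun_eq_card]
  rw [htop] at h1
  have h2 := Submodule.finrank_sup_add_finrank_inf_eq E P
  have h3 := Submodule.finrank_add_eq_of_isCompl hE
  rw [Module.finrank_fintype_fun_eq_card] at h3
  have h4 : Module.finrank K (E ⊔ P : Submodule K (ι → K)) ≤ Fintype.card ι := by
    have := Submodule.finrank_le (E ⊔ P)
    rwa [Module.finrank_fintype_fun_eq_card] at this
  have h6 : Fintype.card ι ≤ Module.finrank K P + Module.finrank K S := h1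
  have h5 : 3 ≤ Module.finrank K (E ⊓ P : Submodule K (ι → K)) := by omega
  obtain ⟨y, hy, hy0, hQy⟩ := GO.exists_singular_in hQ _ h5
  refine ⟨y, hy0, hQy, hy.2.2, fun hT => hy0 ?_⟩
  have : y ∈ T ⊓ E := ⟨hT, hy.1⟩
  rw [hE.inf_eq_bot] at this
  simpa using this

end Sep

variable {m : ℕ} {F : Type*} [Field F]

local notation "sf" => Cfsg.Agent.Lead.sympForm
local notation "VV" => (Fin m ⊕ Fin m → F)
local notation "GG" => GL (Fin m ⊕ Fin m) F
local notation "Mat" => Matrix (Fin m ⊕ Fin m) (Fin m ⊕ Fin m) F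

theorem inv_cancel (g : GG) (x : VV) : (g : Mat) *ᵥ (((g⁻¹ : GG) : Mat) *ᵥ x) = x := by
  rw [Matrix.mulVec_mulVec]
  simp

theorem inv_cancel' (g : GG) (x : VV) : ((g⁻¹ : GG) : Mat) *ᵥ ((g : Mat) *ᵥ x) = x := by
  rw [Matrix.mulVec_mulVec]
  simp

/-- A complex structure compatible with the form. -/
structure Cx (θ : Mat) (ν : F) : Prop where
  sq : ∀ x : VV, θ *ᵥ (θ *ᵥ x) = ν • x
  anti : ∀ u v : VV, sf (θ *ᵥ u) v = - sf u (θ *ᵥ v)
  nonsq : ∀ s : F, s * s ≠ ν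

variable {θ : Matrix (Fin m ⊕ Fin m) (Fin m ⊕ Fin m) F} {ν : F}

lemma Cx.ν0 (h : Cx θ ν) : ν ≠ 0 := fun h0 => h.nonsq 0 (by rw [h0]; ring)

lemma Cx.symB (h : Cx θ ν) (x y : VV) : sf (θ *ᵥ x) y = sf (θ *ᵥ y) x := by
  rw [h.anti, sympForm_swap, neg_neg]

lemma Cx.isotr (h : Cx θ ν) (x y : VV) : sf (θ *ᵥ x) (θ *ᵥ y) = - (ν * sf x y) := by
  rw [h.anti, h.sq, sympForm_smul_right]

lemma Cx.ne_zero (h : Cx θ ν) {x : VV} (hx : x ≠ 0) : θ *ᵥ x ≠ 0 := by
  intro h0
  have := h.sq x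
  rw [h0, Matrix.mulVec_zero] at this
  exact (smul_ne_zero h.ν0 hx) this.symm

lemma Cx.no_eig (h : Cx θ ν) {x : VV} {s : F} (e : θ *ᵥ x = s • x) : x = 0 := by
  by_contra hx
  have h1 := h.sq x
  rw [e, Matrix.mulVec_smul, e, smul_smul] at h1
  have h2 : (s * s - ν) • x = 0 := by
    rw [sub_smul, h1, sub_self]
  rcases smul_eq_zero.1 h2 with h3 | h3
  · exact h.nonsq s (sub_eq_zero.1 h3)
  · exact hx h3

/-- Norm is non-zero. -/
lemma Cx.norm_ne (h : Cx θ ν) {a b : F} (hab : a ≠ 0 ∨ b ≠ 0) : a * a - ν * (b * b) ≠ 0 := by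
  intro h0
  have hb : b ≠ 0 := by
    rintro rfl
    rcases hab with h1 | h1
    · apply h1
      have : a * a = 0 := by linear_combination h0
      exact mul_self_eq_zero.1 this
    · exact h1 rfl
  apply h.nonsq (a / b)
  field_simp
  linear_combination h0

/-- The `K`-line of a vector. -/
def KS (θ : Mat) (x : VV) : Submodule F VV := Submodule.span F {x, θ *ᵥ x}

lemma mem_KS_self (x : VV) : x ∈ KS θ x := Submodule.subset_span (by simp)
lemma mem_KS_th (x : VV) : θ *ᵥ x ∈ KS θ x := Submodule.subset_span (by simp)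

lemma mem_KS {x y : VV} : y ∈ KS θ x ↔ ∃ a b : F, a • x + b • θ *ᵥ x = y := Submodule.mem_span_pair

lemma finrank_KS (x : VV) : Module.finrank F (KS θ x) ≤ 2 := GO.finrank_span_two _ _

lemma Cx.KS_stable (h : Cx θ ν) {x w : VV} (hw : w ∈ KS θ x) : θ *ᵥ w ∈ KS θ x := by
  obtain ⟨a, b, rfl⟩ := mem_KS.1 hw
  rw [mem_KS]
  refine ⟨b * ν, a, ?_⟩
  rw [Matrix.mulVec_add, Matrix.mulVec_smul, Matrix.mulVec_smul, h.sq, smul_smul, add_comm]

lemma Cx.KS_le (h : Cx θ ν) {x y : VV} (hy : y ∈ KS θ x) : KS θ y ≤ KS θ x := by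
  apply Submodule.span_le.2
  intro v hv
  rcases hv with rfl | hv
  · exact hy
  · rw [Set.mem_singleton_iff] at hv
    rw [hv]
    exact h.KS_stable hy

/-- Symmetry of `K`-lines. -/
lemma Cx.KS_symm (h : Cx θ ν) {x y : VV} (hy : y ∈ KS θ x) (hy0 : y ≠ 0) : x ∈ KS θ y := by
  obtain ⟨a, b, rfl⟩ := mem_KS.1 hy
  have hab : a ≠ 0 ∨ b ≠ 0 := by
    by_contra hcon
    push Not at hcon
    rw [hcon.1, hcon.2] at hy0
    simp at hy0
  have hn := h.norm_ne hab
  rw [mem_KS]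
  refine ⟨a / (a * a - ν * (b * b)), - b / (a * a - ν * (b * b)), ?_⟩
  rw [Matrix.mulVec_add, Matrix.mulVec_smul, Matrix.mulVec_smul, h.sq]
  ext i
  simp only [Pi.add_apply, Pi.smul_apply, smul_eq_mul]
  have e : a / (a * a - ν * (b * b)) * (a * x i + b * (θ *ᵥ x) i) + - b / (a * a - ν * (b * b)) * (a * (θ *ᵥ x) i + b * (ν * x i)) =
      ((a * a - ν * (b * b)) / (a * a - ν * (b * b))) * x i := by ring
  rw [e, div_self hn, one_mul]

/-- `θ v` is outside `W + F v` if `W` is `θ`-stable and `v` is outside `W`. -/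
lemma Cx.th_not_mem (h : Cx θ ν) {W : Submodule F VV} (hW : ∀ w ∈ W, θ *ᵥ w ∈ W) {v : VV} (hv : v ∉ W) :
    θ *ᵥ v ∉ W ⊔ Submodule.span F {v} := by
  intro hm
  obtain ⟨w, hw, z, hz, e⟩ := Submodule.mem_sup.1 hm
  obtain ⟨c, rfl⟩ := Submodule.mem_span_singleton.1 hz
  have h1 : (ν - c * c) • v = θ *ᵥ w + c • w := by
    have h3 := congrArg (fun t => θ *ᵥ t) e
    simp only [Matrix.mulVec_add, Matrix.mulVec_smul] at h3
    rw [h.sq] at h3
    have h4 : c • w = c • θ *ᵥ v - c • (c • v) := by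
      have h5 : w = θ *ᵥ v - c • v := by
        rw [← e]
        abel
      rw [h5, smul_sub]
    rw [sub_smul, ← h3, mul_smul, h4]
    abel
  have h2 : ν - c * c ≠ 0 := sub_ne_zero.2 (fun e => h.nonsq c e.symm)
  apply hv
  have h3 : v = (ν - c * c)⁻¹ • (θ *ᵥ w + c • w) := by
    rw [← h1, smul_smul, inv_mul_cancel₀ h2, one_smul]
  rw [h3]
  exact W.smul_mem _ (W.add_mem (hW w hw) (W.smul_mem _ hw))

/-- `K`-independence. -/
lemma Cx.K_indep (h : Cx θ ν) {x y : VV} {A B C D : F} (hy : y ∉ KS θ x) (hx : x ≠ 0)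
    (e : A • x + B • θ *ᵥ x = C • y + D • θ *ᵥ y) : A = 0 ∧ B = 0 ∧ C = 0 ∧ D = 0 := by
  have hCD : C = 0 ∧ D = 0 := by
    by_contra hcon
    have hab : C ≠ 0 ∨ D ≠ 0 := by
      by_contra h3
      push Not at h3
      exact hcon h3
    have hn := h.norm_ne hab
    apply hy
    rw [mem_KS]
    refine ⟨(C * A - D * B * ν) / (C * C - ν * (D * D)), (C * B - D * A) / (C * C - ν * (D * D)), ?_⟩
    have h3 := congrArg (fun t => C • t - D • θ *ᵥ t) e
    simp only [Matrix.mulVec_add, Matrix.mulVec_smul, h.sq] at h3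
    have h4 : (C * A - D * B * ν) • x + (C * B - D * A) • θ *ᵥ x = (C * C - ν * (D * D)) • y := by
      ext i
      have := congrFun h3 i
      simp only [Pi.sub_apply, Pi.add_apply, Pi.smul_apply, smul_eq_mul] at this ⊢
      linear_combination this
    rw [div_eq_inv_mul, div_eq_inv_mul, mul_smul, mul_smul, ← smul_add, h4, smul_smul, inv_mul_cancel₀ hn, one_smul]
  obtain ⟨rfl, rfl⟩ := hCD
  rw [zero_smul, zero_smul, add_zero] at e
  have hB : B = 0 := by
    by_contra hB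
    apply hx
    apply h.no_eig (s := - A / B)
    have h1 : B • θ *ᵥ x = (- A) • x := by
      rw [neg_smul]
      exact eq_neg_of_add_eq_zero_right e
    have h2 : θ *ᵥ x = B⁻¹ • (B • θ *ᵥ x) := by rw [smul_smul, inv_mul_cancel₀ hB, one_smul]
    rw [h2, h1, smul_smul, div_eq_inv_mul]
  rw [hB, zero_smul, add_zero] at e
  refine ⟨?_, hB, rfl, rfl⟩
  exact (smul_eq_zero.1 e).resolve_right hx

/-- The quadratic form of the structure. -/
def QB (θ : Mat) (x : VV) : F := sf (θ *ᵥ x) x / 2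

lemma pl_QB (h : Cx θ ν) (h2 : (2 : F) ≠ 0) (x y : VV) : GO.pl (QB θ) x y = sf (θ *ᵥ x) y := by
  simp only [GO.pl, QuadraticMap.polar, QB]
  rw [Matrix.mulVec_add, sympForm_add_left, sympForm_add_right, sympForm_add_right, h.symB y x]
  field_simp
  ring

theorem QB_nd (h : Cx θ ν) (h2 : (2 : F) ≠ 0) : IsNondegenerateQuadraticForm (QB θ) := by
  have hpl : ∀ x y, QuadraticMap.polar (QB θ) x y = sf (θ *ᵥ x) y := pl_QB h h2
  refine ⟨fun c v => ?_, ⟨fun x y v => ?_, fun c x v => ?_, fun v x y => ?_, fun c v x => ?_⟩, fun v hv => ?_⟩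
  · simp only [QB]
    rw [Matrix.mulVec_smul, sympForm_smul_left, sympForm_smul_right]
    ring
  · rw [hpl, hpl, hpl, Matrix.mulVec_add, sympForm_add_left]
  · rw [hpl, hpl, Matrix.mulVec_smul, sympForm_smul_left]
  · rw [hpl, hpl, hpl, sympForm_add_right]
  · rw [hpl, hpl, sympForm_smul_right]
  · obtain ⟨z, hz⟩ := sympForm_nondeg (h.ne_zero hv)
    refine ⟨⟨z, ?_⟩, ⟨z, ?_⟩⟩
    · rw [hpl, h.symB]
      exact hz
    · rw [hpl]
      exact hz

/-- Values of the form in terms of the polar form. -/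
lemma sf_eq (h : Cx θ ν) (h2 : (2 : F) ≠ 0) (x y : VV) : sf x y = ν⁻¹ * GO.pl (QB θ) (θ *ᵥ x) y := by
  rw [pl_QB h h2, h.sq, sympForm_smul_left, inv_mul_cancel_left₀ h.ν0]

lemma sf_th (h : Cx θ ν) (h2 : (2 : F) ≠ 0) (x y : VV) : sf x (θ *ᵥ y) = - GO.pl (QB θ) x y := by
  rw [pl_QB h h2, h.anti, neg_neg]

lemma sing_iff (h2 : (2 : F) ≠ 0) {a : VV} : QB θ a = 0 ↔ sf (θ *ᵥ a) a = 0 := by
  simp only [QB]
  constructor
  · intro e
    rcases div_eq_zero_iff.1 e with e | e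
    · exact e
    · exact absurd e h2
  · intro e
    rw [e, zero_div]

lemma sing_sf (h : Cx θ ν) (h2 : (2 : F) ≠ 0) {a : VV} (ha : QB θ a = 0) : sf a (θ *ᵥ a) = 0 := by
  rw [sympForm_swap, (sing_iff h2).1 ha, neg_zero]

/-- Elements commuting with the structure. -/
def Hk (θ : Mat) (k : GG) : Prop := k ∈ spGL m F ∧ ∀ y, (k : Mat) *ᵥ (θ *ᵥ y) = θ *ᵥ ((k : Mat) *ᵥ y)

lemma Hk.mul {k l : GG} (hk : Hk θ k) (hl : Hk θ l) : Hk θ (k * l) := by
  refine ⟨(spGL m F).mul_mem hk.1 hl.1, fun y => ?_⟩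
  rw [Units.val_mul, ← Matrix.mulVec_mulVec, ← Matrix.mulVec_mulVec, hl.2, hk.2]

lemma Hk.inv {k : GG} (hk : Hk θ k) : Hk θ k⁻¹ := by
  refine ⟨(spGL m F).inv_mem hk.1, fun y => ?_⟩
  have h1 := hk.2 (((k⁻¹ : GG) : Mat) *ᵥ y)
  rw [inv_cancel k y] at h1
  have h2 := congrArg (fun t => ((k⁻¹ : GG) : Mat) *ᵥ t) h1
  simp only [inv_cancel' k] at h2
  exact h2.symm

end Cfsg.Agent.H27.SK
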