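import Mathlib
import Cfsg.Prelude.Def_GeometricClasses
import Cfsg.Agent.Lib.H27.GeoSK

/-!
# Unitary subgroups of symplectic groups: root elements
-/

set_option autoImplicit false
set_option linter.unusedSectionVars false
set_option linter.unusedSimpArgs false
set_option linter.unusedVariables false

namespace Cfsg.Agent.H27.SK

open scoped Matrix MatrixGroups
open Cfsg Cfsg.Geo
open Cfsg.Agent.H27
open Cfsg.Agent.H27.MS (tv tv_mulVec tv_mem toGL exists_toGL conj_tv spGL_le_of_tv mem_spGL_iff sf_zero_right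
  sf_zero_left sympForm_nd)
open Cfsg.Agent.Lead (sympT sympForm_self sympForm_swap sympForm_add_left sympForm_add_right sympForm_smul_left
  sympForm_smul_right sympForm_sub_right sympForm_nondeg)
open Cfsg.Agent.H27.SD (sf_neg_r sf_neg_l sf_sub_l sf_anti)

variable {m : ℕ} {F : Type*} [Field F]

local notation "sf" => Cfsg.Agent.Lead.sympForm
local notation "VV" => (Fin m ⊕ Fin m → F)
local notation "GG" => GL (Fin m ⊕ Fin m) F
local notation "Mat" => Matrix (Fin m ⊕ Fin m) (Fin m ⊕ Fin m) F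

variable {θ : Matrix (Fin m ⊕ Fin m) (Fin m ⊕ Fin m) F} {ν : F}

/-- The unitary root element. -/
def Tk (θ : Mat) (ν : F) (a : VV) (c : F) : GG := tv a c * tv (θ *ᵥ a) (-(c / ν))

lemma Tk_act (h : Cx θ ν) (h2 : (2 : F) ≠ 0) {a : VV} (ha : QB θ a = 0) (c : F) (y : VV) :
    ((Tk θ ν a c : GG) : Mat) *ᵥ y = y + (c * sf y a) • a - ((c / ν) * sf y (θ *ᵥ a)) • θ *ᵥ a := by
  have h0 : sf (θ *ᵥ a) a = 0 := (sing_iff h2).1 ha
  rw [Tk, Units.val_mul, ← Matrix.mulVec_mulVec, tv_mulVec, tv_mulVec, sympForm_add_left, sympForm_smul_left, h0, mul_zero, add_zero]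
  ext i
  simp only [Pi.add_apply, Pi.sub_apply, Pi.smul_apply, smul_eq_mul]
  ring

lemma Tk_Hk (h : Cx θ ν) (h2 : (2 : F) ≠ 0) {a : VV} (ha : QB θ a = 0) (c : F) : Hk θ (Tk θ ν a c) := by
  refine ⟨(spGL m F).mul_mem (tv_mem _ _) (tv_mem _ _), fun y => ?_⟩
  rw [Tk_act h h2 ha, Tk_act h h2 ha]
  simp only [Matrix.mulVec_add, Matrix.mulVec_sub, Matrix.mulVec_smul]
  rw [h.anti y a, h.isotr y a, h.sq]
  have hν := h.ν0
  ext i
  simp only [Pi.add_apply, Pi.sub_apply, Pi.smul_apply, smul_eq_mul]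
  field_simp
  ring

/-- The Heisenberg element of a totally singular pair. -/
lemma exists_Rk (h : Cx θ ν) (h2 : (2 : F) ≠ 0) {z₁ z₂ : VV} (hz₁ : QB θ z₁ = 0) (hz₂ : QB θ z₂ = 0)
    (hp : GO.pl (QB θ) z₁ z₂ = 0) (hs : sf z₁ z₂ = 0) :
    ∃ k, Hk θ k ∧ ∀ y, (k : Mat) *ᵥ y = y + sf y z₁ • z₂ + sf y z₂ • z₁ - ν⁻¹ • (sf y (θ *ᵥ z₁) • θ *ᵥ z₂ + sf y (θ *ᵥ z₂) • θ *ᵥ z₁) := by
  have hQ := QB_nd h h2
  have hν := h.ν0
  have ha : QB θ (z₁ + z₂) = 0 := by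
    rw [GO.Q_add (QB θ), hz₁, hz₂, hp]
    ring
  have hb : QB θ (z₁ - z₂) = 0 := by
    rw [GO.Q_sub hQ, hz₁, hz₂, hp]
    ring
  have hsb : sf z₂ z₁ = 0 := by rw [sympForm_swap, hs, neg_zero]
  have hpb : GO.pl (QB θ) z₂ z₁ = 0 := by rw [GO.pl_symm, hp]
  have e1 : sf (z₁ - z₂) (z₁ + z₂) = 0 := by
    rw [sf_sub_l, sympForm_add_right, sympForm_add_right, hs, hsb]
    simp
  have e2 : sf (θ *ᵥ (z₁ - z₂)) (z₁ + z₂) = 0 := by
    rw [← pl_QB h h2, GO.pl_sub_left hQ, GO.pl_add_right hQ, GO.pl_add_right hQ, GO.pl_self hQ, GO.pl_self hQ, hz₁, hz₂, hp, hpb]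
    ring
  have e3 : sf (z₁ - z₂) (θ *ᵥ (z₁ + z₂)) = 0 := by
    rw [sf_th h h2, GO.pl_sub_left hQ, GO.pl_add_right hQ, GO.pl_add_right hQ, GO.pl_self hQ, GO.pl_self hQ, hz₁, hz₂, hp, hpb]
    ring
  have e4 : sf (θ *ᵥ (z₁ - z₂)) (θ *ᵥ (z₁ + z₂)) = 0 := by
    rw [h.isotr, e1, mul_zero, neg_zero]
  refine ⟨Tk θ ν (z₁ + z₂) 2⁻¹ * Tk θ ν (z₁ - z₂) (-2⁻¹), (Tk_Hk h h2 ha _).mul (Tk_Hk h h2 hb _), fun y => ?_⟩
  rw [Units.val_mul, ← Matrix.mulVec_mulVec, Tk_act h h2 hb, Tk_act h h2 ha]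
  simp only [sf_sub_l, sympForm_add_left, sympForm_smul_left, e1, e2, e3, e4, mul_zero, add_zero, sub_zero]
  simp only [Matrix.mulVec_add, Matrix.mulVec_sub, sympForm_add_right, sympForm_sub_right]
  ext i
  simp only [Pi.add_apply, Pi.sub_apply, Pi.smul_apply, smul_eq_mul]
  field_simp
  ring

/-- Conjugates of elements of shape `1 + c p² + d q²`. -/
lemma conj_act2 {k E : GG} (hk : k ∈ spGL m F) {p q : VV} {c d : F}
    (hE : ∀ y, (E : Mat) *ᵥ y = y + (c * sf y p) • p + (d * sf y q) • q) :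
    ∀ y, ((k * E * k⁻¹ : GG) : Mat) *ᵥ y = y + (c * sf y ((k : Mat) *ᵥ p)) • (k : Mat) *ᵥ p + (d * sf y ((k : Mat) *ᵥ q)) • (k : Mat) *ᵥ q := by
  intro y
  rw [Units.val_mul, Units.val_mul, ← Matrix.mulVec_mulVec, ← Matrix.mulVec_mulVec, hE]
  simp only [Matrix.mulVec_add, Matrix.mulVec_smul]
  rw [inv_cancel]
  have h1 : ∀ r : VV, sf (((k⁻¹ : GG) : Mat) *ᵥ y) r = sf y ((k : Mat) *ᵥ r) := by
    intro r
    have := (mem_spGL_iff.1 hk) (((k⁻¹ : GG) : Mat) *ᵥ y) r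
    rw [inv_cancel] at this
    exact this.symm
  rw [h1, h1]

lemma conj_RL {k ρ : GG} (hk : k ∈ spGL m F) {x w : VV} {d : F}
    (hρ : ∀ y, (ρ : Mat) *ᵥ y = y + d • (sf y x • w + sf y w • x)) :
    ∀ y, ((k * ρ * k⁻¹ : GG) : Mat) *ᵥ y = y + d • (sf y ((k : Mat) *ᵥ x) • (k : Mat) *ᵥ w + sf y ((k : Mat) *ᵥ w) • (k : Mat) *ᵥ x) := by
  intro y
  rw [Units.val_mul, Units.val_mul, ← Matrix.mulVec_mulVec, ← Matrix.mulVec_mulVec, hρ]
  simp only [Matrix.mulVec_add, Matrix.mulVec_smul]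
  rw [inv_cancel]
  have h1 : ∀ r : VV, sf (((k⁻¹ : GG) : Mat) *ᵥ y) r = sf y ((k : Mat) *ᵥ r) := by
    intro r
    have := (mem_spGL_iff.1 hk) (((k⁻¹ : GG) : Mat) *ᵥ y) r
    rw [inv_cancel] at this
    exact this.symm
  rw [h1, h1]

/-- The commutator of two elements with the same `x`. -/
lemma RL_comm {ρ ρ' : GG} {x w w' : VV} {d e₀ : F}
    (hρ : ∀ y, (ρ : Mat) *ᵥ y = y + d • (sf y x • w + sf y w • x))
    (hρ' : ∀ y, (ρ' : Mat) *ᵥ y = y + d • (sf y x • w' + sf y w' • x))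
    (hxw : sf x w = 0) (hxw' : sf x w' = 0) (hww' : sf w w' = e₀) :
    ρ * ρ' * ρ⁻¹ * ρ'⁻¹ = tv x (-(2 * d * d * e₀)) := by
  apply GO.gl_ext
  intro z
  obtain ⟨y, hy⟩ : ∃ y, y = ((ρ⁻¹ : GG) : Mat) *ᵥ (((ρ'⁻¹ : GG) : Mat) *ᵥ z) := ⟨_, rfl⟩
  have hz : z = (ρ' : Mat) *ᵥ ((ρ : Mat) *ᵥ y) := by rw [hy, inv_cancel, inv_cancel]
  have hL : ((ρ * ρ' * ρ⁻¹ * ρ'⁻¹ : GG) : Mat) *ᵥ z = (ρ : Mat) *ᵥ ((ρ' : Mat) *ᵥ y) := by
    rw [Units.val_mul, Units.val_mul, Units.val_mul, ← Matrix.mulVec_mulVec, ← Matrix.mulVec_mulVec, ← Matrix.mulVec_mulVec, ← hy]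
  have hwx : sf w x = 0 := by rw [sympForm_swap, hxw, neg_zero]
  have hw'x : sf w' x = 0 := by rw [sympForm_swap, hxw', neg_zero]
  have hw'w : sf w' w = - e₀ := by rw [sympForm_swap, hww']
  have hxx : sf x x = 0 := sympForm_self x
  have s1 : sf ((ρ : Mat) *ᵥ y) x = sf y x := by
    rw [hρ, sympForm_add_left, sympForm_smul_left, sympForm_add_left, sympForm_smul_left, sympForm_smul_left, hwx, hxx]
    ring
  have s2 : sf ((ρ : Mat) *ᵥ y) w' = sf y w' + d * (sf y x * e₀) := by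
    rw [hρ, sympForm_add_left, sympForm_smul_left, sympForm_add_left, sympForm_smul_left, sympForm_smul_left, hww', hxw']
    ring
  have s3 : sf ((ρ' : Mat) *ᵥ y) x = sf y x := by
    rw [hρ', sympForm_add_left, sympForm_smul_left, sympForm_add_left, sympForm_smul_left, sympForm_smul_left, hw'x, hxx]
    ring
  have s4 : sf ((ρ' : Mat) *ᵥ y) w = sf y w - d * (sf y x * e₀) := by
    rw [hρ', sympForm_add_left, sympForm_smul_left, sympForm_add_left, sympForm_smul_left, sympForm_smul_left, hw'w, hxw]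
    ring
  have s5 : sf z x = sf y x := by
    rw [hz, hρ', sympForm_add_left, sympForm_smul_left, sympForm_add_left, sympForm_smul_left, sympForm_smul_left, hw'x, hxx, s1]
    ring
  rw [hL, tv_mulVec, s5, hρ, s3, s4, hz, hρ', hρ', s1, s2, hρ]
  ext i
  simp only [Pi.add_apply, Pi.sub_apply, Pi.smul_apply, smul_eq_mul]
  ring

/-- One step of the transitivity. -/
theorem move1 (h : Cx θ ν) (h2 : (2 : F) ≠ 0) {x y : VV} (hx : QB θ x = 0) (hy : QB θ y = 0) (h1 : sf x (θ *ᵥ y) = 0)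
    (h3 : sf x y ≠ 0) : ∃ k, Hk θ k ∧ (k : Mat) *ᵥ x = y := by
  have hQ := QB_nd h h2
  have hp : GO.pl (QB θ) y x = 0 := by
    rw [pl_QB h h2, sympForm_swap, h1, neg_zero]
  have ha : QB θ (y - x) = 0 := by
    rw [GO.Q_sub hQ, hx, hy, hp]
    ring
  refine ⟨Tk θ ν (y - x) (sf x y)⁻¹, Tk_Hk h h2 ha _, ?_⟩
  rw [Tk_act h h2 ha, sympForm_sub_right, sympForm_self, sub_zero, inv_mul_cancel₀ h3, one_smul, Matrix.mulVec_sub,
    sympForm_sub_right, h1, sing_sf h h2 hx, sub_zero, mul_zero, zero_smul, sub_zero]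
  abel

section Fin

variable [Fintype F]

/-- A singular vector with prescribed values at two independent `K`-lines. -/
theorem exists_pair (h : Cx θ ν) (h2 : (2 : F) ≠ 0) (hm : 7 ≤ m) {x x' : VV} (hx0 : x ≠ 0) (hx'0 : x' ≠ 0) (hx' : x' ∉ KS θ x) :
    ∃ y, QB θ y = 0 ∧ sf x y = 1 ∧ sf x (θ *ᵥ y) = 0 ∧ sf x' y = 1 ∧ sf x' (θ *ᵥ y) = 0 := by
  have hQ := QB_nd h h2
  have hν := h.ν0
  have hx : x ∉ KS θ x' := fun hm => hx' (h.KS_symm hm hx0)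
  have hp1 := h.th_not_mem (W := KS θ x) (fun w hw => h.KS_stable hw) hx'
  have hp2 := h.th_not_mem (W := KS θ x') (fun w hw => h.KS_stable hw) hx
  obtain ⟨y₁, -, hy₁S, hy₁p⟩ := GO.exists_sep hQ (GO.ndg_top hQ) (Submodule.mem_top (x := θ *ᵥ x')) hp1 ν
  obtain ⟨y₂, -, hy₂S, hy₂p⟩ := GO.exists_sep hQ (GO.ndg_top hQ) (Submodule.mem_top (x := θ *ᵥ x)) hp2 ν
  have hd : 2 * Module.finrank F (KS θ x ⊔ KS θ x' : Submodule F VV) + 3 ≤ Module.finrank F (⊤ : Submodule F VV) := by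
    rw [finrank_top, Module.finrank_fintype_fun_eq_card, Fintype.card_sum, Fintype.card_fin]
    have h3 := Submodule.finrank_add_le_finrank_add_finrank (KS θ x) (KS θ x')
    have h4 := finrank_KS (θ := θ) x
    have h5 := finrank_KS (θ := θ) x'
    omega
  obtain ⟨y, -, hQy, hy⟩ := GO.singularize hQ (GO.ndg_top hQ) le_top hd (Submodule.mem_top (x := y₁ + y₂))
  have m1 : ∀ s ∈ KS θ x, GO.pl (QB θ) y₁ s = 0 := fun s hs => hy₁S s ⟨Submodule.mem_sup_left hs, trivial⟩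
  have m2 : GO.pl (QB θ) y₁ x' = 0 := hy₁S x' ⟨Submodule.mem_sup_right (Submodule.mem_span_singleton_self x'), trivial⟩
  have m3 : ∀ s ∈ KS θ x', GO.pl (QB θ) y₂ s = 0 := fun s hs => hy₂S s ⟨Submodule.mem_sup_left hs, trivial⟩
  have m4 : GO.pl (QB θ) y₂ x = 0 := hy₂S x ⟨Submodule.mem_sup_right (Submodule.mem_span_singleton_self x), trivial⟩
  have v1 : GO.pl (QB θ) y x = 0 := by
    rw [hy x (Submodule.mem_sup_left (mem_KS_self x)), GO.pl_add_left hQ, m1 x (mem_KS_self x), m4, add_zero]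
  have v2 : GO.pl (QB θ) y (θ *ᵥ x) = ν := by
    rw [hy _ (Submodule.mem_sup_left (mem_KS_th x)), GO.pl_add_left hQ, m1 _ (mem_KS_th x), hy₂p, zero_add]
  have v3 : GO.pl (QB θ) y x' = 0 := by
    rw [hy x' (Submodule.mem_sup_right (mem_KS_self x')), GO.pl_add_left hQ, m2, m3 x' (mem_KS_self x'), add_zero]
  have v4 : GO.pl (QB θ) y (θ *ᵥ x') = ν := by
    rw [hy _ (Submodule.mem_sup_right (mem_KS_th x')), GO.pl_add_left hQ, m3 _ (mem_KS_th x'), hy₁p, add_zero]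
  refine ⟨y, hQy, ?_, ?_, ?_, ?_⟩
  · rw [sf_eq h h2, GO.pl_symm, v2, inv_mul_cancel₀ hν]
  · rw [sf_th h h2, GO.pl_symm, v1, neg_zero]
  · rw [sf_eq h h2, GO.pl_symm, v4, inv_mul_cancel₀ hν]
  · rw [sf_th h h2, GO.pl_symm, v3, neg_zero]

theorem move2 (h : Cx θ ν) (h2 : (2 : F) ≠ 0) (hm : 7 ≤ m) {x x' : VV} (hx : QB θ x = 0) (hx' : QB θ x' = 0) (hx0 : x ≠ 0)
    (hx'0 : x' ≠ 0) (hn : x' ∉ KS θ x) : ∃ k, Hk θ k ∧ (k : Mat) *ᵥ x = x' := by
  obtain ⟨y, hy, h1, h3, h4, h5⟩ := exists_pair h h2 hm hx0 hx'0 hn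
  obtain ⟨k₁, hk₁, e₁⟩ := move1 h h2 hx hy h3 (by rw [h1]; exact one_ne_zero)
  have h6 : sf y (θ *ᵥ x') = 0 := by
    have h5' : GO.pl (QB θ) x' y = 0 := by
      have := sf_th h h2 x' y
      rw [h5] at this
      exact neg_eq_zero.1 this.symm
    rw [sf_th h h2, GO.pl_symm, h5', neg_zero]
  have h7 : sf y x' ≠ 0 := by
    rw [sympForm_swap, h4]
    exact neg_ne_zero.2 one_ne_zero
  obtain ⟨k₂, hk₂, e₂⟩ := move1 h h2 hy hx' h6 h7
  refine ⟨k₂ * k₁, hk₂.mul hk₁, ?_⟩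
  rw [Units.val_mul, ← Matrix.mulVec_mulVec, e₁, e₂]

/-- Transitivity on non-zero singular vectors. -/
theorem move3 (h : Cx θ ν) (h2 : (2 : F) ≠ 0) (hm : 7 ≤ m) {x x' : VV} (hx : QB θ x = 0) (hx' : QB θ x' = 0) (hx0 : x ≠ 0)
    (hx'0 : x' ≠ 0) : ∃ k, Hk θ k ∧ (k : Mat) *ᵥ x = x' := by
  by_cases hn : x' ∈ KS θ x
  · have hQ := QB_nd h h2
    obtain ⟨z, hz0, hQz, -, hzn⟩ := exists_sing_avoid hQ ⊥ (KS θ x) (by
      rw [finrank_bot, Fintype.card_sum, Fintype.card_fin]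
      have := finrank_KS (θ := θ) x
      omega)
    have hn2 : x' ∉ KS θ z := by
      intro hm'
      exact hzn (h.KS_le hn (h.KS_symm hm' hx'0))
    obtain ⟨k₁, hk₁, e₁⟩ := move2 h h2 hm hx hQz hx0 hz0 hzn
    obtain ⟨k₂, hk₂, e₂⟩ := move2 h h2 hm hQz hx' hz0 hx'0 hn2
    refine ⟨k₂ * k₁, hk₂.mul hk₁, ?_⟩
    rw [Units.val_mul, ← Matrix.mulVec_mulVec, e₁, e₂]
  · exact move2 h h2 hm hx hx' hx0 hx'0 hn

/-- Conjugates of transvections. -/
lemma conj_tv' {k : GG} (hk : k ∈ spGL m F) (u : VV) (c : F) : k * tv u c * k⁻¹ = tv ((k : Mat) *ᵥ u) c := by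
  obtain ⟨A, rfl⟩ := exists_toGL hk
  exact conj_tv A u c

/-- From one transvection at a singular vector to all transvections. -/
theorem all_tv (h : Cx θ ν) (h2 : (2 : F) ≠ 0) (hodd : Odd (Fintype.card F)) (hm : 7 ≤ m) {M : Subgroup GG}
    (hH : ∀ k, Hk θ k → k ∈ M) {x₀ : VV} {c₁ : F} (hc₁ : c₁ ≠ 0) (hx₀ : QB θ x₀ = 0) (hx₀0 : x₀ ≠ 0) (ht : tv x₀ c₁ ∈ M) :
    ∀ u c, tv u c ∈ M := by
  have hQ := QB_nd h h2
  have hν := h.ν0
  have hzero : ∀ c, tv (0 : VV) c = 1 := by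
    intro c
    apply GO.gl_ext
    intro x
    rw [tv_mulVec]
    simp
  have hsame : ∀ (u : VV) (a b : F), tv u a * tv u b = tv u (a + b) := by
    intro u a b
    simp only [tv]
    rw [← map_mul, Cfsg.Agent.Lead.sympT_mul_same]
  have hsm : ∀ (u : VV) (a c : F), tv (a • u) c = tv u (c * a ^ 2) := by
    intro u a c
    simp only [tv]
    rw [Cfsg.Agent.Lead.sympT_smul]
  have h1 : ∀ x, QB θ x = 0 → tv x c₁ ∈ M := by
    intro x hx
    by_cases hx0 : x = 0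
    · rw [hx0, hzero]
      exact M.one_mem
    obtain ⟨k, hk, e⟩ := move3 h h2 hm hx₀ hx hx₀0 hx0
    rw [← e, ← conj_tv' hk.1]
    exact M.mul_mem (M.mul_mem (hH k hk) ht) (M.inv_mem (hH k hk))
  have h3 : ∀ x, QB θ x = 0 → ∀ c, tv x c ∈ M := by
    intro x hx c
    obtain ⟨a, b, hab⟩ := FiniteField.exists_root_sum_quadratic (R := F) (f := Polynomial.X ^ 2) (g := Polynomial.X ^ 2 - Polynomial.C (c / c₁))
      (by simp) (by compute_degree!) (Nat.odd_iff.1 hodd)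
    simp only [Polynomial.eval_pow, Polynomial.eval_X, Polynomial.eval_sub, Polynomial.eval_C] at hab
    have e : c = c₁ * a ^ 2 + c₁ * b ^ 2 := by
      have : c / c₁ = a ^ 2 + b ^ 2 := by linear_combination - hab
      rw [← mul_add, ← this]
      field_simp
    have hax : QB θ (a • x) = 0 := by rw [hQ.smul, hx, mul_zero]
    have hbx : QB θ (b • x) = 0 := by rw [hQ.smul, hx, mul_zero]
    rw [e, ← hsame, ← hsm, ← hsm]
    exact M.mul_mem (h1 _ hax) (h1 _ hbx)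
  intro z c
  by_cases hz : QB θ z = 0
  · exact h3 z hz c
  have hz0 : z ≠ 0 := by
    rintro rfl
    exact hz (GO.Q_zero hQ)
  -- split
  have hn1 : θ *ᵥ z ∉ Submodule.span F {z} := by
    intro hm'
    obtain ⟨s, hs⟩ := Submodule.mem_span_singleton.1 hm'
    exact hz0 (h.no_eig hs.symm)
  obtain ⟨y₁, -, hy₁S, hy₁p⟩ := GO.exists_sep hQ (GO.ndg_top hQ) (Submodule.mem_top (x := θ *ᵥ z)) hn1 (-ν)
  have hd : 2 * Module.finrank F (KS θ z) + 3 ≤ Module.finrank F (⊤ : Submodule F VV) := by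
    rw [finrank_top, Module.finrank_fintype_fun_eq_card, Fintype.card_sum, Fintype.card_fin]
    have h4 := finrank_KS (θ := θ) z
    omega
  obtain ⟨x, -, hQx, hx⟩ := GO.singularize hQ (GO.ndg_top hQ) le_top hd (Submodule.mem_top (x := y₁ + (2⁻¹ : F) • z))
  have hzz : GO.pl (QB θ) z (θ *ᵥ z) = 0 := by
    rw [pl_QB h h2, sympForm_self]
  have v1 : GO.pl (QB θ) x z = QB θ z := by
    rw [hx z (mem_KS_self z), GO.pl_add_left hQ, hy₁S z ⟨Submodule.mem_span_singleton_self z, trivial⟩, GO.pl_smul_left hQ, GO.pl_self hQ]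
    field_simp
    ring
  have v2 : GO.pl (QB θ) x (θ *ᵥ z) = - ν := by
    rw [hx _ (mem_KS_th z), GO.pl_add_left hQ, hy₁p, GO.pl_smul_left hQ, hzz]
    ring
  have hsub : QB θ (z - x) = 0 := by
    rw [GO.Q_sub hQ, hQx, GO.pl_symm, v1]
    ring
  have hxz : sf x z = 1 := by
    rw [sympForm_swap, sf_eq h h2, GO.pl_symm, v2]
    field_simp
  have hconj : (tv x (-1) : GG) * tv (z - x) c * (tv x (-1))⁻¹ = tv z c := by
    rw [conj_tv' (tv_mem x (-1)), tv_mulVec]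
    congr 1
    rw [sympForm_swap, sympForm_sub_right, sympForm_self, hxz]
    ext i
    simp
  rw [← hconj]
  have hm1 := h3 x hQx (-1)
  exact M.mul_mem (M.mul_mem hm1 (h3 _ hsub c)) (M.inv_mem hm1)

end Fin

end Cfsg.Agent.H27.SK
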