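import Mathlib
import Cfsg.Prelude.Def_GeometricClasses
import Cfsg.Agent.Lib.H27.GeoSK2

/-!
# Unitary subgroups of symplectic groups: maximality
-/

set_option autoImplicit false
set_option linter.unusedSectionVars false
set_option linter.unusedSimpArgs false
set_option linter.unusedVariables false

namespace Cfsg.Agent.H27.SK

open scoped Matrix MatrixGroups
open Cfsg Cfsg.Geo
open Cfsg.Agent.H27
open Cfsg.Agent.H27.MS (tv tv_mulVec tv_mem toGL exists_toGL conj_tv spGL_le_of_tv mem_spGL_iff sf_zero_right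
  sf_zero_left sympForm_nd)
open Cfsg.Agent.Lead (sympT sympForm_self sympForm_swap sympForm_add_left sympForm_add_right sympForm_smul_left
  sympForm_smul_right sympForm_sub_right sympForm_nondeg)
open Cfsg.Agent.H27.SD (sf_neg_r sf_neg_l sf_sub_l sf_anti)

variable {m : ℕ} {F : Type*} [Field F]

local notation "sf" => Cfsg.Agent.Lead.sympForm
local notation "VV" => (Fin m ⊕ Fin m → F)
local notation "GG" => GL (Fin m ⊕ Fin m) F
local notation "Mat" => Matrix (Fin m ⊕ Fin m) (Fin m ⊕ Fin m) F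

variable {θ : Matrix (Fin m ⊕ Fin m) (Fin m ⊕ Fin m) F} {ν : F}

lemma mulVec_ne_zero (g : GG) {x : VV} (hx : x ≠ 0) : (g : Mat) *ᵥ x ≠ 0 := by
  intro h0
  apply hx
  have := inv_cancel' g x
  rw [h0, Matrix.mulVec_zero] at this
  exact this.symm

section Fin

variable [Fintype F]

/-- A `K`-line moved to something that is not a `K`-line. -/
theorem exists_bad (h : Cx θ ν) (h2 : (2 : F) ≠ 0) (hm : 7 ≤ m) {g : GG} (hg : g ∈ spGL m F)
    (hne : ¬ ∃ s t : F, ∀ y, (g : Mat) *ᵥ (θ *ᵥ (((g⁻¹ : GG) : Mat) *ᵥ y)) = s • y + t • θ *ᵥ y) :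
    ∃ a, a ≠ 0 ∧ QB θ a = 0 ∧ (g : Mat) *ᵥ (θ *ᵥ a) ∉ KS θ ((g : Mat) *ᵥ a) := by
  have hQ := QB_nd h h2
  by_contra hcon
  push Not at hcon
  apply hne
  have hcard : Fintype.card (Fin m ⊕ Fin m) = 2 * m := by
    rw [Fintype.card_sum, Fintype.card_fin]
    ring
  obtain ⟨a₀, ha₀0, hQa₀, -, -⟩ := exists_sing_avoid hQ ⊥ ⊥ (by rw [finrank_bot, hcard]; omega)
  obtain ⟨s₀, t₀, e₀⟩ := mem_KS.1 (hcon a₀ ha₀0 hQa₀)
  -- step
  have step : ∀ {s t : F} {a b : VV}, a ≠ 0 → QB θ a = 0 → b ≠ 0 → QB θ b = 0 → GO.pl (QB θ) a b = 0 → b ∉ KS θ a →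
      s • (g : Mat) *ᵥ a + t • θ *ᵥ ((g : Mat) *ᵥ a) = (g : Mat) *ᵥ (θ *ᵥ a) →
      s • (g : Mat) *ᵥ b + t • θ *ᵥ ((g : Mat) *ᵥ b) = (g : Mat) *ᵥ (θ *ᵥ b) := by
    intro s t a b ha0 ha hb0 hb hab hn e
    have hab0 : a + b ≠ 0 := by
      intro h0
      apply hn
      have : b = (-1 : F) • a := by
        rw [neg_one_smul]
        exact eq_neg_of_add_eq_zero_right h0
      rw [this]
      exact Submodule.smul_mem _ _ (mem_KS_self a)
    have hsum : QB θ (a + b) = 0 := by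
      rw [GO.Q_add (QB θ), ha, hb, hab]
      ring
    obtain ⟨s', t', e'⟩ := mem_KS.1 (hcon b hb0 hb)
    obtain ⟨s'', t'', e''⟩ := mem_KS.1 (hcon _ hab0 hsum)
    have ht : t ≠ 0 := by
      rintro rfl
      rw [zero_smul, add_zero] at e
      have h3 : (g : Mat) *ᵥ (θ *ᵥ a) = (g : Mat) *ᵥ (s • a) := by
        rw [Matrix.mulVec_smul, e]
      have h4 : θ *ᵥ a = s • a := by
        have := congrArg (fun w => ((g⁻¹ : GG) : Mat) *ᵥ w) h3
        simpa only [inv_cancel'] using this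
      exact ha0 (h.no_eig h4)
    have hind : (g : Mat) *ᵥ b ∉ KS θ ((g : Mat) *ᵥ a) := by
      intro hm'
      obtain ⟨p, r, epr⟩ := mem_KS.1 hm'
      apply hn
      rw [mem_KS]
      refine ⟨p - r * s / t, r / t, ?_⟩
      have h3 : θ *ᵥ ((g : Mat) *ᵥ a) = t⁻¹ • ((g : Mat) *ᵥ (θ *ᵥ a) - s • (g : Mat) *ᵥ a) := by
        rw [← e, add_sub_cancel_left, smul_smul, inv_mul_cancel₀ ht, one_smul]
      have h4 : (g : Mat) *ᵥ ((p - r * s / t) • a + (r / t) • θ *ᵥ a) = (g : Mat) *ᵥ b := by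
        rw [← epr, h3, Matrix.mulVec_add, Matrix.mulVec_smul, Matrix.mulVec_smul]
        ext i
        simp only [Pi.add_apply, Pi.sub_apply, Pi.smul_apply, smul_eq_mul]
        field_simp
        ring
      have := congrArg (fun w => ((g⁻¹ : GG) : Mat) *ᵥ w) h4
      simpa only [inv_cancel'] using this
    have hsumeq : (s'' - s) • (g : Mat) *ᵥ a + (t'' - t) • θ *ᵥ ((g : Mat) *ᵥ a) =
        (s' - s'') • (g : Mat) *ᵥ b + (t' - t'') • θ *ᵥ ((g : Mat) *ᵥ b) := by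
      have h5 : s'' • (g : Mat) *ᵥ (a + b) + t'' • θ *ᵥ ((g : Mat) *ᵥ (a + b)) =
          (s • (g : Mat) *ᵥ a + t • θ *ᵥ ((g : Mat) *ᵥ a)) + (s' • (g : Mat) *ᵥ b + t' • θ *ᵥ ((g : Mat) *ᵥ b)) := by
        rw [e'', e, e', Matrix.mulVec_add θ, Matrix.mulVec_add (g : Mat)]
      simp only [Matrix.mulVec_add] at h5
      ext i
      have := congrFun h5 i
      simp only [Pi.add_apply, Pi.sub_apply, Pi.smul_apply, smul_eq_mul] at this ⊢
      linear_combination this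
    obtain ⟨h6, h7, h8, h9⟩ := h.K_indep hind (mulVec_ne_zero g ha0) hsumeq
    have e1 : s' = s := by linear_combination h8 + h6
    have e2 : t' = t := by linear_combination h9 + h7
    rw [← e1, ← e2]
    exact e'
  have hall : ∀ b, QB θ b = 0 → s₀ • (g : Mat) *ᵥ b + t₀ • θ *ᵥ ((g : Mat) *ᵥ b) = (g : Mat) *ᵥ (θ *ᵥ b) := by
    intro b hb
    by_cases hb0 : b = 0
    · rw [hb0]
      simp
    obtain ⟨c, hc0, hQc, hcS, hcT⟩ := exists_sing_avoid hQ (Submodule.span F {a₀, b}) (KS θ a₀ ⊔ KS θ b) (by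
      have h3 := Submodule.finrank_add_le_finrank_add_finrank (KS θ a₀) (KS θ b)
      have h4 := finrank_KS (θ := θ) a₀
      have h5 := finrank_KS (θ := θ) b
      have h6 := GO.finrank_span_two (F := F) a₀ b
      omega)
    have hca : GO.pl (QB θ) a₀ c = 0 := by
      rw [GO.pl_symm]
      exact hcS _ (GO.mem_span_two_l a₀ b)
    have hcb : GO.pl (QB θ) c b = 0 := hcS _ (GO.mem_span_two_r a₀ b)
    have hn1 : c ∉ KS θ a₀ := fun hm' => hcT (Submodule.mem_sup_left hm')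
    have hn2 : b ∉ KS θ c := fun hm' => hcT (Submodule.mem_sup_right (h.KS_symm hm' hb0))
    exact step hc0 hQc hb0 hb hcb hn2 (step ha₀0 hQa₀ hc0 hQc hca hn1 e₀)
  -- all vectors
  have hall2 : ∀ v : VV, s₀ • (g : Mat) *ᵥ v + t₀ • θ *ᵥ ((g : Mat) *ᵥ v) = (g : Mat) *ᵥ (θ *ᵥ v) := by
    intro v
    by_cases hv : QB θ v = 0
    · exact hall v hv
    have hd : 2 * Module.finrank F (Submodule.span F {v}) + 3 ≤ Module.finrank F (⊤ : Submodule F VV) := by
      rw [finrank_top, Module.finrank_fintype_fun_eq_card, hcard]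
      have := GO.finrank_span_one (F := F) v
      omega
    obtain ⟨p, -, hQp, hp⟩ := GO.singularize hQ (GO.ndg_top hQ) le_top hd (Submodule.mem_top (x := (2⁻¹ : F) • v))
    have hpv : GO.pl (QB θ) p v = QB θ v := by
      rw [hp v (Submodule.mem_span_singleton_self v), GO.pl_smul_left hQ, GO.pl_self hQ]
      field_simp
    have hsub : QB θ (v - p) = 0 := by
      rw [GO.Q_sub hQ, hQp, GO.pl_symm, hpv]
      ring
    have e1 := hall p hQp
    have e2 := hall _ hsub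
    have hv' : v = p + (v - p) := by abel
    rw [hv']
    simp only [Matrix.mulVec_add]
    rw [smul_add, smul_add, ← e1, ← e2]
    abel
  refine ⟨s₀, t₀, fun y => ?_⟩
  have := hall2 (((g⁻¹ : GG) : Mat) *ᵥ y)
  rw [inv_cancel] at this
  exact this.symm

/-- The main step: a transvection at a singular vector. -/
theorem exists_tv (h : Cx θ ν) (h2 : (2 : F) ≠ 0) (hm : 7 ≤ m) {M : Subgroup GG} (hH : ∀ k, Hk θ k → k ∈ M) {g : GG} (hgM : g ∈ M)
    (hg : g ∈ spGL m F) {a : VV} (ha0 : a ≠ 0) (hQa : QB θ a = 0) (hbad : (g : Mat) *ᵥ (θ *ᵥ a) ∉ KS θ ((g : Mat) *ᵥ a)) :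
    ∃ x, x ≠ 0 ∧ QB θ x = 0 ∧ tv x (-(2 * (ν⁻¹ * ν⁻¹))) ∈ M := by
  have hQ := QB_nd h h2
  have hν := h.ν0
  have hcard : Fintype.card (Fin m ⊕ Fin m) = 2 * m := by
    rw [Fintype.card_sum, Fintype.card_fin]
    ring
  obtain ⟨u, hu⟩ : ∃ u, u = (g : Mat) *ᵥ a := ⟨_, rfl⟩
  obtain ⟨v, hv⟩ : ∃ v, v = (g : Mat) *ᵥ (θ *ᵥ a) := ⟨_, rfl⟩
  rw [← hu, ← hv] at hbad
  have hiso := mem_spGL_iff.1 hg
  have huv : sf u v = 0 := by
    rw [hu, hv, hiso]
    exact sing_sf h h2 hQa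
  have hvu : sf v u = 0 := by rw [sympForm_swap, huv, neg_zero]
  have hv0 : v ≠ 0 := by
    rw [hv]
    exact mulVec_ne_zero g (h.ne_zero ha0)
  -- z₁
  have hp1 := h.th_not_mem (W := KS θ u) (fun w hw => h.KS_stable hw) hbad
  obtain ⟨z₁, hQz₁, hz₁S, hz₁p⟩ := exists_sing_sep hQ hp1 (by
    have h3 := Submodule.finrank_add_le_finrank_add_finrank (KS θ u) (Submodule.span F {v})
    have h4 := finrank_KS (θ := θ) u
    have h5 := GO.finrank_span_one (F := F) v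
    rw [hcard]
    omega) ν
  have a1 : GO.pl (QB θ) z₁ u = 0 := hz₁S _ (Submodule.mem_sup_left (mem_KS_self u))
  have a2 : GO.pl (QB θ) z₁ (θ *ᵥ u) = 0 := hz₁S _ (Submodule.mem_sup_left (mem_KS_th u))
  have a3 : GO.pl (QB θ) z₁ v = 0 := hz₁S _ (Submodule.mem_sup_right (Submodule.mem_span_singleton_self v))
  have b1 : sf v z₁ = 1 := by
    rw [sf_eq h h2, GO.pl_symm, hz₁p, inv_mul_cancel₀ hν]
  have b2 : sf v (θ *ᵥ z₁) = 0 := by
    rw [sf_th h h2, GO.pl_symm, a3, neg_zero]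
  have b3 : sf u z₁ = 0 := by
    rw [sf_eq h h2, GO.pl_symm, a2, mul_zero]
  have b4 : sf u (θ *ᵥ z₁) = 0 := by
    rw [sf_th h h2, GO.pl_symm, a1, neg_zero]
  -- z₂
  obtain ⟨z₂, hz₂0, hQz₂, hz₂S, hz₂T⟩ := exists_sing_avoid hQ (KS θ u ⊔ KS θ v ⊔ KS θ z₁) (KS θ v) (by
    have h3 := Submodule.finrank_add_le_finrank_add_finrank (KS θ u ⊔ KS θ v) (KS θ z₁)
    have h3' := Submodule.finrank_add_le_finrank_add_finrank (KS θ u) (KS θ v)
    have h4 := finrank_KS (θ := θ) u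
    have h5 := finrank_KS (θ := θ) v
    have h6 := finrank_KS (θ := θ) z₁
    rw [hcard]
    omega)
  have c1 : ∀ s ∈ KS θ u, GO.pl (QB θ) z₂ s = 0 := fun s hs => hz₂S s (Submodule.mem_sup_left (Submodule.mem_sup_left hs))
  have c2 : ∀ s ∈ KS θ v, GO.pl (QB θ) z₂ s = 0 := fun s hs => hz₂S s (Submodule.mem_sup_left (Submodule.mem_sup_right hs))
  have c3 : ∀ s ∈ KS θ z₁, GO.pl (QB θ) z₂ s = 0 := fun s hs => hz₂S s (Submodule.mem_sup_right hs)
  have d1 : sf u z₂ = 0 := by rw [sf_eq h h2, GO.pl_symm, c1 _ (mem_KS_th u), mul_zero]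
  have d2 : sf u (θ *ᵥ z₂) = 0 := by rw [sf_th h h2, GO.pl_symm, c1 _ (mem_KS_self u), neg_zero]
  have d3 : sf v z₂ = 0 := by rw [sf_eq h h2, GO.pl_symm, c2 _ (mem_KS_th v), mul_zero]
  have d4 : sf v (θ *ᵥ z₂) = 0 := by rw [sf_th h h2, GO.pl_symm, c2 _ (mem_KS_self v), neg_zero]
  have d5 : sf z₁ z₂ = 0 := by rw [sf_eq h h2, GO.pl_symm, c3 _ (mem_KS_th z₁), mul_zero]
  have d6 : GO.pl (QB θ) z₁ z₂ = 0 := by rw [GO.pl_symm, c3 _ (mem_KS_self z₁)]
  -- the first element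
  obtain ⟨k₁, hk₁, hk₁a⟩ := exists_Rk h h2 hQz₁ hQz₂ d6 d5
  have hk₁u : (k₁ : Mat) *ᵥ u = u := by
    rw [hk₁a, b3, d1, b4, d2]
    simp
  have hk₁v : (k₁ : Mat) *ᵥ v = v + z₂ := by
    rw [hk₁a, b1, d3, b2, d4]
    simp
  -- the element E
  obtain ⟨d, hd⟩ : ∃ d, d = -ν⁻¹ := ⟨_, rfl⟩
  have hE₀ : ∀ y, ((g * Tk θ ν a 1 * g⁻¹ : GG) : Mat) *ᵥ y = y + ((1 : F) * sf y u) • u + (d * sf y v) • v := by
    intro y
    have hact : ∀ y, ((Tk θ ν a 1 : GG) : Mat) *ᵥ y = y + ((1 : F) * sf y a) • a + (d * sf y (θ *ᵥ a)) • θ *ᵥ a := by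
      intro y
      rw [Tk_act h h2 hQa, hd]
      ext i
      simp only [Pi.add_apply, Pi.sub_apply, Pi.smul_apply, smul_eq_mul]
      field_simp
      ring
    have := conj_act2 hg hact y
    rwa [← hu, ← hv] at this
  have hE₀M : g * Tk θ ν a 1 * g⁻¹ ∈ M := M.mul_mem (M.mul_mem hgM (hH _ (Tk_Hk h h2 hQa 1))) (M.inv_mem hgM)
  obtain ⟨E, hEdef⟩ : ∃ E, E = g * Tk θ ν a 1 * g⁻¹ := ⟨_, rfl⟩
  rw [← hEdef] at hE₀ hE₀M
  have hE' := conj_act2 hk₁.1 hE₀
  rw [hk₁u, hk₁v] at hE'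
  have hE'M : k₁ * E * k₁⁻¹ ∈ M := M.mul_mem (M.mul_mem (hH _ hk₁) hE₀M) (M.inv_mem (hH _ hk₁))
  -- rho
  obtain ⟨x, hx⟩ : ∃ x, x = z₂ := ⟨_, rfl⟩
  obtain ⟨w, hw⟩ : ∃ w, w = v + (2⁻¹ : F) • z₂ := ⟨_, rfl⟩
  have hρ : ∀ z, ((k₁ * E * k₁⁻¹ * E⁻¹ : GG) : Mat) *ᵥ z = z + d • (sf z z₂ • w + sf z w • z₂) := by
    intro z
    obtain ⟨y, hy⟩ : ∃ y, y = ((E⁻¹ : GG) : Mat) *ᵥ z := ⟨_, rfl⟩
    have hz : z = (E : Mat) *ᵥ y := by rw [hy, inv_cancel]
    rw [Units.val_mul, ← Matrix.mulVec_mulVec, ← hy, hE']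
    have s1 : sf z v = sf y v := by
      rw [hz, hE₀, sympForm_add_left, sympForm_add_left, sympForm_smul_left, sympForm_smul_left, huv, sympForm_self]
      ring
    have s2 : sf z z₂ = sf y z₂ := by
      rw [hz, hE₀, sympForm_add_left, sympForm_add_left, sympForm_smul_left, sympForm_smul_left, d1, d3]
      ring
    have s3 : sf z w = sf y v + (2⁻¹ : F) * sf y z₂ := by
      rw [hw, sympForm_add_right, sympForm_smul_right, s1, s2]
    rw [s2, s3, hw, sympForm_add_right]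
    conv_rhs => rw [hz, hE₀]
    ext i
    simp only [Pi.add_apply, Pi.smul_apply, smul_eq_mul]
    field_simp
    ring
  have hρM : k₁ * E * k₁⁻¹ * E⁻¹ ∈ M := M.mul_mem hE'M (M.inv_mem hE₀M)
  obtain ⟨ρ, hρdef⟩ : ∃ ρ, ρ = k₁ * E * k₁⁻¹ * E⁻¹ := ⟨_, rfl⟩
  rw [← hρdef] at hρ hρM
  -- e
  have hwn : w ∉ KS θ z₂ := by
    intro hm'
    have hv2 : v ∈ KS θ z₂ := by
      have : v = w - (2⁻¹ : F) • z₂ := by
        rw [hw]
        abel
      rw [this]
      exact Submodule.sub_mem _ hm' (Submodule.smul_mem _ _ (mem_KS_self z₂))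
    exact hz₂T (h.KS_symm hv2 hv0)
  have hp2 := h.th_not_mem (W := KS θ z₂) (fun w hw => h.KS_stable hw) hwn
  obtain ⟨e, hQe, heS, hep⟩ := exists_sing_sep hQ hp2 (by
    have h3 := Submodule.finrank_add_le_finrank_add_finrank (KS θ z₂) (Submodule.span F {w})
    have h4 := finrank_KS (θ := θ) z₂
    have h5 := GO.finrank_span_one (F := F) w
    rw [hcard]
    omega) ν
  have f1 : GO.pl (QB θ) e z₂ = 0 := heS _ (Submodule.mem_sup_left (mem_KS_self z₂))
  have f2 : GO.pl (QB θ) e (θ *ᵥ z₂) = 0 := heS _ (Submodule.mem_sup_left (mem_KS_th z₂))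
  have f3 : GO.pl (QB θ) e w = 0 := heS _ (Submodule.mem_sup_right (Submodule.mem_span_singleton_self w))
  have g1 : sf w e = 1 := by rw [sf_eq h h2, GO.pl_symm, hep, inv_mul_cancel₀ hν]
  have g2 : sf w (θ *ᵥ e) = 0 := by rw [sf_th h h2, GO.pl_symm, f3, neg_zero]
  have g3 : sf z₂ e = 0 := by rw [sf_eq h h2, GO.pl_symm, f2, mul_zero]
  have g4 : sf z₂ (θ *ᵥ e) = 0 := by rw [sf_th h h2, GO.pl_symm, f1, neg_zero]
  have hT := Tk_Hk h h2 hQe 1
  have hTz : ((Tk θ ν e 1 : GG) : Mat) *ᵥ z₂ = z₂ := by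
    rw [Tk_act h h2 hQe, g3, g4]
    simp
  have hTw : ((Tk θ ν e 1 : GG) : Mat) *ᵥ w = w + e := by
    rw [Tk_act h h2 hQe, g1, g2]
    simp
  have hρ' := conj_RL hT.1 hρ
  rw [hTz, hTw] at hρ'
  have hρ'M : Tk θ ν e 1 * ρ * (Tk θ ν e 1)⁻¹ ∈ M := M.mul_mem (M.mul_mem (hH _ hT) hρM) (M.inv_mem (hH _ hT))
  have hxw : sf z₂ w = 0 := by
    rw [hw, sympForm_add_right, sympForm_smul_right, sympForm_self, sympForm_swap, d3]
    ring
  have hxw' : sf z₂ (w + e) = 0 := by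
    rw [sympForm_add_right, hxw, g3, add_zero]
  have hww' : sf w (w + e) = 1 := by
    rw [sympForm_add_right, sympForm_self, g1, zero_add]
  have hc := RL_comm hρ hρ' hxw hxw' hww'
  refine ⟨z₂, hz₂0, hQz₂, ?_⟩
  have e1 : -(2 * (ν⁻¹ * ν⁻¹)) = -(2 * d * d * 1) := by
    rw [hd]
    ring
  rw [e1, ← hc]
  exact M.mul_mem (M.mul_mem (M.mul_mem hρM hρ'M) (M.inv_mem hρM)) (M.inv_mem hρ'M)

/-- The structure attached to a field subalgebra. -/
theorem exists_cx (h2 : (2 : F) ≠ 0) (hm : 1 ≤ m) {K : Subalgebra F Mat} (hK : IsFieldSubalgebra 2 K)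
    (hac : IsAdjointClosedFor (Cfsg.sympForm m F) K) (hnsa : ¬ IsSelfAdjointFor (Cfsg.sympForm m F) K) :
    ∃ (θ : Mat) (ν : F), Cx θ ν ∧ θ ∈ K ∧ ∀ k, k ∈ K ↔ ∃ s t : F, k = s • (1 : Mat) + t • θ := by
  classical
  haveI : Nonempty (Fin m ⊕ Fin m) := ⟨Sum.inl ⟨0, by omega⟩⟩
  have hadj : ∀ k ∈ K, ∃ k' ∈ K, ∀ u v : VV, sf (k *ᵥ u) v = sf u (k' *ᵥ v) := hac
  have hnsa' : ¬ ∀ k ∈ K, ∀ u v : VV, sf (k *ᵥ u) v = sf u (k *ᵥ v) := hnsa
  push Not at hnsa'
  obtain ⟨k, hk, u₀, v₀, hne⟩ := hnsa'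
  obtain ⟨k', hk', hkk'⟩ := hadj k hk
  obtain ⟨θ, hθdef⟩ : ∃ θ, θ = k - k' := ⟨_, rfl⟩
  have hθK : θ ∈ K := by
    rw [hθdef]
    exact K.sub_mem hk hk'
  have hk's : ∀ u v : VV, sf (k' *ᵥ u) v = sf u (k *ᵥ v) := by
    intro u v
    rw [sympForm_swap, ← hkk', sympForm_swap, neg_neg]
  have hanti : ∀ u v : VV, sf (θ *ᵥ u) v = - sf u (θ *ᵥ v) := by
    intro u v
    rw [hθdef, Matrix.sub_mulVec, Matrix.sub_mulVec, sf_sub_l, sympForm_sub_right, hkk', hk's]
    ring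
  have hθ0 : θ ≠ 0 := by
    intro h0
    apply hne
    have : k = k' := by
      rw [hθdef] at h0
      exact sub_eq_zero.1 h0
    rw [hkk' u₀ v₀, this]
  have hscal : ∀ c : F, θ ≠ c • (1 : Mat) := by
    intro c hc
    apply hθ0
    have hc0 : c = 0 := by
      by_contra hc0
      obtain ⟨x, hx⟩ : ∃ x : VV, x ≠ 0 := by
        refine ⟨fun _ => 1, fun h => ?_⟩
        have := congrFun h (Sum.inl ⟨0, by omega⟩)
        simp at this
      obtain ⟨z, hz⟩ := sympForm_nondeg hx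
      have := hanti x z
      rw [hc, Matrix.smul_mulVec, Matrix.smul_mulVec, Matrix.one_mulVec, Matrix.one_mulVec, sympForm_smul_left,
        sympForm_smul_right] at this
      have h3 : 2 * c * sf x z = 0 := by linear_combination this
      exact (mul_ne_zero (mul_ne_zero h2 hc0) hz) h3
    rw [hc, hc0, zero_smul]
  -- basis
  have hspan : ∀ l ∈ K, ∃ s t : F, l = s • (1 : Mat) + t • θ := by
    let e : Fin 2 → K := ![1, ⟨θ, hθK⟩]
    have hli : LinearIndependent F e := by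
      rw [LinearIndependent.pair_iff]
      intro s t hst
      have h3 : s • (1 : Mat) + t • θ = 0 := by
        have := congrArg Subtype.val hst
        simpa [e] using this
      have ht : t = 0 := by
        by_contra ht
        apply hscal (-(s / t))
        have : θ = t⁻¹ • (t • θ) := by rw [smul_smul, inv_mul_cancel₀ ht, one_smul]
        rw [this, eq_neg_of_add_eq_zero_right h3, smul_neg, ← neg_smul, smul_smul]
        congr 1
        field_simp
      refine ⟨?_, ht⟩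
      rw [ht, zero_smul, add_zero] at h3
      rcases smul_eq_zero.1 h3 with h4 | h4
      · exact h4
      · exfalso
        have := congrFun (congrFun h4 (Sum.inl ⟨0, by omega⟩)) (Sum.inl ⟨0, by omega⟩)
        simp at this
    have hsp := hli.span_eq_top_of_card_eq_finrank' (by
      rw [hK.finrank_eq]
      simp)
    intro l hl
    have hmem : (⟨l, hl⟩ : K) ∈ Submodule.span F (Set.range e) := by
      rw [hsp]
      trivial
    have hr : Set.range e = {(1 : K), ⟨θ, hθK⟩} := by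
      ext x
      simp [e, Fin.exists_fin_two, eq_comm]
      exact or_comm
    rw [hr] at hmem
    obtain ⟨s, t, hst⟩ := Submodule.mem_span_pair.1 hmem
    refine ⟨s, t, ?_⟩
    have := congrArg Subtype.val hst
    simpa using this.symm
  -- the square
  obtain ⟨ν, t, hsq⟩ := hspan (θ * θ) (K.mul_mem hθK hθK)
  have ht0 : t = 0 := by
    by_contra ht
    have hsa : ∀ u v : VV, sf ((θ * θ) *ᵥ u) v = sf u ((θ * θ) *ᵥ v) := by
      intro u v
      rw [← Matrix.mulVec_mulVec, ← Matrix.mulVec_mulVec, hanti, hanti, neg_neg]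
    have hne' : ∃ u v : VV, sf u (θ *ᵥ v) ≠ 0 := by
      obtain ⟨v, hv⟩ : ∃ v : VV, θ *ᵥ v ≠ 0 := by
        by_contra hcon
        push Not at hcon
        apply hθ0
        apply Matrix.mulVec_injective
        funext x
        rw [hcon x, Matrix.zero_mulVec]
      obtain ⟨z, hz⟩ := sympForm_nondeg hv
      refine ⟨z, v, ?_⟩
      rw [sympForm_swap]
      exact neg_ne_zero.2 hz
    obtain ⟨u, v, huv⟩ := hne'
    have := hsa u v
    rw [hsq, Matrix.add_mulVec, Matrix.add_mulVec, Matrix.smul_mulVec, Matrix.smul_mulVec, Matrix.smul_mulVec, Matrix.smul_mulVec,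
      Matrix.one_mulVec, Matrix.one_mulVec, sympForm_add_left, sympForm_add_right, sympForm_smul_left, sympForm_smul_left,
      sympForm_smul_right, sympForm_smul_right, hanti] at this
    have h3 : 2 * t * sf u (θ *ᵥ v) = 0 := by linear_combination - this
    exact (mul_ne_zero (mul_ne_zero h2 ht) huv) h3
  rw [ht0, zero_smul, add_zero] at hsq
  have hsqv : ∀ x : VV, θ *ᵥ (θ *ᵥ x) = ν • x := by
    intro x
    rw [Matrix.mulVec_mulVec, hsq, Matrix.smul_mulVec, Matrix.one_mulVec]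
  have hnonsq : ∀ s : F, s * s ≠ ν := by
    intro r hr
    have hne1 : θ - r • (1 : Mat) ≠ 0 := fun h0 => hscal r (sub_eq_zero.1 h0)
    have hne2 : θ + r • (1 : Mat) ≠ 0 := by
      intro h0
      apply hscal (-r)
      rw [neg_smul]
      exact eq_neg_of_add_eq_zero_left h0
    have hmem : θ - r • (1 : Mat) ∈ K := K.sub_mem hθK (K.smul_mem K.one_mem r)
    obtain ⟨y, hy, hxy⟩ := hK.inv _ hmem hne1
    have hprod : (θ - r • (1 : Mat)) * (θ + r • (1 : Mat)) = 0 := by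
      rw [sub_mul, mul_add, mul_add, hsq, ← hr]
      simp only [mul_smul_comm, smul_mul_assoc, mul_one, one_mul, smul_smul]
      abel
    apply hne2
    have hyx : y * (θ - r • (1 : Mat)) = 1 := by rw [hK.comm y hy _ hmem, hxy]
    calc θ + r • (1 : Mat) = y * (θ - r • (1 : Mat)) * (θ + r • (1 : Mat)) := by rw [hyx, one_mul]
      _ = 0 := by rw [mul_assoc, hprod, mul_zero]
  refine ⟨θ, ν, ⟨hsqv, hanti, hnonsq⟩, hθK, fun l => ⟨hspan l, ?_⟩⟩
  rintro ⟨s, t, rfl⟩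
  exact K.add_mem (K.smul_mem K.one_mem s) (K.smul_mem hθK t)

/-- Maximality of the unitary group. -/
theorem gu_max (hm : 7 ≤ m) (hodd : Odd (Fintype.card F)) {K : Subalgebra F Mat} (hK : IsFieldSubalgebra 2 K)
    (hac : IsAdjointClosedFor (Cfsg.sympForm m F) K) (hnsa : ¬ IsSelfAdjointFor (Cfsg.sympForm m F) K) :
    IsMaximalIn (spGL m F) (subalgebraNormalizer K ⊓ spGL m F) := by
  classical
  have h2 : (2 : F) ≠ 0 := GO.two_ne_zero_of_odd hodd
  obtain ⟨θ, ν, h, hθK, hKd⟩ := exists_cx h2 (by omega) hK hac hnsa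
  have hν := h.ν0
  have hQ := QB_nd h h2
  have hcard : Fintype.card (Fin m ⊕ Fin m) = 2 * m := by
    rw [Fintype.card_sum, Fintype.card_fin]
    ring
  -- criterion
  have hmat : ∀ (g : GG) (s t : F), (∀ y, (g : Mat) *ᵥ (θ *ᵥ (((g⁻¹ : GG) : Mat) *ᵥ y)) = s • y + t • θ *ᵥ y) →
      (g : Mat) * θ * ((g⁻¹ : GG) : Mat) = s • (1 : Mat) + t • θ := by
    intro g s t e
    apply Matrix.mulVec_injective
    funext y
    rw [Matrix.add_mulVec, Matrix.smul_mulVec, Matrix.smul_mulVec, Matrix.one_mulVec, ← e, ← Matrix.mulVec_mulVec,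
      ← Matrix.mulVec_mulVec]
  have hx0 : ∃ x : VV, x ≠ 0 := by
    refine ⟨fun _ => 1, fun h => ?_⟩
    have := congrFun h (Sum.inl ⟨0, by omega⟩)
    simp at this
  have hnorm : ∀ (g : GG) (s t : F), (∀ y, (g : Mat) *ᵥ (θ *ᵥ (((g⁻¹ : GG) : Mat) *ᵥ y)) = s • y + t • θ *ᵥ y) →
      g ∈ subalgebraNormalizer K := by
    intro g s t e k
    have e' := hmat g s t e
    have ht : t ≠ 0 := by
      rintro rfl
      obtain ⟨x, hx⟩ := hx0
      rw [zero_smul, add_zero] at e'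
      apply (mulVec_ne_zero g⁻¹ hx)
      apply h.no_eig (s := s)
      have h3 := congrArg (fun A => A *ᵥ x) e'
      simp only [Matrix.smul_mulVec, Matrix.one_mulVec, ← Matrix.mulVec_mulVec] at h3
      have h4 := congrArg (fun w => ((g⁻¹ : GG) : Mat) *ᵥ w) h3
      simp only [inv_cancel', Matrix.mulVec_smul] at h4
      exact h4
    have hginv : ((g⁻¹ : GG) : Mat) * (g : Mat) = 1 := by simp
    have hgg : (g : Mat) * ((g⁻¹ : GG) : Mat) = 1 := by simp
    constructor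
    · intro hk
      obtain ⟨a, b, rfl⟩ := (hKd k).1 hk
      rw [hKd]
      refine ⟨a + b * s, b * t, ?_⟩
      have : (g : Mat) * (a • (1 : Mat) + b • θ) * ((g⁻¹ : GG) : Mat) =
          a • ((g : Mat) * ((g⁻¹ : GG) : Mat)) + b • ((g : Mat) * θ * ((g⁻¹ : GG) : Mat)) := by
        simp only [mul_add, add_mul, mul_smul_comm, smul_mul_assoc, mul_one]
      rw [this, hgg, e', add_smul, mul_smul, mul_smul, smul_add, smul_smul]
      simp only [mul_comm, smul_smul]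
      abel
    · intro hk
      obtain ⟨a, b, hab⟩ := (hKd _).1 hk
      -- `θ` in terms of the conjugate
      have h3 : ((g⁻¹ : GG) : Mat) * θ * (g : Mat) = (- (s / t)) • (1 : Mat) + t⁻¹ • θ := by
        have h4 : θ = (- (s / t)) • (1 : Mat) + t⁻¹ • ((g : Mat) * θ * ((g⁻¹ : GG) : Mat)) := by
          rw [e', smul_add, smul_smul, smul_smul, inv_mul_cancel₀ ht, one_smul, ← add_assoc, ← add_smul]
          have : - (s / t) + t⁻¹ * s = 0 := by
            field_simp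
            ring
          rw [this, zero_smul, zero_add]
        conv_lhs => rw [h4]
        simp only [mul_add, add_mul, mul_smul_comm, smul_mul_assoc, mul_one]
        rw [hginv]
        congr 2
        calc ((g⁻¹ : GG) : Mat) * ((g : Mat) * θ * ((g⁻¹ : GG) : Mat)) * (g : Mat)
            = (((g⁻¹ : GG) : Mat) * (g : Mat)) * θ * (((g⁻¹ : GG) : Mat) * (g : Mat)) := by
              simp only [mul_assoc]
          _ = θ := by rw [hginv, one_mul, mul_one]
      have h5 : k = ((g⁻¹ : GG) : Mat) * ((g : Mat) * k * ((g⁻¹ : GG) : Mat)) * (g : Mat) := by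
        calc k = (((g⁻¹ : GG) : Mat) * (g : Mat)) * k * (((g⁻¹ : GG) : Mat) * (g : Mat)) := by
              rw [hginv, one_mul, mul_one]
          _ = _ := by simp only [mul_assoc]
      rw [h5, hab, hKd]
      refine ⟨a + b * (- (s / t)), b * t⁻¹, ?_⟩
      have : ((g⁻¹ : GG) : Mat) * (a • (1 : Mat) + b • θ) * (g : Mat) =
          a • (((g⁻¹ : GG) : Mat) * (g : Mat)) + b • (((g⁻¹ : GG) : Mat) * θ * (g : Mat)) := by
        simp only [mul_add, add_mul, mul_smul_comm, smul_mul_assoc, mul_one]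
      rw [this, hginv, h3, add_smul, mul_smul, mul_smul, smul_add, smul_smul]
      simp only [mul_comm, smul_smul]
      abel
  have hHk : ∀ k, Hk θ k → k ∈ subalgebraNormalizer K ⊓ spGL m F := by
    intro k hk
    refine ⟨hnorm k 0 1 (fun y => ?_), hk.1⟩
    rw [hk.2, inv_cancel]
    simp
  have hnorm' : ∀ g ∈ subalgebraNormalizer K, ∃ s t : F, ∀ y, (g : Mat) *ᵥ (θ *ᵥ (((g⁻¹ : GG) : Mat) *ᵥ y)) = s • y + t • θ *ᵥ y := by
    intro g hg
    obtain ⟨s, t, e⟩ := (hKd _).1 ((hg θ).1 hθK)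
    refine ⟨s, t, fun y => ?_⟩
    rw [Matrix.mulVec_mulVec, Matrix.mulVec_mulVec, e, Matrix.add_mulVec, Matrix.smul_mulVec, Matrix.smul_mulVec, Matrix.one_mulVec]
  constructor
  · refine lt_of_le_of_ne inf_le_right fun heq => ?_
    -- a transvection is not in the normaliser
    obtain ⟨a, ha⟩ := hx0
    have hmem : tv a 1 ∈ subalgebraNormalizer K := by
      have : tv a 1 ∈ subalgebraNormalizer K ⊓ spGL m F := by
        rw [heq]
        exact tv_mem a 1
      exact this.1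
    obtain ⟨s, t, e⟩ := hnorm' _ hmem
    have hinvact : ∀ y, (((tv a 1 : GG)⁻¹ : GG) : Mat) *ᵥ y = y - sf y a • a := by
      intro y
      apply GO.inv_mulVec_of
      rw [tv_mulVec, sf_sub_l, sympForm_smul_left, sympForm_self]
      simp
    -- the two test vectors
    obtain ⟨y₁, hy₁0, -, hy₁S, -⟩ := exists_sing_avoid hQ (KS θ a) ⊥ (by
      rw [finrank_bot, hcard]
      have := finrank_KS (θ := θ) a
      omega)
    have p1 : GO.pl (QB θ) y₁ a = 0 := hy₁S _ (mem_KS_self a)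
    have p2 : GO.pl (QB θ) y₁ (θ *ᵥ a) = 0 := hy₁S _ (mem_KS_th a)
    have q1 : sf y₁ (θ *ᵥ a) = 0 := by rw [sf_th h h2, p1, neg_zero]
    have q2 : sf y₁ a = 0 := by
      rw [sympForm_swap, sf_eq h h2, GO.pl_symm, p2]
      simp
    have q3 : sf (θ *ᵥ y₁) a = 0 := by rw [h.anti, q1, neg_zero]
    have e1 := e y₁
    rw [hinvact, q2, zero_smul, sub_zero, tv_mulVec, q3] at e1
    simp only [mul_zero, zero_smul, add_zero] at e1
    have ht1 : t = 1 := by
      by_contra ht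
      have h1t : (1 : F) - t ≠ 0 := sub_ne_zero.2 (Ne.symm ht)
      apply hy₁0
      apply h.no_eig (s := s / (1 - t))
      have h3 : (1 - t) • θ *ᵥ y₁ = s • y₁ := by
        rw [sub_smul, one_smul, sub_eq_iff_eq_add]
        rw [← e1]
      have h4 : θ *ᵥ y₁ = (1 - t)⁻¹ • ((1 - t) • θ *ᵥ y₁) := by rw [smul_smul, inv_mul_cancel₀ h1t, one_smul]
      rw [h4, h3, smul_smul, div_eq_inv_mul]
    have hs0 : s = 0 := by
      rw [ht1, one_smul] at e1
      have h3 : s • y₁ = 0 := by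
        have := e1
        exact left_eq_add.1 (by rw [add_comm]; exact this)
      exact (smul_eq_zero.1 h3).resolve_right hy₁0
    have hn1 : θ *ᵥ a ∉ Submodule.span F {a} := by
      intro hm'
      obtain ⟨c, hc⟩ := Submodule.mem_span_singleton.1 hm'
      exact ha (h.no_eig hc.symm)
    obtain ⟨y₂, -, hy₂S, hy₂p⟩ := GO.exists_sep hQ (GO.ndg_top hQ) (Submodule.mem_top (x := θ *ᵥ a)) hn1 (-ν)
    have p3 : GO.pl (QB θ) y₂ a = 0 := hy₂S a ⟨Submodule.mem_span_singleton_self a, trivial⟩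
    have q4 : sf y₂ (θ *ᵥ a) = 0 := by rw [sf_th h h2, p3, neg_zero]
    have q5 : sf y₂ a = 1 := by
      rw [sympForm_swap, sf_eq h h2, GO.pl_symm, hy₂p]
      field_simp
    have q6 : sf (θ *ᵥ y₂) a = 0 := by rw [h.anti, q4, neg_zero]
    have e2 := e y₂
    rw [hinvact, q5, one_smul, tv_mulVec, Matrix.mulVec_sub, sf_sub_l, q6, ht1, hs0, zero_smul, zero_add, one_smul, one_mul] at e2
    apply ha
    apply h.no_eig (s := 0 - sf (θ *ᵥ a) a)
    ext i
    have := congrFun e2 i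
    simp only [Pi.add_apply, Pi.sub_apply, Pi.smul_apply, smul_eq_mul] at this ⊢
    linear_combination - this
  · intro M hHM hMSp
    by_cases hMH : M ≤ subalgebraNormalizer K ⊓ spGL m F
    · left
      exact le_antisymm hMH hHM
    right
    obtain ⟨g, hgM, hgH⟩ := SetLike.not_le_iff_exists.1 hMH
    have hg := hMSp hgM
    have hne : ¬ ∃ s t : F, ∀ y, (g : Mat) *ᵥ (θ *ᵥ (((g⁻¹ : GG) : Mat) *ᵥ y)) = s • y + t • θ *ᵥ y := by
      rintro ⟨s, t, e⟩
      exact hgH ⟨hnorm g s t e, hg⟩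
    obtain ⟨a, ha0, hQa, hbad⟩ := exists_bad h h2 hm hg hne
    have hH : ∀ k, Hk θ k → k ∈ M := fun k hk => hHM (hHk k hk)
    obtain ⟨x, hx0, hQx, ht⟩ := exists_tv h h2 hm hH hgM hg ha0 hQa hbad
    have hc₁ : -(2 * (ν⁻¹ * ν⁻¹)) ≠ 0 := by
      apply neg_ne_zero.2
      exact mul_ne_zero h2 (mul_ne_zero (inv_ne_zero hν) (inv_ne_zero hν))
    exact le_antisymm hMSp (spGL_le_of_tv M (all_tv h h2 hodd hm hH hc₁ hQx hx0 ht))

end Fin

end Cfsg.Agent.H27.SK
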