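import Mathlib
import Cfsg.Agent.Lib.H27.GeoSUGen
import Cfsg.Agent.Lib.Lead.SUOrder

/-!
# Frames for the unitary form and transport of frames
-/

set_option autoImplicit false
set_option linter.unusedSectionVars false
set_option linter.unusedSimpArgs false
set_option linter.unusedVariables false
set_option linter.style.multiGoal false
set_option linter.flexible false

namespace Cfsg.Agent.H27.SG

open scoped Matrix MatrixGroups
open Cfsg Cfsg.Geo Cfsg.Agent.H28

variable {n : ℕ} {F : Type*} [Field F] [Fintype F] {q : ℕ} {σ : F ≃+* F}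

local notation "hm" => hermForm n F q

lemma sum_left (hS : HS F q σ) {κ : Type*} (s : Finset κ) (a : κ → F) (v : κ → Fin n → F) (y : Fin n → F) :
    hm (∑ i ∈ s, a i • v i) y = ∑ i ∈ s, a i * hm (v i) y := by
  classical
  induction s using Finset.induction_on with
  | empty => simpa using zl hS y
  | insert b s hb ih => rw [Finset.sum_insert hb, Finset.sum_insert hb, al hS, sl hS, ih]

lemma sum_right (hS : HS F q σ) {κ : Type*} (s : Finset κ) (a : κ → F) (v : κ → Fin n → F) (y : Fin n → F) :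
    hm y (∑ i ∈ s, a i • v i) = ∑ i ∈ s, σ (a i) * hm y (v i) := by
  classical
  induction s using Finset.induction_on with
  | empty => simpa using zr hS y
  | insert b s hb ih => rw [Finset.sum_insert hb, Finset.sum_insert hb, ar hS, sr hS, ih]

/-- A linear map between bases with equal Gram matrices is an isometry. -/
theorem isom_of_gram (hS : HS F q σ) {ι : Type*} [Fintype ι] (b : Module.Basis ι F (Fin n → F)) (b' : ι → Fin n → F)
    (hG : ∀ i j, hm (b' i) (b' j) = hm (b i) (b j)) (x y : Fin n → F) :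
    hm (b.constr F b' x) (b.constr F b' y) = hm x y := by
  classical
  have h1 : ∀ z, b.constr F b' z = ∑ i, (b.repr z i) • b' i := fun z => by
    rw [Module.Basis.constr_apply_fintype]
    simp [Module.Basis.equivFun_apply]
  conv_rhs => rw [← b.sum_repr x, ← b.sum_repr y]
  rw [h1, h1, sum_left hS, sum_left hS]
  refine Finset.sum_congr rfl fun i _ => ?_
  rw [sum_right hS, sum_right hS]
  congr 1
  refine Finset.sum_congr rfl fun j _ => ?_
  rw [hG]

/-- Isometries are given by elements of `GU`. -/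
theorem exists_gu_of_isom (hS : HS F q σ) (T : (Fin n → F) →ₗ[F] (Fin n → F)) (hT : ∀ x y, hm (T x) (T y) = hm x y) :
    ∃ g ∈ GU n F q, (∀ x, (g : Matrix (Fin n) (Fin n) F) *ᵥ x = T x) ∧ LinearMap.det T = (g : Matrix (Fin n) (Fin n) F).det := by
  have hinj : Function.Injective T := by
    rw [injective_iff_map_eq_zero]
    intro x hx
    by_contra h0
    obtain ⟨-, y, hy⟩ := (herm_unitary hS).nondegenerate x h0
    apply hy
    rw [← hT, hx, zl hS]
  have hdet : (LinearMap.toMatrix' T).det ≠ 0 := by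
    rw [LinearMap.det_toMatrix']
    have h1 := (LinearEquiv.ofInjectiveEndo T hinj).isUnit_det'
    have h2 : LinearMap.det (LinearEquiv.ofInjectiveEndo T hinj : (Fin n → F) →ₗ[F] (Fin n → F)) = LinearMap.det T := by
      congr 1
    rw [← h2]
    exact h1.ne_zero
  refine ⟨Matrix.GeneralLinearGroup.mkOfDetNeZero (LinearMap.toMatrix' T) hdet, ?_, ?_, ?_⟩
  · intro x y
    change hm ((LinearMap.toMatrix' T) *ᵥ x) ((LinearMap.toMatrix' T) *ᵥ y) = hm x y
    rw [LinearMap.toMatrix'_mulVec, LinearMap.toMatrix'_mulVec, hT]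
  · intro x
    change (LinearMap.toMatrix' T) *ᵥ x = T x
    rw [LinearMap.toMatrix'_mulVec]
  · change LinearMap.det T = (LinearMap.toMatrix' T).det
    rw [LinearMap.det_toMatrix']

/-- The determinant of an isometry has norm one. -/
lemma det_norm (hS : HS F q σ) (T : (Fin n → F) →ₗ[F] (Fin n → F)) (hT : ∀ x y, hm (T x) (T y) = hm x y) :
    LinearMap.det T * σ (LinearMap.det T) = 1 := by
  obtain ⟨g, hg, -, hdet⟩ := exists_gu_of_isom hS T hT
  have h1 := Cfsg.Agent.Lead.det_pow_of_GU hS.card ⟨g, hg⟩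
  rw [hdet, hS.pow, ← pow_succ']
  exact h1

/-- An isometry of determinant one is given by an element of `SU`. -/
theorem exists_gsu_of_isom (hS : HS F q σ) (T : (Fin n → F) →ₗ[F] (Fin n → F)) (hT : ∀ x y, hm (T x) (T y) = hm x y)
    (hdet : LinearMap.det T = 1) : ∃ g ∈ GSU n F q, ∀ x, (g : Matrix (Fin n) (Fin n) F) *ᵥ x = T x := by
  obtain ⟨g, hg, hgx⟩ := Cfsg.Agent.H27.GD.exists_gl_of_linear T hdet
  refine ⟨g, ⟨?_, hg⟩, hgx⟩
  intro x y
  change hm ((g : Matrix (Fin n) (Fin n) F) *ᵥ x) ((g : Matrix (Fin n) (Fin n) F) *ᵥ y) = hm x y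
  rw [hgx, hgx, hT]

/-- Hilbert 90. -/
lemma hilbert90 (hS : HS F q σ) {δ : F} (hδ : δ * σ δ = 1) : ∃ l : F, l ≠ 0 ∧ l * (σ l)⁻¹ = δ := by
  have hδ0 : δ ≠ 0 := by
    rintro rfl
    simp at hδ
  have hσδ : σ δ = δ⁻¹ := by
    field_simp
    linear_combination hδ
  by_cases h : δ = -1
  · obtain ⟨θ, hθ0, hθ⟩ := hS.exists_trace_zero
    refine ⟨θ, hθ0, ?_⟩
    have hσθ : σ θ = - θ := by linear_combination hθ
    rw [hσθ, h]
    field_simp
  · have h1 : 1 + δ ≠ 0 := by
      intro h2
      apply h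
      linear_combination h2
    refine ⟨1 + δ, h1, ?_⟩
    rw [map_add, map_one, hσδ]
    have h3 : 1 + δ⁻¹ = (1 + δ) * δ⁻¹ := by
      field_simp
      ring
    rw [h3, mul_inv, inv_inv, ← mul_assoc, mul_inv_cancel₀ h1, one_mul]

/-- A family with a dual family is linearly independent. -/
lemma li_of_dual (hS : HS F q σ) {ι : Type*} [Fintype ι] [DecidableEq ι] (b b' : ι → Fin n → F)
    (h : ∀ i j, hm (b i) (b' j) = if i = j then 1 else 0) : LinearIndependent F b := by
  rw [Fintype.linearIndependent_iff]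
  intro g hg j
  have h1 := congrArg (fun v => hm v (b' j)) hg
  simp only [sum_left hS, zl hS] at h1
  rw [Finset.sum_eq_single j] at h1
  · rw [h] at h1
    simpa using h1
  · intro i _ hi
    rw [h, if_neg hi, mul_zero]
  · simp

/-- A hyperbolic-orthonormal frame. -/
structure IsFrame {k c : ℕ} (e f : Fin k → Fin n → F) (d : Fin c → Fin n → F) : Prop where
  ee : ∀ i j, hm (e i) (e j) = 0
  ef : ∀ i j, hm (e i) (f j) = if i = j then 1 else 0
  ff : ∀ i j, hm (f i) (f j) = 0
  ed : ∀ i j, hm (e i) (d j) = 0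
  fd : ∀ i j, hm (f i) (d j) = 0
  dd : ∀ i j, hm (d i) (d j) = if i = j then 1 else 0

/-- The frame as a single family. -/
def fam {k c : ℕ} (e f : Fin k → Fin n → F) (d : Fin c → Fin n → F) : Fin k ⊕ Fin k ⊕ Fin c → Fin n → F :=
  Sum.elim e (Sum.elim f d)

lemma frame_gram (hS : HS F q σ) {k c : ℕ} {e f e' f' : Fin k → Fin n → F} {d d' : Fin c → Fin n → F}
    (h : IsFrame (n := n) (F := F) (q := q) e f d) (h' : IsFrame (n := n) (F := F) (q := q) e' f' d') (i j : Fin k ⊕ Fin k ⊕ Fin c) :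
    hm (fam e' f' d' i) (fam e' f' d' j) = hm (fam e f d i) (fam e f d j) := by
  rcases i with i | i | i <;> rcases j with j | j | j <;> simp only [fam, Sum.elim_inl, Sum.elim_inr]
  · rw [h.ee, h'.ee]
  · rw [h.ef, h'.ef]
  · rw [h.ed, h'.ed]
  · rw [sm hS, h'.ef, sm hS (f i), h.ef]
  · rw [h.ff, h'.ff]
  · rw [h.fd, h'.fd]
  · rw [zero_of_swap hS (h.ed j i), zero_of_swap hS (h'.ed j i)]
  · rw [zero_of_swap hS (h.fd j i), zero_of_swap hS (h'.fd j i)]
  · rw [h.dd, h'.dd]

lemma frame_li (hS : HS F q σ) {k c : ℕ} {e f : Fin k → Fin n → F} {d : Fin c → Fin n → F}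
    (h : IsFrame (n := n) (F := F) (q := q) e f d) : LinearIndependent F (fam e f d) := by
  classical
  apply li_of_dual hS (fam e f d) (Sum.elim f (Sum.elim e d))
  intro i j
  rcases i with i | i | i <;> rcases j with j | j | j <;> simp only [fam, Sum.elim_inl, Sum.elim_inr]
  · simp [h.ef]
  · simp [h.ee]
  · simp [h.ed]
  · simp [h.ff]
  · rw [sm hS, h.ef]
    by_cases hij : i = j
    · simp [hij]
    · simp [hij, Ne.symm hij]
  · simp [h.fd]
  · simp [zero_of_swap hS (h.fd j i)]
  · simp [zero_of_swap hS (h.ed j i)]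
  · simp [h.dd]

/-- The isometry between two frames. -/
theorem frame_T (hS : HS F q σ) {k c : ℕ} (hn : n = k + k + c) (hn0 : 0 < n) {e f e' f' : Fin k → Fin n → F} {d d' : Fin c → Fin n → F}
    (h : IsFrame (n := n) (F := F) (q := q) e f d) (h' : IsFrame (n := n) (F := F) (q := q) e' f' d') :
    ∃ (b : Module.Basis (Fin k ⊕ Fin k ⊕ Fin c) F (Fin n → F)), (⇑b = fam e f d) ∧
      (∀ x y, hm (b.constr F (fam e' f' d') x) (b.constr F (fam e' f' d') y) = hm x y) := by
  classical
  have hcard : Fintype.card (Fin k ⊕ Fin k ⊕ Fin c) = Module.finrank F (Fin n → F) := by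
    rw [finrank_V]
    simp [hn]
    ring
  haveI : Nonempty (Fin k ⊕ Fin k ⊕ Fin c) := by
    rw [← Fintype.card_pos_iff, hcard, finrank_V]
    exact hn0
  have hli := frame_li hS h
  let b := basisOfLinearIndependentOfCardEqFinrank hli hcard
  have hb : ⇑b = fam e f d := coe_basisOfLinearIndependentOfCardEqFinrank hli hcard
  refine ⟨b, hb, ?_⟩
  apply isom_of_gram hS
  intro i j
  rw [hb]
  exact frame_gram hS h h' i j

lemma ne_of_frame_det (hS : HS F q σ) {δ : F} (h : δ * σ δ = 1) : δ ≠ 0 := by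
  rintro rfl
  simp at h

/-- Scaling a frame. -/
lemma scale_frame (hS : HS F q σ) {k c : ℕ} {e f : Fin k → Fin n → F} {d : Fin c → Fin n → F}
    (h : IsFrame (n := n) (F := F) (q := q) e f d) {a : Fin k → F} {ν : Fin c → F} (ha : ∀ i, a i ≠ 0) (hν : ∀ i, ν i * σ (ν i) = 1) :
    IsFrame (n := n) (F := F) (q := q) (fun i => a i • e i) (fun i => (σ (a i))⁻¹ • f i) (fun i => ν i • d i) := by
  constructor
  · intro i j
    simp only [sl hS, sr hS, h.ee, mul_zero]
  · intro i j
    simp only [sl hS, sr hS, h.ef, map_inv₀, hS.inv]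
    by_cases hij : i = j
    · subst hij
      simp only [if_true, mul_one]
      exact mul_inv_cancel₀ (ha i)
    · simp [hij]
  · intro i j
    simp only [sl hS, sr hS, h.ff, mul_zero]
  · intro i j
    simp only [sl hS, sr hS, h.ed, mul_zero]
  · intro i j
    simp only [sl hS, sr hS, h.fd, mul_zero]
  · intro i j
    simp only [sl hS, sr hS, h.dd]
    by_cases hij : i = j
    · subst hij
      simp only [if_true, mul_one]
      exact hν i
    · simp [hij]

lemma det_scale (hS : HS F q σ) {k c : ℕ} (b : Module.Basis (Fin k ⊕ Fin k ⊕ Fin c) F (Fin n → F))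
    (e f : Fin k → Fin n → F) (d : Fin c → Fin n → F) (a : Fin k → F) (ν : Fin c → F) :
    b.det (fam (fun i => a i • e i) (fun i => (σ (a i))⁻¹ • f i) (fun i => ν i • d i)) =
      (∏ i, a i) * (∏ i, (σ (a i))⁻¹) * (∏ i, ν i) * b.det (fam e f d) := by
  classical
  have e1 : fam (fun i => a i • e i) (fun i => (σ (a i))⁻¹ • f i) (fun i => ν i • d i) =
      fun i => (Sum.elim a (Sum.elim (fun i => (σ (a i))⁻¹) ν) i) • fam e f d i := by
    funext i
    rcases i with i | i | i <;> rfl
  rw [e1, AlternatingMap.map_smul_univ]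
  rw [Fintype.prod_sum_type, Fintype.prod_sum_type]
  simp only [Sum.elim_inl, Sum.elim_inr, smul_eq_mul]
  ring

/-- Transport of frames by an element of `SU`, when there is room to correct the determinant. -/
theorem frame_transport (hS : HS F q σ) {k c : ℕ} (hn : n = (k + 1) + (k + 1) + c) (hroom : 1 ≤ k ∨ 1 ≤ c)
    {e f e' f' : Fin (k + 1) → Fin n → F} {d d' : Fin c → Fin n → F}
    (h : IsFrame (n := n) (F := F) (q := q) e f d) (h' : IsFrame (n := n) (F := F) (q := q) e' f' d') :
    ∃ g ∈ GSU n F q, (∀ i, ∃ μ : F, (g : Matrix (Fin n) (Fin n) F) *ᵥ e i = μ • e' i) ∧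
      (g : Matrix (Fin n) (Fin n) F) *ᵥ f 0 = f' 0 := by
  classical
  obtain ⟨b, hb, hT⟩ := frame_T hS hn (by omega) h h'
  set δ := LinearMap.det (b.constr F (fam e' f' d')) with hδdef
  have hδ : δ * σ δ = 1 := det_norm hS _ hT
  have hδ0 : δ ≠ 0 := ne_of_frame_det hS hδ
  have hdetb : b.det (fam e' f' d') = δ := by
    have h1 := b.det_comp (b.constr F (fam e' f' d')) b
    rw [b.det_self, mul_one] at h1
    rw [hδdef, ← h1]
    congr 1
    funext i
    simp [Module.Basis.constr_basis]
  -- a new frame with determinant one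
  have hnew : ∃ (e'' f'' : Fin (k + 1) → Fin n → F) (d'' : Fin c → Fin n → F),
      IsFrame (n := n) (F := F) (q := q) e'' f'' d'' ∧ (∀ i, ∃ μ : F, e'' i = μ • e' i) ∧ f'' 0 = f' 0 ∧ b.det (fam e'' f'' d'') = 1 := by
    rcases hroom with hk | hc
    · obtain ⟨l, hl0, hl⟩ := hilbert90 hS (δ := δ⁻¹) (by
        rw [map_inv₀, ← mul_inv, hδ, inv_one])
      let j₁ : Fin (k + 1) := ⟨1, by omega⟩
      have hj₁ : (0 : Fin (k + 1)) ≠ j₁ := by
        intro h0
        have := congrArg Fin.val h0
        simp [j₁] at this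
      let a : Fin (k + 1) → F := fun i => if i = j₁ then l else 1
      have ha0 : ∀ i, a i ≠ 0 := by
        intro i
        simp only [a]
        split_ifs
        · exact hl0
        · exact one_ne_zero
      refine ⟨fun i => a i • e' i, fun i => (σ (a i))⁻¹ • f' i, fun i => (1 : Fin c → F) i • d' i, scale_frame hS h' ha0 (by simp), fun i => ⟨a i, rfl⟩, ?_, ?_⟩
      · have : a 0 = 1 := by simp [a, hj₁]
        simp [this]
      · rw [det_scale hS, hdetb]
        have h1 : ∏ i, a i = l := by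
          simp only [a]
          rw [Finset.prod_ite_eq' Finset.univ j₁ (fun _ => l)]
          simp
        have h2 : ∏ i, (σ (a i))⁻¹ = (σ l)⁻¹ := by
          rw [Finset.prod_inv_distrib, ← map_prod, h1]
        rw [h1, h2, hl]
        simp
        exact inv_mul_cancel₀ hδ0
    · let j₁ : Fin c := ⟨0, by omega⟩
      let ν : Fin c → F := fun i => if i = j₁ then δ⁻¹ else 1
      refine ⟨fun i => (1 : Fin (k + 1) → F) i • e' i, fun i => (σ ((1 : Fin (k + 1) → F) i))⁻¹ • f' i, fun i => ν i • d' i,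
        scale_frame hS h' (by simp) ?_, fun i => ⟨1, rfl⟩, by simp, ?_⟩
      · intro i
        simp only [ν]
        split_ifs
        · rw [map_inv₀, ← mul_inv, hδ, inv_one]
        · simp
      · rw [det_scale hS, hdetb]
        have h1 : ∏ i, ν i = δ⁻¹ := by
          simp only [ν]
          rw [Finset.prod_ite_eq' Finset.univ j₁ (fun _ => δ⁻¹)]
          simp
        rw [h1]
        simp
        exact inv_mul_cancel₀ hδ0
  obtain ⟨e'', f'', d'', hF'', hμ, hf'', hdet''⟩ := hnew
  obtain ⟨b₂, hb₂, hT₂⟩ := frame_T hS hn (by omega) h hF''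
  have hbb : b₂ = b := by
    apply DFunLike.coe_injective
    rw [hb, hb₂]
  subst hbb
  have hdetT : LinearMap.det (b₂.constr F (fam e'' f'' d'')) = 1 := by
    have h1 := b₂.det_comp (b₂.constr F (fam e'' f'' d'')) b₂
    rw [b₂.det_self, mul_one] at h1
    rw [← h1, ← hdet'']
    congr 1
    funext i
    simp [Module.Basis.constr_basis]
  obtain ⟨g, hg, hgx⟩ := exists_gsu_of_isom hS _ hT₂ hdetT
  have hgb : ∀ i, (g : Matrix (Fin n) (Fin n) F) *ᵥ (fam e f d i) = fam e'' f'' d'' i := by
    intro i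
    rw [hgx, ← hb, Module.Basis.constr_basis]
  refine ⟨g, hg, ?_, ?_⟩
  · intro i
    obtain ⟨μ, hμi⟩ := hμ i
    refine ⟨μ, ?_⟩
    have := hgb (Sum.inl i)
    simp only [fam, Sum.elim_inl] at this
    rw [this, hμi]
  · have := hgb (Sum.inr (Sum.inl 0))
    simp only [fam, Sum.elim_inr, Sum.elim_inl] at this
    rw [this, hf'']

end Cfsg.Agent.H27.SG
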