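import Mathlib
import Cfsg.Agent.Lib.H27.GeoSUFrame

/-!
# The stabiliser of a totally singular subspace is maximal in `SU`
-/

set_option autoImplicit false
set_option linter.unusedSectionVars false
set_option linter.unusedSimpArgs false
set_option linter.unusedVariables false
set_option linter.style.multiGoal false
set_option linter.flexible false

namespace Cfsg.Agent.H27.SG

open scoped Matrix MatrixGroups
open Cfsg Cfsg.Geo Cfsg.Agent.H28

variable {n : ℕ} {F : Type*} [Field F] [Fintype F] {q : ℕ} {σ : F ≃+* F}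

local notation "hm" => hermForm n F q

/-- Orthonormal bases of non-degenerate subspaces. -/
theorem exists_on (hS : HS F q σ) (c : ℕ) : ∀ U : Submodule F (Fin n → F), Nd q U → Module.finrank F U = c →
    ∃ d : Fin c → Fin n → F, (∀ i, d i ∈ U) ∧ ∀ i j, hm (d i) (d j) = if i = j then 1 else 0 := by
  induction c with
  | zero =>
    intro U _ _
    exact ⟨Fin.elim0, fun i => i.elim0, fun i => i.elim0⟩
  | succ c ih =>
    intro U hU hfr
    have hne : U ≠ ⊥ := by
      rintro rfl
      rw [finrank_bot] at hfr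
      omega
    obtain ⟨e, he, hee⟩ := exists_aniso hS hU hne
    obtain ⟨l, hl⟩ := hS.norm_surj (τ := (hm e e)⁻¹) (by rw [map_inv₀, fx hS])
    have h1 : hm (l • e) (l • e) = 1 := by
      rw [sl hS, sr hS, ← mul_assoc, hl]
      exact inv_mul_cancel₀ hee
    have h10 : hm (l • e) (l • e) ≠ 0 := by
      rw [h1]
      exact one_ne_zero
    have hA := nd_span hS h10
    have hle : Submodule.span F {l • e} ≤ U := by
      rw [Submodule.span_le]
      simpa using U.smul_mem l he
    have hfr' := finrank_inf hS hA hle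
    rw [finrank_span_singleton (ne_zero_of_aniso hS h10)] at hfr'
    obtain ⟨d, hd, hdd⟩ := ih _ (nd_inf hS hA hU hle) (by omega)
    have hed : ∀ j, hm (l • e) (d j) = 0 := fun j => (hd j).2 _ (Submodule.mem_span_singleton_self _)
    refine ⟨Fin.cons (l • e) d, ?_, ?_⟩
    · intro i
      refine Fin.cases ?_ (fun j => ?_) i
      · simpa using U.smul_mem l he
      · simpa using (hd j).1
    · intro i j
      refine Fin.cases ?_ (fun i' => ?_) i <;> refine Fin.cases ?_ (fun j' => ?_) j
      · simpa using h1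
      · simp only [Fin.cons_zero, Fin.cons_succ]
        rw [hed]
        simp [Fin.succ_ne_zero, Ne.symm (Fin.succ_ne_zero j')]
      · simp only [Fin.cons_zero, Fin.cons_succ]
        rw [zero_of_swap hS (hed i')]
        simp [Fin.succ_ne_zero]
      · simp only [Fin.cons_succ]
        rw [hdd]
        simp [Fin.succ_inj]

/-- Prescribed values of the form on an independent family. -/
theorem exists_dual_herm (hS : HS F q σ) {k : ℕ} (v : Fin k → Fin n → F) (hli : LinearIndependent F v) (c : Fin k → F) :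
    ∃ x, ∀ i, hm (v i) x = c i := by
  classical
  let L : (Fin n → F) →ₗ[F] (Fin k → F) :=
    { toFun := fun x i => hm x (v i)
      map_add' := fun x y => by
        ext i
        exact al hS x y (v i)
      map_smul' := fun r x => by
        ext i
        exact sl hS r x (v i) }
  have hL : ∀ x i, L x i = hm x (v i) := fun _ _ => rfl
  have hker : LinearMap.ker L = horth hS (Submodule.span F (Set.range v)) := by
    ext x
    rw [LinearMap.mem_ker]
    constructor
    · intro h w hw
      induction hw using Submodule.span_induction with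
      | mem y hy =>
        obtain ⟨i, rfl⟩ := hy
        have : L x i = 0 := by rw [h]; rfl
        rw [hL] at this
        exact zero_of_swap hS this
      | zero => exact zl hS x
      | add a b _ _ ha hb => rw [al hS, ha, hb, add_zero]
      | smul r a _ ha => rw [sl hS, ha, mul_zero]
    · intro h
      ext i
      rw [hL]
      exact zero_of_swap hS (h _ (Submodule.subset_span ⟨i, rfl⟩))
  have h1 := LinearMap.finrank_range_add_finrank_ker L
  rw [hker] at h1
  have h2 := finrank_horth hS (Submodule.span F (Set.range v))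
  have h3 := finrank_span_eq_card hli
  rw [Fintype.card_fin] at h3
  rw [finrank_V] at h1
  have hr : LinearMap.range L = ⊤ := by
    apply Submodule.eq_top_of_finrank_eq
    rw [Module.finrank_fintype_fun_eq_card, Fintype.card_fin]
    omega
  have hmem : (fun i => σ (c i)) ∈ LinearMap.range L := by
    rw [hr]
    trivial
  obtain ⟨x, hx⟩ := hmem
  refine ⟨x, fun i => ?_⟩
  have h4 : hm x (v i) = σ (c i) := by
    rw [← hL, hx]
  rw [sm hS, h4, hS.inv]

/-- Completing an isotropic family to hyperbolic pairs with a prescribed first partner. -/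
theorem exists_hyp_fam (hS : HS F q σ) {k : ℕ} (e : Fin (k + 1) → Fin n → F) (hli : LinearIndependent F e)
    (hee : ∀ i j, hm (e i) (e j) = 0) (u : Fin n → F) (hu : hm u u = 0) (hue : ∀ j, hm (e j) u = if j = 0 then 1 else 0) :
    ∃ f : Fin (k + 1) → Fin n → F, f 0 = u ∧ (∀ i j, hm (e i) (f j) = if i = j then 1 else 0) ∧ ∀ i j, hm (f i) (f j) = 0 := by
  classical
  have hx : ∀ i : Fin (k + 1), ∃ x, ∀ j, hm (e j) x = if j = i then 1 else 0 := fun i => exists_dual_herm hS e hli _
  choose x₀ hx₀ using hx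
  let x : Fin (k + 1) → Fin n → F := fun i => if i = 0 then u else x₀ i
  have hx0 : x 0 = u := by simp [x]
  have hxe : ∀ j i, hm (e j) (x i) = if j = i then 1 else 0 := by
    intro j i
    by_cases hi : i = 0
    · subst hi
      rw [hx0, hue]
    · simp only [x, hi, if_false]
      exact hx₀ i j
  have hxe' : ∀ i j, hm (x i) (e j) = if i = j then 1 else 0 := by
    intro i j
    rw [sm hS, hxe]
    by_cases h : j = i
    · subst h
      simp
    · simp [h, Ne.symm h]
  have hs : ∀ i : Fin (k + 1), ∃ s : F, s + σ s = - hm (x i) (x i) ∧ (i = 0 → s = 0) := by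
    intro i
    by_cases hi : i = 0
    · subst hi
      exact ⟨0, by rw [hx0, hu]; simp, fun _ => rfl⟩
    · obtain ⟨s, hs⟩ := tr_surj hS (r := - hm (x i) (x i)) (by rw [map_neg, fx hS])
      exact ⟨s, hs, fun h => absurd h hi⟩
  choose s hs hs0 using hs
  let c : Fin (k + 1) → Fin (k + 1) → F := fun i j => if j < i then - hm (x i) (x j) else if j = i then s i else 0
  let f : Fin (k + 1) → Fin n → F := fun i => x i + ∑ j, c i j • e j
  have hc0 : ∀ j, c 0 j = 0 := by
    intro j
    simp only [c]
    rw [if_neg (Fin.not_lt_zero j)]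
    split_ifs with h
    · exact hs0 0 rfl
    · rfl
  refine ⟨f, ?_, ?_, ?_⟩
  · simp only [f, hc0, zero_smul, Finset.sum_const_zero, add_zero, hx0]
  · intro i j
    simp only [f]
    rw [ar hS, sum_right hS, hxe, Finset.sum_eq_zero]
    · simp
    · intro a _
      rw [hee]
      simp
  · intro i j
    have h1 : hm (f i) (f j) = hm (x i) (x j) + σ (c j i) + c i j := by
      simp only [f]
      rw [al hS, ar hS, ar hS, sum_right hS, sum_left hS, sum_left hS]
      have e1 : ∑ a, σ (c j a) * hm (x i) (e a) = σ (c j i) := by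
        rw [Finset.sum_eq_single i]
        · rw [hxe']
          simp
        · intro a _ ha
          rw [hxe', if_neg (Ne.symm ha)]
          simp
        · simp
      have e2 : ∑ a, c i a * hm (e a) (x j) = c i j := by
        rw [Finset.sum_eq_single j]
        · rw [hxe]
          simp
        · intro a _ ha
          rw [hxe, if_neg ha]
          simp
        · simp
      have e3 : ∑ a, c i a * hm (e a) (∑ b, c j b • e b) = 0 := by
        apply Finset.sum_eq_zero
        intro a _
        rw [sum_right hS, Finset.sum_eq_zero]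
        · simp
        · intro b _
          rw [hee]
          simp
      rw [e1, e2, e3]
      ring
    rw [h1]
    simp only [c]
    rcases lt_trichotomy i j with h | h | h
    · simp only [h, if_true, not_lt_of_gt h, if_false, Ne.symm (ne_of_lt h), ne_of_lt h, map_neg]
      rw [← sm hS]
      ring
    · subst h
      simp only [lt_irrefl, if_false, if_true]
      linear_combination hs i
    · simp only [h, if_true, not_lt_of_gt h, if_false, Ne.symm (ne_of_lt h), ne_of_lt h, map_zero]
      ring

/-- Spans with a dual family are non-degenerate. -/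
lemma nd_of_dual (hS : HS F q σ) {ι : Type*} [Fintype ι] [DecidableEq ι] (b b' : ι → Fin n → F)
    (h : ∀ i j, hm (b i) (b' j) = if i = j then 1 else 0) (hb' : ∀ i, b' i ∈ Submodule.span F (Set.range b)) :
    Nd q (Submodule.span F (Set.range b)) := by
  intro a ha ha0
  obtain ⟨g, rfl⟩ := (Submodule.mem_span_range_iff_exists_fun F).1 ha
  obtain ⟨j, hj⟩ : ∃ j, g j ≠ 0 := by
    by_contra hcon
    push Not at hcon
    apply ha0
    simp [hcon]
  refine ⟨b' j, hb' j, ?_⟩
  rw [sum_left hS, Finset.sum_eq_single j]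
  · rw [h]
    simpa using hj
  · intro i _ hi
    rw [h, if_neg hi, mul_zero]
  · simp

/-- A frame adapted to a totally singular subspace and a vector not orthogonal to it. -/
theorem exists_frame_W (hS : HS F q σ) {W : Submodule F (Fin n → F)} (hW : ∀ a ∈ W, ∀ b ∈ W, hm a b = 0) {k c : ℕ}
    (hfin : Module.finrank F W = k + 1) (hn : n = (k + 1) + (k + 1) + c) {u : Fin n → F} (huu : hm u u = 0)
    (hu : u ∉ horth hS W) :
    ∃ (e f : Fin (k + 1) → Fin n → F) (d : Fin c → Fin n → F), IsFrame (n := n) (F := F) (q := q) e f d ∧ f 0 = u ∧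
      (∀ i, e i ∈ W) ∧ ∀ x ∈ W, ∃ a : Fin (k + 1) → F, x = ∑ i, a i • e i := by
  classical
  have hu' : ∃ w ∈ W, hm w u ≠ 0 := by
    by_contra hcon
    push Not at hcon
    exact hu hcon
  obtain ⟨w, hw, hwu⟩ := hu'
  let Kv : Submodule F (Fin n → F) :=
    { carrier := {x | hm x u = 0}
      add_mem' := fun {a b} ha hb => by
        change hm (a + b) u = 0
        rw [al hS, ha, hb, add_zero]
      zero_mem' := zl hS u
      smul_mem' := fun r a ha => by
        change hm (r • a) u = 0
        rw [sl hS, ha, mul_zero] }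
  have hKv : ∀ x, x ∈ Kv ↔ hm x u = 0 := fun _ => Iff.rfl
  let K : Submodule F (Fin n → F) := W ⊓ Kv
  let e₀ : Fin n → F := (hm w u)⁻¹ • w
  have he₀W : e₀ ∈ W := W.smul_mem _ hw
  have he₀u : hm e₀ u = 1 := by
    simp only [e₀]
    rw [sl hS]
    exact inv_mul_cancel₀ hwu
  have he₀0 : e₀ ≠ 0 := by
    intro h
    rw [h, zl hS] at he₀u
    exact zero_ne_one he₀u
  have hdecomp : ∀ x ∈ W, x - (hm x u) • e₀ ∈ K := by
    intro x hx
    refine ⟨W.sub_mem hx (W.smul_mem _ he₀W), ?_⟩
    rw [SetLike.mem_coe, hKv, subl hS, sl hS, he₀u]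
    ring
  have hsup : K ⊔ Submodule.span F {e₀} = W := by
    apply le_antisymm
    · apply sup_le inf_le_left
      rw [Submodule.span_le]
      simpa using he₀W
    · intro x hx
      have h1 : x = (x - (hm x u) • e₀) + (hm x u) • e₀ := by simp
      rw [h1]
      exact Submodule.add_mem_sup (hdecomp x hx) (Submodule.smul_mem _ _ (Submodule.mem_span_singleton_self _))
  have hinf : K ⊓ Submodule.span F {e₀} = ⊥ := by
    rw [eq_bot_iff]
    rintro y ⟨hy, hy2⟩
    obtain ⟨r, rfl⟩ := Submodule.mem_span_singleton.1 hy2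
    have h2 : hm (r • e₀) u = 0 := hy.2
    rw [sl hS, he₀u] at h2
    have hc : r = 0 := by simpa using h2
    simp [hc]
  have hKfin : Module.finrank F K = k := by
    have h1 := Submodule.finrank_sup_add_finrank_inf_eq K (Submodule.span F {e₀})
    rw [hsup, hinf, hfin, finrank_bot, finrank_span_singleton he₀0] at h1
    omega
  let b : Module.Basis (Fin k) F K := Module.finBasisOfFinrankEq F _ hKfin
  obtain ⟨v, hvdef⟩ : ∃ v : Fin k → Fin n → F, ∀ i, v i = (b i : Fin n → F) := ⟨_, fun _ => rfl⟩
  have hvW : ∀ i, v i ∈ W := fun i => by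
    rw [hvdef]
    exact (b i).2.1
  have hvu : ∀ i, hm (v i) u = 0 := fun i => by
    rw [hvdef]
    exact (b i).2.2
  have hvli : LinearIndependent F v := by
    have h0 : LinearIndependent F (fun i => b i) := b.linearIndependent
    have h2 : LinearIndependent F (fun i => ((b i : K) : Fin n → F)) :=
      h0.map' K.subtype (Submodule.ker_subtype _)
    have h3 : v = fun i => ((b i : K) : Fin n → F) := funext hvdef
    rw [h3]
    exact h2
  let e : Fin (k + 1) → Fin n → F := Fin.cons e₀ v
  have heW : ∀ i, e i ∈ W := by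
    intro i
    refine Fin.cases ?_ (fun j => ?_) i
    · exact he₀W
    · exact hvW j
  have heli : LinearIndependent F e := by
    rw [linearIndependent_finCons]
    refine ⟨hvli, fun hmem => ?_⟩
    have hle : Submodule.span F (Set.range v) ≤ Kv := by
      rw [Submodule.span_le]
      rintro _ ⟨i, rfl⟩
      exact hvu i
    have h3 : hm e₀ u = 0 := hle hmem
    rw [he₀u] at h3
    exact one_ne_zero h3
  have heu : ∀ j, hm (e j) u = if j = 0 then 1 else 0 := by
    intro j
    refine Fin.cases ?_ (fun i => ?_) j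
    · simpa [e] using he₀u
    · simpa [e, Fin.succ_ne_zero] using hvu i
  have hee : ∀ i j, hm (e i) (e j) = 0 := fun i j => hW _ (heW i) _ (heW j)
  obtain ⟨f, hf0, hef, hff⟩ := exists_hyp_fam hS e heli hee u huu heu
  -- the orthogonal complement
  let bb : Fin (k + 1) ⊕ Fin (k + 1) → Fin n → F := Sum.elim e f
  let bb' : Fin (k + 1) ⊕ Fin (k + 1) → Fin n → F := Sum.elim f e
  have hbb : ∀ i j, hm (bb i) (bb' j) = if i = j then 1 else 0 := by
    intro i j
    rcases i with i | i <;> rcases j with j | j <;> simp only [bb, bb', Sum.elim_inl, Sum.elim_inr]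
    · simp [hef]
    · simp [hee]
    · simp [hff]
    · rw [sm hS, hef]
      by_cases hij : i = j
      · simp [hij]
      · simp [hij, Ne.symm hij]
  have hbb' : ∀ i, bb' i ∈ Submodule.span F (Set.range bb) := by
    intro i
    apply Submodule.subset_span
    rcases i with i | i
    · exact ⟨Sum.inr i, rfl⟩
    · exact ⟨Sum.inl i, rfl⟩
  have hA := nd_of_dual hS bb bb' hbb hbb'
  have hbbli := li_of_dual hS bb bb' hbb
  have hAfin := finrank_span_eq_card hbbli
  have hCfin := finrank_horth hS (Submodule.span F (Set.range bb))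
  rw [hAfin] at hCfin
  simp only [Fintype.card_sum, Fintype.card_fin] at hCfin
  obtain ⟨d, hd, hdd⟩ := exists_on hS c _ (nd_perp hS hA) (by omega)
  have hed : ∀ i j, hm (e i) (d j) = 0 := fun i j => hd j _ (Submodule.subset_span ⟨Sum.inl i, rfl⟩)
  have hfd : ∀ i j, hm (f i) (d j) = 0 := fun i j => hd j _ (Submodule.subset_span ⟨Sum.inr i, rfl⟩)
  refine ⟨e, f, d, ⟨hee, hef, hff, hed, hfd, hdd⟩, hf0, heW, ?_⟩
  intro x hx
  have hx' := hdecomp x hx
  have h4 := b.sum_repr ⟨_, hx'⟩
  have h5 : ∑ i, (b.repr ⟨_, hx'⟩ i) • v i = x - (hm x u) • e₀ := by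
    have h5' := congrArg (fun y : K => (y : Fin n → F)) h4
    simp only [Submodule.coe_sum, Submodule.coe_smul] at h5'
    simp only [hvdef]
    exact h5'
  refine ⟨Fin.cons (hm x u) (fun i => b.repr ⟨_, hx'⟩ i), ?_⟩
  rw [Fin.sum_univ_succ]
  simp only [Fin.cons_zero, Fin.cons_succ, e]
  rw [h5]
  simp

/-- Transitivity of the parabolic on vectors not orthogonal to `W`. -/
theorem transport_par (hS : HS F q σ) (hn : 3 ≤ n) {W : Submodule F (Fin n → F)} (hW : ∀ a ∈ W, ∀ b ∈ W, hm a b = 0) (hW0 : W ≠ ⊥)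
    {u u' : Fin n → F} (huu : hm u u = 0) (hu : u ∉ horth hS W) (hu'u' : hm u' u' = 0) (hu' : u' ∉ horth hS W) :
    ∃ h ∈ subspaceStabilizer W ⊓ GSU n F q, (h : Matrix (Fin n) (Fin n) F) *ᵥ u = u' := by
  obtain ⟨k, hk⟩ : ∃ k, Module.finrank F W = k + 1 := by
    have : 0 < Module.finrank F W := Module.finrank_pos_iff.2 (Submodule.nontrivial_iff_ne_bot.2 hW0)
    exact ⟨Module.finrank F W - 1, by omega⟩
  have hle : W ≤ horth hS W := fun x hx w hw => hW w hw x hx
  have h1 := Submodule.finrank_mono hle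
  have h2 := finrank_horth hS W
  obtain ⟨c, hc⟩ : ∃ c, n = (k + 1) + (k + 1) + c := ⟨n - ((k + 1) + (k + 1)), by omega⟩
  obtain ⟨e, f, d, hF, hf0, heW, hx⟩ := exists_frame_W hS hW hk hc huu hu
  obtain ⟨e', f', d', hF', hf0', heW', -⟩ := exists_frame_W hS hW hk hc hu'u' hu'
  obtain ⟨g, hg, hge, hgf⟩ := frame_transport hS hc (by omega) hF hF'
  refine ⟨g, ⟨?_, hg⟩, ?_⟩
  · apply Cfsg.Agent.H27.GO.mem_stab_of_map
    intro x hxW
    obtain ⟨a, rfl⟩ := hx x hxW
    rw [Matrix.mulVec_sum]
    apply W.sum_mem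
    intro i _
    rw [Matrix.mulVec_smul]
    apply W.smul_mem
    obtain ⟨μ, hμ⟩ := hge i
    rw [hμ]
    exact W.smul_mem _ (heW' i)
  · rw [← hf0, ← hf0', hgf]

/-- Conjugates of unitary transvections. -/
lemma conj_ut (hS : HS F q σ) {g : GL (Fin n) F} (hg : g ∈ GU n F q) {u : Fin n → F} (hu : hm u u = 0) (a : F)
    (hu' : hm ((g : Matrix (Fin n) (Fin n) F) *ᵥ u) ((g : Matrix (Fin n) (Fin n) F) *ᵥ u) = 0) :
    g * ut hS hu a * g⁻¹ = ut hS hu' a := by
  apply Cfsg.Agent.H27.GO.gl_ext
  intro x
  have h1 : hm (((g⁻¹ : GL (Fin n) F) : Matrix (Fin n) (Fin n) F) *ᵥ x) u = hm x ((g : Matrix (Fin n) (Fin n) F) *ᵥ u) := by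
    rw [← isometry_apply hg, Matrix.mulVec_mulVec, ← Units.val_mul, mul_inv_cancel, Units.val_one, Matrix.one_mulVec]
  rw [Units.val_mul, Units.val_mul, ← Matrix.mulVec_mulVec, ← Matrix.mulVec_mulVec, ut_mulVec, ut_mulVec, h1, Matrix.mulVec_add,
    Matrix.mulVec_smul, Matrix.mulVec_mulVec, ← Units.val_mul, mul_inv_cancel, Units.val_one, Matrix.one_mulVec]

/-- Isotropic vectors in `W^⊥` separate: the key vector. -/
lemma exists_iso_perp (hS : HS F q σ) {W : Submodule F (Fin n → F)} (hW : ∀ a ∈ W, ∀ b ∈ W, hm a b = 0) {w' : Fin n → F}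
    (hww : hm w' w' = 0) (hw' : w' ∉ W) : ∃ x ∈ horth hS W, hm x x = 0 ∧ hm x w' ≠ 0 := by
  by_cases h : w' ∈ horth hS W
  · have h1 : w' ∉ horth hS (horth hS W) := by
      rwa [horth_horth]
    have h2 : ∃ t ∈ horth hS W, hm t w' ≠ 0 := by
      by_contra hcon
      push Not at hcon
      exact h1 hcon
    obtain ⟨t, ht, htw⟩ := h2
    have hτ : σ (- hm t t) = - hm t t := by rw [map_neg, fx hS]
    obtain ⟨μ, hμ⟩ := tr_surj hS hτ
    set β := hm t w' with hβ
    have hw't : hm w' t = σ β := sm hS w' t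
    have hσβ : σ β ≠ 0 := by simpa using htw
    refine ⟨t + (μ / σ β) • w', (horth hS W).add_mem ht ((horth hS W).smul_mem _ h), ?_, ?_⟩
    · simp only [al hS, ar hS, sl hS, sr hS, hww, hw't, ← hβ]
      rw [map_div₀, hS.inv]
      field_simp
      linear_combination (β * σ β) * hμ
    · simp only [al hS, sl hS, hww, ← hβ]
      simpa using htw
  · have h2 : ∃ t ∈ W, hm t w' ≠ 0 := by
      by_contra hcon
      push Not at hcon
      exact h hcon
    obtain ⟨t, ht, htw⟩ := h2
    exact ⟨t, fun a ha => hW a ha t ht, hW t ht t ht, htw⟩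

/-- The stabiliser of a non-zero totally singular subspace is maximal in `SU`. -/
theorem par_max (hS : HS F q σ) (hn : 4 ≤ n) (W : Submodule F (Fin n → F)) (hW0 : W ≠ ⊥) (hW : ∀ a ∈ W, ∀ b ∈ W, hm a b = 0) :
    IsMaximalIn (GSU n F q) (subspaceStabilizer W ⊓ GSU n F q) := by
  classical
  have hne : ¬ GSU n F q ≤ subspaceStabilizer W := by
    intro hle
    obtain ⟨w, hw, hw0⟩ := Submodule.exists_mem_ne_zero_of_ne_bot hW0
    obtain ⟨y, -, hyy, hwy⟩ := exists_partner hS (nd_top hS) (Submodule.mem_top (x := w)) hw0 (hW w hw w hw)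
    obtain ⟨θ, hθ0, hθ⟩ := hS.exists_trace_zero
    have h1 := (hle (ut_mem hS hyy hθ) w).1 hw
    change ((ut hS hyy θ : GL (Fin n) F) : Matrix (Fin n) (Fin n) F) *ᵥ w ∈ W at h1
    rw [ut_mulVec, hwy, mul_one] at h1
    have h2 := W.sub_mem h1 hw
    rw [add_sub_cancel_left] at h2
    have h3 := W.smul_mem θ⁻¹ h2
    rw [smul_smul, inv_mul_cancel₀ hθ0, one_smul] at h3
    have := hW w hw y h3
    rw [hwy] at this
    exact one_ne_zero this
  constructor
  · rw [lt_iff_le_and_ne]
    refine ⟨inf_le_right, fun heq => hne ?_⟩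
    rw [← heq]
    exact inf_le_left
  · intro M hPM hMG
    by_cases hex : ∃ g ∈ M, g ∉ subspaceStabilizer W
    · right
      apply le_antisymm hMG
      obtain ⟨g, hgM, hgn⟩ := hex
      have hgG := hMG hgM
      apply gsu_le hS hn
      have hP : ∀ (x : Fin n → F) (hx : hm x x = 0) (a : F), a + σ a = 0 → x ∈ horth hS W → ut hS hx a ∈ M := by
        intro x hx a ha hxW
        apply hPM
        refine ⟨?_, ut_mem hS hx ha⟩
        apply Cfsg.Agent.H27.Tv.mem_stab_of_fix
        intro w hw
        rw [ut_mulVec, hxW w hw]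
        simp
      -- the generic vector
      have hex2 : ∃ y ∈ W, ((g⁻¹ : GL (Fin n) F) : Matrix (Fin n) (Fin n) F) *ᵥ y ∉ W := by
        by_contra hcon
        push Not at hcon
        apply hgn
        have := Cfsg.Agent.H27.GO.mem_stab_of_map g⁻¹ W hcon
        have h2 := (subspaceStabilizer W).inv_mem this
        rwa [inv_inv] at h2
      obtain ⟨w, hw, hw'⟩ := hex2
      have hgiso : (g⁻¹ : GL (Fin n) F) ∈ GU n F q := (GU n F q).inv_mem hgG.1
      have hww : hm (((g⁻¹ : GL (Fin n) F) : Matrix (Fin n) (Fin n) F) *ᵥ w) (((g⁻¹ : GL (Fin n) F) : Matrix (Fin n) (Fin n) F) *ᵥ w) = 0 := by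
        rw [isometry_apply hgiso]
        exact hW w hw w hw
      obtain ⟨x, hxW, hxx, hxw⟩ := exists_iso_perp hS hW hww hw'
      have hu₀ : hm ((g : Matrix (Fin n) (Fin n) F) *ᵥ x) ((g : Matrix (Fin n) (Fin n) F) *ᵥ x) = 0 := by
        rw [isometry_apply hgG.1, hxx]
      have hu₀W : (g : Matrix (Fin n) (Fin n) F) *ᵥ x ∉ horth hS W := by
        intro hmem
        apply hxw
        have h1 := hmem w hw
        have h2 := isometry_apply hgiso w ((g : Matrix (Fin n) (Fin n) F) *ᵥ x)
        rw [Matrix.mulVec_mulVec, ← Units.val_mul, inv_mul_cancel, Units.val_one, Matrix.one_mulVec, h1] at h2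
        exact zero_of_swap hS h2
      have hu₀M : ∀ a : F, a + σ a = 0 → ut hS hu₀ a ∈ M := by
        intro a ha
        have h1 := M.mul_mem (M.mul_mem hgM (hP x hxx a ha hxW)) (M.inv_mem hgM)
        rwa [conj_ut hS hgG.1 hxx a hu₀] at h1
      intro u hu a ha
      by_cases huW : u ∈ horth hS W
      · exact hP u hu a ha huW
      · obtain ⟨h, hh, hhu⟩ := transport_par hS (by omega) hW hW0 hu₀ hu₀W hu huW
        have h1 := M.mul_mem (M.mul_mem (hPM hh) (hu₀M a ha)) (M.inv_mem (hPM hh))
        have h2 : hm ((h : Matrix (Fin n) (Fin n) F) *ᵥ ((g : Matrix (Fin n) (Fin n) F) *ᵥ x))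
            ((h : Matrix (Fin n) (Fin n) F) *ᵥ ((g : Matrix (Fin n) (Fin n) F) *ᵥ x)) = 0 := by
          rw [hhu]
          exact hu
        rw [conj_ut hS hh.2.1 hu₀ a h2] at h1
        have h3 : ∀ (v : Fin n → F) (hv : hm v v = 0), v = u → ut hS hv a = ut hS hu a := by
          rintro v hv rfl
          rfl
        rw [h3 _ h2 hhu] at h1
        exact h1
    · left
      push Not at hex
      exact le_antisymm (fun g hg => ⟨hex g hg, hMG hg⟩) hPM

end Cfsg.Agent.H27.SG
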