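import Mathlib
import Cfsg.Agent.Lib.H27.GeoSUPar

/-!
# The stabiliser of a non-degenerate subspace is maximal in `SU`
-/

set_option autoImplicit false
set_option linter.unusedSectionVars false
set_option linter.unusedSimpArgs false
set_option linter.unusedVariables false
set_option linter.style.multiGoal false
set_option linter.flexible false

namespace Cfsg.Agent.H27.SG

open scoped Matrix MatrixGroups
open Cfsg Cfsg.Geo Cfsg.Agent.H28

variable {n : ℕ} {F : Type*} [Field F] [Fintype F] {q : ℕ} {σ : F ≃+* F}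

local notation "hm" => hermForm n F q

/-- Transport of orthonormal bases. -/
theorem on_transport_gen (hS : HS F q σ) {ι : Type*} [Fintype ι] [DecidableEq ι] (hcard : Fintype.card ι = n) (i₀ : ι)
    (b b' : ι → Fin n → F) (hb : ∀ i j, hm (b i) (b j) = if i = j then 1 else 0)
    (hb' : ∀ i j, hm (b' i) (b' j) = if i = j then 1 else 0) :
    ∃ g ∈ GSU n F q, (∀ i, i ≠ i₀ → (g : Matrix (Fin n) (Fin n) F) *ᵥ b i = b' i) := by
  classical
  have hli := li_of_dual hS b b hb
  have hcard' : Fintype.card ι = Module.finrank F (Fin n → F) := by rw [finrank_V, hcard]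
  haveI : Nonempty ι := ⟨i₀⟩
  let B := basisOfLinearIndependentOfCardEqFinrank hli hcard'
  have hB : ⇑B = b := coe_basisOfLinearIndependentOfCardEqFinrank hli hcard'
  have hT := isom_of_gram hS B b' (by
    intro i j
    rw [hb', hB, hb])
  set δ := LinearMap.det (B.constr F b') with hδdef
  have hδ : δ * σ δ = 1 := det_norm hS _ hT
  have hδ0 : δ ≠ 0 := ne_of_frame_det hS hδ
  have hdetb : B.det b' = δ := by
    have h1 := B.det_comp (B.constr F b') B
    rw [B.det_self, mul_one] at h1
    rw [hδdef, ← h1]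
    congr 1
    funext i
    simp [Module.Basis.constr_basis]
  let c : ι → F := fun i => if i = i₀ then δ⁻¹ else 1
  have hc : ∀ i, c i * σ (c i) = 1 := by
    intro i
    simp only [c]
    split_ifs
    · rw [map_inv₀, ← mul_inv, hδ, inv_one]
    · simp
  let b'' : ι → Fin n → F := fun i => c i • b' i
  have hb''G : ∀ i j, hm (b'' i) (b'' j) = hm (B i) (B j) := by
    intro i j
    simp only [b'', sl hS, sr hS, hb', hB, hb]
    by_cases hij : i = j
    · subst hij
      simp only [if_true, mul_one]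
      exact hc i
    · simp [hij]
  have hT'' := isom_of_gram hS B b'' hb''G
  have hdet'' : LinearMap.det (B.constr F b'') = 1 := by
    have h1 := B.det_comp (B.constr F b'') B
    rw [B.det_self, mul_one] at h1
    rw [← h1]
    have h2 : ⇑(B.constr F b'') ∘ ⇑B = b'' := by
      funext i
      simp [Module.Basis.constr_basis]
    rw [h2]
    have h3 : b'' = Function.update b' i₀ (δ⁻¹ • b' i₀) := by
      funext i
      simp only [b'', c, Function.update_apply]
      split_ifs with h
      · rw [h]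
      · simp
    rw [h3, AlternatingMap.map_update_smul, Function.update_eq_self, hdetb]
    exact inv_mul_cancel₀ hδ0
  obtain ⟨g, hg, hgx⟩ := exists_gsu_of_isom hS _ hT'' hdet''
  refine ⟨g, hg, fun i hi => ?_⟩
  rw [hgx]
  have h4 : b i = B i := by rw [hB]
  rw [h4, Module.Basis.constr_basis]
  simp [b'', c, hi]

lemma on_cons (hS : HS F q σ) {c : ℕ} {e : Fin n → F} (h1 : hm e e = 1) {d : Fin c → Fin n → F}
    (hdd : ∀ i j, hm (d i) (d j) = if i = j then 1 else 0) (hed : ∀ j, hm e (d j) = 0) :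
    ∀ i j, hm ((Fin.cons e d : Fin (c + 1) → Fin n → F) i) ((Fin.cons e d : Fin (c + 1) → Fin n → F) j) = if i = j then 1 else 0 := by
  intro i j
  refine Fin.cases ?_ (fun i' => ?_) i <;> refine Fin.cases ?_ (fun j' => ?_) j
  · simpa using h1
  · simp only [Fin.cons_zero, Fin.cons_succ]
    rw [hed]
    simp [Fin.succ_ne_zero, Ne.symm (Fin.succ_ne_zero j')]
  · simp only [Fin.cons_zero, Fin.cons_succ]
    rw [zero_of_swap hS (hed i')]
    simp [Fin.succ_ne_zero]
  · simp only [Fin.cons_succ]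
    rw [hdd]
    simp [Fin.succ_inj]

lemma on_of_unit (hS : HS F q σ) {U : Submodule F (Fin n → F)} (hU : Nd q U) {c : ℕ} (hfr : Module.finrank F U = c + 1) {e : Fin n → F}
    (he : e ∈ U) (h1 : hm e e = 1) :
    ∃ d : Fin (c + 1) → Fin n → F, (∀ i, d i ∈ U) ∧ (∀ i j, hm (d i) (d j) = if i = j then 1 else 0) ∧ d 0 = e := by
  have h10 : hm e e ≠ 0 := by
    rw [h1]
    exact one_ne_zero
  have hA := nd_span hS h10
  have hle : Submodule.span F {e} ≤ U := by
    rw [Submodule.span_le]
    simpa using he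
  have hfr' := finrank_inf hS hA hle
  rw [finrank_span_singleton (ne_zero_of_aniso hS h10)] at hfr'
  obtain ⟨d, hd, hdd⟩ := exists_on hS c _ (nd_inf hS hA hU hle) (by omega)
  have hed : ∀ j, hm e (d j) = 0 := fun j => (hd j).2 _ (Submodule.mem_span_singleton_self _)
  refine ⟨Fin.cons e d, ?_, on_cons hS h1 hdd hed, rfl⟩
  intro i
  refine Fin.cases ?_ (fun j => ?_) i
  · simpa using he
  · simpa using (hd j).1

lemma on_of_iso (hS : HS F q σ) {U : Submodule F (Fin n → F)} (hU : Nd q U) {c : ℕ} (hfr : Module.finrank F U = c + 2) {a : Fin n → F}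
    (ha : a ∈ U) (ha0 : a ≠ 0) (haa : hm a a = 0) {τ : F} (hτ : τ * σ τ = -1) :
    ∃ d : Fin (c + 2) → Fin n → F, (∀ i, d i ∈ U) ∧ (∀ i j, hm (d i) (d j) = if i = j then 1 else 0) ∧
      a = d 0 + τ • d 1 := by
  have hτ0 : τ ≠ 0 := by
    rintro rfl
    simp at hτ
  obtain ⟨z, hz, hzz, haz⟩ := exists_partner hS hU ha ha0 haa
  have hza : hm z a = 1 := by rw [sm hS, haz, map_one]
  obtain ⟨s, hs⟩ := tr_surj hS (r := 1) (by simp)
  set e₁ := z + s • a with he₁
  have he₁U : e₁ ∈ U := U.add_mem hz (U.smul_mem _ ha)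
  have h11 : hm e₁ e₁ = 1 := by
    simp only [he₁, al hS, ar hS, sl hS, sr hS, hzz, hza, haz, haa]
    linear_combination hs
  have hae₁ : hm a e₁ = 1 := by
    simp only [he₁, ar hS, sr hS, haz, haa]
    ring
  have he₁a : hm e₁ a = 1 := by rw [sm hS, hae₁, map_one]
  set e₂ := τ⁻¹ • (a - e₁) with he₂
  have he₂U : e₂ ∈ U := U.smul_mem _ (U.sub_mem ha he₁U)
  have h22 : hm e₂ e₂ = 1 := by
    simp only [he₂, sl hS, sr hS, subl hS, subr hS, haa, hae₁, he₁a, h11, map_inv₀]
    have h3 : τ⁻¹ * (σ τ)⁻¹ = (-1)⁻¹ := by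
      rw [← mul_inv, hτ]
    calc τ⁻¹ * ((σ τ)⁻¹ * (0 - 1 - (1 - 1))) = (τ⁻¹ * (σ τ)⁻¹) * (-1) := by ring
      _ = 1 := by
        rw [h3]
        norm_num
  have h12 : hm e₁ e₂ = 0 := by
    simp only [he₂, sr hS, subr hS, he₁a, h11]
    ring
  have h10 : hm e₁ e₁ ≠ 0 := by
    rw [h11]
    exact one_ne_zero
  have hA := nd_span hS h10
  have hle : Submodule.span F {e₁} ≤ U := by
    rw [Submodule.span_le]
    simpa using he₁U
  have hfr' := finrank_inf hS hA hle
  rw [finrank_span_singleton (ne_zero_of_aniso hS h10)] at hfr'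
  have he₂' : e₂ ∈ U ⊓ horth hS (Submodule.span F {e₁}) := by
    refine ⟨he₂U, fun w hw => ?_⟩
    obtain ⟨r, rfl⟩ := Submodule.mem_span_singleton.1 hw
    rw [sl hS, h12, mul_zero]
  obtain ⟨d, hd, hdd, hd0⟩ := on_of_unit hS (nd_inf hS hA hU hle) (c := c) (by omega) he₂' h22
  have hed : ∀ j, hm e₁ (d j) = 0 := fun j => (hd j).2 _ (Submodule.mem_span_singleton_self _)
  refine ⟨Fin.cons e₁ d, ?_, on_cons hS h11 hdd hed, ?_⟩
  · intro i
    refine Fin.cases ?_ (fun j => ?_) i
    · simpa using he₁U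
    · simpa using (hd j).1
  · have e1 : (Fin.cons e₁ d : Fin (c + 2) → Fin n → F) 1 = d 0 := rfl
    have e0 : (Fin.cons e₁ d : Fin (c + 2) → Fin n → F) 0 = e₁ := rfl
    rw [e1, e0, hd0, he₂, smul_smul, mul_inv_cancel₀ hτ0, one_smul]
    simp

/-- Transport of pairs of orthonormal bases for `W` and its perp. -/
theorem pair_transport (hS : HS F q σ) {W : Submodule F (Fin n → F)} {k m : ℕ} (hfr : Module.finrank F W = k) (hn : k + m = n)
    {d₁ d₁' : Fin k → Fin n → F} {d₂ d₂' : Fin m → Fin n → F} (j₁ : Fin m)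
    (h₁ : ∀ i, d₁ i ∈ W) (h₁' : ∀ i, d₁' i ∈ W) (h₂ : ∀ i, d₂ i ∈ horth hS W) (h₂' : ∀ i, d₂' i ∈ horth hS W)
    (o₁ : ∀ i j, hm (d₁ i) (d₁ j) = if i = j then 1 else 0) (o₁' : ∀ i j, hm (d₁' i) (d₁' j) = if i = j then 1 else 0)
    (o₂ : ∀ i j, hm (d₂ i) (d₂ j) = if i = j then 1 else 0) (o₂' : ∀ i j, hm (d₂' i) (d₂' j) = if i = j then 1 else 0) :
    ∃ g ∈ subspaceStabilizer W ⊓ GSU n F q, (∀ i, (g : Matrix (Fin n) (Fin n) F) *ᵥ d₁ i = d₁' i) ∧
      ∀ j, j ≠ j₁ → (g : Matrix (Fin n) (Fin n) F) *ᵥ d₂ j = d₂' j := by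
  classical
  have hON : ∀ {a₁ : Fin k → Fin n → F} {a₂ : Fin m → Fin n → F}, (∀ i, a₁ i ∈ W) → (∀ i, a₂ i ∈ horth hS W) →
      (∀ i j, hm (a₁ i) (a₁ j) = if i = j then 1 else 0) → (∀ i j, hm (a₂ i) (a₂ j) = if i = j then 1 else 0) →
      ∀ i j, hm (Sum.elim a₁ a₂ i) (Sum.elim a₁ a₂ j) = if i = j then 1 else 0 := by
    intro a₁ a₂ h1 h2 h3 h4 i j
    rcases i with i | i <;> rcases j with j | j <;> simp only [Sum.elim_inl, Sum.elim_inr]
    · simp [h3]
    · simp [h2 j _ (h1 i)]
    · simp [zero_of_swap hS (h2 i _ (h1 j))]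
    · simp [h4]
  obtain ⟨g, hg, hgb⟩ := on_transport_gen hS (ι := Fin k ⊕ Fin m) (by simp [hn]) (Sum.inr j₁) (Sum.elim d₁ d₂) (Sum.elim d₁' d₂')
    (hON h₁ h₂ o₁ o₂) (hON h₁' h₂' o₁' o₂')
  have hg₁ : ∀ i, (g : Matrix (Fin n) (Fin n) F) *ᵥ d₁ i = d₁' i := fun i => by
    simpa using hgb (Sum.inl i) (by simp)
  have hg₂ : ∀ j, j ≠ j₁ → (g : Matrix (Fin n) (Fin n) F) *ᵥ d₂ j = d₂' j := fun j hj => by
    simpa using hgb (Sum.inr j) (by simpa using hj)
  refine ⟨g, ⟨?_, hg⟩, hg₁, hg₂⟩
  have hli := li_of_dual hS d₁ d₁ o₁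
  have hspan : Submodule.span F (Set.range d₁) = W := by
    apply Submodule.eq_of_le_of_finrank_eq
    · rw [Submodule.span_le]
      rintro _ ⟨i, rfl⟩
      exact h₁ i
    · rw [finrank_span_eq_card hli, Fintype.card_fin, hfr]
  apply Cfsg.Agent.H27.GO.mem_stab_of_map
  intro x hx
  rw [← hspan] at hx
  obtain ⟨a, rfl⟩ := (Submodule.mem_span_range_iff_exists_fun F).1 hx
  rw [Matrix.mulVec_sum]
  apply W.sum_mem
  intro i _
  rw [Matrix.mulVec_smul, hg₁]
  exact W.smul_mem _ (h₁' i)

/-- Transitivity of the stabiliser on generic pairs. -/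
theorem gen_transport (hS : HS F q σ) {W : Submodule F (Fin n → F)} (hW : Nd q W) (hm3 : Module.finrank F W + 3 ≤ n)
    {a a' b b' : Fin n → F} (ha : a ∈ W) (ha' : a' ∈ W) (hb : b ∈ horth hS W) (hb' : b' ∈ horth hS W)
    (ha0 : a ≠ 0) (ha'0 : a' ≠ 0) (hb0 : b ≠ 0) (hb'0 : b' ≠ 0)
    (hnorm : hm a a = hm a' a') (hnorm' : hm b b = hm b' b') (hsum : hm a a + hm b b = 0) :
    ∃ h ∈ subspaceStabilizer W ⊓ GSU n F q, (h : Matrix (Fin n) (Fin n) F) *ᵥ a = a' ∧ (h : Matrix (Fin n) (Fin n) F) *ᵥ b = b' := by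
  have hP := nd_perp hS hW
  have hfrP := finrank_horth hS W
  obtain ⟨c, hc⟩ : ∃ c, n = Module.finrank F W + (c + 3) := ⟨n - Module.finrank F W - 3, by omega⟩
  have hfrP' : Module.finrank F (horth hS W) = c + 3 := by omega
  by_cases hr : hm a a = 0
  · have hr' : hm a' a' = 0 := by rw [← hnorm, hr]
    have hs : hm b b = 0 := by
      rw [hr, zero_add] at hsum
      exact hsum
    have hs' : hm b' b' = 0 := by rw [← hnorm', hs]
    obtain ⟨τ, hτ⟩ := hS.norm_surj (τ := -1) (by simp)
    -- `W` has dimension at least two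
    obtain ⟨z, hz, -, haz⟩ := exists_partner hS hW ha ha0 hr
    have hzz0 : hm a z ≠ 0 := by
      rw [haz]
      exact one_ne_zero
    obtain ⟨z', hz', hz'z', haz'⟩ := exists_partner hS hW ha ha0 hr
    have h2 : 2 ≤ Module.finrank F W := by
      have hle : Submodule.span F {a, z'} ≤ W := by
        rw [Submodule.span_le]
        rintro _ (rfl | rfl)
        · exact ha
        · exact hz'
      have := Submodule.finrank_mono hle
      rwa [finrank_pair hS hr hz'z' (by rw [haz']; exact one_ne_zero)] at this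
    obtain ⟨k, hk⟩ : ∃ k, Module.finrank F W = k + 2 := ⟨Module.finrank F W - 2, by omega⟩
    obtain ⟨d₁, h₁, o₁, e₁⟩ := on_of_iso hS hW hk ha ha0 hr hτ
    obtain ⟨d₁', h₁', o₁', e₁'⟩ := on_of_iso hS hW hk ha' ha'0 hr' hτ
    obtain ⟨d₂, h₂, o₂, e₂⟩ := on_of_iso hS hP (c := c + 1) hfrP' hb hb0 hs hτ
    obtain ⟨d₂', h₂', o₂', e₂'⟩ := on_of_iso hS hP (c := c + 1) hfrP' hb' hb'0 hs' hτ
    obtain ⟨g, hg, hg₁, hg₂⟩ := pair_transport hS hk (by omega) (Fin.last (c + 1 + 1)) h₁ h₁' h₂ h₂' o₁ o₁' o₂ o₂'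
    refine ⟨g, hg, ?_, ?_⟩
    · rw [e₁, e₁', Matrix.mulVec_add, Matrix.mulVec_smul, hg₁, hg₁]
    · have n0 : (0 : Fin (c + 1 + 2)) ≠ Fin.last (c + 1 + 1) := by
        intro h
        have := congrArg Fin.val h
        simp at this
      have n1 : (1 : Fin (c + 1 + 2)) ≠ Fin.last (c + 1 + 1) := by
        intro h
        have := congrArg Fin.val h
        simp at this
      rw [e₂, e₂', Matrix.mulVec_add, Matrix.mulVec_smul, hg₂ _ n0, hg₂ _ n1]
  · have hs : hm b b ≠ 0 := by
      intro h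
      rw [h, add_zero] at hsum
      exact hr hsum
    obtain ⟨ρ, hρ⟩ := hS.norm_surj (fx hS a)
    obtain ⟨ρ₂, hρ₂⟩ := hS.norm_surj (fx hS b)
    have hρ0 : ρ ≠ 0 := by
      rintro rfl
      apply hr
      rw [← hρ]
      simp
    have hρ₂0 : ρ₂ ≠ 0 := by
      rintro rfl
      apply hs
      rw [← hρ₂]
      simp
    have hσρ : σ ρ ≠ 0 := by simpa using hρ0
    have hσρ₂ : σ ρ₂ ≠ 0 := by simpa using hρ₂0
    have unit : ∀ {x : Fin n → F} {t : F}, t ≠ 0 → σ t ≠ 0 → t * σ t = hm x x → hm (t⁻¹ • x) (t⁻¹ • x) = 1 := by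
      intro x t ht ht' htx
      rw [sl hS, sr hS, map_inv₀, ← htx]
      field_simp
    have hk0 : 0 < Module.finrank F W := by
      apply Module.finrank_pos_iff.2
      apply Submodule.nontrivial_iff_ne_bot.2
      rintro h
      rw [h] at ha
      exact ha0 (by simpa using ha)
    obtain ⟨k, hk⟩ : ∃ k, Module.finrank F W = k + 1 := ⟨Module.finrank F W - 1, by omega⟩
    obtain ⟨d₁, h₁, o₁, e₁⟩ := on_of_unit hS hW hk (W.smul_mem ρ⁻¹ ha) (unit hρ0 hσρ hρ)
    obtain ⟨d₁', h₁', o₁', e₁'⟩ := on_of_unit hS hW hk (W.smul_mem ρ⁻¹ ha') (unit hρ0 hσρ (by rw [hρ, hnorm]))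
    obtain ⟨d₂, h₂, o₂, e₂⟩ := on_of_unit hS hP (c := c + 2) hfrP' ((horth hS W).smul_mem ρ₂⁻¹ hb) (unit hρ₂0 hσρ₂ hρ₂)
    obtain ⟨d₂', h₂', o₂', e₂'⟩ := on_of_unit hS hP (c := c + 2) hfrP' ((horth hS W).smul_mem ρ₂⁻¹ hb') (unit hρ₂0 hσρ₂ (by rw [hρ₂, hnorm']))
    obtain ⟨g, hg, hg₁, hg₂⟩ := pair_transport hS hk (by omega) (Fin.last (c + 2)) h₁ h₁' h₂ h₂' o₁ o₁' o₂ o₂'
    refine ⟨g, hg, ?_, ?_⟩
    · have h3 := hg₁ 0
      rw [e₁, e₁', Matrix.mulVec_smul] at h3
      have h4 := congrArg (fun v => ρ • v) h3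
      simpa [smul_smul, hρ0] using h4
    · have n0 : (0 : Fin (c + 2 + 1)) ≠ Fin.last (c + 2) := by
        intro h
        have := congrArg Fin.val h
        simp at this
      have h3 := hg₂ 0 n0
      rw [e₂, e₂', Matrix.mulVec_smul] at h3
      have h4 := congrArg (fun v => ρ₂ • v) h3
      simpa [smul_smul, hρ₂0] using h4

/-- `u` has all its transvections in `M`. -/
def InA (hS : HS F q σ) (M : Subgroup (GL (Fin n) F)) (u : Fin n → F) : Prop :=
  ∀ (hu : hm u u = 0) (a : F), a + σ a = 0 → ut hS hu a ∈ M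

lemma InA.conj {hS : HS F q σ} {M : Subgroup (GL (Fin n) F)} {u : Fin n → F} (h : InA hS M u) {g : GL (Fin n) F} (hgM : g ∈ M)
    (hg : g ∈ GU n F q) (hu : hm u u = 0) : InA hS M ((g : Matrix (Fin n) (Fin n) F) *ᵥ u) := by
  intro hu' a ha
  have h1 := M.mul_mem (M.mul_mem hgM (h hu a ha)) (M.inv_mem hgM)
  rwa [conj_ut hS hg hu a hu'] at h1

lemma InA.scale {hS : HS F q σ} {M : Subgroup (GL (Fin n) F)} {u : Fin n → F} (h : InA hS M u) (hu : hm u u = 0) (l : F) :
    InA hS M (l • u) := by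
  intro hu' a ha
  have h1 : ut hS hu' a = ut hS hu (a * (l * σ l)) := by
    apply Cfsg.Agent.H27.GO.gl_ext
    intro x
    rw [ut_mulVec, ut_mulVec, sr hS]
    ext i
    simp only [Pi.add_apply, Pi.smul_apply, smul_eq_mul]
    ring
  rw [h1]
  apply h hu
  rw [map_mul, map_mul, hS.inv]
  linear_combination (l * σ l) * ha

/-- A vector of `Y` of prescribed norm, non-zero. -/
lemma exists_norm_vec (hS : HS F q σ) {Y : Submodule F (Fin n → F)} (hY : Nd q Y) (hfr : 2 ≤ Module.finrank F Y) {t : F} (ht : σ t = t) :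
    ∃ e ∈ Y, e ≠ 0 ∧ hm e e = t := by
  by_cases h0 : t = 0
  · obtain ⟨x, hx, hx0, hxx⟩ := exists_iso hS hY hfr
    exact ⟨x, hx, hx0, by rw [hxx, h0]⟩
  · have hne : Y ≠ ⊥ := by
      rintro rfl
      rw [finrank_bot] at hfr
      omega
    obtain ⟨e, he, hee⟩ := exists_aniso hS hY hne
    obtain ⟨l, hl⟩ := hS.norm_surj (τ := t / hm e e) (by rw [map_div₀, ht, fx hS])
    have hnorm : hm (l • e) (l • e) = t := by
      rw [sl hS, sr hS, ← mul_assoc, hl]
      field_simp
    refine ⟨l • e, Y.smul_mem _ he, ?_, hnorm⟩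
    intro h
    rw [h, zl hS] at hnorm
    exact h0 hnorm.symm

/-- A generic vector is moved out of `W ∪ W^⊥` by any element outside the stabiliser. -/
lemma exists_moved (hS : HS F q σ) {W : Submodule F (Fin n → F)} (hW : Nd q W) (hdim : 2 * Module.finrank F W < n)
    (hW0 : W ≠ ⊥) {g : GL (Fin n) F} (hg : g ∈ GU n F q) (hgn : g ∉ subspaceStabilizer W) :
    ∃ x ∈ horth hS W, hm x x = 0 ∧ x ≠ 0 ∧ (g : Matrix (Fin n) (Fin n) F) *ᵥ x ∉ W ∧ (g : Matrix (Fin n) (Fin n) F) *ᵥ x ∉ horth hS W := by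
  classical
  by_contra hcon
  push Not at hcon
  have hP := nd_perp hS hW
  have hfrP := finrank_horth hS W
  have hk1 : 0 < Module.finrank F W := Module.finrank_pos_iff.2 (Submodule.nontrivial_iff_ne_bot.2 hW0)
  have hcase : ∀ x ∈ horth hS W, hm x x = 0 → x ≠ 0 →
      ((g : Matrix (Fin n) (Fin n) F) *ᵥ x ∈ W ∨ (g : Matrix (Fin n) (Fin n) F) *ᵥ x ∈ horth hS W) := by
    intro x hx hxx hx0
    by_cases h : (g : Matrix (Fin n) (Fin n) F) *ᵥ x ∈ W
    · exact Or.inl h
    · exact Or.inr (hcon x hx hxx hx0 h)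
  have hinj : ∀ x : Fin n → F, x ≠ 0 → (g : Matrix (Fin n) (Fin n) F) *ᵥ x ≠ 0 := by
    intro x hx h
    apply hx
    apply Cfsg.Agent.H27.GD.mulVec_inj (g := g)
    rw [h, Matrix.mulVec_zero]
  have hIP := inf_perp hS hW
  have hnotboth : ∀ x, x ≠ 0 → (g : Matrix (Fin n) (Fin n) F) *ᵥ x ∈ W → (g : Matrix (Fin n) (Fin n) F) *ᵥ x ∈ horth hS W → False := by
    intro x hx h1 h2
    have : (g : Matrix (Fin n) (Fin n) F) *ᵥ x ∈ W ⊓ horth hS W := ⟨h1, h2⟩
    rw [hIP] at this
    exact hinj x hx (by simpa using this)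
  -- two vectors on different sides are impossible
  have hside : ∀ x₁ ∈ horth hS W, ∀ x₂ ∈ horth hS W, hm x₁ x₁ = 0 → hm x₂ x₂ = 0 → x₁ ≠ 0 → x₂ ≠ 0 →
      (g : Matrix (Fin n) (Fin n) F) *ᵥ x₁ ∈ W → (g : Matrix (Fin n) (Fin n) F) *ᵥ x₂ ∈ horth hS W → False := by
    intro x₁ h1 x₂ h2 h11 h22 h10 h20 hg1 hg2
    have h12 : hm x₁ x₂ = 0 := by
      rw [← isometry_apply hg]
      exact hg2 _ hg1
    obtain ⟨y, hy, hyy, hx1y, hx2y⟩ := exists_common hS hP h1 h2 h10 h20 h11 h22 h12
    have hy0 : y ≠ 0 := by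
      rintro rfl
      apply hx1y
      exact zr hS x₁
    rcases hcase y hy hyy hy0 with h3 | h3
    · apply hx2y
      rw [← isometry_apply hg]
      exact zero_of_swap hS (hg2 _ h3)
    · apply hx1y
      rw [← isometry_apply hg]
      exact h3 _ hg1
  let L : (Fin n → F) →ₗ[F] (Fin n → F) := Matrix.toLin' (g : Matrix (Fin n) (Fin n) F)
  have hLapp : ∀ x, L x = (g : Matrix (Fin n) (Fin n) F) *ᵥ x := fun x => by
    simp [L, Matrix.toLin'_apply]
  have hLinj : Function.Injective L := by
    intro a b hab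
    rw [hLapp, hLapp] at hab
    exact Cfsg.Agent.H27.GD.mulVec_inj (g := g) hab
  have hfr' : ∀ U : Submodule F (Fin n → F), Module.finrank F (U.map L) = Module.finrank F U := fun U =>
    (Submodule.equivMapOfInjective L hLinj U).finrank_eq.symm
  have hspan : ∀ {T : Submodule F (Fin n → F)}, (∀ x ∈ horth hS W, hm x x = 0 → x ≠ 0 → (g : Matrix (Fin n) (Fin n) F) *ᵥ x ∈ T) →
      (horth hS W).map L ≤ T := by
    intro T hT
    rintro _ ⟨x, hx, rfl⟩
    obtain ⟨z₁, hz₁, z₂, hz₂, h11, h22, rfl⟩ := sum_two_iso hS hP (by omega) hx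
    rw [map_add]
    apply T.add_mem
    · by_cases h0 : z₁ = 0
      · rw [h0, map_zero]
        exact T.zero_mem
      · rw [hLapp]
        exact hT _ hz₁ h11 h0
    · by_cases h0 : z₂ = 0
      · rw [h0, map_zero]
        exact T.zero_mem
      · rw [hLapp]
        exact hT _ hz₂ h22 h0
  -- is there a vector mapped into `W`?
  by_cases hany : ∃ x ∈ horth hS W, hm x x = 0 ∧ x ≠ 0 ∧ (g : Matrix (Fin n) (Fin n) F) *ᵥ x ∈ W
  · obtain ⟨x₁, h1, h11, h10, hg1⟩ := hany
    have hall : (horth hS W).map L ≤ W := by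
      apply hspan
      intro x hx hxx hx0
      rcases hcase x hx hxx hx0 with h3 | h3
      · exact h3
      · exact (hside x₁ h1 x hx h11 hxx h10 hx0 hg1 h3).elim
    have := Submodule.finrank_mono hall
    rw [hfr'] at this
    omega
  · push Not at hany
    have hall : (horth hS W).map L ≤ horth hS W := by
      apply hspan
      intro x hx hxx hx0
      rcases hcase x hx hxx hx0 with h3 | h3
      · exact (hany x hx hxx hx0 h3).elim
      · exact h3
    have heq : (horth hS W).map L = horth hS W := Submodule.eq_of_le_of_finrank_eq hall (hfr' _)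
    apply hgn
    apply Cfsg.Agent.H27.GO.mem_stab_of_map
    intro w hw
    rw [← horth_horth hS W]
    intro t ht
    rw [← heq] at ht
    obtain ⟨t', ht', rfl⟩ := ht
    rw [hLapp, isometry_apply hg]
    exact zero_of_swap hS (ht' w hw)

/-- The stabiliser of a non-degenerate subspace of dimension less than `n/2` is maximal. -/
theorem nd_max (hS : HS F q σ) (hn : 13 ≤ n) (W : Submodule F (Fin n → F)) (hW0 : W ≠ ⊥) (hW : Nd q W)
    (hdim : 2 * Module.finrank F W < n) :
    IsMaximalIn (GSU n F q) (subspaceStabilizer W ⊓ GSU n F q) := by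
  classical
  have hP := nd_perp hS hW
  have hfrP := finrank_horth hS W
  have hIP := inf_perp hS hW
  have cross : ∀ {a b : Fin n → F}, a ∈ W → b ∈ horth hS W → hm a b = 0 := fun {a b} ha hb => hb a ha
  have cross' : ∀ {a b : Fin n → F}, a ∈ W → b ∈ horth hS W → hm b a = 0 := fun {a b} ha hb => zero_of_swap hS (hb a ha)
  obtain ⟨θ, hθ0, hθ⟩ := hS.exists_trace_zero
  have hσθ : σ θ = - θ := by linear_combination hθ
  have hne : ¬ GSU n F q ≤ subspaceStabilizer W := by
    intro hle
    obtain ⟨e, he, hee⟩ := exists_aniso hS hW hW0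
    obtain ⟨e', he', he'0, he'e'⟩ := exists_norm_vec hS hP (t := - hm e e) (by omega) (by rw [map_neg, fx hS])
    have huu : hm (e + e') (e + e') = 0 := by
      simp only [al hS, ar hS, cross he he', cross' he he', he'e']
      ring
    have h1 := (hle (ut_mem hS huu hθ) e).1 he
    change ((ut hS huu θ : GL (Fin n) F) : Matrix (Fin n) (Fin n) F) *ᵥ e ∈ W at h1
    rw [ut_mulVec, ar hS, cross he he', add_zero] at h1
    have h2 := W.sub_mem h1 he
    rw [add_sub_cancel_left] at h2
    have h3 := W.smul_mem (θ * hm e e)⁻¹ h2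
    rw [smul_smul, inv_mul_cancel₀ (mul_ne_zero hθ0 hee), one_smul] at h3
    have h4 := W.sub_mem h3 he
    rw [add_sub_cancel_left] at h4
    have h5 : e' ∈ W ⊓ horth hS W := ⟨h4, he'⟩
    rw [hIP] at h5
    exact he'0 (by simpa using h5)
  constructor
  · rw [lt_iff_le_and_ne]
    refine ⟨inf_le_right, fun heq => hne ?_⟩
    rw [← heq]
    exact inf_le_left
  · intro M hPM hMG
    by_cases hex : ∃ g ∈ M, g ∉ subspaceStabilizer W
    · right
      apply le_antisymm hMG
      obtain ⟨g, hgM, hgn⟩ := hex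
      have hgG := hMG hgM
      apply gsu_le hS (by omega)
      -- vectors in `W` or `W^⊥`
      have hA1 : ∀ u, (u ∈ W ∨ u ∈ horth hS W) → InA hS M u := by
        rintro u hu' hu a ha
        apply hPM
        refine ⟨?_, ut_mem hS hu ha⟩
        rcases hu' with h1 | h1
        · apply Cfsg.Agent.H27.GO.mem_stab_of_map
          intro x hx
          rw [ut_mulVec]
          exact W.add_mem hx (W.smul_mem _ h1)
        · apply Cfsg.Agent.H27.Tv.mem_stab_of_fix
          intro w hw
          rw [ut_mulVec, h1 w hw]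
          simp
      have hsq : ∀ {a b : Fin n → F}, a ∈ W → b ∈ horth hS W → hm (a + b) (a + b) = hm a a + hm b b := by
        intro a b ha hb
        simp only [al hS, ar hS, cross ha hb, cross' ha hb]
        ring
      -- generic pairs
      let G : (Fin n → F) → (Fin n → F) → Prop := fun a b => a ∈ W ∧ b ∈ horth hS W ∧ a ≠ 0 ∧ b ≠ 0 ∧ hm a a + hm b b = 0
      have hT : ∀ {a b a' b'}, G a b → G a' b' → hm a a = hm a' a' → InA hS M (a + b) → InA hS M (a' + b') := by
        rintro a b a' b' ⟨h1, h2, h3, h4, h5⟩ ⟨h1', h2', h3', h4', h5'⟩ h6 h7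
        have h8 : hm b b = hm b' b' := by
          linear_combination h5 - h5' - h6
        obtain ⟨h, hh, hha, hhb⟩ := gen_transport hS hW (by omega) h1 h1' h2 h2' h3 h3' h4 h4' h6 h8 h5
        have h9 := h7.conj (hPM hh) hh.2.1 (by rw [hsq h1 h2, h5])
        rwa [Matrix.mulVec_add, hha, hhb] at h9
      have hScale : ∀ {a b a' b'}, G a b → G a' b' → hm a a ≠ 0 → hm a' a' ≠ 0 → InA hS M (a + b) → InA hS M (a' + b') := by
        rintro a b a' b' hG hG' h6 h6' h7
        obtain ⟨h1, h2, h3, h4, h5⟩ := hG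
        obtain ⟨l, hl⟩ := hS.norm_surj (τ := hm a' a' / hm a a) (by rw [map_div₀, fx hS, fx hS])
        have hl0 : l ≠ 0 := by
          rintro rfl
          apply h6'
          have h8 : hm a' a' / hm a a = 0 := by rw [← hl]; simp
          rcases div_eq_zero_iff.1 h8 with h9 | h9
          · exact h9
          · exact absurd h9 h6
        have hG₂ : G (l • a) (l • b) := by
          refine ⟨W.smul_mem _ h1, (horth hS W).smul_mem _ h2, smul_ne_zero hl0 h3, smul_ne_zero hl0 h4, ?_⟩
          simp only [sl hS, sr hS]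
          linear_combination (l * σ l) * h5
        have h8 : InA hS M (l • a + l • b) := by
          rw [← smul_add]
          exact h7.scale (by rw [hsq h1 h2, h5]) l
        apply hT hG₂ hG' _ h8
        rw [sl hS, sr hS, ← mul_assoc, hl]
        field_simp
      -- the vector obtained from `g`
      obtain ⟨x, hx, hxx, hx0, hgx1, hgx2⟩ := exists_moved hS hW hdim hW0 hgG.1 hgn
      have hu₀A : InA hS M ((g : Matrix (Fin n) (Fin n) F) *ᵥ x) := (hA1 x (Or.inr hx)).conj hgM hgG.1 hxx
      obtain ⟨a₀, ha₀, b₀, hb₀, hu₀⟩ := decomp hS hW ((g : Matrix (Fin n) (Fin n) F) *ᵥ x)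
      have hG₀ : G a₀ b₀ := by
        refine ⟨ha₀, hb₀, ?_, ?_, ?_⟩
        · rintro rfl
          apply hgx2
          rw [hu₀, zero_add]
          exact hb₀
        · rintro rfl
          apply hgx1
          rw [hu₀, add_zero]
          exact ha₀
        · rw [← hsq ha₀ hb₀, ← hu₀, isometry_apply hgG.1, hxx]
      have hA₀ : InA hS M (a₀ + b₀) := by
        rw [← hu₀]
        exact hu₀A
      -- moving a generic vector by a transvection of another generic vector
      have hmove : ∀ {a b a' b' : Fin n → F}, a ∈ W → b ∈ horth hS W → a' ∈ W → b' ∈ horth hS W → hm (a + b) (a + b) = 0 →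
          hm (a' + b') (a' + b') = 0 → InA hS M (a + b) → InA hS M (a' + b') →
          InA hS M ((a' + (θ * hm (a' + b') (a + b)) • a) + (b' + (θ * hm (a' + b') (a + b)) • b)) ∧
          hm (a' + (θ * hm (a' + b') (a + b)) • a) (a' + (θ * hm (a' + b') (a + b)) • a) +
            hm (b' + (θ * hm (a' + b') (a + b)) • b) (b' + (θ * hm (a' + b') (a + b)) • b) = 0 := by
        intro a b a' b' ha hb ha' hb' huu hvv hA hA'
        have htM := hA huu θ hθ
        have htG := ut_mem hS huu hθ
        have h1 := hA'.conj htM htG.1 hvv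
        have h2 : ((ut hS huu θ : GL (Fin n) F) : Matrix (Fin n) (Fin n) F) *ᵥ (a' + b') =
            (a' + (θ * hm (a' + b') (a + b)) • a) + (b' + (θ * hm (a' + b') (a + b)) • b) := by
          rw [ut_mulVec]
          ext i
          simp only [Pi.add_apply, Pi.smul_apply, smul_eq_mul]
          ring
        have h3 := isometry_apply htG.1 (a' + b') (a' + b')
        rw [h2] at h1 h3
        refine ⟨h1, ?_⟩
        rw [← hsq (W.add_mem ha' (W.smul_mem _ ha)) ((horth hS W).add_mem hb' ((horth hS W).smul_mem _ hb)), h3, hvv]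
      -- class zero gives a non-zero class
      have hstep2 : ∀ {a b : Fin n → F}, G a b → hm a a = 0 → InA hS M (a + b) →
          ∃ a₁ b₁, G a₁ b₁ ∧ hm a₁ a₁ ≠ 0 ∧ InA hS M (a₁ + b₁) := by
        rintro a b hG h0 hA
        obtain ⟨h1, h2, h3, h4, h5⟩ := hG
        have hbb : hm b b = 0 := by
          rw [h0, zero_add] at h5
          exact h5
        obtain ⟨a', ha', ha'a', haa'⟩ := exists_partner hS hW h1 h3 h0
        obtain ⟨y, hy, hyy, hby⟩ := exists_partner hS hP h2 h4 hbb
        obtain ⟨β, hβ⟩ := hS.exists_ne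
        have hβ0 : β ≠ 0 := by
          rintro rfl
          simp at hβ
        have hyb : hm y b = 1 := by rw [sm hS, hby, map_one]
        have ha'a : hm a' a = 1 := by rw [sm hS, haa', map_one]
        have hb' : β • y ∈ horth hS W := (horth hS W).smul_mem _ hy
        have hy0 : β • y ≠ 0 := by
          intro h
          have := congrArg (fun v => hm v b) h
          simp only [sl hS, hyb, zl hS] at this
          exact hβ0 (by simpa using this)
        have ha'0 : a' ≠ 0 := by
          rintro rfl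
          rw [zr hS] at haa'
          exact zero_ne_one haa'
        have hb'b' : hm (β • y) (β • y) = 0 := by
          simp only [sl hS, sr hS, hyy]
          ring
        have hG' : G a' (β • y) := ⟨ha', hb', ha'0, hy0, by rw [ha'a', hb'b', add_zero]⟩
        have hG₀' : G a b := ⟨h1, h2, h3, h4, h5⟩
        have hA' : InA hS M (a' + β • y) := hT hG₀' hG' (by rw [h0, ha'a']) hA
        have huu : hm (a + b) (a + b) = 0 := by rw [hsq h1 h2, h5]
        have hvv : hm (a' + β • y) (a' + β • y) = 0 := by rw [hsq ha' hb', ha'a', hb'b', add_zero]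
        obtain ⟨h6, h7⟩ := hmove h1 h2 ha' hb' huu hvv hA hA'
        have hval : hm (a' + β • y) (a + b) = 1 + β := by
          simp only [al hS, ar hS, sl hS, cross ha' h2, cross' h1 hb', ha'a, hyb, cross' h1 hy]
          ring
        rw [hval] at h6 h7
        set κ := θ * (1 + β) with hκ
        have hnorm : hm (a' + κ • a) (a' + κ • a) = θ * (β - σ β) := by
          simp only [al hS, ar hS, sl hS, sr hS, ha'a', ha'a, haa', h0]
          rw [hκ, map_mul, map_add, map_one, hσθ]
          ring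
        have hnorm0 : hm (a' + κ • a) (a' + κ • a) ≠ 0 := by
          rw [hnorm]
          exact mul_ne_zero hθ0 (sub_ne_zero.2 (Ne.symm hβ))
        have hnorm1 : hm (β • y + κ • b) (β • y + κ • b) ≠ 0 := by
          intro h8
          rw [h8, add_zero] at h7
          exact hnorm0 h7
        refine ⟨a' + κ • a, β • y + κ • b, ⟨W.add_mem ha' (W.smul_mem _ h1), (horth hS W).add_mem hb' ((horth hS W).smul_mem _ h2),
          ne_zero_of_aniso hS hnorm0, ne_zero_of_aniso hS hnorm1, h7⟩, hnorm0, h6⟩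
      -- a non-zero class gives class zero
      have hstep3 : ∀ {a b : Fin n → F}, G a b → hm a a ≠ 0 → InA hS M (a + b) → 2 ≤ Module.finrank F W →
          ∃ a₁ b₁, G a₁ b₁ ∧ hm a₁ a₁ = 0 ∧ InA hS M (a₁ + b₁) := by
        rintro a b hG h0 hA hk2
        have hG₀' := hG
        obtain ⟨h1, h2, h3, h4, h5⟩ := hG
        obtain ⟨a', ha', haa', ha'a'⟩ := exists_perp_aniso hS hW h1 h0 hk2
        have ha'a : hm a' a = 0 := zero_of_swap hS haa'
        set r := hm a a with hr
        set r' := hm a' a' with hr'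
        have hbb : hm b b = - r := by linear_combination h5
        have hbb0 : hm b b ≠ 0 := by
          rw [hbb]
          exact neg_ne_zero.2 h0
        have hσr : σ r = r := fx hS a
        have hσr' : σ r' = r' := fx hS a'
        obtain ⟨κ, hκ⟩ := hS.norm_surj (τ := - r' / r) (by rw [map_div₀, map_neg, hσr, hσr'])
        set μ := - κ / (θ * r) with hμ
        have hA' := nd_span hS hbb0
        have hle : Submodule.span F {b} ≤ horth hS W := by
          rw [Submodule.span_le]
          simpa using h2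
        have hY := nd_inf hS hA' hP hle
        have hYfr := finrank_inf hS hA' hle
        rw [finrank_span_singleton (ne_zero_of_aniso hS hbb0)] at hYfr
        have hσt : σ (μ * σ μ * r - r') = μ * σ μ * r - r' := by
          rw [map_sub, map_mul, map_mul, hS.inv, hσr, hσr']
          ring
        obtain ⟨e', he', he'0, he'e'⟩ := exists_norm_vec hS hY (by omega) hσt
        have hbe' : hm b e' = 0 := he'.2 b (Submodule.mem_span_singleton_self _)
        have he'b : hm e' b = 0 := zero_of_swap hS hbe'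
        set b' := μ • b + e' with hb'def
        have hb'W : b' ∈ horth hS W := (horth hS W).add_mem ((horth hS W).smul_mem _ h2) he'.1
        have hb'b' : hm b' b' = - r' := by
          simp only [hb'def, al hS, ar hS, sl hS, sr hS, hbb, hbe', he'b, he'e']
          ring
        have hb'b'0 : hm b' b' ≠ 0 := by
          rw [hb'b']
          exact neg_ne_zero.2 ha'a'
        have hG' : G a' b' := ⟨ha', hb'W, ne_zero_of_aniso hS ha'a', ne_zero_of_aniso hS hb'b'0, by rw [hb'b']; ring⟩
        have hA'' : InA hS M (a' + b') := hScale hG₀' hG' h0 ha'a' hA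
        have huu : hm (a + b) (a + b) = 0 := by rw [hsq h1 h2, h5]
        have hvv : hm (a' + b') (a' + b') = 0 := by rw [hsq ha' hb'W, hb'b']; ring
        obtain ⟨h6, h7⟩ := hmove h1 h2 ha' hb'W huu hvv hA hA''
        have hval : θ * hm (a' + b') (a + b) = κ := by
          have : hm (a' + b') (a + b) = - μ * r := by
            simp only [al hS, ar hS, cross ha' h2, cross' h1 hb'W, ha'a]
            simp only [hb'def, al hS, sl hS, hbb, he'b]
            ring
          rw [this, hμ]
          field_simp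
        rw [hval] at h6 h7
        have hnorm : hm (a' + κ • a) (a' + κ • a) = 0 := by
          simp only [al hS, ar hS, sl hS, sr hS, ha'a, haa', ← hr, ← hr']
          have : κ * (σ κ * r) = - r' := by
            rw [← mul_assoc, hκ]
            field_simp
          rw [this]
          ring
        have hb₁0 : b' + κ • b ≠ 0 := by
          intro h8
          have h9 := congrArg (fun v => hm v b) h8
          simp only [al hS, sl hS, hb'def, he'b, zl hS, hbb] at h9
          have h10 : μ + κ = 0 := by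
            have h11 : (μ + κ) * (- r) = 0 := by linear_combination h9
            rcases mul_eq_zero.1 h11 with h12 | h12
            · exact h12
            · exact absurd (neg_eq_zero.1 h12) h0
          have h11 : e' = 0 := by
            have : e' = (b' + κ • b) - (μ + κ) • b := by
              rw [hb'def]
              ext i
              simp
              ring
            rw [this, h8, h10]
            simp
          exact he'0 h11
        have ha₁0 : a' + κ • a ≠ 0 := by
          intro h8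
          have h9 := congrArg (fun v => hm v a') h8
          simp only [al hS, sl hS, haa', zl hS, mul_zero, add_zero] at h9
          exact ha'a' h9
        refine ⟨a' + κ • a, b' + κ • b, ⟨W.add_mem ha' (W.smul_mem _ h1), (horth hS W).add_mem hb'W ((horth hS W).smul_mem _ h2),
          ha₁0, hb₁0, h7⟩, hnorm, h6⟩
      -- conclusion
      intro u hu a₂ ha₂
      refine (?_ : InA hS M u) hu a₂ ha₂
      obtain ⟨a, ha, b, hb, rfl⟩ := decomp hS hW u
      by_cases ha0 : a = 0
      · subst ha0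
        rw [zero_add]
        exact hA1 b (Or.inr hb)
      by_cases hb0 : b = 0
      · subst hb0
        rw [add_zero]
        exact hA1 a (Or.inl ha)
      have hG : G a b := ⟨ha, hb, ha0, hb0, by rw [← hsq ha hb, hu]⟩
      by_cases hr : hm a a = 0
      · by_cases hr₀ : hm a₀ a₀ = 0
        · exact hT hG₀ hG (by rw [hr, hr₀]) hA₀
        · have hk2 : 2 ≤ Module.finrank F W := by
            obtain ⟨z', hz', hz'z', haz'⟩ := exists_partner hS hW ha ha0 hr
            have hle : Submodule.span F {a, z'} ≤ W := by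
              rw [Submodule.span_le]
              rintro _ (rfl | rfl)
              · exact ha
              · exact hz'
            have := Submodule.finrank_mono hle
            rwa [finrank_pair hS hr hz'z' (by rw [haz']; exact one_ne_zero)] at this
          obtain ⟨a₁, b₁, hG₁, hr₁, hA₁⟩ := hstep3 hG₀ hr₀ hA₀ hk2
          exact hT hG₁ hG (by rw [hr, hr₁]) hA₁
      · by_cases hr₀ : hm a₀ a₀ = 0
        · obtain ⟨a₁, b₁, hG₁, hr₁, hA₁⟩ := hstep2 hG₀ hr₀ hA₀
          exact hScale hG₁ hG hr₁ hr hA₁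
        · exact hScale hG₀ hG hr₀ hr hA₀
    · left
      push Not at hex
      exact le_antisymm (fun g hg => ⟨hex g hg, hMG hg⟩) hPM

end Cfsg.Agent.H27.SG
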