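import Mathlib
import Cfsg.Prelude.Def_GeometricClasses
import Cfsg.Agent.Lib.H27.GeoMaxSp2
import Cfsg.Agent.Lib.H27.GeoOVec2

/-!
# Orthogonal groups in even characteristic are maximal in symplectic groups
-/

set_option autoImplicit false
set_option linter.unusedSectionVars false
set_option linter.unusedSimpArgs false
set_option linter.unusedVariables false

namespace Cfsg.Agent.H27.SO

open scoped Matrix MatrixGroups
open Cfsg Cfsg.Geo
open Cfsg.Agent.H27.GO (pl pl_symm Q_add Q_zero pl_self pl_add_left pl_add_right pl_smul_left pl_smul_right pl_zero_left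
  pl_zero_right mem_isom_iff isom_pl omega_le_isom gl_ext exists_sep singularize finrank_span_two mem_span_two_l
  mem_span_two_r ndg_top trans_sing trans_aniso rootGp_allR rootGp_le_omega exists_singular_in
  two_eq_zero_of_not_odd)
open Cfsg.Agent.H27.MS (tv tv_mulVec tv_mem toGL exists_toGL conj_tv spGL_le_of_tv mem_spGL_iff exists_riesz)

variable {m : ℕ} {F : Type*} [Field F] [Fintype F] {Q : (Fin m ⊕ Fin m → F) → F}

local notation "sf" => Cfsg.Agent.Lead.sympForm

theorem Q_tv (hQ : IsNondegenerateQuadraticForm Q) (hpl : ∀ x y, pl Q x y = sf x y) (u : Fin m ⊕ Fin m → F) (c : F)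
    (x : Fin m ⊕ Fin m → F) :
    Q (((tv u c : GL (Fin m ⊕ Fin m) F) : Matrix (Fin m ⊕ Fin m) (Fin m ⊕ Fin m) F) *ᵥ x) =
      Q x + (c * pl Q x u) * pl Q x u + (c * pl Q x u) ^ 2 * Q u := by
  rw [tv_mulVec, ← hpl, Q_add Q, hQ.smul, pl_smul_right hQ]
  ring

theorem isom_mem_sp (hpl : ∀ x y, pl Q x y = sf x y) {g : GL (Fin m ⊕ Fin m) F} (hg : g ∈ isometryGroup F Q) :
    g ∈ spGL m F := by
  rw [mem_spGL_iff]
  intro x y
  rw [← hpl, ← hpl, isom_pl hg]

theorem isom_mem_H (hpl : ∀ x y, pl Q x y = sf x y) {g : GL (Fin m ⊕ Fin m) F} (hg : g ∈ isometryGroup F Q) :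
    g ∈ quadSimilarityGroup Q ⊓ spGL m F :=
  ⟨⟨1, fun v => by rw [mem_isom_iff.1 hg]; simp⟩, isom_mem_sp hpl hg⟩

/-- Members of the intersection are isometries. -/
theorem H_mem_isom (hm : 1 ≤ m) (hQ : IsNondegenerateQuadraticForm Q) (hpl : ∀ x y, pl Q x y = sf x y)
    {g : GL (Fin m ⊕ Fin m) F} (hg : g ∈ quadSimilarityGroup Q ⊓ spGL m F) : g ∈ isometryGroup F Q := by
  obtain ⟨⟨c, hc⟩, hsp⟩ := hg
  rw [mem_isom_iff]
  have hsp' := mem_spGL_iff.1 hsp
  have hnz : ∃ x y : Fin m ⊕ Fin m → F, pl Q x y ≠ 0 := by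
    haveI : Nonempty (Fin m ⊕ Fin m) := ⟨Sum.inl ⟨0, hm⟩⟩
    obtain ⟨y, hy⟩ : ∃ y : Fin m ⊕ Fin m → F, y ≠ 0 := exists_ne 0
    obtain ⟨x, hx⟩ := (hQ.nondegenerate y hy).1
    exact ⟨x, y, hx⟩
  obtain ⟨x, y, hxy⟩ := hnz
  have h1 : pl Q ((g : Matrix (Fin m ⊕ Fin m) (Fin m ⊕ Fin m) F) *ᵥ x) ((g : Matrix (Fin m ⊕ Fin m) (Fin m ⊕ Fin m) F) *ᵥ y) = (c : F) * pl Q x y := by
    simp only [pl, QuadraticMap.polar, ← Matrix.mulVec_add, hc]
    ring
  rw [hpl, hsp', ← hpl] at h1
  have hc1 : (c : F) = 1 := by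
    have h2 : ((c : F) - 1) * pl Q x y = 0 := by
      rw [sub_mul, ← h1]
      ring
    have := (mul_eq_zero.1 h2).resolve_right hxy
    exact sub_eq_zero.1 this
  intro v
  rw [hc, hc1, one_mul]

/-- The defect of a symplectic element with respect to `Q`. -/
theorem exists_defect (heven : (2 : F) = 0) (hQ : IsNondegenerateQuadraticForm Q) (hpl : ∀ x y, pl Q x y = sf x y)
    {g : GL (Fin m ⊕ Fin m) F} (hg : g ∈ spGL m F) :
    ∃ z : Fin m ⊕ Fin m → F, ∀ x, Q ((g : Matrix (Fin m ⊕ Fin m) (Fin m ⊕ Fin m) F) *ᵥ x) = Q x + (pl Q x z) ^ 2 := by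
  classical
  haveI : CharP F 2 := CharTwo.of_one_ne_zero_of_two_eq_zero one_ne_zero heven
  haveI : Fact (Nat.Prime 2) := ⟨Nat.prime_two⟩
  let r : F ≃+* F := (frobeniusEquiv F 2).symm
  have hr : ∀ a, r a ^ 2 = a := fun a => frobeniusEquiv_symm_pow_p F 2 a
  have hr2 : ∀ a, r (a ^ 2) = a := fun a => by
    have : (frobeniusEquiv F 2) a = a ^ 2 := rfl
    rw [← this]
    exact (frobeniusEquiv F 2).symm_apply_apply a
  let D : (Fin m ⊕ Fin m → F) → F := fun x => Q ((g : Matrix (Fin m ⊕ Fin m) (Fin m ⊕ Fin m) F) *ᵥ x) - Q x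
  have hDadd : ∀ x y, D (x + y) = D x + D y := by
    intro x y
    have h1 : pl Q ((g : Matrix (Fin m ⊕ Fin m) (Fin m ⊕ Fin m) F) *ᵥ x) ((g : Matrix (Fin m ⊕ Fin m) (Fin m ⊕ Fin m) F) *ᵥ y) = pl Q x y := by
      rw [hpl, mem_spGL_iff.1 hg, ← hpl]
    simp only [D, Matrix.mulVec_add, Q_add Q, h1]
    ring
  have hDsmul : ∀ (c : F) x, D (c • x) = c ^ 2 * D x := by
    intro c x
    simp only [D, Matrix.mulVec_smul, hQ.smul]
    ring
  let φ : Module.Dual F (Fin m ⊕ Fin m → F) :=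
    { toFun := fun x => r (D x)
      map_add' := fun x y => by rw [hDadd, map_add]
      map_smul' := fun c x => by
        rw [hDsmul, map_mul, hr2]
        rfl }
  obtain ⟨z, hz⟩ := exists_riesz φ
  refine ⟨z, fun x => ?_⟩
  have h2 : (pl Q x z) ^ 2 = D x := by
    rw [hpl, hz]
    exact hr _
  rw [h2]
  simp [D]

/-- Vectors of prescribed norm and prescribed inner product with a given vector. -/
theorem exists_norm (hm : 7 ≤ m) (heven : (2 : F) = 0) (hQ : IsNondegenerateQuadraticForm Q) {z : Fin m ⊕ Fin m → F}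
    (hz : z ≠ 0) {s : F} (hs : s ≠ 0) (c : F) : ∃ v, Q v = c ∧ pl Q v z = s := by
  have hcard : Module.finrank F (⊤ : Submodule F (Fin m ⊕ Fin m → F)) = 2 * m := by
    rw [finrank_top, Module.finrank_fintype_fun_eq_card]
    simp
    omega
  obtain ⟨x, -, -, hxz⟩ := exists_sep (S := ⊥) hQ (ndg_top hQ) (Submodule.mem_top (x := z)) (by simpa using hz) s
  have hzz : ∀ t : F, pl Q (t • z) z = 0 := fun t => by
    rw [pl_smul_left hQ, pl_self hQ, heven]
    ring
  have hxn : x ∉ Submodule.span F {z} := by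
    intro hmem
    obtain ⟨t, rfl⟩ := Submodule.mem_span_singleton.1 hmem
    exact hs (hxz ▸ hzz t)
  obtain ⟨y₀, -, hy₀S, hy₀x⟩ := exists_sep (S := Submodule.span F {z}) hQ (ndg_top hQ) (Submodule.mem_top (x := x)) hxn 1
  have hdim : 2 * Module.finrank F (Submodule.span F {z, x}) + 3 ≤ Module.finrank F (⊤ : Submodule F (Fin m ⊕ Fin m → F)) := by
    have := finrank_span_two (F := F) z x
    omega
  obtain ⟨y, -, hQy, hyS⟩ := singularize hQ (ndg_top hQ) (le_top) hdim (Submodule.mem_top (x := y₀))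
  have hyz : pl Q y z = 0 := by
    rw [hyS z (mem_span_two_l z x)]
    exact hy₀S z ⟨Submodule.mem_span_singleton_self z, trivial⟩
  have hyx : pl Q y x = 1 := by
    rw [hyS x (mem_span_two_r z x), hy₀x]
  refine ⟨x + (c - Q x) • y, ?_, ?_⟩
  · rw [Q_add Q, hQ.smul, hQy, pl_smul_right hQ, pl_symm x y, hyx]
    ring
  · rw [pl_add_left hQ, pl_smul_left hQ, hyz, hxz]
    ring

theorem conj_tv' {g : GL (Fin m ⊕ Fin m) F} (hg : g ∈ spGL m F) (u : Fin m ⊕ Fin m → F) (c : F) :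
    g * tv u c * g⁻¹ = tv ((g : Matrix (Fin m ⊕ Fin m) (Fin m ⊕ Fin m) F) *ᵥ u) c := by
  obtain ⟨A, rfl⟩ := exists_toGL hg
  exact conj_tv A u c

/-- `O(Q)` is maximal in the symplectic group. -/
theorem orth_sp_max (hm : 7 ≤ m) (heven : ¬ Odd (Fintype.card F)) (hQ : IsNondegenerateQuadraticForm Q)
    (hpol : ∀ u v, QuadraticMap.polar Q u v = Cfsg.sympForm m F u v) :
    IsMaximalIn (spGL m F) (quadSimilarityGroup Q ⊓ spGL m F) := by
  classical
  have h2 : (2 : F) = 0 := two_eq_zero_of_not_odd heven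
  have hpl : ∀ x y, pl Q x y = sf x y := hpol
  have hcard : 7 ≤ Fintype.card (Fin m ⊕ Fin m) := by
    simp
    omega
  have hdimT : 7 ≤ Module.finrank F (⊤ : Submodule F (Fin m ⊕ Fin m → F)) := by
    rw [finrank_top, Module.finrank_fintype_fun_eq_card]
    exact hcard
  have hneg : ∀ a : F, -a = a := fun a => by
    have : a + a = 0 := by
      rw [← two_mul, h2, zero_mul]
    exact neg_eq_of_add_eq_zero_left this
  have hsq : ∀ a : F, ∃ b : F, b ^ 2 = a := by
    intro a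
    haveI : CharP F 2 := CharTwo.of_one_ne_zero_of_two_eq_zero one_ne_zero h2
    haveI : Fact (Nat.Prime 2) := ⟨Nat.prime_two⟩
    exact ⟨(frobeniusEquiv F 2).symm a, frobeniusEquiv_symm_pow_p F 2 a⟩
  have htv1 : ∀ u, Q u = 1 → tv u 1 ∈ isometryGroup F Q := by
    intro u hu
    rw [mem_isom_iff]
    intro x
    rw [Q_tv hQ hpl, hu]
    have : (1 * pl Q x u) * pl Q x u + (1 * pl Q x u) ^ 2 * 1 = 2 * (pl Q x u) ^ 2 := by ring
    rw [add_assoc, this, h2]
    ring
  constructor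
  · rw [lt_iff_le_and_ne]
    refine ⟨inf_le_right, fun heq => ?_⟩
    obtain ⟨u, -, hu0, hQu⟩ := exists_singular_in hQ (⊤ : Submodule F (Fin m ⊕ Fin m → F)) (by omega)
    have h1 : tv u 1 ∈ quadSimilarityGroup Q ⊓ spGL m F := by
      rw [heq]
      exact tv_mem u 1
    have h3 := H_mem_isom (by omega) hQ hpl h1
    obtain ⟨x, hx⟩ := (hQ.nondegenerate u hu0).1
    have h4 := (mem_isom_iff.1 h3) x
    rw [Q_tv hQ hpl, hQu] at h4
    apply hx
    have : (pl Q x u) ^ 2 = 0 := by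
      have h5 : (1 * pl Q x u) * pl Q x u + (1 * pl Q x u) ^ 2 * 0 = (pl Q x u) ^ 2 := by ring
      rw [add_assoc, h5] at h4
      exact add_left_cancel (h4.trans (add_zero _).symm)
    exact pow_eq_zero_iff (two_ne_zero) |>.1 this
  · intro M hHM hMK
    by_cases hex : ∃ g ∈ M, g ∉ quadSimilarityGroup Q ⊓ spGL m F
    · right
      apply le_antisymm hMK
      obtain ⟨g, hgM, hgn⟩ := hex
      have hgK := hMK hgM
      obtain ⟨z, hz⟩ := exists_defect h2 hQ hpl hgK
      have hz0 : z ≠ 0 := by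
        rintro rfl
        apply hgn
        apply isom_mem_H hpl
        rw [mem_isom_iff]
        intro x
        rw [hz, pl_zero_right hQ]
        ring
      have hIso : ∀ h ∈ isometryGroup F Q, h ∈ M := fun h hh => hHM (isom_mem_H hpl hh)
      have hconj : ∀ h ∈ M, ∀ u, tv u 1 ∈ M → tv ((h : Matrix (Fin m ⊕ Fin m) (Fin m ⊕ Fin m) F) *ᵥ u) 1 ∈ M := by
        intro h hh u hu
        rw [← conj_tv' (hMK hh)]
        exact M.mul_mem (M.mul_mem hh hu) (M.inv_mem hh)
      have hroot : ∀ h ∈ Cfsg.Agent.H27.GO.rootGp Q, h ∈ M := fun h hh =>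
        hIso h (omega_le_isom (rootGp_le_omega hQ hcard hh))
      -- a singular root
      obtain ⟨v, hQv, hvz⟩ := exists_norm hm h2 hQ hz0 (one_ne_zero) 1
      have hu₀M : tv ((g : Matrix (Fin m ⊕ Fin m) (Fin m ⊕ Fin m) F) *ᵥ v) 1 ∈ M :=
        hconj g hgM v (hIso _ (htv1 v hQv))
      have hv0 : v ≠ 0 := by
        rintro rfl
        rw [pl_zero_left hQ] at hvz
        exact zero_ne_one hvz
      have hinj : ∀ w : Fin m ⊕ Fin m → F, ∀ h : GL (Fin m ⊕ Fin m) F, w ≠ 0 → (h : Matrix (Fin m ⊕ Fin m) (Fin m ⊕ Fin m) F) *ᵥ w ≠ 0 := by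
        intro w h hw h0
        apply hw
        have := congrArg (fun y => ((h⁻¹ : GL (Fin m ⊕ Fin m) F) : Matrix (Fin m ⊕ Fin m) (Fin m ⊕ Fin m) F) *ᵥ y) h0
        simpa [Matrix.mulVec_mulVec] using this
      have hQu₀ : Q ((g : Matrix (Fin m ⊕ Fin m) (Fin m ⊕ Fin m) F) *ᵥ v) = 0 := by
        rw [hz, hQv, hvz, one_pow, ← two_mul, h2]
        ring
      have hu₀0 := hinj v g hv0
      set u₀ := (g : Matrix (Fin m ⊕ Fin m) (Fin m ⊕ Fin m) F) *ᵥ v with hu₀
      -- all singular roots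
      have hsing : ∀ u, u ≠ 0 → Q u = 0 → tv u 1 ∈ M := by
        intro u hu hQu
        obtain ⟨h, hh, hhu⟩ := trans_sing hQ (ndg_top hQ) hdimT (rootGp_allR ⊤ hQ hcard) (x := u₀) (y := u) trivial trivial hQu₀ hQu hu₀0 hu
        have := hconj h (hroot h hh) u₀ hu₀M
        rwa [hhu] at this
      have hall1 : ∀ u, tv u 1 ∈ M := by
        intro u
        by_cases hu0 : u = 0
        · subst hu0
          have : tv (0 : Fin m ⊕ Fin m → F) (1 : F) = 1 := by
            apply gl_ext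
            intro x
            rw [tv_mulVec]
            simp
          rw [this]
          exact M.one_mem
        by_cases hQu1 : Q u = 1
        · exact hIso _ (htv1 u hQu1)
        by_cases hQu0 : Q u = 0
        · exact hsing u hu0 hQu0
        -- the generic case
        obtain ⟨s, hs⟩ := hsq (1 + Q u)
        have hs0 : s ≠ 0 := by
          rintro rfl
          apply hQu1
          have h5 : 1 + Q u = 0 := by
            rw [← hs]
            ring
          have := eq_neg_of_add_eq_zero_left h5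
          rw [this, hneg]
        obtain ⟨y, -, hy0, hQy⟩ := exists_singular_in hQ (⊤ : Submodule F (Fin m ⊕ Fin m → F)) (by omega)
        obtain ⟨w, hQw, hwy⟩ := exists_norm hm h2 hQ hy0 hs0 1
        have hw0 : w ≠ 0 := by
          rintro rfl
          rw [pl_zero_left hQ] at hwy
          exact hs0 hwy.symm
        have hw1 : tv w 1 ∈ M := hIso _ (htv1 w hQw)
        have hwnew := hconj _ (hsing y hy0 hQy) w hw1
        have hnorm : Q (((tv y 1 : GL (Fin m ⊕ Fin m) F) : Matrix (Fin m ⊕ Fin m) (Fin m ⊕ Fin m) F) *ᵥ w) = Q u := by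
          rw [Q_tv hQ hpl, hQy, hQw, hwy]
          have : 1 + 1 * s * s + (1 * s) ^ 2 * 0 = 1 + s ^ 2 := by ring
          rw [this, hs, ← add_assoc, ← two_mul, h2]
          ring
        obtain ⟨h, hh, hhu⟩ := trans_aniso hQ (ndg_top hQ) hdimT (rootGp_allR ⊤ hQ hcard)
          (a := ((tv y 1 : GL (Fin m ⊕ Fin m) F) : Matrix (Fin m ⊕ Fin m) (Fin m ⊕ Fin m) F) *ᵥ w) (b := u) trivial trivial
          (by rw [hnorm]; exact hQu0) hnorm
        have := hconj h (hroot h hh) _ hwnew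
        rwa [hhu] at this
      apply spGL_le_of_tv
      intro u c
      obtain ⟨b, hb⟩ := hsq c
      have : tv u c = tv (b • u) 1 := by
        apply gl_ext
        intro x
        rw [tv_mulVec, tv_mulVec, ← hpl, ← hpl, pl_smul_right hQ, ← hb, smul_smul]
        congr 1
        ring
      rw [this]
      exact hall1 _
    · left
      push Not at hex
      exact le_antisymm hex hHM

end Cfsg.Agent.H27.SO
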