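import Mathlib
import Cfsg.Prelude.Def_GeometricClasses
import Cfsg.Agent.Lib.H27.GeoSpPair

/-!
# Stabilisers of non-degenerate decompositions in symplectic groups
-/

set_option autoImplicit false
set_option linter.unusedSectionVars false
set_option linter.unusedSimpArgs false
set_option linter.unusedVariables false

namespace Cfsg.Agent.H27.SW

open scoped Matrix MatrixGroups
open Cfsg Cfsg.Geo
open Cfsg.Agent.Lead (sympT sympTmat sympTmat_mulVec sympForm_mulVec sympForm_self sympForm_swap sympForm_add_left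
  sympForm_add_right sympForm_smul_left sympForm_smul_right sympForm_sub_right sympForm_nondeg conj_sympT sp_induction
  IsPartial tuple_transitive spTransGroup isPartial_cons_iff Perp)
open Cfsg.Agent.H27.GO (gl_ext)
open Cfsg.Agent.H27.MS (tv tv_mulVec tv_mem toGL toGL_mem exists_toGL conj_tv spGL_le_of_tv mem_spGL_iff exists_riesz
  sf_zero_right sf_zero_left union_sub sympForm_nd sympForm_sum_right sympForm_sum_left NdOn perpS mem_perpS Mover exists_mover
  tv_mover exists_decomp le_perp_perp inf_perp_of_nd)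
open Cfsg.Agent.H27.SD (sf_anti sf_neg_r sf_neg_l sf_sub_l tv_conj_mem tv_zero exists_perp_ne map_eq_of_maps inv_cancel
  not_mem_span_comm)

variable {m : ℕ} {F : Type*} [Field F]

local notation "sf" => Cfsg.Agent.Lead.sympForm
local notation "GG" => GL (Fin m ⊕ Fin m) F
local notation "Mat" => Matrix (Fin m ⊕ Fin m) (Fin m ⊕ Fin m) F

/-- Symplectic bases of non-degenerate subspaces. -/
theorem exists_sbasis [Fintype F] : ∀ (n : ℕ) (W : Submodule F (Fin m ⊕ Fin m → F)), Module.finrank F W = n → NdOn W →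
    ∃ r, 2 * r = n ∧ ∃ e f : Fin r → Fin m ⊕ Fin m → F, IsPartial e f ∧ (∀ i, e i ∈ W) ∧ (∀ i, f i ∈ W) ∧
      ∀ x ∈ W, x = ∑ i, (sf x (e i) • f i - sf x (f i) • e i) := by
  intro n
  induction n using Nat.strong_induction_on with
  | _ n ih =>
    intro W hWn hW
    by_cases hW0 : W = ⊥
    · subst hW0
      refine ⟨0, by simpa using hWn, Fin.elim0, Fin.elim0, ⟨fun i => i.elim0, fun i => i.elim0, fun i => i.elim0⟩,
        fun i => i.elim0, fun i => i.elim0, fun x hx => ?_⟩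
      simpa using hx
    obtain ⟨x₀, hx₀, hx₀0⟩ := Submodule.exists_mem_ne_zero_of_ne_bot hW0
    obtain ⟨z, hz, hxz⟩ := hW x₀ hx₀ hx₀0
    obtain ⟨e₀, he₀⟩ : ∃ e₀, e₀ = x₀ := ⟨_, rfl⟩
    rw [← he₀] at hx₀
    obtain ⟨f₀, hf₀W, hef⟩ : ∃ f₀ ∈ W, sf e₀ f₀ = -1 := by
      refine ⟨(-(sf x₀ z)⁻¹) • z, W.smul_mem _ hz, ?_⟩
      rw [he₀, sympForm_smul_right, neg_mul, inv_mul_cancel₀ hxz]
    have hfe : sf f₀ e₀ = 1 := by
      rw [sympForm_swap, hef]
      simp
    let L : W →ₗ[F] (Fin 2 → F) :=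
      { toFun := fun y => ![sf (y : Fin m ⊕ Fin m → F) e₀, sf (y : Fin m ⊕ Fin m → F) f₀]
        map_add' := fun a b => by
          ext i
          fin_cases i
          · exact sympForm_add_left (a : Fin m ⊕ Fin m → F) (b : Fin m ⊕ Fin m → F) e₀
          · exact sympForm_add_left (a : Fin m ⊕ Fin m → F) (b : Fin m ⊕ Fin m → F) f₀
        map_smul' := fun c a => by
          ext i
          fin_cases i
          · exact sympForm_smul_left c (a : Fin m ⊕ Fin m → F) e₀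
          · exact sympForm_smul_left c (a : Fin m ⊕ Fin m → F) f₀ }
    have hLsurj : LinearMap.range L = ⊤ := by
      rw [LinearMap.range_eq_top]
      intro v
      refine ⟨⟨v 0 • f₀ - v 1 • e₀, W.sub_mem (W.smul_mem _ hf₀W) (W.smul_mem _ hx₀)⟩, ?_⟩
      ext i
      fin_cases i
      · change sf (v 0 • f₀ - v 1 • e₀) e₀ = v 0
        rw [sf_sub_l, sympForm_smul_left, sympForm_smul_left, hfe, sympForm_self]
        simp
      · change sf (v 0 • f₀ - v 1 • e₀) f₀ = v 1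
        rw [sf_sub_l, sympForm_smul_left, sympForm_smul_left, hef, sympForm_self]
        simp
    have hrn := LinearMap.finrank_range_add_finrank_ker L
    rw [hLsurj, finrank_top, hWn] at hrn
    have h2 : Module.finrank F (Fin 2 → F) = 2 := by simp
    rw [h2] at hrn
    set W₁ := (LinearMap.ker L).map W.subtype with hW₁
    have hW₁r : Module.finrank F W₁ = n - 2 := by
      rw [hW₁, Submodule.finrank_map_subtype_eq]
      omega
    have hW₁m : ∀ y, y ∈ W₁ ↔ y ∈ W ∧ sf y e₀ = 0 ∧ sf y f₀ = 0 := by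
      intro y
      constructor
      · rintro ⟨y', hy', rfl⟩
        have h3 := LinearMap.mem_ker.1 hy'
        exact ⟨y'.2, congrFun h3 0, congrFun h3 1⟩
      · rintro ⟨h3, h4, h5⟩
        refine ⟨⟨y, h3⟩, LinearMap.mem_ker.2 ?_, rfl⟩
        ext i
        fin_cases i
        · exact h4
        · exact h5
    -- the projection
    have hPm : ∀ y ∈ W, y - (sf y e₀ • f₀ - sf y f₀ • e₀) ∈ W₁ := by
      intro y hy
      rw [hW₁m]
      refine ⟨W.sub_mem hy (W.sub_mem (W.smul_mem _ hf₀W) (W.smul_mem _ hx₀)), ?_, ?_⟩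
      · rw [sf_sub_l, sf_sub_l, sympForm_smul_left, sympForm_smul_left, hfe, sympForm_self]
        ring
      · rw [sf_sub_l, sf_sub_l, sympForm_smul_left, sympForm_smul_left, hef, sympForm_self]
        ring
    have hNd : NdOn W₁ := by
      intro a ha ha0
      obtain ⟨haW, hae, haf⟩ := (hW₁m a).1 ha
      obtain ⟨z', hz', haz'⟩ := hW a haW ha0
      refine ⟨_, hPm z' hz', ?_⟩
      rw [sympForm_sub_right, sympForm_sub_right, sympForm_smul_right, sympForm_smul_right, hae, haf]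
      simpa using haz'
    have hlt : n - 2 < n := by omega
    obtain ⟨r₁, hr₁, e₁, f₁, hp₁, he₁, hf₁, hx₁⟩ := ih (n - 2) hlt W₁ hW₁r hNd
    have he₁' := fun i => (hW₁m _).1 (he₁ i)
    have hf₁' := fun i => (hW₁m _).1 (hf₁ i)
    refine ⟨r₁ + 1, by omega, Fin.cons e₀ e₁, Fin.cons f₀ f₁, ?_, ?_, ?_, ?_⟩
    · rw [isPartial_cons_iff]
      refine ⟨hp₁, ⟨fun i => sf_anti (he₁' i).2.1, fun i => sf_anti (hf₁' i).2.1⟩,
        ⟨fun i => sf_anti (he₁' i).2.2, fun i => sf_anti (hf₁' i).2.2⟩, hef⟩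
    · intro i
      refine Fin.cases hx₀ (fun j => ?_) i
      simpa using (he₁' j).1
    · intro i
      refine Fin.cases hf₀W (fun j => ?_) i
      simpa using (hf₁' j).1
    · intro x hx
      rw [Fin.sum_univ_succ]
      simp only [Fin.cons_zero, Fin.cons_succ]
      have h5 := hx₁ _ (hPm x hx)
      have hE : ∀ i, sf (x - (sf x e₀ • f₀ - sf x f₀ • e₀)) (e₁ i) = sf x (e₁ i) := by
        intro i
        rw [sf_sub_l, sf_sub_l, sympForm_smul_left, sympForm_smul_left, sf_anti (he₁' i).2.2, sf_anti (he₁' i).2.1]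
        ring
      have hF : ∀ i, sf (x - (sf x e₀ • f₀ - sf x f₀ • e₀)) (f₁ i) = sf x (f₁ i) := by
        intro i
        rw [sf_sub_l, sf_sub_l, sympForm_smul_left, sympForm_smul_left, sf_anti (hf₁' i).2.2, sf_anti (hf₁' i).2.1]
        ring
      simp only [hE, hF] at h5
      rw [← h5]
      abel

theorem inf_D {t k : ℕ} {D : Fin t → Submodule F (Fin m ⊕ Fin m → F)}
    (hD : IsNondegenerateMDecomposition (Cfsg.sympForm m F) k D) {i j : Fin t} (hij : i ≠ j) {x : Fin m ⊕ Fin m → F}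
    (hi : x ∈ D i) (hj : x ∈ D j) : x = 0 := by
  by_contra h0
  obtain ⟨z, hz, hxz⟩ := (hD.nondegenerate i x hi h0).2
  exact hxz (sf_anti (hD.orthogonal i j hij z hz x hj))

theorem D_le_perp {t k : ℕ} {D : Fin t → Submodule F (Fin m ⊕ Fin m → F)}
    (hD : IsNondegenerateMDecomposition (Cfsg.sympForm m F) k D) {i j : Fin t} (hij : i ≠ j) : D j ≤ perpS (D i) :=
  fun x hx => mem_perpS.2 fun w hw => hD.orthogonal i j hij w hw x hx

theorem exists_ne_zero {t k : ℕ} {D : Fin t → Submodule F (Fin m ⊕ Fin m → F)}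
    (hD : IsNondegenerateMDecomposition (Cfsg.sympForm m F) k D) (i : Fin t) : ∃ x ∈ D i, x ≠ 0 := by
  apply Submodule.exists_mem_ne_zero_of_ne_bot
  intro h
  have h1 := hD.decomp.finrank_eq i
  rw [h, finrank_bot] at h1
  have := hD.decomp.pos
  omega

theorem two_le_k [Fintype F] {t k : ℕ} {D : Fin t → Submodule F (Fin m ⊕ Fin m → F)}
    (hD : IsNondegenerateMDecomposition (Cfsg.sympForm m F) k D) (i : Fin t) : 2 ≤ k := by
  obtain ⟨x, hx, hx0⟩ := exists_ne_zero hD i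
  obtain ⟨r, hr, -⟩ := exists_sbasis k (D i) (hD.decomp.finrank_eq i) (fun a ha h0 => (hD.nondegenerate i a ha h0).2)
  have := hD.decomp.pos
  omega

/-- Elements of `Sp` inducing any permutation of the decomposition. -/
theorem exists_perm_elem [Fintype F] {t k : ℕ} {D : Fin t → Submodule F (Fin m ⊕ Fin m → F)}
    (hD : IsNondegenerateMDecomposition (Cfsg.sympForm m F) k D) (τ : Equiv.Perm (Fin t)) :
    ∃ h ∈ spGL m F, ∀ l, ∀ x ∈ D l, (h : Mat) *ᵥ x ∈ D (τ l) := by
  classical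
  have hb : ∀ l, ∃ r, 2 * r = k ∧ ∃ e f : Fin r → Fin m ⊕ Fin m → F, IsPartial e f ∧ (∀ i, e i ∈ D l) ∧ (∀ i, f i ∈ D l) ∧
      ∀ x ∈ D l, x = ∑ i, (sf x (e i) • f i - sf x (f i) • e i) :=
    fun l => exists_sbasis k (D l) (hD.decomp.finrank_eq l) (fun a ha h0 => (hD.nondegenerate l a ha h0).2)
  obtain ⟨r, hrk⟩ : ∃ r, r = k / 2 := ⟨_, rfl⟩
  have hb' : ∀ l, ∃ e f : Fin r → Fin m ⊕ Fin m → F, IsPartial e f ∧ (∀ i, e i ∈ D l) ∧ (∀ i, f i ∈ D l) ∧
      ∀ x ∈ D l, x = ∑ i, (sf x (e i) • f i - sf x (f i) • e i) := by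
    intro l
    obtain ⟨r', hr', h⟩ := hb l
    have : r' = r := by omega
    subst this
    exact h
  choose e f hp he hf hx using hb'
  let E : Fin (t * r) → Fin m ⊕ Fin m → F := fun i => e (finProdFinEquiv.symm i).1 (finProdFinEquiv.symm i).2
  let Fo : Fin (t * r) → Fin m ⊕ Fin m → F := fun i => f (finProdFinEquiv.symm i).1 (finProdFinEquiv.symm i).2
  let E' : Fin (t * r) → Fin m ⊕ Fin m → F := fun i => e (τ (finProdFinEquiv.symm i).1) (finProdFinEquiv.symm i).2
  let Fo' : Fin (t * r) → Fin m ⊕ Fin m → F := fun i => f (τ (finProdFinEquiv.symm i).1) (finProdFinEquiv.symm i).2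
  have hEE : ∀ a b c d, sf (e a c) (e b d) = 0 := by
    intro a b c d
    by_cases hab : a = b
    · subst hab
      exact (hp a).1 c d
    · exact hD.orthogonal a b hab _ (he a c) _ (he b d)
  have hFF : ∀ a b c d, sf (f a c) (f b d) = 0 := by
    intro a b c d
    by_cases hab : a = b
    · subst hab
      exact (hp a).2.1 c d
    · exact hD.orthogonal a b hab _ (hf a c) _ (hf b d)
  have hEF : ∀ a b c d, sf (e a c) (f b d) = if a = b ∧ c = d then -1 else 0 := by
    intro a b c d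
    by_cases hab : a = b
    · subst hab
      rw [(hp a).2.2 c d]
      simp
    · have h0 : sf (e a c) (f b d) = 0 := hD.orthogonal a b hab _ (he a c) _ (hf b d)
      rw [h0, if_neg (fun h => hab h.1)]
  have hP : IsPartial E Fo := by
    refine ⟨fun i j => hEE _ _ _ _, fun i j => hFF _ _ _ _, fun i j => ?_⟩
    change sf (e _ _) (f _ _) = _
    rw [hEF]
    by_cases hij : i = j
    · subst hij
      rw [if_pos ⟨rfl, rfl⟩, if_pos rfl]
    · have : ¬ ((finProdFinEquiv.symm i).1 = (finProdFinEquiv.symm j).1 ∧ (finProdFinEquiv.symm i).2 = (finProdFinEquiv.symm j).2) := by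
        rintro ⟨h1, h2⟩
        exact hij (finProdFinEquiv.symm.injective (Prod.ext h1 h2))
      rw [if_neg this, if_neg hij]
  have hP' : IsPartial E' Fo' := by
    refine ⟨fun i j => hEE _ _ _ _, fun i j => hFF _ _ _ _, fun i j => ?_⟩
    change sf (e _ _) (f _ _) = _
    rw [hEF]
    by_cases hij : i = j
    · subst hij
      rw [if_pos ⟨rfl, rfl⟩, if_pos rfl]
    · have : ¬ (τ (finProdFinEquiv.symm i).1 = τ (finProdFinEquiv.symm j).1 ∧ (finProdFinEquiv.symm i).2 = (finProdFinEquiv.symm j).2) := by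
        rintro ⟨h1, h2⟩
        exact hij (finProdFinEquiv.symm.injective (Prod.ext (τ.injective h1) h2))
      rw [if_neg this, if_neg hij]
  obtain ⟨g, -, hg1, hg2⟩ := tuple_transitive (t * r) E Fo E' Fo' hP hP'
  refine ⟨toGL g, toGL_mem g, fun l x hxl => ?_⟩
  have hge : ∀ a : Fin r, ((toGL g : GG) : Mat) *ᵥ (e l a) = e (τ l) a := by
    intro a
    have h := hg1 (finProdFinEquiv (l, a))
    have hE : finProdFinEquiv.symm (finProdFinEquiv (l, a)) = (l, a) := Equiv.symm_apply_apply _ _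
    simp only [E, E', hE] at h
    exact h
  have hgf : ∀ a : Fin r, ((toGL g : GG) : Mat) *ᵥ (f l a) = f (τ l) a := by
    intro a
    have h := hg2 (finProdFinEquiv (l, a))
    have hE : finProdFinEquiv.symm (finProdFinEquiv (l, a)) = (l, a) := Equiv.symm_apply_apply _ _
    simp only [Fo, Fo', hE] at h
    exact h
  rw [hx l x hxl, Matrix.mulVec_sum]
  refine Submodule.sum_mem _ fun a _ => ?_
  rw [Matrix.mulVec_sub, Matrix.mulVec_smul, Matrix.mulVec_smul, hge, hgf]
  exact (D (τ l)).sub_mem ((D (τ l)).smul_mem _ (hf _ a)) ((D (τ l)).smul_mem _ (he _ a))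

theorem perm_mem [Fintype F] {t k : ℕ} {D : Fin t → Submodule F (Fin m ⊕ Fin m → F)}
    (hD : IsNondegenerateMDecomposition (Cfsg.sympForm m F) k D) (τ : Equiv.Perm (Fin t)) :
    ∃ h ∈ decompositionStabilizer D ⊓ spGL m F, (∀ l, ∀ x ∈ D l, (h : Mat) *ᵥ x ∈ D (τ l)) ∧
      ∀ l, ∀ x ∈ D (τ l), ∃ y ∈ D l, (h : Mat) *ᵥ y = x := by
  obtain ⟨h, hs, hx⟩ := exists_perm_elem hD τ
  have hmap : ∀ l, (D l).map (Matrix.toLin' (h : Mat)) = D (τ l) := fun l =>
    map_eq_of_maps (hx l) (by rw [hD.decomp.finrank_eq, hD.decomp.finrank_eq])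
  refine ⟨h, ⟨⟨τ, hmap⟩, hs⟩, hx, fun l x hxl => ?_⟩
  rw [← hmap l] at hxl
  obtain ⟨y, hy, rfl⟩ := hxl
  exact ⟨y, hy, by simp⟩

/-- The subgroup contains all transvections centred at `u`. -/
def Sg (M : Subgroup GG) (u : Fin m ⊕ Fin m → F) : Prop := ∀ c, tv u c ∈ M

theorem Sg.conj {M : Subgroup GG} {u : Fin m ⊕ Fin m → F} (h : Sg M u) {g : GG} (hg : g ∈ M) (hs : g ∈ spGL m F) :
    Sg M ((g : Mat) *ᵥ u) := fun c => tv_conj_mem hg hs (h c)

theorem mover_mem {t k : ℕ} {D : Fin t → Submodule F (Fin m ⊕ Fin m → F)}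
    (hD : IsNondegenerateMDecomposition (Cfsg.sympForm m F) k D) {p : Fin t} {h : GG} (hh : Mover (D p) h) :
    h ∈ decompositionStabilizer D ⊓ spGL m F := by
  refine ⟨⟨1, fun i => ?_⟩, hh.1⟩
  apply map_eq_of_maps
  · intro x hx
    by_cases hip : i = p
    · subst hip
      exact hh.2.1 x hx
    · rw [hh.2.2 x (D_le_perp hD (Ne.symm hip) hx)]
      exact hx
  · rfl

theorem Sg_single {t k : ℕ} {D : Fin t → Submodule F (Fin m ⊕ Fin m → F)}
    (hD : IsNondegenerateMDecomposition (Cfsg.sympForm m F) k D) {M : Subgroup GG}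
    (hHM : decompositionStabilizer D ⊓ spGL m F ≤ M) {p : Fin t} {a : Fin m ⊕ Fin m → F} (ha : a ∈ D p) : Sg M a :=
  fun c => hHM (mover_mem hD (tv_mover ha c))

theorem exists_b [Fintype F] {t k : ℕ} {D : Fin t → Submodule F (Fin m ⊕ Fin m → F)}
    (hD : IsNondegenerateMDecomposition (Cfsg.sympForm m F) k D) (hex : ¬ (k = 2 ∧ Fintype.card F = 2)) {q : Fin t}
    {b : Fin m ⊕ Fin m → F} (hb : b ∈ D q) (hb0 : b ≠ 0) :
    ∃ b' ∈ D q, b' ≠ 0 ∧ b' ≠ b ∧ sf b' b = 0 := by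
  by_cases hc : Fintype.card F = 2
  · have hk2 := two_le_k hD q
    have hk3 : 3 ≤ k := by
      by_contra h
      exact hex ⟨by omega, hc⟩
    have hd : Module.finrank F (Submodule.span F {b}) + 1 < Module.finrank F (D q) := by
      have : Module.finrank F (Submodule.span F {b}) ≤ 1 := finrank_span_le_card _ |>.trans (by simp)
      rw [hD.decomp.finrank_eq]
      omega
    obtain ⟨b', hb', hp, hn⟩ := exists_perp_ne (D q) (Submodule.span F {b}) ![b] hd
    refine ⟨b', hb', ?_, ?_, sf_anti (hp 0)⟩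
    · rintro rfl
      exact hn (Submodule.zero_mem _)
    · rintro rfl
      exact hn (Submodule.mem_span_singleton_self _)
  · have h2 : 2 < Fintype.card F := by
      have := Fintype.one_lt_card (α := F)
      omega
    obtain ⟨a, c, d, hac, had, hcd⟩ := Fintype.two_lt_card_iff.1 h2
    have hs : ∃ s : F, s ≠ 0 ∧ s ≠ 1 := by
      by_cases h0 : a = 0
      · by_cases h1 : c = 1
        · refine ⟨d, ?_, ?_⟩
          · rw [← h0]
            exact had.symm
          · rw [← h1]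
            exact hcd.symm
        · exact ⟨c, by rw [← h0]; exact hac.symm, h1⟩
      · by_cases h1 : a = 1
        · by_cases h3 : c = 0
          · refine ⟨d, ?_, ?_⟩
            · rw [← h3]
              exact hcd.symm
            · rw [← h1]
              exact had.symm
          · exact ⟨c, h3, by rw [← h1]; exact hac.symm⟩
        · exact ⟨a, h0, h1⟩
    obtain ⟨s, hs0, hs1⟩ := hs
    refine ⟨s • b, (D q).smul_mem _ hb, smul_ne_zero hs0 hb0, ?_, ?_⟩
    · intro h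
      have : (s - 1) • b = 0 := by
        rw [sub_smul, one_smul, h, sub_self]
      exact (smul_ne_zero (sub_ne_zero.2 hs1) hb0) this
    · rw [sympForm_smul_left, sympForm_self, mul_zero]

/-- Killing the remaining components. -/
theorem kill [Fintype F] {t k : ℕ} {D : Fin t → Submodule F (Fin m ⊕ Fin m → F)}
    (hD : IsNondegenerateMDecomposition (Cfsg.sympForm m F) k D) (hex : ¬ (k = 2 ∧ Fintype.card F = 2)) {M : Subgroup GG}
    (hHM : decompositionStabilizer D ⊓ spGL m F ≤ M) {p q : Fin t} (hpq : p ≠ q) {a b c : Fin m ⊕ Fin m → F} (ha : a ∈ D p)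
    (hb : b ∈ D q) (ha0 : a ≠ 0) (hb0 : b ≠ 0) (hcp : c ∈ perpS (D p)) (hcq : c ∈ perpS (D q))
    (hS : Sg M (a + b + c)) : ∃ a' ∈ D p, ∃ b' ∈ D q, a' ≠ 0 ∧ b' ≠ 0 ∧ Sg M (a' + b') := by
  have hNp : NdOn (D p) := fun a ha h0 => (hD.nondegenerate p a ha h0).2
  have hNq : NdOn (D q) := fun a ha h0 => (hD.nondegenerate q a ha h0).2
  obtain ⟨z, hz, haz⟩ := hNp a ha ha0
  set a₂ := (sf z a)⁻¹ • z with ha₂
  have hza : sf z a ≠ 0 := by
    rw [sympForm_swap]
    exact neg_ne_zero.2 haz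
  have ha₂m : a₂ ∈ D p := (D p).smul_mem _ hz
  have ha₂a : sf a₂ a = 1 := by
    rw [ha₂, sympForm_smul_left, inv_mul_cancel₀ hza]
  have ha₂0 : a₂ ≠ 0 := by
    rintro h
    rw [h, sf_zero_left] at ha₂a
    exact zero_ne_one ha₂a
  obtain ⟨b₂, hb₂, hb₂0, hb₂b, hb₂s⟩ := exists_b hD hex hb hb0
  obtain ⟨h₁, hh₁, h₁a⟩ := exists_mover hNp ha ha₂m ha0 ha₂0
  obtain ⟨h₂, hh₂, h₂b⟩ := exists_mover hNq hb hb₂ hb0 hb₂0
  have hbp : b ∈ perpS (D p) := D_le_perp hD hpq hb
  have ha₂q : a₂ ∈ perpS (D q) := D_le_perp hD (Ne.symm hpq) ha₂m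
  have hS2 := (hS.conj (hHM (mover_mem hD hh₁)) hh₁.1).conj (hHM (mover_mem hD hh₂)) hh₂.1
  have e1 : (h₁ : Mat) *ᵥ (a + b + c) = a₂ + b + c := by
    rw [Matrix.mulVec_add, Matrix.mulVec_add, h₁a, hh₁.2.2 b hbp, hh₁.2.2 c hcp]
  have e : (h₂ : Mat) *ᵥ ((h₁ : Mat) *ᵥ (a + b + c)) = a₂ + b₂ + c := by
    rw [e1, Matrix.mulVec_add, Matrix.mulVec_add, h₂b, hh₂.2.2 a₂ ha₂q, hh₂.2.2 c hcq]
  rw [e] at hS2
  have hform : sf (a₂ + b₂ + c) (a + b + c) = 1 := by
    have h1 : sf a₂ b = 0 := hD.orthogonal p q hpq _ ha₂m _ hb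
    have h2 : sf a₂ c = 0 := mem_perpS.1 hcp _ ha₂m
    have h3 : sf b₂ a = 0 := hD.orthogonal q p (Ne.symm hpq) _ hb₂ _ ha
    have h4 : sf b₂ c = 0 := mem_perpS.1 hcq _ hb₂
    have h5 : sf c a = 0 := sf_anti (mem_perpS.1 hcp _ ha)
    have h6 : sf c b = 0 := sf_anti (mem_perpS.1 hcq _ hb)
    simp only [sympForm_add_left, sympForm_add_right, ha₂a, h1, h2, h3, h4, h5, h6, hb₂s, sympForm_self]
    ring
  refine ⟨a₂ - a, (D p).sub_mem ha₂m ha, b₂ - b, (D q).sub_mem hb₂ hb, ?_, sub_ne_zero.2 hb₂b, ?_⟩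
  · intro h
    have h7 : a₂ = a := sub_eq_zero.1 h
    rw [h7, sympForm_self] at ha₂a
    exact zero_ne_one ha₂a
  · have h8 := hS2.conj (hS (-1)) (tv_mem _ _)
    have e2 : ((tv (a + b + c) (-1) : GG) : Mat) *ᵥ (a₂ + b₂ + c) = a₂ - a + (b₂ - b) := by
      rw [tv_mulVec, hform]
      ext i
      simp only [Pi.add_apply, Pi.smul_apply, Pi.sub_apply, smul_eq_mul]
      ring
    rwa [e2] at h8

theorem pair_all {t k : ℕ} {D : Fin t → Submodule F (Fin m ⊕ Fin m → F)}
    (hD : IsNondegenerateMDecomposition (Cfsg.sympForm m F) k D) {M : Subgroup GG}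
    (hHM : decompositionStabilizer D ⊓ spGL m F ≤ M) {p q : Fin t} (hpq : p ≠ q) {a₀ b₀ : Fin m ⊕ Fin m → F} (ha₀ : a₀ ∈ D p)
    (hb₀ : b₀ ∈ D q) (ha₀0 : a₀ ≠ 0) (hb₀0 : b₀ ≠ 0) (hS : Sg M (a₀ + b₀)) {a b : Fin m ⊕ Fin m → F} (ha : a ∈ D p)
    (hb : b ∈ D q) : Sg M (a + b) := by
  have hNp : NdOn (D p) := fun a ha h0 => (hD.nondegenerate p a ha h0).2
  have hNq : NdOn (D q) := fun a ha h0 => (hD.nondegenerate q a ha h0).2
  by_cases ha0 : a = 0
  · rw [ha0, zero_add]
    exact Sg_single hD hHM hb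
  by_cases hb0 : b = 0
  · rw [hb0, add_zero]
    exact Sg_single hD hHM ha
  obtain ⟨h₁, hh₁, h₁a⟩ := exists_mover hNp ha₀ ha ha₀0 ha0
  obtain ⟨h₂, hh₂, h₂b⟩ := exists_mover hNq hb₀ hb hb₀0 hb0
  have hS2 := (hS.conj (hHM (mover_mem hD hh₁)) hh₁.1).conj (hHM (mover_mem hD hh₂)) hh₂.1
  have e : (h₂ : Mat) *ᵥ ((h₁ : Mat) *ᵥ (a₀ + b₀)) = a + b := by
    rw [Matrix.mulVec_add, h₁a, hh₁.2.2 b₀ (D_le_perp hD hpq hb₀), Matrix.mulVec_add, h₂b,
      hh₂.2.2 a (D_le_perp hD (Ne.symm hpq) ha)]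
  rwa [e] at hS2

/-- Vectors orthogonal to all members vanish. -/
theorem exists_comp {t k : ℕ} {D : Fin t → Submodule F (Fin m ⊕ Fin m → F)}
    (hD : IsNondegenerateMDecomposition (Cfsg.sympForm m F) k D) {u : Fin m ⊕ Fin m → F} (hu : u ≠ 0) :
    ∃ p, ∃ a ∈ D p, sf a u ≠ 0 := by
  by_contra hcon
  push Not at hcon
  let K : Submodule F (Fin m ⊕ Fin m → F) :=
    { carrier := {y | sf y u = 0}
      add_mem' := fun {a b} ha hb => by
        simp only [Set.mem_ofPred_eq] at *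
        rw [sympForm_add_left, ha, hb, add_zero]
      zero_mem' := sf_zero_left u
      smul_mem' := fun c x hx => by
        simp only [Set.mem_ofPred_eq] at *
        rw [sympForm_smul_left, hx, mul_zero] }
  have h1 : iSup D ≤ K := iSup_le fun p x hx => hcon p x hx
  rw [hD.decomp.iSup_eq_top] at h1
  obtain ⟨⟨x, hx⟩, -⟩ := sympForm_nd (m := m) (F := F) u hu
  exact hx (h1 (Submodule.mem_top (x := x)))

theorem decompose {t k : ℕ} {D : Fin t → Submodule F (Fin m ⊕ Fin m → F)}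
    (hD : IsNondegenerateMDecomposition (Cfsg.sympForm m F) k D) {u : Fin m ⊕ Fin m → F} (hu : ∀ j, u ∉ D j)
    (ht : Nonempty (Fin t)) :
    ∃ p q, p ≠ q ∧ ∃ a ∈ D p, ∃ b ∈ D q, ∃ c, a ≠ 0 ∧ b ≠ 0 ∧ c ∈ perpS (D p) ∧ c ∈ perpS (D q) ∧ u = a + b + c := by
  have hN : ∀ p, NdOn (D p) := fun p a ha h0 => (hD.nondegenerate p a ha h0).2
  have hu0 : u ≠ 0 := by
    rintro rfl
    obtain ⟨j⟩ := ht
    exact hu j (Submodule.zero_mem _)
  have step : ∀ v : Fin m ⊕ Fin m → F, v ≠ 0 → ∃ p, ∃ a ∈ D p, ∃ c ∈ perpS (D p), a ≠ 0 ∧ v = a + c := by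
    intro v hv
    obtain ⟨p, y, hy, hyv⟩ := exists_comp hD hv
    obtain ⟨a, ha, c, hc, rfl⟩ := exists_decomp (hN p) v
    refine ⟨p, a, ha, c, hc, ?_, rfl⟩
    rintro rfl
    apply hyv
    rw [sympForm_add_right, sf_zero_right, zero_add]
    exact mem_perpS.1 hc y hy
  obtain ⟨p, a, ha, c₁, hc₁, ha0, rfl⟩ := step u hu0
  have hc₁0 : c₁ ≠ 0 := by
    rintro rfl
    exact hu p (by simpa using ha)
  obtain ⟨q, b, hb, c, hc, hb0, rfl⟩ := step c₁ hc₁0
  have hpq : p ≠ q := by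
    rintro rfl
    have h1 : b ∈ perpS (D p) := by
      have h2 := Submodule.sub_mem _ hc₁ hc
      rwa [add_sub_cancel_right] at h2
    have h3 : b ∈ D p ⊓ perpS (D p) := ⟨hb, h1⟩
    rw [inf_perp_of_nd (hN p)] at h3
    exact hb0 (by simpa using h3)
  refine ⟨p, q, hpq, a, ha, b, hb, c, ha0, hb0, ?_, hc, by rw [add_assoc]⟩
  have h2 := Submodule.sub_mem _ hc₁ (D_le_perp hD hpq hb)
  rwa [add_sub_cancel_left] at h2

/-- The mixed vector of a non-element. -/
theorem exists_mixed [Fintype F] {t k : ℕ} {D : Fin t → Submodule F (Fin m ⊕ Fin m → F)}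
    (hD : IsNondegenerateMDecomposition (Cfsg.sympForm m F) k D) {g : GG} (hs : g ∈ spGL m F)
    (hg : g ∉ decompositionStabilizer D) : ∃ i, ∃ v ∈ D i, ∀ j, (g : Mat) *ᵥ v ∉ D j := by
  classical
  by_contra hcon
  push Not at hcon
  have hne : ∀ v : Fin m ⊕ Fin m → F, v ≠ 0 → (g : Mat) *ᵥ v ≠ 0 := by
    intro v hv h0
    apply hv
    have := congrArg (fun y => ((g⁻¹ : GG) : Mat) *ᵥ y) h0
    simpa [Matrix.mulVec_mulVec] using this
  have hA : ∀ i, ∃ j, ∀ v ∈ D i, (g : Mat) *ᵥ v ∈ D j := by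
    intro i
    obtain ⟨v₀, hv₀, hv₀0⟩ := exists_ne_zero hD i
    obtain ⟨j, hj⟩ := hcon i v₀ hv₀
    refine ⟨j, fun w hw => ?_⟩
    obtain ⟨l, hl⟩ := hcon i w hw
    by_cases hlj : l = j
    · rw [← hlj]
      exact hl
    obtain ⟨n, hn⟩ := hcon i (v₀ + w) ((D i).add_mem hv₀ hw)
    rw [Matrix.mulVec_add] at hn
    by_cases hnj : n = j
    · subst hnj
      have h3 := (D n).sub_mem hn hj
      rw [add_sub_cancel_left] at h3
      exact h3
    · exfalso
      obtain ⟨y, hy, hvy⟩ := (hD.nondegenerate j _ hj (hne v₀ hv₀0)).2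
      have h4 := hD.orthogonal n j hnj _ hn _ hy
      have h5 := hD.orthogonal l j hlj _ hl _ hy
      change sf _ _ = 0 at h4
      change sf _ _ = 0 at h5
      rw [sympForm_add_left, h5, add_zero] at h4
      exact hvy h4
  choose σ hσ using hA
  have hmap : ∀ i, (D i).map (Matrix.toLin' (g : Mat)) = D (σ i) := fun i =>
    map_eq_of_maps (hσ i) (by rw [hD.decomp.finrank_eq, hD.decomp.finrank_eq])
  have hinj : Function.Injective σ := by
    intro i i' hii
    by_contra hne'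
    obtain ⟨v, hv, hv0⟩ := exists_ne_zero hD i
    obtain ⟨y, hy, hvy⟩ := (hD.nondegenerate (σ i) _ (hσ i v hv) (hne v hv0)).2
    rw [hii, ← hmap i'] at hy
    obtain ⟨x', hx', rfl⟩ := hy
    apply hvy
    have h3 := mem_spGL_iff.1 hs v x'
    have h4 : sf v x' = 0 := hD.orthogonal i i' hne' _ hv _ hx'
    rw [h4] at h3
    rw [Matrix.toLin'_apply]
    exact h3
  have hbij := Finite.injective_iff_bijective.1 hinj
  exact hg ⟨Equiv.ofBijective σ hbij, hmap⟩

/-- The induction over the support. -/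
theorem all_of_pairs {t k : ℕ} {D : Fin t → Submodule F (Fin m ⊕ Fin m → F)}
    (hD : IsNondegenerateMDecomposition (Cfsg.sympForm m F) k D) {M : Subgroup GG}
    (hHM : decompositionStabilizer D ⊓ spGL m F ≤ M)
    (hpair : ∀ p q, p ≠ q → ∀ a ∈ D p, ∀ b ∈ D q, Sg M (a + b)) (J : Finset (Fin t)) : ∀ u ∈ J.sup D, Sg M u := by
  classical
  induction J using Finset.induction_on with
  | empty =>
    intro u hu
    have hu0 : u = 0 := by simpa using hu
    rw [hu0]
    intro c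
    rw [tv_zero]
    exact M.one_mem
  | insert p J' hp ih =>
    intro u hu
    rw [Finset.sup_insert] at hu
    obtain ⟨a, ha, u', hu', rfl⟩ := Submodule.mem_sup.1 hu
    by_cases hu'0 : u' = 0
    · rw [hu'0, add_zero]
      exact Sg_single hD hHM ha
    have hperp : ∀ i, i ∉ J' → J'.sup D ≤ perpS (D i) := by
      intro i hi
      refine Finset.sup_le fun j hj => D_le_perp hD ?_
      rintro rfl
      exact hi hj
    have hu'p : sf u' a = 0 := sf_anti (mem_perpS.1 (hperp p hp hu') a ha)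
    obtain ⟨q, y, hy, hyu⟩ := exists_comp hD hu'0
    have hqJ : q ∈ J' := by
      by_contra hq
      exact hyu (mem_perpS.1 (hperp q hq hu') y hy)
    have hqp : q ≠ p := fun h => hp (h ▸ hqJ)
    obtain ⟨a₀, ha₀, ha₀u⟩ : ∃ a₀ ∈ D q, sf u' a₀ = 1 := by
      have h3 : sf u' y ≠ 0 := by
        rw [sympForm_swap]
        exact neg_ne_zero.2 hyu
      refine ⟨(sf u' y)⁻¹ • y, (D q).smul_mem _ hy, ?_⟩
      rw [sympForm_smul_right, inv_mul_cancel₀ h3]
    have hq1 : D q ≤ J'.sup D := Finset.le_sup (f := D) hqJ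
    have hx := ih (u' - a₀) (Submodule.sub_mem _ hu' (hq1 ha₀))
    have hw := hpair q p hqp a₀ ha₀ a ha
    have h5 := hx.conj (hw 1) (tv_mem _ _)
    have h6 : sf a₀ a = 0 := hD.orthogonal q p hqp _ ha₀ _ ha
    have e : ((tv (a₀ + a) 1 : GG) : Mat) *ᵥ (u' - a₀) = a + u' := by
      rw [tv_mulVec, sf_sub_l, sympForm_add_right, sympForm_add_right, ha₀u, hu'p, sympForm_self, h6]
      simp
      abel
    rwa [e] at h5

/-- The main theorem. -/
theorem wr_sp_max [Fintype F] (hm : 7 ≤ m) {t k : ℕ} {D : Fin t → Submodule F (Fin m ⊕ Fin m → F)}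
    (hD : IsNondegenerateMDecomposition (Cfsg.sympForm m F) k D) (hex : ¬ (k = 2 ∧ Fintype.card F = 2)) :
    IsMaximalIn (spGL m F) (decompositionStabilizer D ⊓ spGL m F) := by
  classical
  have ht := hD.decomp.two_le
  have hne : Nonempty (Fin t) := ⟨⟨0, by omega⟩⟩
  constructor
  · rw [lt_iff_le_and_ne]
    refine ⟨inf_le_right, fun heq => ?_⟩
    let p : Fin t := ⟨0, by omega⟩
    let q : Fin t := ⟨1, by omega⟩
    have hpq : p ≠ q := by
      intro h
      have := congrArg Fin.val h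
      simp [p, q] at this
    obtain ⟨a, ha, ha0⟩ := exists_ne_zero hD p
    obtain ⟨b, hb, hb0⟩ := exists_ne_zero hD q
    obtain ⟨z, hz, haz⟩ := (hD.nondegenerate p a ha ha0).2
    have h1 : tv (a + b) 1 ∈ decompositionStabilizer D ⊓ spGL m F := by
      rw [heq]
      exact tv_mem _ _
    obtain ⟨⟨σ, hσ⟩, -⟩ := h1
    have hab : sf a b = 0 := hD.orthogonal p q hpq _ ha _ hb
    have hzb : sf z b = 0 := hD.orthogonal p q hpq _ hz _ hb
    have hta : ((tv (a + b) 1 : GG) : Mat) *ᵥ a = a := by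
      rw [tv_mulVec, sympForm_add_right, sympForm_self, hab]
      simp
    have h2 : a ∈ D (σ p) := by
      have h20 : ((tv (a + b) 1 : GG) : Mat) *ᵥ a ∈ (D p).map (Matrix.toLin' ((tv (a + b) 1 : GG) : Mat)) := ⟨a, ha, by simp⟩
      rw [hσ p, hta] at h20
      exact h20
    have h3 : σ p = p := by
      by_contra h4
      exact ha0 (inf_D hD (Ne.symm h4) ha h2)
    have h4 : ((tv (a + b) 1 : GG) : Mat) *ᵥ z ∈ D p := by
      have : ((tv (a + b) 1 : GG) : Mat) *ᵥ z ∈ D (σ p) := by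
        rw [← hσ p]
        exact ⟨z, hz, by simp⟩
      rwa [h3] at this
    have hza : sf z a ≠ 0 := by
      rw [sympForm_swap]
      exact neg_ne_zero.2 haz
    rw [tv_mulVec, sympForm_add_right, hzb, add_zero, one_mul] at h4
    have h5 : sf z a • (a + b) ∈ D p := by
      have := (D p).sub_mem h4 hz
      rwa [add_sub_cancel_left] at this
    have h6 : a + b ∈ D p := by
      have := (D p).smul_mem (sf z a)⁻¹ h5
      rwa [smul_smul, inv_mul_cancel₀ hza, one_smul] at this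
    have h7 : b ∈ D p := by
      have := (D p).sub_mem h6 ha
      rwa [add_sub_cancel_left] at this
    exact hb0 (inf_D hD hpq h7 hb)
  · intro M hHM hMK
    by_cases hex' : ∃ g ∈ M, g ∉ decompositionStabilizer D ⊓ spGL m F
    · right
      apply le_antisymm hMK
      obtain ⟨g, hgM, hgn⟩ := hex'
      have hgK := hMK hgM
      have hgd : g ∉ decompositionStabilizer D := fun h => hgn ⟨h, hgK⟩
      obtain ⟨i, v, hv, hvj⟩ := exists_mixed hD hgK hgd
      have hS0 : Sg M ((g : Mat) *ᵥ v) := (Sg_single hD hHM hv).conj hgM hgK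
      obtain ⟨p, q, hpq, a, ha, b, hb, c, ha0, hb0, hcp, hcq, hu⟩ := decompose hD hvj hne
      rw [hu] at hS0
      obtain ⟨a', ha', b', hb', ha'0, hb'0, hS1⟩ := kill hD hex hHM hpq ha hb ha0 hb0 hcp hcq hS0
      have hpair : ∀ p' q', p' ≠ q' → ∀ x ∈ D p', ∀ y ∈ D q', Sg M (x + y) := by
        intro p' q' hpq' x hx y hy
        -- a permutation
        let τ₁ := Equiv.swap p p'
        let q₁ := τ₁ q
        let τ₂ := Equiv.swap q₁ q'
        have hq₁ : q₁ ≠ p' := by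
          intro h
          have : τ₁ q = τ₁ p := by
            rw [show τ₁ p = p' from Equiv.swap_apply_left _ _]
            exact h
          exact hpq (τ₁.injective this).symm
        have hτ₁ : τ₁ p = p' := Equiv.swap_apply_left _ _
        have hτ₂ : τ₂ p' = p' := Equiv.swap_apply_of_ne_of_ne (Ne.symm hq₁) hpq'
        have hτ₂' : τ₂ q₁ = q' := Equiv.swap_apply_left _ _
        let τ : Equiv.Perm (Fin t) := τ₁.trans τ₂
        have hτp : τ p = p' := by
          change τ₂ (τ₁ p) = p'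
          rw [hτ₁, hτ₂]
        have hτq : τ q = q' := by
          change τ₂ (τ₁ q) = q'
          exact hτ₂'
        obtain ⟨h, hh, hh1, hh2⟩ := perm_mem hD τ
        have hx' : x ∈ D (τ p) := by rwa [hτp]
        have hy' : y ∈ D (τ q) := by rwa [hτq]
        obtain ⟨x₀, hx₀, rfl⟩ := hh2 p x hx'
        obtain ⟨y₀, hy₀, rfl⟩ := hh2 q y hy'
        have h1 := pair_all hD hHM hpq ha' hb' ha'0 hb'0 hS1 hx₀ hy₀
        have h2 := h1.conj (hHM hh) hh.2
        rwa [Matrix.mulVec_add] at h2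
      apply spGL_le_of_tv
      intro u c
      have h1 := all_of_pairs hD hHM hpair Finset.univ u (by
        rw [Finset.sup_univ_eq_iSup, hD.decomp.iSup_eq_top]
        trivial)
      exact h1 c
    · left
      push Not at hex'
      exact le_antisymm hex' hHM

end Cfsg.Agent.H27.SW
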