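import Mathlib
import Cfsg.Prelude.Def_GeometricClasses
import Cfsg.Agent.Lib.H27.GeoOTS
import Cfsg.Agent.Lib.H27.GeoSK

/-!
# Unitary subgroups of orthogonal groups: basic set up
-/

set_option autoImplicit false
set_option linter.unusedSectionVars false
set_option linter.unusedSimpArgs false
set_option linter.unusedVariables false

namespace Cfsg.Agent.H27.UO

open scoped Matrix MatrixGroups
open Cfsg Cfsg.Geo
open Cfsg.Agent.H27

variable {ι : Type} [Fintype ι] [DecidableEq ι] {F : Type*} [Field F] {Q : (ι → F) → F}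

/-- Making a vector singular without changing its pairing with a small subspace. -/
theorem singularize2 [Fintype F] (hQ : IsNondegenerateQuadraticForm Q) (S : Submodule F (ι → F))
    (hd : 2 * Module.finrank F S + 2 ≤ Fintype.card ι) (y₀ : ι → F) :
    ∃ y, Q y = 0 ∧ ∀ s ∈ S, GO.pl Q y s = GO.pl Q y₀ s := by
  set P := GO.perpIn hQ ⊤ S with hP
  by_cases hy₀ : y₀ ∈ P
  · refine ⟨0, GO.Q_zero hQ, fun s hs => ?_⟩
    rw [GO.pl_zero_left hQ, hy₀.2 s hs]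
  obtain ⟨E, hE⟩ := Submodule.exists_isCompl (S ⊓ P)
  have hD : 2 ≤ Module.finrank F (E ⊓ P : Submodule F (ι → F)) := by
    have h1 := Submodule.finrank_sup_add_finrank_inf_eq E P
    have h2 := Submodule.finrank_sup_add_finrank_inf_eq E (S ⊓ P)
    have h3 : E ⊔ (S ⊓ P) = ⊤ := hE.symm.sup_eq_top
    have h4 : E ⊓ (S ⊓ P) = ⊥ := hE.symm.inf_eq_bot
    rw [h3, h4, finrank_top, finrank_bot] at h2
    have h5 : Module.finrank F (E ⊔ P : Submodule F (ι → F)) ≤ Module.finrank F (ι → F) := Submodule.finrank_le _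
    have h6 : Module.finrank F (S ⊓ P : Submodule F (ι → F)) ≤ Module.finrank F S :=
      Submodule.finrank_mono inf_le_left
    have h7 : Module.finrank F (⊤ : Submodule F (ι → F)) ≤ Module.finrank F P + Module.finrank F S := GO.finrank_perpIn hQ ⊤ S
    rw [finrank_top] at h7
    rw [Module.finrank_fintype_fun_eq_card] at h2 h5 h7
    omega
  set D := (E ⊓ P : Submodule F (ι → F)) with hDdef
  have hy₀D : y₀ ∉ D := fun hm => hy₀ hm.2
  have hZ : 3 ≤ Module.finrank F (D ⊔ Submodule.span F {y₀} : Submodule F (ι → F)) := by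
    have hlt : D < D ⊔ Submodule.span F {y₀} := by
      refine lt_of_le_of_ne le_sup_left fun he => hy₀D ?_
      rw [he]
      exact Submodule.mem_sup_right (Submodule.mem_span_singleton_self y₀)
    have := Submodule.finrank_lt_finrank_of_lt hlt
    omega
  obtain ⟨z, hz, hz0, hQz⟩ := GO.exists_singular_in hQ _ hZ
  obtain ⟨e, he, w, hw, rfl⟩ := Submodule.mem_sup.1 hz
  obtain ⟨t, rfl⟩ := Submodule.mem_span_singleton.1 hw
  have heS : ∀ s ∈ S, GO.pl Q e s = 0 := fun s hs => he.2.2 s hs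
  by_cases ht : t = 0
  · rw [ht, zero_smul, add_zero] at hz0 hQz
    have heNS : e ∉ S := fun hs => hz0 (by
      have : e ∈ E ⊓ (S ⊓ P) := ⟨he.1, hs, he.2⟩
      rw [hE.symm.inf_eq_bot] at this
      simpa using this)
    obtain ⟨x, -, hxS, hxe⟩ := GO.exists_sep hQ (GO.ndg_top hQ) (Submodule.mem_top (x := e)) heNS (1 - GO.pl Q y₀ e)
    have hxS' : ∀ s ∈ S, GO.pl Q x s = 0 := fun s hs => hxS s ⟨hs, trivial⟩
    obtain ⟨w, hw⟩ : ∃ w, w = y₀ + x := ⟨_, rfl⟩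
    have hwe : GO.pl Q w e = 1 := by
      rw [hw, GO.pl_add_left hQ, hxe]
      ring
    refine ⟨w + (- Q w) • e, ?_, fun s hs => ?_⟩
    · rw [GO.Q_add Q, hQ.smul, hQz, GO.pl_smul_right hQ, hwe]
      ring
    · rw [GO.pl_add_left hQ, GO.pl_smul_left hQ, heS s hs, hw, GO.pl_add_left hQ, hxS' s hs]
      ring
  · refine ⟨t⁻¹ • (e + t • y₀), ?_, fun s hs => ?_⟩
    · rw [hQ.smul, hQz, mul_zero]
    · rw [GO.pl_smul_left hQ, GO.pl_add_left hQ, GO.pl_smul_left hQ, heS s hs, zero_add, inv_mul_cancel_left₀ ht]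

/-- A singular vector with a prescribed value at `p`, orthogonal to `S`. -/
theorem sing_sep [Fintype F] (hQ : IsNondegenerateQuadraticForm Q) {S : Submodule F (ι → F)} {p : ι → F} (hp : p ∉ S)
    (hdim : 2 * (Module.finrank F S + 1) + 2 ≤ Fintype.card ι) (c : F) :
    ∃ y, Q y = 0 ∧ (∀ s ∈ S, GO.pl Q y s = 0) ∧ GO.pl Q y p = c := by
  obtain ⟨y₀, -, hy₀S, hy₀p⟩ := GO.exists_sep hQ (GO.ndg_top hQ) (Submodule.mem_top (x := p)) hp c
  have h1 : Module.finrank F (S ⊔ Submodule.span F {p} : Submodule F (ι → F)) ≤ Module.finrank F S + 1 := by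
    have h2 := Submodule.finrank_add_le_finrank_add_finrank S (Submodule.span F {p})
    have h3 := GO.finrank_span_one (F := F) p
    omega
  obtain ⟨y, hQy, hy⟩ := singularize2 hQ (S ⊔ Submodule.span F {p}) (by omega) y₀
  refine ⟨y, hQy, fun s hs => ?_, ?_⟩
  · rw [hy s (Submodule.mem_sup_left hs)]
    exact hy₀S s ⟨hs, trivial⟩
  · rw [hy p (Submodule.mem_sup_right (Submodule.mem_span_singleton_self p)), hy₀p]

/-- A complex-like structure compatible with the quadratic form. -/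
structure Ux (Q : (ι → F) → F) (θ : Matrix ι ι F) (τ N : F) : Prop where
  sq : ∀ x, θ *ᵥ (θ *ᵥ x) = τ • θ *ᵥ x - N • x
  adj : ∀ u v, GO.pl Q (θ *ᵥ u) v = GO.pl Q u (τ • v - θ *ᵥ v)
  Qθ : ∀ v, Q (θ *ᵥ v) = N * Q v
  plθ : ∀ v, GO.pl Q v (θ *ᵥ v) = τ * Q v
  irr : ∀ s : F, s * s - τ * s + N ≠ 0

variable {θ : Matrix ι ι F} {τ N : F}

lemma Ux.N0 (h : Ux Q θ τ N) : N ≠ 0 := fun h0 => h.irr 0 (by rw [h0]; ring)

lemma Ux.adj' (h : Ux Q θ τ N) (hQ : IsNondegenerateQuadraticForm Q) (u v : ι → F) :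
    GO.pl Q (θ *ᵥ u) v = τ * GO.pl Q u v - GO.pl Q u (θ *ᵥ v) := by
  rw [h.adj, GO.pl_sub_right hQ, GO.pl_smul_right hQ]

lemma Ux.adj2 (h : Ux Q θ τ N) (hQ : IsNondegenerateQuadraticForm Q) (u v : ι → F) :
    GO.pl Q (θ *ᵥ u) (θ *ᵥ v) = N * GO.pl Q u v := by
  rw [h.adj, h.sq]
  have : τ • θ *ᵥ v - (τ • θ *ᵥ v - N • v) = N • v := by abel
  rw [this, GO.pl_smul_right hQ]

lemma Ux.no_eig (h : Ux Q θ τ N) {x : ι → F} {s : F} (e : θ *ᵥ x = s • x) : x = 0 := by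
  by_contra hx
  have h1 := h.sq x
  rw [e, Matrix.mulVec_smul, e, smul_smul, smul_smul] at h1
  have h2 : (s * s - τ * s + N) • x = 0 := by
    ext i
    have := congrFun h1 i
    simp only [Pi.smul_apply, Pi.sub_apply, smul_eq_mul, Pi.add_apply, Pi.zero_apply] at this ⊢
    linear_combination this
  rcases smul_eq_zero.1 h2 with h3 | h3
  · exact h.irr s h3
  · exact hx h3

lemma Ux.ne_zero (h : Ux Q θ τ N) {x : ι → F} (hx : x ≠ 0) : θ *ᵥ x ≠ 0 := by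
  intro h0
  exact hx (h.no_eig (s := 0) (by rw [h0, zero_smul]))

/-- The norm is non-zero. -/
lemma Ux.norm_ne (h : Ux Q θ τ N) {a b : F} (hab : a ≠ 0 ∨ b ≠ 0) : a * a + a * b * τ + b * b * N ≠ 0 := by
  intro h0
  have hb : b ≠ 0 := by
    rintro rfl
    rcases hab with h1 | h1
    · apply h1
      have : a * a = 0 := by linear_combination h0
      exact mul_self_eq_zero.1 this
    · exact h1 rfl
  apply h.irr (- a / b)
  field_simp
  linear_combination h0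

/-- The `K`-line of a vector. -/
def KS (θ : Matrix ι ι F) (x : ι → F) : Submodule F (ι → F) := Submodule.span F {x, θ *ᵥ x}

lemma mem_KS_self (x : ι → F) : x ∈ KS θ x := Submodule.subset_span (by simp)
lemma mem_KS_th (x : ι → F) : θ *ᵥ x ∈ KS θ x := Submodule.subset_span (by simp)

lemma mem_KS {x y : ι → F} : y ∈ KS θ x ↔ ∃ a b : F, a • x + b • θ *ᵥ x = y := Submodule.mem_span_pair

lemma finrank_KS (x : ι → F) : Module.finrank F (KS θ x) ≤ 2 := GO.finrank_span_two _ _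

/-- `θ`-stability. -/
def Stab (θ : Matrix ι ι F) (W : Submodule F (ι → F)) : Prop := ∀ w ∈ W, θ *ᵥ w ∈ W

lemma Stab.sup {W W' : Submodule F (ι → F)} (h : Stab θ W) (h' : Stab θ W') : Stab θ (W ⊔ W') := by
  intro w hw
  obtain ⟨a, ha, b, hb, rfl⟩ := Submodule.mem_sup.1 hw
  rw [Matrix.mulVec_add]
  exact Submodule.add_mem_sup (h a ha) (h' b hb)

lemma Ux.KS_stab (h : Ux Q θ τ N) (x : ι → F) : Stab θ (KS θ x) := by
  intro w hw
  obtain ⟨a, b, rfl⟩ := mem_KS.1 hw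
  rw [mem_KS]
  refine ⟨- (b * N), a + b * τ, ?_⟩
  rw [Matrix.mulVec_add, Matrix.mulVec_smul, Matrix.mulVec_smul, h.sq]
  ext i
  simp only [Pi.add_apply, Pi.sub_apply, Pi.smul_apply, smul_eq_mul]
  ring

lemma KS_le_of {W : Submodule F (ι → F)} (hW : Stab θ W) {y : ι → F} (hy : y ∈ W) : KS θ y ≤ W := by
  apply Submodule.span_le.2
  intro v hv
  rcases hv with rfl | hv
  · exact hy
  · rw [Set.mem_singleton_iff] at hv
    rw [hv]
    exact hW _ hy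

/-- Symmetry of `K`-lines. -/
lemma Ux.KS_symm (h : Ux Q θ τ N) {x y : ι → F} (hy : y ∈ KS θ x) (hy0 : y ≠ 0) : x ∈ KS θ y := by
  obtain ⟨a, b, rfl⟩ := mem_KS.1 hy
  have hab : a ≠ 0 ∨ b ≠ 0 := by
    by_contra hcon
    push Not at hcon
    rw [hcon.1, hcon.2] at hy0
    simp at hy0
  have hn := h.norm_ne hab
  rw [mem_KS]
  refine ⟨(a + b * τ) / (a * a + a * b * τ + b * b * N), - b / (a * a + a * b * τ + b * b * N), ?_⟩
  rw [Matrix.mulVec_add, Matrix.mulVec_smul, Matrix.mulVec_smul, h.sq]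
  ext i
  simp only [Pi.add_apply, Pi.sub_apply, Pi.smul_apply, smul_eq_mul]
  have e : (a + b * τ) / (a * a + a * b * τ + b * b * N) * (a * x i + b * (θ *ᵥ x) i) +
      - b / (a * a + a * b * τ + b * b * N) * (a * (θ *ᵥ x) i + b * (τ * (θ *ᵥ x) i - N * x i)) =
      ((a * a + a * b * τ + b * b * N) / (a * a + a * b * τ + b * b * N)) * x i := by ring
  rw [e, div_self hn, one_mul]

/-- `θ v` is outside `W + F v` if `W` is `θ`-stable and `v` is outside `W`. -/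
lemma Ux.th_not_mem (h : Ux Q θ τ N) {W : Submodule F (ι → F)} (hW : Stab θ W) {v : ι → F} (hv : v ∉ W) :
    θ *ᵥ v ∉ W ⊔ Submodule.span F {v} := by
  intro hm
  obtain ⟨w, hw, z, hz, e⟩ := Submodule.mem_sup.1 hm
  obtain ⟨c, rfl⟩ := Submodule.mem_span_singleton.1 hz
  have hn : c * c - τ * c + N ≠ 0 := h.irr c
  have h1 : (c * c - τ * c + N) • v = (τ - c) • w - θ *ᵥ w := by
    have h3 := congrArg (fun t => θ *ᵥ t) e
    simp only [Matrix.mulVec_add, Matrix.mulVec_smul] at h3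
    rw [h.sq] at h3
    have h5 : w = θ *ᵥ v - c • v := by
      rw [← e]
      abel
    have h6 : θ *ᵥ w = τ • θ *ᵥ v - N • v - c • θ *ᵥ v := by
      rw [← h3]
      abel
    rw [h6, h5]
    ext i
    simp only [Pi.add_apply, Pi.sub_apply, Pi.smul_apply, smul_eq_mul]
    ring
  apply hv
  have h3 : v = (c * c - τ * c + N)⁻¹ • ((τ - c) • w - θ *ᵥ w) := by
    rw [← h1, smul_smul, inv_mul_cancel₀ hn, one_smul]
  rw [h3]
  exact W.smul_mem _ (W.sub_mem (W.smul_mem _ hw) (hW w hw))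

/-- An exchange property. -/
lemma Ux.exch (h : Ux Q θ τ N) {W : Submodule F (ι → F)} (hW : Stab θ W) {b y : ι → F} (hb : b ∉ W)
    (hy : y ∉ W ⊔ KS θ b) : b ∉ W ⊔ KS θ y := by
  intro hm
  obtain ⟨w, hw, z, hz, e⟩ := Submodule.mem_sup.1 hm
  have hz0 : z ≠ 0 := by
    rintro rfl
    apply hb
    rw [← e, add_zero]
    exact hw
  apply hy
  have hzm : z ∈ W ⊔ KS θ b := by
    have : z = b - w := by
      rw [← e]
      abel
    rw [this]
    exact Submodule.sub_mem _ (Submodule.mem_sup_right (mem_KS_self b)) (Submodule.mem_sup_left hw)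
  exact KS_le_of (hW.sup (h.KS_stab b)) hzm (h.KS_symm hz hz0)

/-- `K`-independence. -/
lemma Ux.K_indep (h : Ux Q θ τ N) {x y : ι → F} {A B C D : F} (hy : y ∉ KS θ x) (hx : x ≠ 0)
    (e : A • x + B • θ *ᵥ x = C • y + D • θ *ᵥ y) : A = 0 ∧ B = 0 ∧ C = 0 ∧ D = 0 := by
  have hCD : C = 0 ∧ D = 0 := by
    by_contra hcon
    have hab : C ≠ 0 ∨ D ≠ 0 := by
      by_contra h3
      push Not at h3
      exact hcon h3
    have hn := h.norm_ne hab
    have hm : C • y + D • θ *ᵥ y ∈ KS θ x := by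
      rw [← e]
      exact mem_KS.2 ⟨A, B, rfl⟩
    have hy0 : y ≠ 0 := by
      rintro rfl
      exact hy (Submodule.zero_mem _)
    have hz0 : C • y + D • θ *ᵥ y ≠ 0 := by
      intro h0
      have hmm : x ∈ KS θ x := mem_KS_self x
      have h3 : (C + D * τ) • (C • y + D • θ *ᵥ y) - D • θ *ᵥ (C • y + D • θ *ᵥ y) = (C * C + C * D * τ + D * D * N) • y := by
        rw [Matrix.mulVec_add, Matrix.mulVec_smul, Matrix.mulVec_smul, h.sq]
        ext i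
        simp only [Pi.add_apply, Pi.sub_apply, Pi.smul_apply, smul_eq_mul]
        ring
      simp only [h0, Matrix.mulVec_zero, smul_zero, sub_zero] at h3
      exact hy0 ((smul_eq_zero.1 h3.symm).resolve_left hn)
    apply hy
    have hs : C • y + D • θ *ᵥ y ∈ KS θ y := mem_KS.2 ⟨C, D, rfl⟩
    exact KS_le_of (h.KS_stab x) hm (h.KS_symm hs hz0)
  obtain ⟨rfl, rfl⟩ := hCD
  rw [zero_smul, zero_smul, add_zero] at e
  have hB : B = 0 := by
    by_contra hB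
    apply hx
    apply h.no_eig (s := - A / B)
    have h1 : B • θ *ᵥ x = (- A) • x := by
      rw [neg_smul]
      exact eq_neg_of_add_eq_zero_right e
    have h2 : θ *ᵥ x = B⁻¹ • (B • θ *ᵥ x) := by rw [smul_smul, inv_mul_cancel₀ hB, one_smul]
    rw [h2, h1, smul_smul, div_eq_inv_mul]
  rw [hB, zero_smul, add_zero] at e
  refine ⟨?_, hB, rfl, rfl⟩
  exact (smul_eq_zero.1 e).resolve_right hx

/-- Orthogonality to a `K`-line, in both forms. -/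
lemma Ux.perp_th (h : Ux Q θ τ N) (hQ : IsNondegenerateQuadraticForm Q) {z x : ι → F} (h1 : GO.pl Q z x = 0)
    (h2 : GO.pl Q z (θ *ᵥ x) = 0) : GO.pl Q (θ *ᵥ z) x = 0 := by
  rw [h.adj' hQ, h1, h2]
  ring

/-- The two `K`-orthogonality conditions are symmetric. -/
lemma Ux.perp_symm (h : Ux Q θ τ N) (hQ : IsNondegenerateQuadraticForm Q) {z x : ι → F} (h1 : GO.pl Q z x = 0)
    (h2 : GO.pl Q z (θ *ᵥ x) = 0) : GO.pl Q x z = 0 ∧ GO.pl Q x (θ *ᵥ z) = 0 := by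
  refine ⟨by rw [GO.pl_symm, h1], ?_⟩
  rw [GO.pl_symm, h.perp_th hQ h1 h2]

/-- The commutation with `θ` of a root element of `K`-type. -/
lemma Ux.T_comm (h : Ux Q θ τ N) (hQ : IsNondegenerateQuadraticForm Q) {a : ι → F} {c : F} {g : GL ι F}
    (hg : ∀ x, (g : Matrix ι ι F) *ᵥ x = x + GO.pl Q x (c • θ *ᵥ a) • a - GO.pl Q x a • (c • θ *ᵥ a)) (y : ι → F) :
    (g : Matrix ι ι F) *ᵥ (θ *ᵥ y) = θ *ᵥ ((g : Matrix ι ι F) *ᵥ y) := by
  rw [hg, hg]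
  simp only [Matrix.mulVec_add, Matrix.mulVec_sub, Matrix.mulVec_smul]
  rw [h.sq]
  simp only [GO.pl_smul_right hQ]
  rw [h.adj2 hQ, h.adj' hQ]
  ext i
  simp only [Pi.add_apply, Pi.sub_apply, Pi.smul_apply, smul_eq_mul]
  ring

lemma Ux.Qsmul (h : Ux Q θ τ N) (hQ : IsNondegenerateQuadraticForm Q) {a : ι → F} (ha : Q a = 0) (c : F) :
    Q (c • θ *ᵥ a) = 0 := by
  rw [hQ.smul, h.Qθ, ha, mul_zero, mul_zero]

lemma Ux.plsmul (h : Ux Q θ τ N) (hQ : IsNondegenerateQuadraticForm Q) {a : ι → F} (ha : Q a = 0) (c : F) :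
    GO.pl Q a (c • θ *ᵥ a) = 0 := by
  rw [GO.pl_smul_right hQ, h.plθ, ha]
  ring

section Fin

variable [Fintype F]

/-- The root elements of `K`-type lie in `M`. -/
theorem Ux.T_mem (h : Ux Q θ τ N) (hQ : IsNondegenerateQuadraticForm Q) (hn : 7 ≤ Fintype.card ι) {M : Subgroup (GL ι F)}
    (hH : ∀ k ∈ omegaGL Q, (∀ y, (k : Matrix ι ι F) *ᵥ (θ *ᵥ y) = θ *ᵥ ((k : Matrix ι ι F) *ᵥ y)) → k ∈ M)
    {a : ι → F} (ha : Q a = 0) (c : F) : GO.RI Q M a (c • θ *ᵥ a) := by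
  obtain ⟨g, hg, hgx⟩ := GO.RI_omega hQ hn ha (h.Qsmul hQ ha c) (h.plsmul hQ ha c)
  exact ⟨g, hH g hg (h.T_comm hQ hgx), hgx⟩

/-- The Heisenberg element of a `K`-totally singular pair. -/
theorem Ux.exists_Rk (h : Ux Q θ τ N) (hQ : IsNondegenerateQuadraticForm Q) (hn : 7 ≤ Fintype.card ι) {M : Subgroup (GL ι F)}
    (hH : ∀ k ∈ omegaGL Q, (∀ y, (k : Matrix ι ι F) *ᵥ (θ *ᵥ y) = θ *ᵥ ((k : Matrix ι ι F) *ᵥ y)) → k ∈ M)
    {z₁ z₂ : ι → F} (hz₁ : Q z₁ = 0) (hz₂ : Q z₂ = 0) (h1 : GO.pl Q z₁ z₂ = 0) (h2 : GO.pl Q z₁ (θ *ᵥ z₂) = 0) :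
    ∃ k ∈ M, ∀ y, (k : Matrix ι ι F) *ᵥ y = y + GO.pl Q y (θ *ᵥ z₂) • z₁ - GO.pl Q y z₁ • θ *ᵥ z₂ +
      GO.pl Q y (θ *ᵥ z₁) • z₂ - GO.pl Q y z₂ • θ *ᵥ z₁ := by
  have hsum : Q (z₁ + z₂) = 0 := by
    rw [GO.Q_add Q, hz₁, hz₂, h1]
    ring
  obtain ⟨g₁, hg₁, e₁⟩ := h.T_mem hQ hn hH hsum 1
  obtain ⟨g₂, hg₂, e₂⟩ := h.T_mem hQ hn hH hz₁ (-1)
  obtain ⟨g₃, hg₃, e₃⟩ := h.T_mem hQ hn hH hz₂ (-1)
  refine ⟨g₁ * g₂ * g₃, M.mul_mem (M.mul_mem hg₁ hg₂) hg₃, fun y => ?_⟩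
  have a1 : GO.pl Q z₂ z₁ = 0 := by rw [GO.pl_symm, h1]
  have a2 : GO.pl Q (θ *ᵥ z₂) z₁ = 0 := by rw [GO.pl_symm, h2]
  have a3 : GO.pl Q (θ *ᵥ z₁) z₂ = 0 := by rw [h.adj' hQ, h1, h2]; ring
  have a4 : GO.pl Q z₂ (θ *ᵥ z₁) = 0 := by rw [GO.pl_symm, a3]
  have a5 : GO.pl Q (θ *ᵥ z₁) (θ *ᵥ z₂) = 0 := by rw [h.adj2 hQ, h1, mul_zero]
  have a6 : GO.pl Q (θ *ᵥ z₂) (θ *ᵥ z₁) = 0 := by rw [GO.pl_symm, a5]
  have a7 : GO.pl Q z₁ z₁ = 0 := by rw [GO.pl_self hQ, hz₁, mul_zero]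
  have a8 : GO.pl Q z₂ z₂ = 0 := by rw [GO.pl_self hQ, hz₂, mul_zero]
  have a9 : GO.pl Q z₁ (θ *ᵥ z₁) = 0 := by rw [h.plθ, hz₁, mul_zero]
  have a10 : GO.pl Q z₂ (θ *ᵥ z₂) = 0 := by rw [h.plθ, hz₂, mul_zero]
  have a11 : GO.pl Q (θ *ᵥ z₁) z₁ = 0 := by rw [GO.pl_symm, a9]
  have a12 : GO.pl Q (θ *ᵥ z₂) z₂ = 0 := by rw [GO.pl_symm, a10]
  have a13 : GO.pl Q (θ *ᵥ z₁) (θ *ᵥ z₁) = 0 := by rw [h.adj2 hQ, a7, mul_zero]
  have a14 : GO.pl Q (θ *ᵥ z₂) (θ *ᵥ z₂) = 0 := by rw [h.adj2 hQ, a8, mul_zero]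
  simp only [Units.val_mul, ← Matrix.mulVec_mulVec]
  rw [e₃, e₂, e₁]
  simp only [Matrix.mulVec_add, GO.pl_add_left hQ, GO.pl_sub_left hQ, GO.pl_smul_left hQ, GO.pl_smul_right hQ,
    GO.pl_add_right hQ, a1, a2, a3, a4, a5, a6, a7, a8, a9, a10, a11, a12, a13, a14, h1, h2]
  ext i
  simp only [Pi.add_apply, Pi.sub_apply, Pi.smul_apply, smul_eq_mul]
  ring

end Fin

end Cfsg.Agent.H27.UO
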