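import Mathlib
import Cfsg.Prelude.Def_GeometricClasses
import Cfsg.Agent.Lib.H27.GeoUO

/-!
# Unitary subgroups of orthogonal groups: root elements
-/

set_option autoImplicit false
set_option linter.unusedSectionVars false
set_option linter.unusedSimpArgs false
set_option linter.unusedVariables false

namespace Cfsg.Agent.H27.UO

open scoped Matrix MatrixGroups
open Cfsg Cfsg.Geo
open Cfsg.Agent.H27

variable {ι : Type} [Fintype ι] [DecidableEq ι] {F : Type*} [Field F] {Q : (ι → F) → F}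
variable {θ : Matrix ι ι F} {τ N : F}

lemma inv_cancel (g : GL ι F) (x : ι → F) : (g : Matrix ι ι F) *ᵥ (((g⁻¹ : GL ι F) : Matrix ι ι F) *ᵥ x) = x := by
  rw [Matrix.mulVec_mulVec]
  simp

lemma inv_cancel' (g : GL ι F) (x : ι → F) : ((g⁻¹ : GL ι F) : Matrix ι ι F) *ᵥ ((g : Matrix ι ι F) *ᵥ x) = x := by
  rw [Matrix.mulVec_mulVec]
  simp

lemma mulVec_ne_zero (g : GL ι F) {x : ι → F} (hx : x ≠ 0) : (g : Matrix ι ι F) *ᵥ x ≠ 0 := by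
  intro h0
  apply hx
  have := inv_cancel' g x
  rw [h0, Matrix.mulVec_zero] at this
  exact this.symm

lemma fr2 (x y : ι → F) : Module.finrank F (KS θ x ⊔ KS θ y : Submodule F (ι → F)) ≤ 4 := by
  have h3 := Submodule.finrank_add_le_finrank_add_finrank (KS θ x) (KS θ y)
  have h4 := finrank_KS (θ := θ) x
  have h5 := finrank_KS (θ := θ) y
  omega

lemma fr3 (x y z : ι → F) : Module.finrank F (KS θ x ⊔ KS θ y ⊔ KS θ z : Submodule F (ι → F)) ≤ 6 := by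
  have h3 := Submodule.finrank_add_le_finrank_add_finrank (KS θ x ⊔ KS θ y) (KS θ z)
  have h4 := fr2 (θ := θ) x y
  have h5 := finrank_KS (θ := θ) z
  omega

section Fin

variable [Fintype F]

/-- First construction: from a bad element to a proper `K`-root pair. -/
theorem Ux.exists_root (h : Ux Q θ τ N) (hQ : IsNondegenerateQuadraticForm Q) (hn : 14 ≤ Fintype.card ι) {M : Subgroup (GL ι F)}
    (hH : ∀ k ∈ omegaGL Q, (∀ y, (k : Matrix ι ι F) *ᵥ (θ *ᵥ y) = θ *ᵥ ((k : Matrix ι ι F) *ᵥ y)) → k ∈ M)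
    (hMO : M ≤ isometryGroup F Q) {g : GL ι F} (hgM : g ∈ M) {a : ι → F} (ha0 : a ≠ 0) (hQa : Q a = 0)
    (hbad : (g : Matrix ι ι F) *ᵥ (θ *ᵥ a) ∉ KS θ ((g : Matrix ι ι F) *ᵥ a)) :
    ∃ x z, x ≠ 0 ∧ Q x = 0 ∧ Q z = 0 ∧ GO.pl Q x z = 0 ∧ GO.pl Q x (θ *ᵥ z) = 0 ∧ z ∉ KS θ x ∧ GO.RI Q M x z := by
  have hg := hMO hgM
  obtain ⟨u, hu⟩ : ∃ u, u = (g : Matrix ι ι F) *ᵥ a := ⟨_, rfl⟩
  obtain ⟨v, hv⟩ : ∃ v, v = (g : Matrix ι ι F) *ᵥ (θ *ᵥ a) := ⟨_, rfl⟩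
  rw [← hu, ← hv] at hbad
  have hQiso := GO.mem_isom_iff.1 hg
  have hQu : Q u = 0 := by rw [hu, hQiso, hQa]
  have hQv : Q v = 0 := by rw [hv, hQiso, h.Qθ, hQa, mul_zero]
  have huv : GO.pl Q u v = 0 := by rw [hu, hv, GO.isom_pl hg, h.plθ, hQa, mul_zero]
  have hu0 : u ≠ 0 := by
    rw [hu]
    exact mulVec_ne_zero g ha0
  have hE : GO.RI Q M u v := by
    have hT := h.T_mem hQ (by omega) hH hQa 1
    have := GO.RI.conj hQ hgM hg hT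
    rw [one_smul] at this
    rwa [← hu, ← hv] at this
  -- z₁
  have hp1 := h.th_not_mem (h.KS_stab u) hbad
  obtain ⟨z₁, hQz₁, hz₁S, hz₁p⟩ := sing_sep hQ hp1 (by
    have h3 := Submodule.finrank_add_le_finrank_add_finrank (KS θ u) (Submodule.span F {v})
    have h4 := finrank_KS (θ := θ) u
    have h5 := GO.finrank_span_one (F := F) v
    omega) (-1)
  have a1 : GO.pl Q z₁ u = 0 := hz₁S _ (Submodule.mem_sup_left (mem_KS_self u))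
  have a2 : GO.pl Q z₁ (θ *ᵥ u) = 0 := hz₁S _ (Submodule.mem_sup_left (mem_KS_th u))
  have a3 : GO.pl Q z₁ v = 0 := hz₁S _ (Submodule.mem_sup_right (Submodule.mem_span_singleton_self v))
  have b1 : GO.pl Q v (θ *ᵥ z₁) = 1 := by
    rw [GO.pl_symm, h.adj' hQ, a3, hz₁p]
    ring
  have b2 : GO.pl Q v z₁ = 0 := by rw [GO.pl_symm, a3]
  have b3 : GO.pl Q u z₁ = 0 := by rw [GO.pl_symm, a1]
  have b4 : GO.pl Q u (θ *ᵥ z₁) = 0 := (h.perp_symm hQ a1 a2).2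
  -- z₂
  obtain ⟨z₂, hz₂0, hQz₂, hz₂S, hz₂T⟩ := SK.exists_sing_avoid hQ (KS θ u ⊔ KS θ v ⊔ KS θ z₁) (KS θ u) (by
    have h3 := fr3 (θ := θ) u v z₁
    have h4 := finrank_KS (θ := θ) u
    omega)
  have c1 : ∀ s ∈ KS θ u, GO.pl Q z₂ s = 0 := fun s hs => hz₂S s (Submodule.mem_sup_left (Submodule.mem_sup_left hs))
  have c2 : ∀ s ∈ KS θ v, GO.pl Q z₂ s = 0 := fun s hs => hz₂S s (Submodule.mem_sup_left (Submodule.mem_sup_right hs))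
  have c3 : ∀ s ∈ KS θ z₁, GO.pl Q z₂ s = 0 := fun s hs => hz₂S s (Submodule.mem_sup_right hs)
  have d1 : GO.pl Q u z₂ = 0 := by rw [GO.pl_symm, c1 _ (mem_KS_self u)]
  have d2 : GO.pl Q u (θ *ᵥ z₂) = 0 := (h.perp_symm hQ (c1 _ (mem_KS_self u)) (c1 _ (mem_KS_th u))).2
  have d3 : GO.pl Q v z₂ = 0 := by rw [GO.pl_symm, c2 _ (mem_KS_self v)]
  have d4 : GO.pl Q v (θ *ᵥ z₂) = 0 := (h.perp_symm hQ (c2 _ (mem_KS_self v)) (c2 _ (mem_KS_th v))).2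
  have d5 : GO.pl Q z₁ z₂ = 0 := by rw [GO.pl_symm, c3 _ (mem_KS_self z₁)]
  have d6 : GO.pl Q z₁ (θ *ᵥ z₂) = 0 := (h.perp_symm hQ (c3 _ (mem_KS_self z₁)) (c3 _ (mem_KS_th z₁))).2
  obtain ⟨k, hkM, hk⟩ := h.exists_Rk hQ (by omega) hH hQz₁ hQz₂ d5 d6
  have hku : (k : Matrix ι ι F) *ᵥ u = u := by
    rw [hk, d2, b3, b4, d1]
    simp
  have hkv : (k : Matrix ι ι F) *ᵥ v = v + z₂ := by
    rw [hk, d4, b2, b1, d3]
    simp
  have hk' := GO.RI.conj hQ hkM (hMO hkM) hE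
  rw [hku, hkv] at hk'
  have hvv : GO.pl Q v v = 0 := by rw [GO.pl_self hQ, hQv, mul_zero]
  have := OT.RI.sub hQ hQu hQv huv (by rw [GO.pl_add_right hQ, huv, d1, add_zero])
    (by rw [GO.pl_add_right hQ, hvv, d3, add_zero]) hk' hE
  rw [add_sub_cancel_left] at this
  exact ⟨u, z₂, hu0, hQu, hQz₂, d1, d2, hz₂T, this⟩

/-- Exchanging the second vector. -/
theorem Ux.B1 (h : Ux Q θ τ N) (hQ : IsNondegenerateQuadraticForm Q) (hn : 7 ≤ Fintype.card ι) {M : Subgroup (GL ι F)}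
    (hH : ∀ k ∈ omegaGL Q, (∀ y, (k : Matrix ι ι F) *ᵥ (θ *ᵥ y) = θ *ᵥ ((k : Matrix ι ι F) *ᵥ y)) → k ∈ M)
    {x b y : ι → F} (hx : Q x = 0) (hb : Q b = 0) (hy : Q y = 0) (hxb : GO.pl Q x b = 0) (hxy : GO.pl Q x y = 0)
    (hxy' : GO.pl Q x (θ *ᵥ y) = 0) (hby : GO.pl Q b y = 0) (hby' : GO.pl Q b (θ *ᵥ y) ≠ 0) (hr : GO.RI Q M x b) :
    GO.RI Q M x y := by
  have hN := h.N0
  obtain ⟨c₀, hc₀⟩ : ∃ c₀, c₀ = N⁻¹ • (τ • y - θ *ᵥ y) := ⟨_, rfl⟩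
  have hθc₀ : θ *ᵥ c₀ = y := by
    rw [hc₀, Matrix.mulVec_smul, Matrix.mulVec_sub, Matrix.mulVec_smul, h.sq]
    have : τ • θ *ᵥ y - (τ • θ *ᵥ y - N • y) = N • y := by abel
    rw [this, smul_smul, inv_mul_cancel₀ hN, one_smul]
  have hQc₀ : Q c₀ = 0 := by
    rw [hc₀, hQ.smul, GO.Q_sub hQ, hQ.smul, h.Qθ, hy, GO.pl_smul_left hQ, h.plθ, hy]
    ring
  obtain ⟨r, hr'⟩ : ∃ r, r = GO.pl Q b c₀ := ⟨_, rfl⟩
  have hr0 : r ≠ 0 := by
    rw [hr', hc₀, GO.pl_smul_right hQ, GO.pl_sub_right hQ, GO.pl_smul_right hQ, hby, mul_zero, zero_sub]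
    exact mul_ne_zero (inv_ne_zero hN) (neg_ne_zero.2 hby')
  have hxc : GO.pl Q x c₀ = 0 := by
    rw [hc₀, GO.pl_smul_right hQ, GO.pl_sub_right hQ, GO.pl_smul_right hQ, hxy, hxy']
    ring
  have hT := h.T_mem hQ hn hH hQc₀ r⁻¹
  have hT' := GO.RI.smul_left hQ r⁻¹ hT
  rw [hθc₀] at hT'
  have hcy : GO.pl Q c₀ y = 0 := by
    rw [← hθc₀, h.plθ, hQc₀, mul_zero]
  refine GO.RI.comm hQ hx hb ?_ hy hxb ?_ hxy hby ?_ ?_ hr hT'
  · rw [hQ.smul, hQc₀, mul_zero]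
  · rw [GO.pl_smul_right hQ, hxc, mul_zero]
  · rw [GO.pl_smul_left hQ, hcy, mul_zero]
  · rw [GO.pl_smul_right hQ, ← hr', inv_mul_cancel₀ hr0]

/-- Exchanging the second vector: the independent case. -/
theorem Ux.B_indep (h : Ux Q θ τ N) (hQ : IsNondegenerateQuadraticForm Q) (hn : 14 ≤ Fintype.card ι) {M : Subgroup (GL ι F)}
    (hH : ∀ k ∈ omegaGL Q, (∀ y, (k : Matrix ι ι F) *ᵥ (θ *ᵥ y) = θ *ᵥ ((k : Matrix ι ι F) *ᵥ y)) → k ∈ M)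
    {x b y : ι → F} (hx : Q x = 0) (hb : Q b = 0) (hy : Q y = 0) (hxb : GO.pl Q x b = 0) (hxy : GO.pl Q x y = 0)
    (hxy' : GO.pl Q x (θ *ᵥ y) = 0) (hbn : b ∉ KS θ x) (hyn : y ∉ KS θ x ⊔ KS θ b) (hr : GO.RI Q M x b) :
    GO.RI Q M x y := by
  have hb1 : b ∉ KS θ x ⊔ KS θ y := h.exch (h.KS_stab x) hbn hyn
  have hp1 := h.th_not_mem ((h.KS_stab x).sup (h.KS_stab y)) hb1
  have hp2 := h.th_not_mem ((h.KS_stab x).sup (h.KS_stab b)) hyn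
  obtain ⟨w₁, -, hw₁S, hw₁p⟩ := GO.exists_sep hQ (GO.ndg_top hQ) (Submodule.mem_top (x := θ *ᵥ b)) hp1 1
  obtain ⟨w₂, -, hw₂S, hw₂p⟩ := GO.exists_sep hQ (GO.ndg_top hQ) (Submodule.mem_top (x := θ *ᵥ y)) hp2 1
  have e1 : ∀ s ∈ KS θ x, GO.pl Q w₁ s = 0 := fun s hs =>
    hw₁S s ⟨Submodule.mem_sup_left (Submodule.mem_sup_left hs), trivial⟩
  have e2 : ∀ s ∈ KS θ y, GO.pl Q w₁ s = 0 := fun s hs =>
    hw₁S s ⟨Submodule.mem_sup_left (Submodule.mem_sup_right hs), trivial⟩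
  have e3 : GO.pl Q w₁ b = 0 := hw₁S b ⟨Submodule.mem_sup_right (Submodule.mem_span_singleton_self b), trivial⟩
  have f1 : ∀ s ∈ KS θ x, GO.pl Q w₂ s = 0 := fun s hs =>
    hw₂S s ⟨Submodule.mem_sup_left (Submodule.mem_sup_left hs), trivial⟩
  have f2 : ∀ s ∈ KS θ b, GO.pl Q w₂ s = 0 := fun s hs =>
    hw₂S s ⟨Submodule.mem_sup_left (Submodule.mem_sup_right hs), trivial⟩
  have f3 : GO.pl Q w₂ y = 0 := hw₂S y ⟨Submodule.mem_sup_right (Submodule.mem_span_singleton_self y), trivial⟩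
  obtain ⟨w, hQw, hw⟩ := singularize2 hQ (KS θ x ⊔ KS θ b ⊔ KS θ y) (by
    have := fr3 (θ := θ) x b y
    omega) (w₁ + w₂)
  have g1 : GO.pl Q w x = 0 := by
    rw [hw x (Submodule.mem_sup_left (Submodule.mem_sup_left (mem_KS_self x))), GO.pl_add_left hQ,
      e1 _ (mem_KS_self x), f1 _ (mem_KS_self x), add_zero]
  have g2 : GO.pl Q w (θ *ᵥ x) = 0 := by
    rw [hw _ (Submodule.mem_sup_left (Submodule.mem_sup_left (mem_KS_th x))), GO.pl_add_left hQ,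
      e1 _ (mem_KS_th x), f1 _ (mem_KS_th x), add_zero]
  have g3 : GO.pl Q w b = 0 := by
    rw [hw b (Submodule.mem_sup_left (Submodule.mem_sup_right (mem_KS_self b))), GO.pl_add_left hQ,
      e3, f2 _ (mem_KS_self b), add_zero]
  have g4 : GO.pl Q w (θ *ᵥ b) = 1 := by
    rw [hw _ (Submodule.mem_sup_left (Submodule.mem_sup_right (mem_KS_th b))), GO.pl_add_left hQ,
      hw₁p, f2 _ (mem_KS_th b), add_zero]
  have g5 : GO.pl Q w y = 0 := by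
    rw [hw y (Submodule.mem_sup_right (mem_KS_self y)), GO.pl_add_left hQ,
      e2 _ (mem_KS_self y), f3, add_zero]
  have g6 : GO.pl Q w (θ *ᵥ y) = 1 := by
    rw [hw _ (Submodule.mem_sup_right (mem_KS_th y)), GO.pl_add_left hQ,
      e2 _ (mem_KS_th y), hw₂p, zero_add]
  obtain ⟨k1, k2⟩ := h.perp_symm hQ g1 g2
  have k3 : GO.pl Q b w = 0 := by rw [GO.pl_symm, g3]
  have k4 : GO.pl Q b (θ *ᵥ w) ≠ 0 := by
    rw [GO.pl_symm, h.adj' hQ, g3, g4, mul_zero, zero_sub]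
    exact neg_ne_zero.2 one_ne_zero
  have hrw := h.B1 hQ (by omega) hH hx hb hQw hxb k1 k2 k3 k4 hr
  refine h.B1 hQ (by omega) hH hx hQw hy k1 hxy hxy' g5 (by rw [g6]; exact one_ne_zero) hrw

/-- Exchanging the second vector: the general case. -/
theorem Ux.B_all (h : Ux Q θ τ N) (hQ : IsNondegenerateQuadraticForm Q) (hn : 14 ≤ Fintype.card ι) {M : Subgroup (GL ι F)}
    (hH : ∀ k ∈ omegaGL Q, (∀ y, (k : Matrix ι ι F) *ᵥ (θ *ᵥ y) = θ *ᵥ ((k : Matrix ι ι F) *ᵥ y)) → k ∈ M)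
    {x b y : ι → F} (hx : Q x = 0) (hb : Q b = 0) (hy : Q y = 0) (hxb : GO.pl Q x b = 0) (hxy : GO.pl Q x y = 0)
    (hxy' : GO.pl Q x (θ *ᵥ y) = 0) (hbn : b ∉ KS θ x) (hr : GO.RI Q M x b) :
    GO.RI Q M x y := by
  by_cases hyx : y ∈ KS θ x
  · obtain ⟨α, β, rfl⟩ := mem_KS.1 hyx
    refine (h.T_mem hQ (by omega) hH hx β).congr fun z => ?_
    simp only [GO.pl_add_right hQ, GO.pl_smul_right hQ]
    ext i
    simp only [Pi.add_apply, Pi.sub_apply, Pi.smul_apply, smul_eq_mul]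
    ring
  obtain ⟨b', hb'0, hQb', hb'S, hb'T⟩ := SK.exists_sing_avoid hQ (KS θ x) (KS θ x ⊔ KS θ b ⊔ KS θ y) (by
    have h3 := fr3 (θ := θ) x b y
    have h4 := finrank_KS (θ := θ) x
    omega)
  have hb'1 : b' ∉ KS θ x ⊔ KS θ b := fun hm => hb'T (Submodule.mem_sup_left hm)
  have hb'2 : b' ∉ KS θ x := fun hm => hb'1 (Submodule.mem_sup_left hm)
  have hb'3 : b' ∉ KS θ x ⊔ KS θ y := fun hm => hb'T (by
    obtain ⟨p, hp, q, hq, rfl⟩ := Submodule.mem_sup.1 hm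
    exact Submodule.add_mem _ (Submodule.mem_sup_left (Submodule.mem_sup_left hp)) (Submodule.mem_sup_right hq))
  obtain ⟨m1, m2⟩ := h.perp_symm hQ (hb'S _ (mem_KS_self x)) (hb'S _ (mem_KS_th x))
  have hr' := h.B_indep hQ hn hH hx hb hQb' hxb m1 m2 hbn hb'1 hr
  exact h.B_indep hQ hn hH hx hQb' hy m1 hxy hxy' hb'2 (h.exch (h.KS_stab x) hyx hb'3) hr'

/-- All `K`-root pairs. -/
theorem Ux.all_K (h : Ux Q θ τ N) (hQ : IsNondegenerateQuadraticForm Q) (hn : 14 ≤ Fintype.card ι) {M : Subgroup (GL ι F)}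
    (hH : ∀ k ∈ omegaGL Q, (∀ y, (k : Matrix ι ι F) *ᵥ (θ *ᵥ y) = θ *ᵥ ((k : Matrix ι ι F) *ᵥ y)) → k ∈ M)
    {x₀ b₀ : ι → F} (hx₀0 : x₀ ≠ 0) (hx₀ : Q x₀ = 0) (hb₀ : Q b₀ = 0) (hx₀b₀ : GO.pl Q x₀ b₀ = 0)
    (hb₀n : b₀ ∉ KS θ x₀) (hr : GO.RI Q M x₀ b₀) {x y : ι → F} (hx : Q x = 0) (hy : Q y = 0) (hxy : GO.pl Q x y = 0)
    (hxy' : GO.pl Q x (θ *ᵥ y) = 0) : GO.RI Q M x y := by
  by_cases hx0 : x = 0
  · subst hx0
    refine ⟨1, M.one_mem, fun z => ?_⟩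
    simp [GO.pl_zero_right hQ]
  obtain ⟨z, hz0, hQz, hzS, hzT⟩ := SK.exists_sing_avoid hQ (KS θ x₀ ⊔ KS θ x) (KS θ x₀ ⊔ KS θ x) (by
    have h3 := fr2 (θ := θ) x₀ x
    omega)
  have hz₁ : z ∉ KS θ x₀ := fun hm => hzT (Submodule.mem_sup_left hm)
  have hz₂ : z ∉ KS θ x := fun hm => hzT (Submodule.mem_sup_right hm)
  have a1 : GO.pl Q z x₀ = 0 := hzS _ (Submodule.mem_sup_left (mem_KS_self x₀))
  have a2 : GO.pl Q z (θ *ᵥ x₀) = 0 := hzS _ (Submodule.mem_sup_left (mem_KS_th x₀))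
  have a3 : GO.pl Q z x = 0 := hzS _ (Submodule.mem_sup_right (mem_KS_self x))
  have a4 : GO.pl Q z (θ *ᵥ x) = 0 := hzS _ (Submodule.mem_sup_right (mem_KS_th x))
  obtain ⟨b1, b2⟩ := h.perp_symm hQ a1 a2
  obtain ⟨b3, b4⟩ := h.perp_symm hQ a3 a4
  have r1 := h.B_all hQ hn hH hx₀ hb₀ hQz hx₀b₀ b1 b2 hb₀n hr
  have r2 := r1.symm hQ hx₀ hQz b1
  have hn1 : x₀ ∉ KS θ z := fun hm => hz₁ (h.KS_symm hm hx₀0)
  have r3 := h.B_all hQ hn hH hQz hx₀ hx a1 a3 a4 hn1 r2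
  have r4 := r3.symm hQ hQz hx a3
  exact h.B_all hQ hn hH hx hQz hy b3 hxy hxy' hz₂ r4

/-- All root elements. -/
theorem Ux.all_roots (h : Ux Q θ τ N) (hQ : IsNondegenerateQuadraticForm Q) (hn : 14 ≤ Fintype.card ι) {M : Subgroup (GL ι F)}
    (hH : ∀ k ∈ omegaGL Q, (∀ y, (k : Matrix ι ι F) *ᵥ (θ *ᵥ y) = θ *ᵥ ((k : Matrix ι ι F) *ᵥ y)) → k ∈ M)
    {x₀ b₀ : ι → F} (hx₀0 : x₀ ≠ 0) (hx₀ : Q x₀ = 0) (hb₀ : Q b₀ = 0) (hx₀b₀ : GO.pl Q x₀ b₀ = 0)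
    (hb₀n : b₀ ∉ KS θ x₀) (hr : GO.RI Q M x₀ b₀) (a d : ι → F) (ha : Q a = 0) (hd : Q d = 0) (had : GO.pl Q a d = 0) :
    GO.RI Q M a d := by
  have hall := fun {x y : ι → F} => h.all_K hQ hn hH hx₀0 hx₀ hb₀ hx₀b₀ hb₀n hr (x := x) (y := y)
  -- b
  obtain ⟨b, hb0, hQb, hbS, hbT⟩ := SK.exists_sing_avoid hQ (KS θ a ⊔ Submodule.span F {d}) (Submodule.span F {a, d, θ *ᵥ d}) (by
    have h3 := Submodule.finrank_add_le_finrank_add_finrank (KS θ a) (Submodule.span F {d})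
    have h4 := finrank_KS (θ := θ) a
    have h5 := GO.finrank_span_one (F := F) d
    have h6 := GO.finrank_span_three (F := F) a d (θ *ᵥ d)
    omega)
  obtain ⟨c, hQc, hcS, hcb⟩ := sing_sep hQ hbT (by
    have h6 := GO.finrank_span_three (F := F) a d (θ *ᵥ d)
    omega) 1
  have a1 : GO.pl Q b a = 0 := hbS _ (Submodule.mem_sup_left (mem_KS_self a))
  have a2 : GO.pl Q b (θ *ᵥ a) = 0 := hbS _ (Submodule.mem_sup_left (mem_KS_th a))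
  have a3 : GO.pl Q b d = 0 := hbS _ (Submodule.mem_sup_right (Submodule.mem_span_singleton_self d))
  have a4 : GO.pl Q c a = 0 := hcS _ (GO.mem_span_three_1 _ _ _)
  have a5 : GO.pl Q c d = 0 := hcS _ (GO.mem_span_three_2 _ _ _)
  have a6 : GO.pl Q c (θ *ᵥ d) = 0 := hcS _ (GO.mem_span_three_3 _ _ _)
  obtain ⟨b1, b2⟩ := h.perp_symm hQ a1 a2
  have r1 : GO.RI Q M a b := hall ha hQb b1 b2
  have r2 : GO.RI Q M c d := hall hQc hd a5 a6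
  exact GO.RI.comm hQ ha hQb hQc hd b1 (by rw [GO.pl_symm, a4]) had a3 a5 (by rw [GO.pl_symm, hcb]) r1 r2

/-- A `K`-line moved to something that is not a `K`-line. -/
theorem Ux.exists_bad (h : Ux Q θ τ N) (hQ : IsNondegenerateQuadraticForm Q) (hn : 14 ≤ Fintype.card ι) {g : GL ι F}
    (hne : ¬ ∃ s t : F, ∀ y, (g : Matrix ι ι F) *ᵥ (θ *ᵥ (((g⁻¹ : GL ι F) : Matrix ι ι F) *ᵥ y)) = s • y + t • θ *ᵥ y) :
    ∃ a, a ≠ 0 ∧ Q a = 0 ∧ (g : Matrix ι ι F) *ᵥ (θ *ᵥ a) ∉ KS θ ((g : Matrix ι ι F) *ᵥ a) := by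
  by_contra hcon
  push Not at hcon
  apply hne
  obtain ⟨a₀, ha₀0, hQa₀, -, -⟩ := SK.exists_sing_avoid hQ ⊥ ⊥ (by rw [finrank_bot]; omega)
  obtain ⟨s₀, t₀, e₀⟩ := mem_KS.1 (hcon a₀ ha₀0 hQa₀)
  -- step
  have step : ∀ {s t : F} {a b : ι → F}, a ≠ 0 → Q a = 0 → b ≠ 0 → Q b = 0 → GO.pl Q a b = 0 → b ∉ KS θ a →
      s • (g : Matrix ι ι F) *ᵥ a + t • θ *ᵥ ((g : Matrix ι ι F) *ᵥ a) = (g : Matrix ι ι F) *ᵥ (θ *ᵥ a) →
      s • (g : Matrix ι ι F) *ᵥ b + t • θ *ᵥ ((g : Matrix ι ι F) *ᵥ b) = (g : Matrix ι ι F) *ᵥ (θ *ᵥ b) := by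
    intro s t a b ha0 ha hb0 hb hab hn e
    have hab0 : a + b ≠ 0 := by
      intro h0
      apply hn
      have : b = (-1 : F) • a := by
        rw [neg_one_smul]
        exact eq_neg_of_add_eq_zero_right h0
      rw [this]
      exact Submodule.smul_mem _ _ (mem_KS_self a)
    have hsum : Q (a + b) = 0 := by
      rw [GO.Q_add Q, ha, hb, hab]
      ring
    obtain ⟨s', t', e'⟩ := mem_KS.1 (hcon b hb0 hb)
    obtain ⟨s'', t'', e''⟩ := mem_KS.1 (hcon _ hab0 hsum)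
    have ht : t ≠ 0 := by
      rintro rfl
      rw [zero_smul, add_zero] at e
      have h3 : (g : Matrix ι ι F) *ᵥ (θ *ᵥ a) = (g : Matrix ι ι F) *ᵥ (s • a) := by
        rw [Matrix.mulVec_smul, e]
      have h4 : θ *ᵥ a = s • a := by
        have := congrArg (fun w => ((g⁻¹ : GL ι F) : Matrix ι ι F) *ᵥ w) h3
        simpa only [inv_cancel'] using this
      exact ha0 (h.no_eig h4)
    have hind : (g : Matrix ι ι F) *ᵥ b ∉ KS θ ((g : Matrix ι ι F) *ᵥ a) := by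
      intro hm'
      obtain ⟨p, r, epr⟩ := mem_KS.1 hm'
      apply hn
      rw [mem_KS]
      refine ⟨p - r * s / t, r / t, ?_⟩
      have h3 : θ *ᵥ ((g : Matrix ι ι F) *ᵥ a) = t⁻¹ • ((g : Matrix ι ι F) *ᵥ (θ *ᵥ a) - s • (g : Matrix ι ι F) *ᵥ a) := by
        rw [← e, add_sub_cancel_left, smul_smul, inv_mul_cancel₀ ht, one_smul]
      have h4 : (g : Matrix ι ι F) *ᵥ ((p - r * s / t) • a + (r / t) • θ *ᵥ a) = (g : Matrix ι ι F) *ᵥ b := by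
        rw [← epr, h3, Matrix.mulVec_add, Matrix.mulVec_smul, Matrix.mulVec_smul]
        ext i
        simp only [Pi.add_apply, Pi.sub_apply, Pi.smul_apply, smul_eq_mul]
        field_simp
        ring
      have := congrArg (fun w => ((g⁻¹ : GL ι F) : Matrix ι ι F) *ᵥ w) h4
      simpa only [inv_cancel'] using this
    have hsumeq : (s'' - s) • (g : Matrix ι ι F) *ᵥ a + (t'' - t) • θ *ᵥ ((g : Matrix ι ι F) *ᵥ a) =
        (s' - s'') • (g : Matrix ι ι F) *ᵥ b + (t' - t'') • θ *ᵥ ((g : Matrix ι ι F) *ᵥ b) := by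
      have h5 : s'' • (g : Matrix ι ι F) *ᵥ (a + b) + t'' • θ *ᵥ ((g : Matrix ι ι F) *ᵥ (a + b)) =
          (s • (g : Matrix ι ι F) *ᵥ a + t • θ *ᵥ ((g : Matrix ι ι F) *ᵥ a)) + (s' • (g : Matrix ι ι F) *ᵥ b + t' • θ *ᵥ ((g : Matrix ι ι F) *ᵥ b)) := by
        rw [e'', e, e', Matrix.mulVec_add θ, Matrix.mulVec_add (g : Matrix ι ι F)]
      simp only [Matrix.mulVec_add] at h5
      ext i
      have := congrFun h5 i
      simp only [Pi.add_apply, Pi.sub_apply, Pi.smul_apply, smul_eq_mul] at this ⊢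
      linear_combination this
    obtain ⟨h6, h7, h8, h9⟩ := h.K_indep hind (mulVec_ne_zero g ha0) hsumeq
    have e1 : s' = s := by linear_combination h8 + h6
    have e2 : t' = t := by linear_combination h9 + h7
    rw [← e1, ← e2]
    exact e'
  have hall : ∀ b, Q b = 0 → s₀ • (g : Matrix ι ι F) *ᵥ b + t₀ • θ *ᵥ ((g : Matrix ι ι F) *ᵥ b) = (g : Matrix ι ι F) *ᵥ (θ *ᵥ b) := by
    intro b hb
    by_cases hb0 : b = 0
    · rw [hb0]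
      simp
    obtain ⟨c, hc0, hQc, hcS, hcT⟩ := SK.exists_sing_avoid hQ (Submodule.span F {a₀, b}) (KS θ a₀ ⊔ KS θ b) (by
      have h3 := fr2 (θ := θ) a₀ b
      have h6 := GO.finrank_span_two (F := F) a₀ b
      omega)
    have hca : GO.pl Q a₀ c = 0 := by
      rw [GO.pl_symm]
      exact hcS _ (GO.mem_span_two_l a₀ b)
    have hcb : GO.pl Q c b = 0 := hcS _ (GO.mem_span_two_r a₀ b)
    have hn1 : c ∉ KS θ a₀ := fun hm' => hcT (Submodule.mem_sup_left hm')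
    have hn2 : b ∉ KS θ c := fun hm' => hcT (Submodule.mem_sup_right (h.KS_symm hm' hb0))
    exact step hc0 hQc hb0 hb hcb hn2 (step ha₀0 hQa₀ hc0 hQc hca hn1 e₀)
  -- all vectors
  have hall2 : ∀ v : ι → F, s₀ • (g : Matrix ι ι F) *ᵥ v + t₀ • θ *ᵥ ((g : Matrix ι ι F) *ᵥ v) = (g : Matrix ι ι F) *ᵥ (θ *ᵥ v) := by
    intro v
    by_cases hv : Q v = 0
    · exact hall v hv
    have hv0 : v ∉ (⊥ : Submodule F (ι → F)) := by
      intro hm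
      rw [Submodule.mem_bot] at hm
      rw [hm] at hv
      exact hv (GO.Q_zero hQ)
    obtain ⟨p, hQp, -, hp⟩ := sing_sep hQ hv0 (by rw [finrank_bot]; omega) (Q v)
    have hsub : Q (v - p) = 0 := by
      rw [GO.Q_sub hQ, hQp, GO.pl_symm, hp]
      ring
    have e1 := hall p hQp
    have e2 := hall _ hsub
    have hv' : v = p + (v - p) := by abel
    rw [hv']
    simp only [Matrix.mulVec_add]
    rw [smul_add, smul_add, ← e1, ← e2]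
    abel
  refine ⟨s₀, t₀, fun y => ?_⟩
  have := hall2 (((g⁻¹ : GL ι F) : Matrix ι ι F) *ᵥ y)
  rw [inv_cancel] at this
  exact this.symm

end Fin

end Cfsg.Agent.H27.UO
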