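import Mathlib
import Cfsg.Prelude.Def_GeometricClasses
import Cfsg.Agent.Lib.H27.GeoUO2

/-!
# Unitary subgroups of orthogonal groups: maximality
-/

set_option autoImplicit false
set_option linter.unusedSectionVars false
set_option linter.unusedSimpArgs false
set_option linter.unusedVariables false

namespace Cfsg.Agent.H27.UO

open scoped Matrix MatrixGroups
open Cfsg Cfsg.Geo
open Cfsg.Agent.H27

variable {ι : Type} [Fintype ι] [DecidableEq ι] {F : Type*} [Field F] {Q : (ι → F) → F}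

/-- A field subalgebra of degree two is spanned by a non-scalar element and `1`. -/
theorem K_span [Nonempty ι] {K : Subalgebra F (Matrix ι ι F)} (hK : IsFieldSubalgebra 2 K) {s : Matrix ι ι F} (hs : s ∈ K)
    (hscal : ∀ c : F, s ≠ c • (1 : Matrix ι ι F)) : ∀ l ∈ K, ∃ a b : F, l = a • (1 : Matrix ι ι F) + b • s := by
  let e : Fin 2 → K := ![1, ⟨s, hs⟩]
  have hli : LinearIndependent F e := by
    rw [LinearIndependent.pair_iff]
    intro a t hst
    have h3 : a • (1 : Matrix ι ι F) + t • s = 0 := by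
      have := congrArg Subtype.val hst
      simpa [e] using this
    have ht : t = 0 := by
      by_contra ht
      apply hscal (-(a / t))
      have : s = t⁻¹ • (t • s) := by rw [smul_smul, inv_mul_cancel₀ ht, one_smul]
      rw [this, eq_neg_of_add_eq_zero_right h3, smul_neg, ← neg_smul, smul_smul]
      congr 1
      field_simp
    refine ⟨?_, ht⟩
    rw [ht, zero_smul, add_zero] at h3
    exact (smul_eq_zero.1 h3).resolve_right one_ne_zero
  have hsp := hli.span_eq_top_of_card_eq_finrank' (by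
    rw [hK.finrank_eq]
    simp)
  intro l hl
  have hmem : (⟨l, hl⟩ : K) ∈ Submodule.span F (Set.range e) := by
    rw [hsp]
    trivial
  have hr : Set.range e = {(1 : K), ⟨s, hs⟩} := by
    ext x
    simp [e, Fin.exists_fin_two, eq_comm]
    exact or_comm
  rw [hr] at hmem
  obtain ⟨a, t, hst⟩ := Submodule.mem_span_pair.1 hmem
  refine ⟨a, t, ?_⟩
  have := congrArg Subtype.val hst
  simpa using this.symm

/-- The structure attached to a field subalgebra. -/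
theorem exists_ux (hQ : IsNondegenerateQuadraticForm Q) [Nonempty ι] {K : Subalgebra F (Matrix ι ι F)} (hK : IsFieldSubalgebra 2 K)
    (hac : IsAdjointClosedFor (QuadraticMap.polar Q) K) (hnsa : ¬ IsSelfAdjointFor (QuadraticMap.polar Q) K)
    (hsc : ∀ k ∈ K, ∃ c : F, ∀ v : ι → F, Q (k *ᵥ v) = c * Q v) :
    ∃ (θ : Matrix ι ι F) (τ N : F), Ux Q θ τ N ∧ θ ∈ K ∧ ∀ k, k ∈ K ↔ ∃ s t : F, k = s • (1 : Matrix ι ι F) + t • θ := by
  classical
  have hpl : ∃ u v : ι → F, GO.pl Q u v ≠ 0 := by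
    have hx : (fun _ => 1 : ι → F) ≠ 0 := by
      intro h
      have := congrFun h (Classical.arbitrary ι)
      simp at this
    obtain ⟨-, z, hz⟩ := hQ.nondegenerate _ hx
    exact ⟨_, z, hz⟩
  obtain ⟨u₁, v₁, hu₁v₁⟩ := hpl
  have hadj : ∀ k ∈ K, ∃ k' ∈ K, ∀ u v : ι → F, GO.pl Q (k *ᵥ u) v = GO.pl Q u (k' *ᵥ v) := hac
  have hnsa' : ¬ ∀ k ∈ K, ∀ u v : ι → F, GO.pl Q (k *ᵥ u) v = GO.pl Q u (k *ᵥ v) := hnsa
  push Not at hnsa'
  obtain ⟨θ, hθK, u₀, v₀, hne⟩ := hnsa'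
  obtain ⟨k', hk'K, hkk'⟩ := hadj θ hθK
  -- self-adjoint elements are scalars
  have hself : ∀ s ∈ K, (∀ u v : ι → F, GO.pl Q (s *ᵥ u) v = GO.pl Q u (s *ᵥ v)) → ∃ c : F, s = c • (1 : Matrix ι ι F) := by
    intro s hs hsa
    by_contra hcon
    push Not at hcon
    obtain ⟨a, b, rfl⟩ := K_span hK hs hcon θ hθK
    apply hne
    simp only [Matrix.add_mulVec, Matrix.smul_mulVec, Matrix.one_mulVec, GO.pl_add_left hQ, GO.pl_add_right hQ,
      GO.pl_smul_left hQ, GO.pl_smul_right hQ]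
    rw [hsa]
  have hk's : ∀ u v : ι → F, GO.pl Q (k' *ᵥ u) v = GO.pl Q u (θ *ᵥ v) := by
    intro u v
    rw [GO.pl_symm, ← hkk', GO.pl_symm]
  obtain ⟨τ, hτ⟩ := hself (θ + k') (K.add_mem hθK hk'K) (by
    intro u v
    rw [Matrix.add_mulVec, Matrix.add_mulVec, GO.pl_add_left hQ, GO.pl_add_right hQ, hkk', hk's, add_comm])
  obtain ⟨N, hNdef⟩ := hself (θ * k') (K.mul_mem hθK hk'K) (by
    intro u v
    rw [← Matrix.mulVec_mulVec, ← Matrix.mulVec_mulVec, hkk', hk's])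
  have hk'eq : k' = τ • (1 : Matrix ι ι F) - θ := by
    rw [← hτ]
    abel
  have hsq : θ * θ = τ • θ - N • (1 : Matrix ι ι F) := by
    rw [hk'eq, mul_sub, mul_smul_comm, mul_one] at hNdef
    rw [← hNdef]
    abel
  have hsqv : ∀ x : ι → F, θ *ᵥ (θ *ᵥ x) = τ • θ *ᵥ x - N • x := by
    intro x
    rw [Matrix.mulVec_mulVec, hsq, Matrix.sub_mulVec, Matrix.smul_mulVec, Matrix.smul_mulVec, Matrix.one_mulVec]
  have hadjv : ∀ u v : ι → F, GO.pl Q (θ *ᵥ u) v = GO.pl Q u (τ • v - θ *ᵥ v) := by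
    intro u v
    rw [hkk', hk'eq, Matrix.sub_mulVec, Matrix.smul_mulVec, Matrix.one_mulVec]
  have hadj2 : ∀ u v : ι → F, GO.pl Q (θ *ᵥ u) (θ *ᵥ v) = N * GO.pl Q u v := by
    intro u v
    rw [hadjv, hsqv]
    have : τ • θ *ᵥ v - (τ • θ *ᵥ v - N • v) = N • v := by abel
    rw [this, GO.pl_smul_right hQ]
  -- non-scalar
  have hscal : ∀ c : F, θ ≠ c • (1 : Matrix ι ι F) := by
    rintro c rfl
    apply hne
    simp only [Matrix.smul_mulVec, Matrix.one_mulVec, GO.pl_smul_left hQ, GO.pl_smul_right hQ]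
  have hKd : ∀ k, k ∈ K ↔ ∃ s t : F, k = s • (1 : Matrix ι ι F) + t • θ := by
    intro l
    refine ⟨K_span hK hθK hscal l, ?_⟩
    rintro ⟨s, t, rfl⟩
    exact K.add_mem (K.smul_mem K.one_mem s) (K.smul_mem hθK t)
  -- the value on θ
  obtain ⟨c, hc⟩ := hsc θ hθK
  have hcN : c = N := by
    have h1 : GO.pl Q (θ *ᵥ u₁) (θ *ᵥ v₁) = c * GO.pl Q u₁ v₁ := by
      have : GO.pl Q (θ *ᵥ u₁) (θ *ᵥ v₁) = Q (θ *ᵥ u₁ + θ *ᵥ v₁) - Q (θ *ᵥ u₁) - Q (θ *ᵥ v₁) := rfl
      rw [this, ← Matrix.mulVec_add, hc, hc, hc]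
      have h2 : GO.pl Q u₁ v₁ = Q (u₁ + v₁) - Q u₁ - Q v₁ := rfl
      rw [h2]
      ring
    rw [hadj2] at h1
    exact (mul_right_cancel₀ hu₁v₁ h1).symm
  have hQθ : ∀ v : ι → F, Q (θ *ᵥ v) = N * Q v := by
    intro v
    rw [hc, hcN]
  -- the value on 1 + θ
  obtain ⟨c', hc'⟩ := hsc (1 + θ) (K.add_mem K.one_mem hθK)
  have hpl1 : ∀ v : ι → F, GO.pl Q v (θ *ᵥ v) = (c' - 1 - N) * Q v := by
    intro v
    have h1 := hc' v
    rw [Matrix.add_mulVec, Matrix.one_mulVec, GO.Q_add Q, hQθ] at h1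
    linear_combination h1
  have hτ' : c' - 1 - N = τ := by
    have h1 := hpl1 (u₁ + v₁)
    rw [Matrix.mulVec_add, GO.pl_add_left hQ, GO.pl_add_right hQ, GO.pl_add_right hQ, hpl1, hpl1, GO.Q_add Q] at h1
    have h2 : GO.pl Q v₁ (θ *ᵥ u₁) = τ * GO.pl Q u₁ v₁ - GO.pl Q u₁ (θ *ᵥ v₁) := by
      rw [GO.pl_symm, hadjv, GO.pl_sub_right hQ, GO.pl_smul_right hQ]
    rw [h2] at h1
    have h3 : (c' - 1 - N) * GO.pl Q u₁ v₁ = τ * GO.pl Q u₁ v₁ := by linear_combination - h1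
    exact mul_right_cancel₀ hu₁v₁ h3
  have hplθ : ∀ v : ι → F, GO.pl Q v (θ *ᵥ v) = τ * Q v := by
    intro v
    rw [hpl1, hτ']
  have hirr : ∀ s : F, s * s - τ * s + N ≠ 0 := by
    intro r hr
    have hne1 : θ - r • (1 : Matrix ι ι F) ≠ 0 := fun h0 => hscal r (sub_eq_zero.1 h0)
    have hmem : θ - r • (1 : Matrix ι ι F) ∈ K := K.sub_mem hθK (K.smul_mem K.one_mem r)
    obtain ⟨y, hy, hxy⟩ := hK.inv _ hmem hne1
    have hprod : (θ - r • (1 : Matrix ι ι F)) * (θ - (τ - r) • (1 : Matrix ι ι F)) = 0 := by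
      have hN : N = - (r * r) + τ * r := by linear_combination hr
      rw [sub_mul, mul_sub, mul_sub, hsq, hN]
      simp only [mul_smul_comm, smul_mul_assoc, mul_one, one_mul, smul_smul, sub_smul, add_smul, neg_smul, mul_sub, sub_mul]
      abel
    apply hscal (τ - r)
    have hyx : y * (θ - r • (1 : Matrix ι ι F)) = 1 := by rw [hK.comm y hy _ hmem, hxy]
    have h3 : θ - (τ - r) • (1 : Matrix ι ι F) = 0 := by
      calc θ - (τ - r) • (1 : Matrix ι ι F) = y * (θ - r • (1 : Matrix ι ι F)) * (θ - (τ - r) • (1 : Matrix ι ι F)) := by rw [hyx, one_mul]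
        _ = 0 := by rw [mul_assoc, hprod, mul_zero]
    exact sub_eq_zero.1 h3
  exact ⟨θ, τ, N, ⟨hsqv, hadjv, hQθ, hplθ, hirr⟩, hθK, hKd⟩

/-- Maximality of the unitary group. -/
theorem gu_omega_max [Fintype F] (hn : 14 ≤ Fintype.card ι) (hQ : IsNondegenerateQuadraticForm Q) {K : Subalgebra F (Matrix ι ι F)}
    (hK : IsFieldSubalgebra 2 K) (hac : IsAdjointClosedFor (QuadraticMap.polar Q) K)
    (hnsa : ¬ IsSelfAdjointFor (QuadraticMap.polar Q) K) (hsc : ∀ k ∈ K, ∃ c : F, ∀ v : ι → F, Q (k *ᵥ v) = c * Q v) :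
    IsMaximalIn (omegaGL Q) (subalgebraNormalizer K ⊓ omegaGL Q) := by
  classical
  haveI : Nonempty ι := Fintype.card_pos_iff.1 (by omega)
  obtain ⟨θ, τ, N, h, hθK, hKd⟩ := exists_ux hQ hK hac hnsa hsc
  have hN := h.N0
  -- criterion
  have hmat : ∀ (g : GL ι F) (s t : F), (∀ y, (g : Matrix ι ι F) *ᵥ (θ *ᵥ (((g⁻¹ : GL ι F) : Matrix ι ι F) *ᵥ y)) = s • y + t • θ *ᵥ y) →
      (g : Matrix ι ι F) * θ * ((g⁻¹ : GL ι F) : Matrix ι ι F) = s • (1 : Matrix ι ι F) + t • θ := by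
    intro g s t e
    apply Matrix.mulVec_injective
    funext y
    rw [Matrix.add_mulVec, Matrix.smul_mulVec, Matrix.smul_mulVec, Matrix.one_mulVec, ← e, ← Matrix.mulVec_mulVec,
      ← Matrix.mulVec_mulVec]
  have hx0 : ∃ x : ι → F, x ≠ 0 := by
    refine ⟨fun _ => 1, fun h => ?_⟩
    have := congrFun h (Classical.arbitrary ι)
    simp at this
  have hnorm : ∀ (g : GL ι F) (s t : F), (∀ y, (g : Matrix ι ι F) *ᵥ (θ *ᵥ (((g⁻¹ : GL ι F) : Matrix ι ι F) *ᵥ y)) = s • y + t • θ *ᵥ y) →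
      g ∈ subalgebraNormalizer K := by
    intro g s t e k
    have e' := hmat g s t e
    have ht : t ≠ 0 := by
      rintro rfl
      obtain ⟨x, hx⟩ := hx0
      rw [zero_smul, add_zero] at e'
      apply (mulVec_ne_zero g⁻¹ hx)
      apply h.no_eig (s := s)
      have h3 := congrArg (fun A => A *ᵥ x) e'
      simp only [Matrix.smul_mulVec, Matrix.one_mulVec, ← Matrix.mulVec_mulVec] at h3
      have h4 := congrArg (fun w => ((g⁻¹ : GL ι F) : Matrix ι ι F) *ᵥ w) h3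
      simp only [inv_cancel', Matrix.mulVec_smul] at h4
      exact h4
    have hginv : ((g⁻¹ : GL ι F) : Matrix ι ι F) * (g : Matrix ι ι F) = 1 := by simp
    have hgg : (g : Matrix ι ι F) * ((g⁻¹ : GL ι F) : Matrix ι ι F) = 1 := by simp
    constructor
    · intro hk
      obtain ⟨a, b, rfl⟩ := (hKd k).1 hk
      rw [hKd]
      refine ⟨a + b * s, b * t, ?_⟩
      have : (g : Matrix ι ι F) * (a • (1 : Matrix ι ι F) + b • θ) * ((g⁻¹ : GL ι F) : Matrix ι ι F) =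
          a • ((g : Matrix ι ι F) * ((g⁻¹ : GL ι F) : Matrix ι ι F)) + b • ((g : Matrix ι ι F) * θ * ((g⁻¹ : GL ι F) : Matrix ι ι F)) := by
        simp only [mul_add, add_mul, mul_smul_comm, smul_mul_assoc, mul_one]
      rw [this, hgg, e', add_smul, mul_smul, mul_smul, smul_add, smul_smul]
      simp only [mul_comm, smul_smul]
      abel
    · intro hk
      obtain ⟨a, b, hab⟩ := (hKd _).1 hk
      have h3 : ((g⁻¹ : GL ι F) : Matrix ι ι F) * θ * (g : Matrix ι ι F) = (- (s / t)) • (1 : Matrix ι ι F) + t⁻¹ • θ := by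
        have h4 : θ = (- (s / t)) • (1 : Matrix ι ι F) + t⁻¹ • ((g : Matrix ι ι F) * θ * ((g⁻¹ : GL ι F) : Matrix ι ι F)) := by
          rw [e', smul_add, smul_smul, smul_smul, inv_mul_cancel₀ ht, one_smul, ← add_assoc, ← add_smul]
          have : - (s / t) + t⁻¹ * s = 0 := by
            field_simp
            ring
          rw [this, zero_smul, zero_add]
        conv_lhs => rw [h4]
        simp only [mul_add, add_mul, mul_smul_comm, smul_mul_assoc, mul_one]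
        rw [hginv]
        congr 2
        calc ((g⁻¹ : GL ι F) : Matrix ι ι F) * ((g : Matrix ι ι F) * θ * ((g⁻¹ : GL ι F) : Matrix ι ι F)) * (g : Matrix ι ι F)
            = (((g⁻¹ : GL ι F) : Matrix ι ι F) * (g : Matrix ι ι F)) * θ * (((g⁻¹ : GL ι F) : Matrix ι ι F) * (g : Matrix ι ι F)) := by
              simp only [mul_assoc]
          _ = θ := by rw [hginv, one_mul, mul_one]
      have h5 : k = ((g⁻¹ : GL ι F) : Matrix ι ι F) * ((g : Matrix ι ι F) * k * ((g⁻¹ : GL ι F) : Matrix ι ι F)) * (g : Matrix ι ι F) := by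
        calc k = (((g⁻¹ : GL ι F) : Matrix ι ι F) * (g : Matrix ι ι F)) * k * (((g⁻¹ : GL ι F) : Matrix ι ι F) * (g : Matrix ι ι F)) := by
              rw [hginv, one_mul, mul_one]
          _ = _ := by simp only [mul_assoc]
      rw [h5, hab, hKd]
      refine ⟨a + b * (- (s / t)), b * t⁻¹, ?_⟩
      have : ((g⁻¹ : GL ι F) : Matrix ι ι F) * (a • (1 : Matrix ι ι F) + b • θ) * (g : Matrix ι ι F) =
          a • (((g⁻¹ : GL ι F) : Matrix ι ι F) * (g : Matrix ι ι F)) + b • (((g⁻¹ : GL ι F) : Matrix ι ι F) * θ * (g : Matrix ι ι F)) := by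
        simp only [mul_add, add_mul, mul_smul_comm, smul_mul_assoc, mul_one]
      rw [this, hginv, h3, add_smul, mul_smul, mul_smul, smul_add, smul_smul]
      simp only [mul_comm, smul_smul]
      abel
  have hH0 : ∀ k ∈ omegaGL Q, (∀ y, (k : Matrix ι ι F) *ᵥ (θ *ᵥ y) = θ *ᵥ ((k : Matrix ι ι F) *ᵥ y)) →
      k ∈ subalgebraNormalizer K ⊓ omegaGL Q := by
    intro k hk hc
    refine ⟨hnorm k 0 1 (fun y => ?_), hk⟩
    rw [hc, inv_cancel]
    simp
  have hnorm' : ∀ g ∈ subalgebraNormalizer K, ∃ s t : F, ∀ y, (g : Matrix ι ι F) *ᵥ (θ *ᵥ (((g⁻¹ : GL ι F) : Matrix ι ι F) *ᵥ y)) = s • y + t • θ *ᵥ y := by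
    intro g hg
    obtain ⟨s, t, e⟩ := (hKd _).1 ((hg θ).1 hθK)
    refine ⟨s, t, fun y => ?_⟩
    rw [Matrix.mulVec_mulVec, Matrix.mulVec_mulVec, e, Matrix.add_mulVec, Matrix.smul_mulVec, Matrix.smul_mulVec, Matrix.one_mulVec]
  constructor
  · refine lt_of_le_of_ne inf_le_right fun heq => ?_
    obtain ⟨a, ha0, hQa, -, -⟩ := SK.exists_sing_avoid hQ ⊥ ⊥ (by rw [finrank_bot]; omega)
    have hn1 : θ *ᵥ a ∉ Submodule.span F {a} := by
      intro hm'
      obtain ⟨c, hc⟩ := Submodule.mem_span_singleton.1 hm'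
      exact ha0 (h.no_eig hc.symm)
    obtain ⟨d, hQd, hdS, hdp⟩ := sing_sep hQ hn1 (by
      have := GO.finrank_span_one (F := F) a
      omega) 1
    have hda : GO.pl Q d a = 0 := hdS a (Submodule.mem_span_singleton_self a)
    obtain ⟨g, hgΩ, hgx⟩ := GO.RI_omega hQ (by omega) hQa hQd (by rw [GO.pl_symm, hda])
    have hmem : g ∈ subalgebraNormalizer K := by
      have : g ∈ subalgebraNormalizer K ⊓ omegaGL Q := by
        rw [heq]
        exact hgΩ
      exact this.1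
    obtain ⟨s, t, e⟩ := hnorm' _ hmem
    -- the test vector
    obtain ⟨y₁, hy₁0, -, hy₁S, -⟩ := SK.exists_sing_avoid hQ (KS θ a ⊔ KS θ d) ⊥ (by
      have := fr2 (θ := θ) a d
      rw [finrank_bot]
      omega)
    have p1 : GO.pl Q y₁ a = 0 := hy₁S _ (Submodule.mem_sup_left (mem_KS_self a))
    have p2 : GO.pl Q y₁ (θ *ᵥ a) = 0 := hy₁S _ (Submodule.mem_sup_left (mem_KS_th a))
    have p3 : GO.pl Q y₁ d = 0 := hy₁S _ (Submodule.mem_sup_right (mem_KS_self d))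
    have p4 : GO.pl Q y₁ (θ *ᵥ d) = 0 := hy₁S _ (Submodule.mem_sup_right (mem_KS_th d))
    have hfix : (g : Matrix ι ι F) *ᵥ y₁ = y₁ := by
      rw [hgx, p1, p3]
      simp
    have hfix' : ((g⁻¹ : GL ι F) : Matrix ι ι F) *ᵥ y₁ = y₁ := GO.inv_mulVec_of g hfix
    have hfix2 : (g : Matrix ι ι F) *ᵥ (θ *ᵥ y₁) = θ *ᵥ y₁ := by
      rw [hgx, h.perp_th hQ p1 p2, h.perp_th hQ p3 p4]
      simp
    have e1 := e y₁
    rw [hfix', hfix2] at e1
    have ht1 : t = 1 := by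
      by_contra ht
      have h1t : (1 : F) - t ≠ 0 := sub_ne_zero.2 (Ne.symm ht)
      apply hy₁0
      apply h.no_eig (s := s / (1 - t))
      have h3 : (1 - t) • θ *ᵥ y₁ = s • y₁ := by
        rw [sub_smul, one_smul, sub_eq_iff_eq_add]
        rw [← e1]
      have h4 : θ *ᵥ y₁ = (1 - t)⁻¹ • ((1 - t) • θ *ᵥ y₁) := by rw [smul_smul, inv_mul_cancel₀ h1t, one_smul]
      rw [h4, h3, smul_smul, div_eq_inv_mul]
    have hs0 : s = 0 := by
      rw [ht1, one_smul] at e1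
      have h3 : s • y₁ = 0 := by
        have := e1
        exact left_eq_add.1 (by rw [add_comm]; exact this)
      exact (smul_eq_zero.1 h3).resolve_right hy₁0
    -- the contradiction
    have hga : (g : Matrix ι ι F) *ᵥ a = a := by
      rw [hgx, GO.pl_self hQ, hQa, GO.pl_symm, hda]
      simp
    have hg' : ((g⁻¹ : GL ι F) : Matrix ι ι F) *ᵥ a = a := GO.inv_mulVec_of g hga
    have e2 := e a
    rw [hg', ht1, hs0, zero_smul, zero_add, one_smul, hgx, GO.pl_symm (θ *ᵥ a) d, hdp, GO.pl_symm (θ *ᵥ a) a, h.plθ, hQa,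
      mul_zero, zero_smul, sub_zero, one_smul] at e2
    apply ha0
    have : a = θ *ᵥ a + a - θ *ᵥ a := by abel
    rw [this, e2, sub_self]
  · intro M hHM hMΩ
    by_cases hMH : M ≤ subalgebraNormalizer K ⊓ omegaGL Q
    · left
      exact le_antisymm hMH hHM
    right
    obtain ⟨g, hgM, hgH⟩ := SetLike.not_le_iff_exists.1 hMH
    have hg := hMΩ hgM
    have hne : ¬ ∃ s t : F, ∀ y, (g : Matrix ι ι F) *ᵥ (θ *ᵥ (((g⁻¹ : GL ι F) : Matrix ι ι F) *ᵥ y)) = s • y + t • θ *ᵥ y := by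
      rintro ⟨s, t, e⟩
      exact hgH ⟨hnorm g s t e, hg⟩
    obtain ⟨a, ha0, hQa, hbad⟩ := h.exists_bad hQ hn hne
    have hH : ∀ k ∈ omegaGL Q, (∀ y, (k : Matrix ι ι F) *ᵥ (θ *ᵥ y) = θ *ᵥ ((k : Matrix ι ι F) *ᵥ y)) → k ∈ M :=
      fun k hk hc => hHM (hH0 k hk hc)
    have hMO : M ≤ isometryGroup F Q := hMΩ.trans GO.omega_le_isom
    obtain ⟨x, z, hx0, hQx, hQz, hxz, hxz', hzn, hr⟩ := h.exists_root hQ hn hH hMO hgM ha0 hQa hbad
    exact le_antisymm hMΩ (GO.omega_le_of_roots hQ (by omega) (fun a d ha hd had =>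
      h.all_roots hQ hn hH hx0 hQx hQz hxz hzn hr a d ha hd had))

end Cfsg.Agent.H27.UO
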