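import Cfsg.Agent.Lib.H27.GolayD

/-!
# Lists of permutation codes, and orbit-stabiliser steps for subgroups of the point permutations
-/

set_option autoImplicit false
set_option maxRecDepth 100000

namespace Cfsg.Agent.H27.Golay

open Cfsg
open scoped Pointwise

/-- Pairwise distinct as permutations. -/
def distL (L : List ℕ) : Prop := L.Pairwise fun a b => sameCode a b = false

instance (L : List ℕ) : Decidable (distL L) := by
  unfold distL
  infer_instance

theorem nodup_map_P {L : List ℕ} (h : distL L) (hok : ∀ π ∈ L, permOK π = true) : (L.map P).Nodup := by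
  rw [List.Nodup, List.pairwise_map]
  have h2 : L.Pairwise (fun a b => sameCode a b = false ∧ a ∈ L ∧ b ∈ L) :=
    List.Pairwise.and_mem.1 h |>.imp (fun {a b} h => ⟨h.2.2, h.1, h.2.1⟩)
  refine h2.imp ?_
  rintro a b ⟨h3, h4, h5⟩ heq
  rw [sameCode_of_P_eq (hok a h4) (hok b h5) heq] at h3
  cases h3

theorem ncard_P {L : List ℕ} (h : distL L) (hok : ∀ π ∈ L, permOK π = true) :
    {g | ∃ π ∈ L, g = P π}.ncard = L.length := by
  classical
  have : {g | ∃ π ∈ L, g = P π} = ((L.map P).toFinset : Set (Equiv.Perm GolayPt)) := by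
    ext g
    simp only [Set.mem_ofPred_eq, Finset.mem_coe, List.mem_toFinset, List.mem_map]
    constructor
    · rintro ⟨π, h1, rfl⟩
      exact ⟨π, h1, rfl⟩
    · rintro ⟨π, h1, rfl⟩
      exact ⟨π, h1, rfl⟩
  rw [this, Set.ncard_coe_finset, List.toFinset_card_of_nodup (nodup_map_P h hok), List.length_map]

/-- A subgroup whose underlying set is exactly listed has the size of the list. -/
theorem card_of_list {H : Subgroup (Equiv.Perm GolayPt)} {L : List ℕ} (h : distL L)
    (hok : ∀ π ∈ L, permOK π = true) (hH : ∀ g, g ∈ H ↔ ∃ π ∈ L, g = P π) :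
    Nat.card ↥H = L.length := by
  rw [← ncard_P h hok, ← Nat.card_coe_set_eq]
  have : {g | ∃ π ∈ L, g = P π} = (H : Set (Equiv.Perm GolayPt)) := by
    ext g
    exact (hH g).symm
  rw [this]
  rfl

/-- Orbit-stabiliser for a subgroup of the point permutations. -/
theorem card_step (H : Subgroup (Equiv.Perm GolayPt)) (p : GolayPt) (S : Finset GolayPt)
    (h1 : ∀ y ∈ S, ∃ g ∈ H, g p = y) (h2 : ∀ g ∈ H, g p ∈ S) :
    Nat.card ↥H = S.card * Nat.card ↥(H ⊓ MulAction.stabilizer (Equiv.Perm GolayPt) p) := by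
  classical
  have horb : MulAction.orbit H p = (S : Set GolayPt) := by
    ext y
    constructor
    · rintro ⟨g, rfl⟩
      exact h2 g g.2
    · intro hy
      obtain ⟨g, hg, rfl⟩ := h1 y hy
      exact ⟨⟨g, hg⟩, rfl⟩
  have hos := Cfsg.Agent.H27.nat_card_orbit_mul_stabilizer H p
  rw [horb] at hos
  have hcardS : Nat.card (S : Set GolayPt) = S.card := by simp
  rw [hcardS] at hos
  rw [← hos]
  congr 1
  apply Nat.card_congr
  exact {
    toFun := fun x => ⟨x.1.1, ⟨x.1.2, x.2⟩⟩
    invFun := fun x => ⟨⟨x.1, x.2.1⟩, x.2.2⟩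
    left_inv := fun x => rfl
    right_inv := fun x => rfl }

/-- Commuting with a code: test on a function. -/
def commF (e : ℕ → ℕ) (c : ℕ) : Bool :=
  allBelow (fun i => Nat.beq (e (pa c i)) (pa c (e i))) 24

theorem commF_of {g : Equiv.Perm GolayPt} {e : ℕ → ℕ} (hr : Rep g e) {c : ℕ} (hok : permOK c = true)
    (hc : g * P c = P c * g) : commF e c = true := by
  apply allBelow_of
  intro i hi
  have h1 : g (P c (pt i)) = P c (g (pt i)) := by
    have := congrArg (fun f : Equiv.Perm GolayPt => f (pt i)) hc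
    simpa [Equiv.Perm.mul_apply] using this
  rw [P_pt hok hi, (hr _ (pa_lt hok hi)).2, (hr i hi).2, P_pt hok (hr i hi).1] at h1
  have h2 := congrArg idx h1
  rw [idx_pt' (hr _ (pa_lt hok hi)).1, idx_pt' (pa_lt hok (hr i hi).1)] at h2
  rw [h2]
  exact Nat.beq_refl _

/-- Test of a code being in `M24` and commuting with another one. -/
def commC (c π : ℕ) : Bool := isM24 π && Nat.beq (pcomp π c) (pcomp c π)

theorem commC_spec {c π : ℕ} (hc : permOK c = true) (h : commC c π = true) :
    isM24 π = true ∧ P π ∈ M24 ∧ permOK π = true ∧ P π * P c = P c * P π := by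
  rw [commC, Bool.and_eq_true] at h
  obtain ⟨h1, h2⟩ := h
  have hok := isM24_permOK h1
  refine ⟨h1, P_mem_M24 h1, hok, ?_⟩
  rw [← P_pcomp hok hc, ← P_pcomp hc hok, Nat.eq_of_beq_eq_true h2]

end Cfsg.Agent.H27.Golay
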