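import Mathlib
import Cfsg.Agent.Lib.H09.RankAlt

set_option autoImplicit false

namespace Cfsg.Agent.H27.JT

open Module

variable {F : Type*} [Field F] {V : Type*} [AddCommGroup V] [Module F V] [FiniteDimensional F V]

/-- the kernel dimensions of powers of `T` on `W` -/
noncomputable def ak (T : V →ₗ[F] V) (W : Submodule F V) (k : ℕ) : ℤ :=
  (finrank F ↥(W ⊓ LinearMap.ker (T ^ k)) : ℕ)

lemma map_rank (T : V →ₗ[F] V) (K : Submodule F V) :
    finrank F ↥(K.map T) + finrank F ↥(K ⊓ LinearMap.ker T) = finrank F ↥K := by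
  have h := LinearMap.finrank_range_add_finrank_ker (T.domRestrict K)
  rw [LinearMap.range_domRestrict, LinearMap.ker_domRestrict] at h
  have h2 : finrank F ↥((LinearMap.ker T).comap K.subtype) = finrank F ↥(K ⊓ LinearMap.ker T) := by
    have he : (LinearMap.ker T).comap K.subtype = (K ⊓ LinearMap.ker T).comap K.subtype := by
      ext v
      simp
    rw [he]
    exact LinearEquiv.finrank_eq (Submodule.comapSubtypeEquivOfLe inf_le_left)
  rw [h2] at h
  exact h

lemma pow_succ_apply' (T : V →ₗ[F] V) (k : ℕ) (v : V) : (T ^ (k + 1)) v = (T ^ k) (T v) := by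
  rw [pow_succ]
  rfl

lemma pow_succ_apply'' (T : V →ₗ[F] V) (k : ℕ) (v : V) : (T ^ (k + 1)) v = T ((T ^ k) v) := by
  rw [pow_succ']
  rfl

lemma pow_mem {T : V →ₗ[F] V} {W : Submodule F V} (hT : ∀ w ∈ W, T w ∈ W) (k : ℕ) : ∀ w ∈ W, (T ^ k) w ∈ W := by
  induction k with
  | zero => intro w hw; simpa using hw
  | succ k ih =>
    intro w hw
    rw [pow_succ_apply'']
    exact hT _ (ih w hw)

theorem concave (T : V →ₗ[F] V) (W : Submodule F V) (hT : ∀ w ∈ W, T w ∈ W) (k : ℕ) :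
    ak T W k + ak T W (k + 2) ≤ 2 * ak T W (k + 1) := by
  set K : ℕ → Submodule F V := fun j => W ⊓ LinearMap.ker (T ^ j) with hK
  have hmemK : ∀ j v, v ∈ K j ↔ v ∈ W ∧ (T ^ j) v = 0 := by
    intro j v
    simp [hK]
  set X := (K (k + 2)).map T with hX
  have hXY : X ⊔ K k ≤ K (k + 1) := by
    apply sup_le
    · rintro u ⟨v, hv, rfl⟩
      obtain ⟨h1, h2⟩ := (hmemK _ _).1 hv
      refine (hmemK _ _).2 ⟨hT _ h1, ?_⟩
      rw [← pow_succ_apply']
      exact h2
    · intro u hu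
      obtain ⟨h1, h2⟩ := (hmemK _ _).1 hu
      refine (hmemK _ _).2 ⟨h1, ?_⟩
      rw [pow_succ_apply'', h2, map_zero]
  have hinf : X ⊓ K k = (K (k + 1)).map T := by
    apply le_antisymm
    · rintro u ⟨⟨v, hv, rfl⟩, hu⟩
      obtain ⟨h1, h2⟩ := (hmemK _ _).1 hv
      obtain ⟨h3, h4⟩ := (hmemK _ _).1 hu
      refine ⟨v, (hmemK _ _).2 ⟨h1, ?_⟩, rfl⟩
      rw [pow_succ_apply']
      exact h4
    · rintro u ⟨v, hv, rfl⟩
      obtain ⟨h1, h2⟩ := (hmemK _ _).1 hv
      refine ⟨⟨v, (hmemK _ _).2 ⟨h1, ?_⟩, rfl⟩, (hmemK _ _).2 ⟨hT _ h1, ?_⟩⟩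
      · rw [pow_succ_apply'', h2, map_zero]
      · rw [← pow_succ_apply']
        exact h2
  have hker : ∀ j, K (j + 1) ⊓ LinearMap.ker T = K 1 := by
    intro j
    ext v
    constructor
    · rintro ⟨hv, hv2⟩
      obtain ⟨h1, -⟩ := (hmemK _ _).1 hv
      refine (hmemK _ _).2 ⟨h1, ?_⟩
      simpa using hv2
    · intro hv
      obtain ⟨h1, h2⟩ := (hmemK _ _).1 hv
      have h3 : T v = 0 := by simpa using h2
      refine ⟨(hmemK _ _).2 ⟨h1, ?_⟩, h3⟩
      rw [pow_succ_apply', h3, map_zero]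
  have e1 := map_rank T (K (k + 2))
  have e2 := map_rank T (K (k + 1))
  rw [show K (k + 2) ⊓ LinearMap.ker T = K 1 from hker (k + 1)] at e1
  rw [hker k] at e2
  have e3 := Submodule.finrank_sup_add_finrank_inf_eq X (K k)
  rw [hinf] at e3
  have e4 := Submodule.finrank_mono hXY
  simp only [ak]
  change ((finrank F ↥(K k) : ℕ) : ℤ) + (finrank F ↥(K (k + 2)) : ℕ) ≤ 2 * (finrank F ↥(K (k + 1)) : ℕ)
  have e1' : finrank F ↥X + finrank F ↥(K 1) = finrank F ↥(K (k + 2)) := e1
  omega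

/-- the multiplicity of the part `e + 1` -/
noncomputable def mlt (T : V →ₗ[F] V) (W : Submodule F V) (e : ℕ) : ℤ :=
  2 * ak T W (e + 1) - ak T W e - ak T W (e + 2)

lemma mlt_nonneg (T : V →ₗ[F] V) (W : Submodule F V) (hT : ∀ w ∈ W, T w ∈ W) (e : ℕ) : 0 ≤ mlt T W e := by
  have := concave T W hT e
  simp only [mlt]
  omega

lemma ak_zero (T : V →ₗ[F] V) (W : Submodule F V) : ak T W 0 = 0 := by
  have h : LinearMap.ker ((1 : V →ₗ[F] V)) = ⊥ := LinearMap.ker_id
  simp [ak, h]

lemma ak_of_nil {T : V →ₗ[F] V} {W : Submodule F V} {n : ℕ} (hn : ∀ w ∈ W, (T ^ n) w = 0) {k : ℕ} (hk : n ≤ k) :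
    ak T W k = finrank F ↥W := by
  have : W ⊓ LinearMap.ker (T ^ k) = W := by
    apply inf_eq_left.2
    intro w hw
    obtain ⟨j, rfl⟩ := Nat.exists_eq_add_of_le hk
    rw [LinearMap.mem_ker, add_comm, pow_add]
    change (T ^ j) ((T ^ n) w) = 0
    rw [hn w hw, map_zero]
  unfold ak
  rw [this]

lemma sum_weighted (a : ℕ → ℤ) (n : ℕ) :
    ∑ e ∈ Finset.range n, ((e : ℤ) + 1) * (2 * a (e + 1) - a e - a (e + 2)) =
      a n - a 0 - n * (a (n + 1) - a n) := by
  induction n with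
  | zero => simp
  | succ n ih =>
    rw [Finset.sum_range_succ, ih]
    push_cast
    ring

theorem sum_mlt (T : V →ₗ[F] V) (W : Submodule F V) {n : ℕ} (hn : ∀ w ∈ W, (T ^ n) w = 0) :
    ∑ e ∈ Finset.range n, ((e : ℤ) + 1) * mlt T W e = finrank F ↥W := by
  simp only [mlt]
  rw [sum_weighted, ak_of_nil hn le_rfl, ak_of_nil hn (Nat.le_succ n), ak_zero]
  ring

theorem ak_split (T : V →ₗ[F] V) {W W' : Submodule F V} (hc : IsCompl W W') (hT : ∀ w ∈ W, T w ∈ W)
    (hT' : ∀ w ∈ W', T w ∈ W') (k : ℕ) :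
    ak T ⊤ k = ak T W k + ak T W' k := by
  set K := LinearMap.ker (T ^ k) with hK
  have hsup : (W ⊓ K) ⊔ (W' ⊓ K) = K := by
    apply le_antisymm
    · exact sup_le inf_le_right inf_le_right
    · intro v hv
      have hv' : v ∈ W ⊔ W' := by rw [hc.sup_eq_top]; trivial
      obtain ⟨w, hw, w', hw', rfl⟩ := Submodule.mem_sup.1 hv'
      have h0 : (T ^ k) w + (T ^ k) w' = 0 := by
        rw [← map_add]
        exact hv
      have h1 : (T ^ k) w ∈ W := pow_mem hT k w hw
      have h2 : (T ^ k) w' ∈ W' := pow_mem hT' k w' hw'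
      have h3 : (T ^ k) w ∈ W' := by
        rw [eq_neg_of_add_eq_zero_left h0]
        exact W'.neg_mem h2
      have h4 : (T ^ k) w = 0 := by
        have : (T ^ k) w ∈ W ⊓ W' := ⟨h1, h3⟩
        rw [hc.inf_eq_bot] at this
        simpa using this
      have h5 : (T ^ k) w' = 0 := by
        rw [h4, zero_add] at h0
        exact h0
      exact Submodule.add_mem_sup ⟨hw, h4⟩ ⟨hw', h5⟩
  have hinf : (W ⊓ K) ⊓ (W' ⊓ K) = ⊥ := by
    rw [eq_bot_iff]
    rintro v ⟨⟨h1, -⟩, ⟨h2, -⟩⟩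
    have : v ∈ W ⊓ W' := ⟨h1, h2⟩
    rwa [hc.inf_eq_bot] at this
  have e := Submodule.finrank_sup_add_finrank_inf_eq (W ⊓ K) (W' ⊓ K)
  rw [hsup, hinf] at e
  simp only [finrank_bot, add_zero] at e
  change ((finrank F ↥(⊤ ⊓ K) : ℕ) : ℤ) = ((finrank F ↥(W ⊓ K) : ℕ) : ℤ) + ((finrank F ↥(W' ⊓ K) : ℕ) : ℤ)
  rw [top_inf_eq, e]
  push_cast
  ring

/-- the per-part identity -/
lemma min_identity (f e : ℕ) :
    (2 * (min f (e + 1) : ℕ) - (min f e : ℕ) - (min f (e + 2) : ℕ) : ℤ) = if f = e + 1 then 1 else 0 := by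
  split_ifs with h
  · subst h
    simp
    omega
  · omega

lemma count_eq_sum (μ : Multiset ℕ) (e : ℕ) :
    (2 * ((μ.map (fun f => min f (e + 1))).sum : ℕ) - ((μ.map (fun f => min f e)).sum : ℕ) - ((μ.map (fun f => min f (e + 2))).sum : ℕ) : ℤ)
      = μ.count (e + 1) := by
  induction μ using Multiset.induction_on with
  | empty => simp
  | cons f s ih =>
    simp only [Multiset.map_cons, Multiset.sum_cons, Multiset.count_cons]
    have h1 := min_identity f e
    have h2 : (((if e + 1 = f then 1 else 0 : ℕ)) : ℤ) = if f = e + 1 then 1 else 0 := by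
      by_cases hf : f = e + 1
      · subst hf
        simp
      · have : ¬ e + 1 = f := fun h => hf h.symm
        simp [hf, this]
    rw [Nat.cast_add, Nat.cast_add, Nat.cast_add, Nat.cast_add, h2, ← h1, ← ih]
    ring

/-- the multiset built from multiplicities -/
noncomputable def mkMS (c : ℕ → ℕ) (n : ℕ) : Multiset ℕ :=
  ∑ e ∈ Finset.range n, Multiset.replicate (c e) (e + 1)

lemma count_mkMS (c : ℕ → ℕ) (n e : ℕ) : (mkMS c n).count (e + 1) = if e < n then c e else 0 := by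
  induction n with
  | zero => simp [mkMS]
  | succ n ih =>
    have : mkMS c (n + 1) = mkMS c n + Multiset.replicate (c n) (n + 1) := by
      simp only [mkMS, Finset.sum_range_succ]
    rw [this, Multiset.count_add, ih, Multiset.count_replicate]
    by_cases h : e = n
    · subst h
      simp
    · have h2 : e < n + 1 ↔ e < n := by omega
      have h3 : ¬ n = e := by omega
      simp [h2, h3]

lemma count_zero_mkMS (c : ℕ → ℕ) (n : ℕ) : (mkMS c n).count 0 = 0 := by
  induction n with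
  | zero => simp [mkMS]
  | succ n ih =>
    have : mkMS c (n + 1) = mkMS c n + Multiset.replicate (c n) (n + 1) := by
      simp only [mkMS, Finset.sum_range_succ]
    rw [this, Multiset.count_add, ih, Multiset.count_replicate]
    simp

lemma sum_mkMS (c : ℕ → ℕ) (n : ℕ) : (mkMS c n).sum = ∑ e ∈ Finset.range n, (e + 1) * c e := by
  induction n with
  | zero => simp [mkMS]
  | succ n ih =>
    have : mkMS c (n + 1) = mkMS c n + Multiset.replicate (c n) (n + 1) := by
      simp only [mkMS, Finset.sum_range_succ]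
    rw [this, Multiset.sum_add, ih, Finset.sum_range_succ, Multiset.sum_replicate]
    simp [mul_comm]

/-- **the sub-partition attached to an invariant complemented subspace** -/
theorem exists_sub (T : V →ₗ[F] V) {W W' : Submodule F V} (hc : IsCompl W W') (hT : ∀ w ∈ W, T w ∈ W)
    (hT' : ∀ w ∈ W', T w ∈ W') {n : ℕ} (hn : ∀ v, (T ^ n) v = 0) (μ : Multiset ℕ)
    (hμ : ∀ k, finrank F ↥(LinearMap.ker (T ^ k)) = (μ.map (fun f => min f k)).sum) :
    ∃ ν : Multiset ℕ, ν ≤ μ ∧ ν.sum = finrank F ↥W ∧ ν.count 0 = 0 ∧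
      ∀ e, (ν.count (e + 1) : ℤ) = mlt T W e := by
  classical
  have hnn := mlt_nonneg T W hT
  have hnn' := mlt_nonneg T W' hT'
  have hVk : ∀ k, ak T ⊤ k = ((μ.map (fun f => min f k)).sum : ℕ) := by
    intro k
    unfold ak
    rw [top_inf_eq, hμ]
  have hmV : ∀ e, mlt T ⊤ e = μ.count (e + 1) := by
    intro e
    simp only [mlt, hVk]
    exact count_eq_sum μ e
  have hmS : ∀ e, mlt T ⊤ e = mlt T W e + mlt T W' e := by
    intro e
    simp only [mlt, ak_split T hc hT hT']
    ring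
  have hWn : ∀ w ∈ W, (T ^ n) w = 0 := fun w _ => hn w
  have hbig : ∀ e, n ≤ e → mlt T W e = 0 := by
    intro e he
    simp only [mlt]
    rw [ak_of_nil hWn (show n ≤ e + 1 by omega), ak_of_nil hWn he, ak_of_nil hWn (show n ≤ e + 2 by omega)]
    ring
  set c : ℕ → ℕ := fun e => (mlt T W e).toNat with hc'
  have hcz : ∀ e, (c e : ℤ) = mlt T W e := fun e => Int.toNat_of_nonneg (hnn e)
  refine ⟨mkMS c n, ?_, ?_, count_zero_mkMS c n, ?_⟩
  · rw [Multiset.le_iff_count]
    intro a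
    rcases a with _ | e
    · rw [count_zero_mkMS]
      exact Nat.zero_le _
    · rw [count_mkMS]
      split_ifs
      · have h1 := hmV e
        have h2 := hmS e
        have h3 := hnn' e
        have h4 := hcz e
        omega
      · exact Nat.zero_le _
  · rw [sum_mkMS]
    have h := sum_mlt T W hWn
    have : ((∑ e ∈ Finset.range n, (e + 1) * c e : ℕ) : ℤ) = finrank F ↥W := by
      rw [← h]
      push_cast
      apply Finset.sum_congr rfl
      intro e _
      rw [hcz]
    exact_mod_cast this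
  · intro e
    rw [count_mkMS]
    split_ifs with he
    · exact hcz e
    · push Not at he
      rw [hbig e he]
      simp

end Cfsg.Agent.H27.JT
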