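import Mathlib
import Cfsg.Agent.Lib.H09.RankAlt
import Cfsg.Agent.Lib.H27.JT1

set_option autoImplicit false

namespace Cfsg.Agent.H27.JT

open Module

variable {F : Type*} [Field F] {V : Type*} [AddCommGroup V] [Module F V] [FiniteDimensional F V]

section parity

variable (B : LinearMap.BilinForm F V) (hsymm : ∀ u v, B u v = B v u)
  (x y : V →ₗ[F] V) (hxy : x * y = 1) (hyx : y * x = 1) (hiso : ∀ u v, B (x u) (x v) = B u v)

include hxy in
lemma xy_app (u : V) : x (y u) = u := by
  have := congrArg (fun f : V →ₗ[F] V => f u) hxy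
  simpa using this

include hyx in
lemma yx_app (u : V) : y (x u) = u := by
  have := congrArg (fun f : V →ₗ[F] V => f u) hyx
  simpa using this

include hxy hiso in
lemma adj_x (u v : V) : B (x u) v = B u (y v) := by
  conv_lhs => rw [← xy_app x y hxy v]
  exact hiso _ _

include hyx hxy hiso in
lemma adj_y (u v : V) : B (y u) v = B u (x v) := by
  have := hiso (y u) v
  rw [xy_app x y hxy] at this
  exact this.symm

include hxy hyx hiso in
lemma adj_S (u v : V) : B ((x - y) u) v = - B u ((x - y) v) := by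
  simp only [LinearMap.sub_apply, map_sub, adj_x B x y hxy hiso, adj_y B x y hxy hyx hiso]
  ring

include hxy hyx hiso in
lemma adj_S_pow (k : ℕ) (u v : V) : B (((x - y) ^ k) u) v = (-1) ^ k * B u (((x - y) ^ k) v) := by
  induction k generalizing u v with
  | zero => simp
  | succ k ih =>
    rw [pow_succ_apply'', adj_S B x y hxy hyx hiso, ih, pow_succ_apply', pow_succ]
    ring

include hsymm hxy hyx hiso in
lemma alt_S_pow (h2 : (2 : F) ≠ 0) {k : ℕ} (hk : Odd k) (u : V) : B u (((x - y) ^ k) u) = 0 := by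
  have h1 := adj_S_pow B x y hxy hyx hiso k u u
  rw [hk.neg_one_pow, hsymm] at h1
  have : (2 : F) * B u (((x - y) ^ k) u) = 0 := by
    linear_combination h1
  exact (mul_eq_zero.1 this).resolve_left h2

include hxy hyx in
lemma S_eq : x - y = (x - 1) * (1 + y) := by
  rw [mul_add, mul_one, sub_mul, hxy, one_mul]
  abel

include hxy hyx in
lemma comm_T_v : Commute (x - 1) (1 + y) := by
  have : (x - 1) * (1 + y) = (1 + y) * (x - 1) := by
    rw [mul_add, add_mul, mul_one, one_mul, sub_mul, mul_sub, hxy, hyx]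
    simp only [one_mul, mul_one]
  exact this

include hyx hxy in
lemma v_inj (h2 : (2 : F) ≠ 0) {n : ℕ} (hn : ∀ v, ((x - 1) ^ n) v = 0) (u : V) (hu : (1 + y) u = 0) : u = 0 := by
  have h1 : u + y u = 0 := by simpa using hu
  have h3 : x u + u = 0 := by
    have := congrArg x h1
    rw [map_add, xy_app x y hxy, map_zero] at this
    exact this
  have hT : (x - 1) u = (-2 : F) • u := by
    simp only [LinearMap.sub_apply, Module.End.one_apply]
    have : x u = - u := eq_neg_of_add_eq_zero_left h3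
    rw [this]
    rw [neg_smul, two_smul]
    abel
  have hp : ∀ j : ℕ, ((x - 1) ^ j) u = ((-2 : F) ^ j) • u := by
    intro j
    induction j with
    | zero => simp
    | succ j ih =>
      rw [pow_succ_apply'', ih, map_smul, hT, smul_smul, pow_succ]
  have := hp n
  rw [hn] at this
  have h0 : ((-2 : F) ^ n) ≠ 0 := pow_ne_zero _ (neg_ne_zero.2 h2)
  exact (smul_eq_zero.1 this.symm).resolve_left h0

include hxy hyx in
lemma ker_S_pow (h2 : (2 : F) ≠ 0) {n : ℕ} (hn : ∀ v, ((x - 1) ^ n) v = 0) (k : ℕ) (u : V) :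
    ((x - y) ^ k) u = 0 ↔ ((x - 1) ^ k) u = 0 := by
  have hc := comm_T_v x y hxy hyx
  have hpow : (x - y) ^ k = (1 + y) ^ k * (x - 1) ^ k := by
    rw [S_eq x y hxy hyx, hc.eq, hc.symm.mul_pow]
  have hinj : ∀ j : ℕ, ∀ z : V, ((1 + y) ^ j) z = 0 → z = 0 := by
    intro j
    induction j with
    | zero => intro z hz; simpa using hz
    | succ j ih =>
      intro z hz
      rw [pow_succ_apply''] at hz
      exact ih z (v_inj x y hxy hyx h2 hn _ hz)
  rw [hpow]
  constructor
  · intro h
    exact hinj k _ h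
  · intro h
    change ((1 + y) ^ k) (((x - 1) ^ k) u) = 0
    rw [h, map_zero]

include hsymm hxy hyx hiso in
/-- for odd `k` the rank of `(x-1)^k` on a nondegenerate invariant subspace is even -/
theorem parity_ak [Finite F] (h2 : (2 : F) ≠ 0) {n : ℕ} (hn : ∀ v, ((x - 1) ^ n) v = 0)
    (W : Submodule F V) (hxW : ∀ w ∈ W, x w ∈ W) (hyW : ∀ w ∈ W, y w ∈ W)
    (hnd : ∀ w ∈ W, (∀ u ∈ W, B u w = 0) → w = 0) {k : ℕ} (hk : Odd k) :
    Even ((finrank F ↥W : ℤ) - ak (x - 1) W k) := by
  classical
  set S := x - y with hS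
  have hSW : ∀ w ∈ W, S w ∈ W := fun w hw => W.sub_mem (hxW w hw) (hyW w hw)
  have hSkW := pow_mem hSW k
  set d := finrank F ↥W with hd
  let b : Basis (Fin d) F ↥W := Module.finBasis F ↥W
  let Φ : (Fin d → F) →ₗ[F] V := W.subtype ∘ₗ b.equivFun.symm.toLinearMap
  have hΦ : Function.Injective Φ := by
    intro u v h
    have : b.equivFun.symm u = b.equivFun.symm v := Subtype.ext h
    exact b.equivFun.symm.injective this
  have hΦs : ∀ c : Fin d → F, Φ c = ∑ i, c i • (b i : V) := by
    intro c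
    simp only [Φ, LinearMap.comp_apply, LinearEquiv.coe_coe, Module.Basis.equivFun_symm_apply, Submodule.subtype_apply]
    simp
  let A : Matrix (Fin d) (Fin d) F := Matrix.of fun i j => B (b i : V) ((S ^ k) (b j : V))
  have hAmul : ∀ c i, (A.mulVec c) i = B (b i : V) ((S ^ k) (Φ c)) := by
    intro c i
    rw [hΦs, map_sum, map_sum]
    simp only [Matrix.mulVec, dotProduct, A, Matrix.of_apply, map_smul, smul_eq_mul]
    apply Finset.sum_congr rfl
    intro j _
    ring
  have hAdot : ∀ c c', c ⬝ᵥ (A.mulVec c') = B (Φ c) ((S ^ k) (Φ c')) := by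
    intro c c'
    conv_rhs => rw [hΦs c]
    simp only [dotProduct, hAmul, map_sum, LinearMap.sum_apply, map_smul, LinearMap.smul_apply, smul_eq_mul]
  have halt : ∀ c : Fin d → F, c ⬝ᵥ (A.mulVec c) = 0 := by
    intro c
    rw [hAdot]
    exact alt_S_pow B hsymm x y hxy hyx hiso h2 hk _
  have hev := Cfsg.Agent.H09.even_rank_of_alternating A halt
  have hrn := LinearMap.finrank_range_add_finrank_ker A.mulVecLin
  rw [Module.finrank_fin_fun] at hrn
  have hker : (LinearMap.ker A.mulVecLin).map Φ = W ⊓ LinearMap.ker ((x - 1) ^ k) := by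
    ext w
    constructor
    · rintro ⟨c, hc, rfl⟩
      have hΦW : Φ c ∈ W := by
        simp only [Φ, LinearMap.comp_apply]
        exact (b.equivFun.symm c).2
      refine Submodule.mem_inf.2 ⟨hΦW, LinearMap.mem_ker.2 ?_⟩
      rw [← ker_S_pow x y hxy hyx h2 hn]
      apply hnd _ (hSkW _ hΦW)
      intro u hu
      have h0 : ∀ i, B (b i : V) ((S ^ k) (Φ c)) = 0 := by
        intro i
        rw [← hAmul]
        have : A.mulVec c = 0 := hc
        rw [this]
        rfl
      have hur : u = ∑ i, (b.repr ⟨u, hu⟩ i) • (b i : V) := by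
        have := b.sum_repr ⟨u, hu⟩
        have h3 := congrArg (Subtype.val) this
        simp only [Submodule.coe_sum, Submodule.coe_smul] at h3
        exact h3.symm
      rw [hur, map_sum, LinearMap.sum_apply]
      apply Finset.sum_eq_zero
      intro i _
      rw [map_smul, LinearMap.smul_apply, h0, smul_zero]
    · intro hww
      obtain ⟨hw, hw2⟩ := Submodule.mem_inf.1 hww
      refine ⟨b.equivFun ⟨w, hw⟩, ?_, ?_⟩
      · have hΦc : Φ (b.equivFun ⟨w, hw⟩) = w := by
          simp only [Φ, LinearMap.comp_apply, LinearEquiv.coe_coe, LinearEquiv.symm_apply_apply]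
          rfl
        change A.mulVec (b.equivFun ⟨w, hw⟩) = 0
        funext i
        rw [hAmul, hΦc]
        have : (S ^ k) w = 0 := (ker_S_pow x y hxy hyx h2 hn k w).2 (LinearMap.mem_ker.1 hw2)
        rw [this, map_zero]
        rfl
      · simp only [Φ, LinearMap.comp_apply, LinearEquiv.coe_coe, LinearEquiv.symm_apply_apply]
        rfl
  have hfr : finrank F ↥(W ⊓ LinearMap.ker ((x - 1) ^ k)) = finrank F ↥(LinearMap.ker A.mulVecLin) := by
    rw [← hker]
    exact (LinearEquiv.finrank_eq (Submodule.equivMapOfInjective Φ hΦ _)).symm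
  have hrk : A.rank = finrank F ↥(LinearMap.range A.mulVecLin) := rfl
  simp only [ak]
  rw [hfr]
  obtain ⟨r, hr⟩ := hev
  rw [hrk] at hr
  refine ⟨r, ?_⟩
  have : d = finrank F ↥(LinearMap.range A.mulVecLin) + finrank F ↥(LinearMap.ker A.mulVecLin) := hrn.symm
  omega

include hsymm hxy hyx hiso in
/-- **the sub-partition attached to a nondegenerate fixed subspace** -/
theorem sub_of_fixed [Finite F] (h2 : (2 : F) ≠ 0) {n : ℕ} (hn : ∀ v, ((x - 1) ^ n) v = 0)
    (W : Submodule F V) (hxW : ∀ w ∈ W, x w ∈ W) (hyW : ∀ w ∈ W, y w ∈ W)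
    (hnd : ∀ w ∈ W, (∀ u ∈ W, B u w = 0) → w = 0) (μ : Multiset ℕ)
    (hμ : ∀ k, finrank F ↥(LinearMap.ker ((x - 1) ^ k)) = (μ.map (fun f => min f k)).sum) :
    ∃ ν : Multiset ℕ, ν ≤ μ ∧ ν.sum = finrank F ↥W ∧ (∀ e, Even e → Even (ν.count e)) ∧
      ∀ e, (ν.count (e + 1) : ℤ) = mlt (x - 1) W e := by
  classical
  have hrefl : B.IsRefl := by
    intro u v huv
    rw [hsymm]
    exact huv
  have hres : (B.restrict W).Nondegenerate := by
    constructor
    · intro w hw
      apply Subtype.ext
      apply hnd _ w.2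
      intro u hu
      rw [hsymm]
      exact hw ⟨u, hu⟩
    · intro w hw
      apply Subtype.ext
      apply hnd _ w.2
      intro u hu
      exact hw ⟨u, hu⟩
  have hc := LinearMap.BilinForm.isCompl_orthogonal_of_restrict_nondegenerate hrefl hres
  set W' := B.orthogonal W with hW'
  have hT : ∀ w ∈ W, (x - 1) w ∈ W := by
    intro w hw
    simp only [LinearMap.sub_apply, Module.End.one_apply]
    exact W.sub_mem (hxW w hw) hw
  have hT' : ∀ w ∈ W', (x - 1) w ∈ W' := by
    intro w hw
    simp only [LinearMap.sub_apply, Module.End.one_apply]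
    refine W'.sub_mem ?_ hw
    rw [hW', LinearMap.BilinForm.mem_orthogonal_iff] at hw ⊢
    intro u hu
    have := hw (y u) (hyW u hu)
    change B u (x w) = 0
    rw [← xy_app x y hxy u, hiso]
    exact this
  obtain ⟨ν, h1, h3, h4, h5⟩ := exists_sub (x - 1) hc hT hT' hn μ hμ
  refine ⟨ν, h1, h3, ?_, h5⟩
  intro e he
  rcases e with _ | t
  · rw [h4]
    exact Even.zero
  · have ht : Odd t := by
      rw [Nat.even_add_one] at he
      exact Nat.not_even_iff_odd.1 he
    have h6 := h5 t
    have p1 := parity_ak B hsymm x y hxy hyx hiso h2 hn W hxW hyW hnd ht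
    have p2 := parity_ak B hsymm x y hxy hyx hiso h2 hn W hxW hyW hnd (show Odd (t + 2) by
      rw [Nat.odd_add]
      simp [ht, Nat.not_even_iff_odd])
    simp only [mlt] at h6
    obtain ⟨r1, hr1⟩ := p1
    obtain ⟨r2, hr2⟩ := p2
    have : Even ((ν.count (t + 1) : ℕ) : ℤ) := by
      rw [h6]
      refine ⟨ak (x - 1) W (t + 1) + (-(finrank F ↥W : ℤ)) + r1 + r2, ?_⟩
      linarith
    exact_mod_cast this

end parity

end Cfsg.Agent.H27.JT
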