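import Mathlib
import Cfsg.Prelude.Def_Classical
import Cfsg.Agent.Lib.H27.JT2

set_option autoImplicit false

namespace Cfsg.Agent.H27.JT

open Module Matrix QuadraticMap

variable {F : Type*} [Field F]

/-- a skew nilpotent operator with prescribed Jordan type -/
def RR {T : Type*} [Fintype T] (Q : (T → F) → F) (p : ℕ) (μ : Multiset ℕ) : Prop :=
  ∃ N : (T → F) →ₗ[F] (T → F), (∀ u v, polar Q (N u) v = - polar Q u (N v)) ∧ N ^ p = 0 ∧
    ∀ k, finrank F ↥(LinearMap.ker (N ^ k)) = (μ.map (fun f => min f k)).sum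

section transport

variable {T T' : Type*} [Fintype T] [Fintype T']

lemma polar_of_iso {Q : (T → F) → F} {Q' : (T' → F) → F} (g : (T → F) ≃ₗ[F] (T' → F)) (hg : ∀ v, Q v = Q' (g v)) (a b : T → F) :
    polar Q a b = polar Q' (g a) (g b) := by
  simp only [polar, hg, map_add]

theorem RR.transport {Q : (T → F) → F} {Q' : (T' → F) → F} (g : (T → F) ≃ₗ[F] (T' → F)) (hg : ∀ v, Q v = Q' (g v))
    {p : ℕ} {μ : Multiset ℕ} (h : RR Q p μ) : RR Q' p μ := by
  obtain ⟨N, h1, h2, h3⟩ := h
  set N' : (T' → F) →ₗ[F] (T' → F) := g.toLinearMap ∘ₗ N ∘ₗ g.symm.toLinearMap with hN'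
  have hpow : ∀ k v, (N' ^ k) v = g ((N ^ k) (g.symm v)) := by
    intro k
    induction k with
    | zero => intro v; simp
    | succ k ih =>
      intro v
      rw [pow_succ_apply', ih, pow_succ_apply']
      simp [hN']
  refine ⟨N', ?_, ?_, ?_⟩
  · intro u v
    have e1 := polar_of_iso g hg (N (g.symm u)) (g.symm v)
    have e2 := polar_of_iso g hg (g.symm u) (N (g.symm v))
    simp only [LinearEquiv.apply_symm_apply] at e1 e2
    simp only [hN', LinearMap.comp_apply, LinearEquiv.coe_coe]
    rw [← e1, h1, e2]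
  · apply LinearMap.ext
    intro w
    rw [hpow, h2]
    simp
  · intro k
    have hker : LinearMap.ker (N' ^ k) = (LinearMap.ker (N ^ k)).map g.toLinearMap := by
      ext v
      constructor
      · intro hv
        rw [LinearMap.mem_ker, hpow] at hv
        refine ⟨g.symm v, ?_, by simp⟩
        have := g.injective (hv.trans (map_zero g).symm)
        exact this
      · rintro ⟨w, hw, rfl⟩
        rw [LinearMap.mem_ker, hpow]
        simp only [LinearEquiv.coe_coe, LinearEquiv.symm_apply_apply]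
        rw [LinearMap.mem_ker.1 hw, map_zero]
    rw [hker, LinearEquiv.finrank_map_eq, h3]

end transport

section sum

variable {T₁ T₂ : Type*} [Fintype T₁] [Fintype T₂]

/-- the direct sum of two operators -/
def sumE (N₁ : (T₁ → F) →ₗ[F] (T₁ → F)) (N₂ : (T₂ → F) →ₗ[F] (T₂ → F)) : (T₁ ⊕ T₂ → F) →ₗ[F] (T₁ ⊕ T₂ → F) where
  toFun v := Sum.elim (N₁ (v ∘ Sum.inl)) (N₂ (v ∘ Sum.inr))
  map_add' u v := by
    funext i
    rcases i with i | i
    · simp only [Sum.elim_inl, Pi.add_apply]
      rw [show (u + v) ∘ Sum.inl = u ∘ Sum.inl + v ∘ Sum.inl from rfl, map_add]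
      rfl
    · simp only [Sum.elim_inr, Pi.add_apply]
      rw [show (u + v) ∘ Sum.inr = u ∘ Sum.inr + v ∘ Sum.inr from rfl, map_add]
      rfl
  map_smul' c v := by
    funext i
    rcases i with i | i
    · simp only [Sum.elim_inl, Pi.smul_apply, RingHom.id_apply]
      rw [show (c • v) ∘ Sum.inl = c • (v ∘ Sum.inl) from rfl, map_smul]
      rfl
    · simp only [Sum.elim_inr, Pi.smul_apply, RingHom.id_apply]
      rw [show (c • v) ∘ Sum.inr = c • (v ∘ Sum.inr) from rfl, map_smul]
      rfl

lemma sumE_apply (N₁ : (T₁ → F) →ₗ[F] (T₁ → F)) (N₂ : (T₂ → F) →ₗ[F] (T₂ → F)) (v : T₁ ⊕ T₂ → F) :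
    sumE N₁ N₂ v = Sum.elim (N₁ (v ∘ Sum.inl)) (N₂ (v ∘ Sum.inr)) := rfl

lemma sumE_pow (N₁ : (T₁ → F) →ₗ[F] (T₁ → F)) (N₂ : (T₂ → F) →ₗ[F] (T₂ → F)) (k : ℕ) :
    (sumE N₁ N₂) ^ k = sumE (N₁ ^ k) (N₂ ^ k) := by
  induction k with
  | zero =>
    apply LinearMap.ext
    intro v
    funext j
    rcases j with j | j <;> simp [sumE_apply]
  | succ k ih =>
    apply LinearMap.ext
    intro v
    rw [pow_succ_apply', ih]
    funext j
    rcases j with j | j
    · simp only [sumE_apply, Sum.elim_inl, Sum.elim_comp_inl, pow_succ_apply']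
    · simp only [sumE_apply, Sum.elim_inr, Sum.elim_comp_inr, pow_succ_apply']

/-- the kernel of a direct sum -/
lemma finrank_ker_sumE (A : (T₁ → F) →ₗ[F] (T₁ → F)) (B : (T₂ → F) →ₗ[F] (T₂ → F)) :
    finrank F ↥(LinearMap.ker (sumE A B)) = finrank F ↥(LinearMap.ker A) + finrank F ↥(LinearMap.ker B) := by
  have hmem : ∀ v, v ∈ LinearMap.ker (sumE A B) ↔ v ∘ Sum.inl ∈ LinearMap.ker A ∧ v ∘ Sum.inr ∈ LinearMap.ker B := by
    intro v
    rw [LinearMap.mem_ker, LinearMap.mem_ker, LinearMap.mem_ker, sumE_apply]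
    constructor
    · intro h
      constructor
      · funext i
        exact congrFun h (Sum.inl i)
      · funext i
        exact congrFun h (Sum.inr i)
    · rintro ⟨h1, h2⟩
      funext i
      rcases i with i | i
      · simp [h1]
      · simp [h2]
  let e : ↥(LinearMap.ker (sumE A B)) ≃ₗ[F] ↥(LinearMap.ker A) × ↥(LinearMap.ker B) :=
    { toFun := fun v => (⟨(v : T₁ ⊕ T₂ → F) ∘ Sum.inl, ((hmem _).1 v.2).1⟩, ⟨(v : T₁ ⊕ T₂ → F) ∘ Sum.inr, ((hmem _).1 v.2).2⟩)
      map_add' := fun u v => rfl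
      map_smul' := fun c u => rfl
      invFun := fun w => ⟨Sum.elim (w.1 : T₁ → F) (w.2 : T₂ → F), (hmem _).2 (by
        simp only [Sum.elim_comp_inl, Sum.elim_comp_inr]
        exact ⟨w.1.2, w.2.2⟩)⟩
      left_inv := fun v => by
        apply Subtype.ext
        funext i
        rcases i with i | i <;> rfl
      right_inv := fun w => by
        apply Prod.ext
        · apply Subtype.ext
          funext i
          rfl
        · apply Subtype.ext
          funext i
          rfl }
  rw [e.finrank_eq, Module.finrank_prod]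

/-- direct sums of realizations -/
theorem RR.sum {Q₁ : (T₁ → F) → F} {Q₂ : (T₂ → F) → F} {p : ℕ} {μ₁ μ₂ : Multiset ℕ}
    (h₁ : RR Q₁ p μ₁) (h₂ : RR Q₂ p μ₂) :
    RR (fun v : T₁ ⊕ T₂ → F => Q₁ (v ∘ Sum.inl) + Q₂ (v ∘ Sum.inr)) p (μ₁ + μ₂) := by
  obtain ⟨N₁, a1, a2, a3⟩ := h₁
  obtain ⟨N₂, b1, b2, b3⟩ := h₂
  refine ⟨sumE N₁ N₂, ?_, ?_, ?_⟩
  · intro u v
    have hp : ∀ x y : T₁ ⊕ T₂ → F, polar (fun v : T₁ ⊕ T₂ → F => Q₁ (v ∘ Sum.inl) + Q₂ (v ∘ Sum.inr)) x y =
        polar Q₁ (x ∘ Sum.inl) (y ∘ Sum.inl) + polar Q₂ (x ∘ Sum.inr) (y ∘ Sum.inr) := by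
      intro x y
      simp only [polar]
      rw [show (x + y) ∘ Sum.inl = x ∘ Sum.inl + y ∘ Sum.inl from rfl,
        show (x + y) ∘ Sum.inr = x ∘ Sum.inr + y ∘ Sum.inr from rfl]
      ring
    rw [hp, hp]
    simp only [sumE_apply, Sum.elim_comp_inl, Sum.elim_comp_inr]
    rw [a1, b1]
    ring
  · rw [sumE_pow, a2, b2]
    apply LinearMap.ext
    intro v
    funext i
    rcases i with i | i <;> simp [sumE_apply]
  · intro k
    rw [sumE_pow, finrank_ker_sumE, a3, b3, Multiset.map_add, Multiset.sum_add]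

end sum

lemma toLin'_pow' {ι : Type*} [Fintype ι] [DecidableEq ι] (M : Matrix ι ι F) (k : ℕ) :
    (Matrix.toLin' M) ^ k = Matrix.toLin' (M ^ k) := by
  induction k with
  | zero =>
    rw [pow_zero, pow_zero, Matrix.toLin'_one]
    rfl
  | succ k ih =>
    rw [pow_succ, pow_succ, ih, Matrix.toLin'_mul]
    rfl

section shift

/-- the Jordan block -/
def shM (e : ℕ) (F : Type*) [Field F] : Matrix (Fin e) (Fin e) F :=
  Matrix.of fun i j => if (i : ℕ) = j + 1 then 1 else 0

lemma shM_pow (e k : ℕ) : (shM e F) ^ k = Matrix.of fun i j : Fin e => if (i : ℕ) = j + k then (1 : F) else 0 := by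
  induction k with
  | zero =>
    ext i j
    simp only [pow_zero, Matrix.one_apply, Matrix.of_apply, add_zero, Fin.ext_iff]
  | succ k ih =>
    rw [pow_succ, ih]
    ext i j
    simp only [Matrix.mul_apply, Matrix.of_apply, shM]
    by_cases hj : (j : ℕ) + 1 < e
    · rw [Finset.sum_eq_single (⟨j + 1, hj⟩ : Fin e)]
      · simp only [if_true, mul_one]
        congr 1
        apply propext
        constructor <;> intro h <;> omega
      · intro l _ hl
        have : ¬ ((l : ℕ) = j + 1) := fun h => hl (Fin.ext h)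
        simp [this]
      · simp
    · have h0 : ¬ ((i : ℕ) = j + (k + 1)) := by
        have := i.2
        omega
      rw [if_neg h0]
      apply Finset.sum_eq_zero
      intro l _
      have : ¬ ((l : ℕ) = j + 1) := by
        have := l.2
        omega
      simp [this]

lemma shM_pow_eq_zero {e p : ℕ} (h : e ≤ p) : (shM e F) ^ p = 0 := by
  rw [shM_pow]
  ext i j
  have : ¬ ((i : ℕ) = j + p) := by
    have := i.2
    omega
  simp [this]

lemma finrank_ker_shM (e k : ℕ) : finrank F ↥(LinearMap.ker (Matrix.toLin' ((shM e F) ^ k))) = min e k := by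
  classical
  rw [shM_pow]
  let S' := {j : Fin e // (j : ℕ) + k < e}
  let φ : (Fin e → F) →ₗ[F] (S' → F) := LinearMap.funLeft F F (Subtype.val : S' → Fin e)
  have hφ : Function.Surjective φ := LinearMap.funLeft_surjective_of_injective F F _ Subtype.val_injective
  have hker : LinearMap.ker φ = LinearMap.ker (Matrix.toLin' (Matrix.of fun i j : Fin e => if (i : ℕ) = j + k then (1 : F) else 0)) := by
    ext v
    rw [LinearMap.mem_ker, LinearMap.mem_ker, Matrix.toLin'_apply]
    constructor
    · intro h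
      funext i
      simp only [Matrix.mulVec, dotProduct, Matrix.of_apply, Pi.zero_apply]
      apply Finset.sum_eq_zero
      intro j _
      by_cases hij : (i : ℕ) = j + k
      · have h1 : (j : ℕ) + k < e := by
          have := i.2
          omega
        have h2 := congrFun h ⟨j, h1⟩
        simp only [φ, LinearMap.funLeft_apply, Pi.zero_apply] at h2
        rw [h2]
        simp
      · simp [hij]
    · intro h
      funext s
      have h1 := congrFun h ⟨s.1 + k, s.2⟩
      simp only [Matrix.mulVec, dotProduct, Matrix.of_apply, Pi.zero_apply] at h1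
      rw [Finset.sum_eq_single s.1] at h1
      · simpa [φ, LinearMap.funLeft_apply] using h1
      · intro l _ hl
        have : ¬ ((s.1 : ℕ) = l) := fun h => hl (Fin.ext (by omega))
        simp [this]
      · simp
  have hcard : Fintype.card S' = e - k := by
    have e' : S' ≃ Fin (e - k) :=
      { toFun := fun s => ⟨s.1, by have := s.2; omega⟩
        invFun := fun j => ⟨⟨j, by have := j.2; omega⟩, by have := j.2; simp; omega⟩
        left_inv := fun s => by
          apply Subtype.ext
          apply Fin.ext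
          rfl
        right_inv := fun j => by
          apply Fin.ext
          rfl }
    rw [Fintype.card_congr e', Fintype.card_fin]
  have hrn := LinearMap.finrank_range_add_finrank_ker φ
  rw [LinearMap.range_eq_top.2 hφ, finrank_top, Module.finrank_fintype_fun_eq_card, Module.finrank_fin_fun, hcard, hker] at hrn
  omega

/-- kernels of transposes have the same dimension -/
lemma finrank_ker_transpose {ι : Type*} [Fintype ι] [DecidableEq ι] (M : Matrix ι ι F) :
    finrank F ↥(LinearMap.ker (Matrix.toLin' Mᵀ)) = finrank F ↥(LinearMap.ker (Matrix.toLin' M)) := by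
  have h1 := LinearMap.finrank_range_add_finrank_ker (Matrix.toLin' M)
  have h2 := LinearMap.finrank_range_add_finrank_ker (Matrix.toLin' Mᵀ)
  have h3 : finrank F ↥(LinearMap.range (Matrix.toLin' M)) = M.rank := by
    rw [Matrix.toLin'_apply']
    rfl
  have h4 : finrank F ↥(LinearMap.range (Matrix.toLin' Mᵀ)) = Mᵀ.rank := by
    rw [Matrix.toLin'_apply']
    rfl
  rw [Matrix.rank_transpose] at h4
  omega

lemma finrank_ker_smul {ι : Type*} [Fintype ι] [DecidableEq ι] (M : Matrix ι ι F) {c : F} (hc : c ≠ 0) :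
    finrank F ↥(LinearMap.ker (Matrix.toLin' (c • M))) = finrank F ↥(LinearMap.ker (Matrix.toLin' M)) := by
  have h : Matrix.toLin' (c • M) = c • Matrix.toLin' M := map_smul _ _ _
  rw [h, LinearMap.ker_smul _ _ hc]

lemma neg_transpose_pow (e k : ℕ) : (-(shM e F)ᵀ) ^ k = ((-1 : F) ^ k) • ((shM e F) ^ k)ᵀ := by
  induction k with
  | zero => simp
  | succ k ih =>
    rw [pow_succ, ih, pow_succ' (shM e F) k, Matrix.transpose_mul, pow_succ (-1 : F) k]
    simp [Matrix.smul_mul, Matrix.mul_neg, smul_smul]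

lemma finrank_ker_neg_transpose (e k : ℕ) :
    finrank F ↥(LinearMap.ker (Matrix.toLin' ((-(shM e F)ᵀ) ^ k))) = min e k := by
  rw [neg_transpose_pow, finrank_ker_smul _ (pow_ne_zero _ (neg_ne_zero.2 one_ne_zero)), finrank_ker_transpose, finrank_ker_shM]

end shift

end Cfsg.Agent.H27.JT
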