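import Mathlib
import Cfsg.Agent.Lib.H27.JT3
import Cfsg.Agent.Lib.H11.Std
import Cfsg.Agent.Lib.H11.Disc

set_option autoImplicit false

namespace Cfsg.Agent.H27.JT

open Module Matrix QuadraticMap

variable {F : Type*} [Field F]

section gram

variable {ι : Type} [Fintype ι] [DecidableEq ι]

/-- the quadratic form with a given Gram matrix for its polar form -/
noncomputable def QG (G : Matrix ι ι F) : QuadraticForm F (ι → F) :=
  (2⁻¹ : F) • LinearMap.BilinMap.toQuadraticMap (Matrix.toLinearMap₂' F G)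

lemma QG_apply (G : Matrix ι ι F) (v : ι → F) : QG G v = 2⁻¹ * (v ⬝ᵥ G *ᵥ v) := by
  simp [QG, LinearMap.BilinMap.toQuadraticMap_apply, Matrix.toLinearMap₂'_apply']

lemma sym_dot {G : Matrix ι ι F} (hs : Gᵀ = G) (u v : ι → F) : v ⬝ᵥ G *ᵥ u = u ⬝ᵥ G *ᵥ v := by
  rw [Matrix.dotProduct_mulVec, ← Matrix.mulVec_transpose, hs, dotProduct_comm]

lemma polar_QG (h2 : (2 : F) ≠ 0) {G : Matrix ι ι F} (hs : Gᵀ = G) (u v : ι → F) :
    polar (QG G) u v = u ⬝ᵥ G *ᵥ v := by
  simp only [polar, QG_apply, Matrix.mulVec_add, dotProduct_add, add_dotProduct]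
  rw [sym_dot hs u v]
  field_simp
  ring

lemma QG_nondeg (h2 : (2 : F) ≠ 0) {G : Matrix ι ι F} (hs : Gᵀ = G) (hd : G.det ≠ 0) :
    (polarBilin (QG G)).Nondegenerate := by
  have hN := Matrix.nondegenerate_of_det_ne_zero hd
  constructor
  · intro u hu
    apply Matrix.separatingLeft_def.1 hN.separatingLeft
    intro w
    have := hu w
    rw [polarBilin_apply_apply, polar_QG h2 hs] at this
    exact this
  · intro u hu
    apply Matrix.separatingRight_def.1 hN.separatingRight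
    intro w
    have := hu w
    rw [polarBilin_apply_apply, polar_QG h2 hs] at this
    exact this

end gram

lemma skew_of_mat {T : Type*} [Fintype T] [DecidableEq T] {Q : (T → F) → F} {G : Matrix T T F}
    (hp : ∀ u v, polar Q u v = u ⬝ᵥ G *ᵥ v) (N : Matrix T T F) (h : Nᵀ * G = -(G * N)) (u v : T → F) :
    polar Q (Matrix.toLin' N u) v = - polar Q u (Matrix.toLin' N v) := by
  rw [hp, hp, Matrix.toLin'_apply, Matrix.toLin'_apply]
  have e1 : (N *ᵥ u) ⬝ᵥ (G *ᵥ v) = u ⬝ᵥ ((Nᵀ * G) *ᵥ v) := by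
    rw [← Matrix.mulVec_mulVec, Matrix.dotProduct_mulVec u Nᵀ, Matrix.vecMul_transpose]
  rw [e1, h, Matrix.neg_mulVec, dotProduct_neg, Matrix.mulVec_mulVec]

section block

/-- the form on a Jordan block -/
def Ae (e : ℕ) (F : Type*) [Field F] : Matrix (Fin e) (Fin e) F :=
  Matrix.of fun i j => if (i : ℕ) + j + 1 = e then (-1) ^ (i : ℕ) else 0

lemma Ae_symm {e : ℕ} (he : Odd e) : (Ae e F)ᵀ = Ae e F := by
  ext i j
  simp only [Matrix.transpose_apply, Ae, Matrix.of_apply]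
  by_cases h : (j : ℕ) + i + 1 = e
  · have h' : (i : ℕ) + j + 1 = e := by omega
    rw [if_pos h, if_pos h']
    apply neg_one_pow_congr
    have : Even ((i : ℕ) + j) := by
      obtain ⟨t, ht⟩ := he
      exact ⟨t, by omega⟩
    rw [Nat.even_add] at this
    exact this.symm
  · have h' : ¬ ((i : ℕ) + j + 1 = e) := by omega
    rw [if_neg h, if_neg h']

lemma Ae_sq {e : ℕ} (he : Odd e) : Ae e F * Ae e F = 1 := by
  ext i j
  simp only [Matrix.mul_apply, Ae, Matrix.of_apply, Matrix.one_apply]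
  have hi := i.2
  rw [Finset.sum_eq_single (⟨e - 1 - i, by omega⟩ : Fin e)]
  · simp only
    have h1 : (i : ℕ) + (e - 1 - i) + 1 = e := by omega
    rw [if_pos h1]
    by_cases hij : i = j
    · subst hij
      have h3 : (e - 1 - (i : ℕ)) + i + 1 = e := by omega
      rw [if_pos h3, if_pos rfl, ← pow_add]
      apply Even.neg_one_pow
      obtain ⟨t, ht⟩ := he
      exact ⟨t, by omega⟩
    · have h3 : ¬ ((e - 1 - (i : ℕ)) + j + 1 = e) := by
        intro h
        apply hij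
        apply Fin.ext
        omega
      rw [if_neg h3, if_neg hij, mul_zero]
  · intro l _ hl
    have : ¬ ((i : ℕ) + l + 1 = e) := by
      intro h
      apply hl
      apply Fin.ext
      simp only
      omega
    simp [this]
  · simp

lemma Ae_det {e : ℕ} (he : Odd e) : (Ae e F).det ≠ 0 := by
  have := congrArg Matrix.det (Ae_sq (F := F) he)
  rw [Matrix.det_mul, Matrix.det_one] at this
  intro h
  rw [h, zero_mul] at this
  exact zero_ne_one this

lemma skew_e1 (e : ℕ) (i j : Fin e) : ((shM e F)ᵀ * Ae e F) i j =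
    if (i : ℕ) + j + 2 = e then (-1) ^ ((i : ℕ) + 1) else 0 := by
  simp only [Matrix.mul_apply, Matrix.transpose_apply, shM, Ae, Matrix.of_apply]
  by_cases hi : (i : ℕ) + 1 < e
  · rw [Finset.sum_eq_single (⟨i + 1, hi⟩ : Fin e)]
    · simp only [if_true, one_mul]
      congr 1
      apply propext
      constructor <;> intro h <;> omega
    · intro l _ hl
      have : ¬ ((l : ℕ) = i + 1) := fun h => hl (Fin.ext h)
      simp [this]
    · simp
  · have h0 : ¬ ((i : ℕ) + j + 2 = e) := by omega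
    rw [if_neg h0]
    apply Finset.sum_eq_zero
    intro l _
    have : ¬ ((l : ℕ) = i + 1) := by
      have := l.2
      omega
    simp [this]

lemma skew_e2 (e : ℕ) (i j : Fin e) : (Ae e F * shM e F) i j =
    if (i : ℕ) + j + 2 = e then (-1) ^ (i : ℕ) else 0 := by
  simp only [Matrix.mul_apply, shM, Ae, Matrix.of_apply]
  by_cases hj : (j : ℕ) + 1 < e
  · rw [Finset.sum_eq_single (⟨j + 1, hj⟩ : Fin e)]
    · simp only [if_true, mul_one]
      congr 1
    · intro l _ hl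
      have : ¬ ((l : ℕ) = j + 1) := fun h => hl (Fin.ext h)
      simp [this]
    · simp
  · have h0 : ¬ ((i : ℕ) + j + 2 = e) := by omega
    rw [if_neg h0]
    apply Finset.sum_eq_zero
    intro l _
    have : ¬ ((l : ℕ) = j + 1) := by
      have := l.2
      omega
    simp [this]

lemma Ae_skew (e : ℕ) : (shM e F)ᵀ * Ae e F = -(Ae e F * shM e F) := by
  ext i j
  rw [Matrix.neg_apply, skew_e1, skew_e2]
  split_ifs
  · rw [pow_succ]
    ring
  · simp

/-- a Jordan block of odd size -/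
theorem odd_RR (h2 : (2 : F) ≠ 0) {e p : ℕ} (he : Odd e) (hep : e ≤ p) (c : F) :
    RR (QG (c • Ae e F)) p {e} := by
  have hs : (c • Ae e F)ᵀ = c • Ae e F := by
    rw [Matrix.transpose_smul, Ae_symm he]
  refine ⟨Matrix.toLin' (shM e F), ?_, ?_, ?_⟩
  · apply skew_of_mat (G := c • Ae e F) (polar_QG h2 hs)
    rw [Matrix.mul_smul, Matrix.smul_mul, Ae_skew, smul_neg]
  · rw [toLin'_pow', shM_pow_eq_zero hep, map_zero]
  · intro k
    rw [toLin'_pow', finrank_ker_shM]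
    simp

/-- a pair of equal Jordan blocks in a hyperbolic space -/
theorem pair_RR {e p : ℕ} (hep : e ≤ p) : RR (Cfsg.quadFormPlus e F) p {e, e} := by
  set J := shM e F with hJ
  have hN : sumE (Matrix.toLin' J) (Matrix.toLin' (-Jᵀ)) = Matrix.toLin' (Matrix.fromBlocks J 0 0 (-Jᵀ)) := by
    apply LinearMap.ext
    intro v
    funext i
    rw [sumE_apply, Matrix.toLin'_apply, Matrix.toLin'_apply, Matrix.toLin'_apply]
    conv_rhs => rw [← Sum.elim_comp_inl_inr v, Matrix.fromBlocks_mulVec]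
    rcases i with i | i <;> simp
  refine ⟨sumE (Matrix.toLin' J) (Matrix.toLin' (-Jᵀ)), ?_, ?_, ?_⟩
  · rw [hN]
    apply skew_of_mat (G := Cfsg.Agent.H11.hypG e F) (Cfsg.Agent.H11.polar_quadFormPlus e)
    simp [Cfsg.Agent.H11.hypG, Matrix.fromBlocks_transpose, Matrix.fromBlocks_multiply, Matrix.fromBlocks_neg]
  · rw [sumE_pow, toLin'_pow', toLin'_pow', hJ, shM_pow_eq_zero hep, neg_transpose_pow, shM_pow_eq_zero hep]
    apply LinearMap.ext
    intro v
    funext i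
    rcases i with i | i <;> simp [sumE_apply]
  · intro k
    rw [sumE_pow, finrank_ker_sumE, toLin'_pow', toLin'_pow', hJ, finrank_ker_shM, finrank_ker_neg_transpose]
    simp

end block

section classify

variable {ι : Type} [Fintype ι] [DecidableEq ι]

/-- isometric forms have Gram determinants differing by a square -/
lemma gram_of_iso {T : Type} [Fintype T] [DecidableEq T] (h2 : (2 : F) ≠ 0) {G : Matrix ι ι F} (hs : Gᵀ = G)
    {Q' : (T → F) → F} {G' : Matrix T T F} (hp' : ∀ u v, polar Q' u v = u ⬝ᵥ G' *ᵥ v)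
    (g : (ι → F) ≃ₗ[F] (T → F)) (hg : ∀ v, QG G v = Q' (g v)) :
    ∃ s : F, s ≠ 0 ∧ G'.det = s ^ 2 * G.det := by
  classical
  let b : Basis T F (ι → F) := (Pi.basisFun F T).map g.symm
  obtain ⟨s, hs0, hd⟩ := Cfsg.Agent.H11.det_gram_eq G b
  refine ⟨s, hs0, ?_⟩
  rw [← hd]
  congr 1
  ext i j
  simp only [Matrix.of_apply]
  rw [← polar_QG h2 hs, polar_of_iso g hg, hp']
  simp [b]

/-- the Gram matrix of the elliptic form -/
def minusG (k : ℕ) (a c : F) : Matrix ((Fin k ⊕ Fin k) ⊕ Fin 2) ((Fin k ⊕ Fin k) ⊕ Fin 2) F :=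
  Matrix.fromBlocks (Cfsg.Agent.H11.hypG k F) 0 0 !![2, a; a, 2 * c]

lemma minusG_det (k : ℕ) (a c : F) : (minusG k a c).det = (-1) ^ k * (4 * c - a ^ 2) := by
  rw [minusG, Matrix.det_fromBlocks_zero₂₁, Cfsg.Agent.H11.det_hypG, Matrix.det_fin_two_of]
  ring

lemma dot_block {a b : Type*} [Fintype a] [Fintype b] [DecidableEq a] [DecidableEq b] (A : Matrix a a F) (D : Matrix b b F) (x y : a ⊕ b → F) :
    x ⬝ᵥ (Matrix.fromBlocks A 0 0 D *ᵥ y) = (x ∘ Sum.inl) ⬝ᵥ (A *ᵥ (y ∘ Sum.inl)) + (x ∘ Sum.inr) ⬝ᵥ (D *ᵥ (y ∘ Sum.inr)) := by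
  have h3 : y = Sum.elim (y ∘ Sum.inl) (y ∘ Sum.inr) := (Sum.elim_comp_inl_inr y).symm
  conv_lhs => rw [h3, Matrix.fromBlocks_mulVec]
  simp only [Matrix.zero_mulVec, zero_add, add_zero, dotProduct, Fintype.sum_sum_type, Sum.elim_inl, Sum.elim_inr, Function.comp, Sum.elim_comp_inl, Sum.elim_comp_inr]

lemma polar_minus (k : ℕ) (a c : F) (x y : (Fin k ⊕ Fin k) ⊕ Fin 2 → F) :
    polar (Cfsg.quadFormMinus k F a c) x y = x ⬝ᵥ minusG k a c *ᵥ y := by
  have h1 : polar (Cfsg.quadFormMinus k F a c) x y = polar (Cfsg.Agent.H11.minusForm k F a c) x y := by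
    simp only [polar, Cfsg.Agent.H11.minusForm_apply]
  rw [h1, Cfsg.Agent.H11.polar_minusForm, minusG, dot_block]
  have e1 : (x ∘ Sum.inl) ⬝ᵥ (Cfsg.Agent.H11.hypG k F *ᵥ (y ∘ Sum.inl)) =
      ∑ i, (x (Sum.inl (Sum.inl i)) * y (Sum.inl (Sum.inr i)) + y (Sum.inl (Sum.inl i)) * x (Sum.inl (Sum.inr i))) := by
    rw [← Cfsg.Agent.H11.polar_quadFormPlus]
    exact Cfsg.Agent.H11.polar_plusForm (x ∘ Sum.inl) (y ∘ Sum.inl)
  rw [e1]
  congr 1
  simp only [dotProduct, Fin.sum_univ_two, Matrix.mulVec, Function.comp, Matrix.of_apply, Matrix.cons_val_zero, Matrix.cons_val_one]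
  ring

/-- the normal forms, decided by the discriminant -/
theorem std_forms [Finite F] (h2 : (2 : F) ≠ 0) {G : Matrix ι ι F} (hs : Gᵀ = G) (hd : G.det ≠ 0) {d : ℕ} (hd1 : 1 ≤ d)
    (hc : Fintype.card ι = 2 * d) :
    (IsSquare ((-1) ^ d * G.det) ∧ ∃ g : (ι → F) ≃ₗ[F] (Fin d ⊕ Fin d → F), ∀ v, QG G v = Cfsg.quadFormPlus d F (g v)) ∨
    (¬ IsSquare ((-1) ^ d * G.det) ∧ ∃ (g : (ι → F) ≃ₗ[F] ((Fin (d - 1) ⊕ Fin (d - 1)) ⊕ Fin 2 → F)) (ζ : F), (∀ t : F, t ^ 2 + t + ζ ≠ 0) ∧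
      ∀ v, QG G v = Cfsg.quadFormMinus (d - 1) F 1 ζ (g v)) := by
  have hV : finrank F (ι → F) = 2 * d := by
    rw [Module.finrank_fintype_fun_eq_card, hc]
  rcases Cfsg.Agent.H11.exists_isometry_standard hd1 hV (QG G) (QG_nondeg h2 hs hd) with ⟨g, hg⟩ | ⟨g, ζ, hζ, hg⟩
  · left
    refine ⟨?_, g, hg⟩
    obtain ⟨s, hs0, he⟩ := gram_of_iso h2 hs (Cfsg.Agent.H11.polar_quadFormPlus d) g hg
    rw [Cfsg.Agent.H11.det_hypG] at he
    refine ⟨((-1) ^ d) / s, ?_⟩
    have hsq : ((-1 : F) ^ d) * (-1) ^ d = 1 := by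
      rw [← mul_pow]
      simp
    have hG : G.det = (-1) ^ d / s ^ 2 := by
      field_simp
      linear_combination -he
    rw [hG]
    field_simp
  · right
    refine ⟨?_, g, ζ, hζ, hg⟩
    rintro ⟨w, hw⟩
    obtain ⟨s, hs0, he⟩ := gram_of_iso h2 hs (polar_minus (d - 1) 1 ζ) g hg
    rw [minusG_det] at he
    obtain ⟨k, rfl⟩ : ∃ k, d = k + 1 := ⟨d - 1, by omega⟩
    simp only [Nat.add_sub_cancel] at he
    have hk2 : ((-1 : F) ^ k) * (-1) ^ k = 1 := by
      rw [← mul_pow]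
      simp
    have hr : (s * w) ^ 2 = 1 - 4 * ζ := by
      have : (s * w) ^ 2 = s ^ 2 * (w * w) := by ring
      rw [this, ← hw, pow_succ (-1 : F) k]
      have e2 : s ^ 2 * ((-1) ^ k * -1 * G.det) = -((-1) ^ k * (s ^ 2 * G.det)) := by ring
      rw [e2, ← he]
      linear_combination (-(4 * ζ - 1)) * hk2
    apply hζ ((s * w - 1) / 2)
    field_simp
    linear_combination hr

end classify

end Cfsg.Agent.H27.JT
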