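import Mathlib
import Cfsg.Agent.Lib.H27.JT4

set_option autoImplicit false

namespace Cfsg.Agent.H27.JT

open Module Matrix QuadraticMap

variable {F : Type*} [Field F]

lemma QG_block {a b : Type} [Fintype a] [Fintype b] [DecidableEq a] [DecidableEq b] (G₁ : Matrix a a F) (G₂ : Matrix b b F) (v : a ⊕ b → F) :
    QG (Matrix.fromBlocks G₁ 0 0 G₂) v = QG G₁ (v ∘ Sum.inl) + QG G₂ (v ∘ Sum.inr) := by
  rw [QG_apply, QG_apply, QG_apply, dot_block]
  ring

/-- two odd blocks with a prescribed discriminant class -/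
theorem oddpair (h2 : (2 : F) ≠ 0) {e f p d : ℕ} (he : Odd e) (hf : Odd f) (hep : e ≤ p) (hfp : f ≤ p) (η : F) (hη : η ≠ 0) :
    ∃ G : Matrix (Fin e ⊕ Fin f) (Fin e ⊕ Fin f) F, Gᵀ = G ∧ G.det ≠ 0 ∧ RR (QG G) p ({e} + {f}) ∧
      (IsSquare ((-1) ^ d * G.det) ↔ IsSquare η) := by
  set w : F := (-1) ^ d * (Ae e F).det * (Ae f F).det with hw
  have hw0 : w ≠ 0 := mul_ne_zero (mul_ne_zero (pow_ne_zero _ (neg_ne_zero.2 one_ne_zero)) (Ae_det he)) (Ae_det hf)
  set c : F := η * w with hc
  have hc0 : c ≠ 0 := mul_ne_zero hη hw0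
  set G : Matrix (Fin e ⊕ Fin f) (Fin e ⊕ Fin f) F := Matrix.fromBlocks ((1 : F) • Ae e F) 0 0 (c • Ae f F) with hG
  have hGdet : G.det = (Ae e F).det * (c ^ f * (Ae f F).det) := by
    rw [hG, Matrix.det_fromBlocks_zero₂₁, one_smul, Matrix.det_smul, Fintype.card_fin]
  refine ⟨G, ?_, ?_, ?_, ?_⟩
  · rw [hG, Matrix.fromBlocks_transpose, Matrix.transpose_smul, Matrix.transpose_smul, Ae_symm he, Ae_symm hf]
    simp
  · rw [hGdet]
    exact mul_ne_zero (Ae_det he) (mul_ne_zero (pow_ne_zero _ hc0) (Ae_det hf))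
  · have h := RR.sum (odd_RR h2 he hep (1 : F)) (odd_RR h2 hf hfp c)
    have hfun : (fun v : Fin e ⊕ Fin f → F => QG ((1 : F) • Ae e F) (v ∘ Sum.inl) + QG (c • Ae f F) (v ∘ Sum.inr)) = ⇑(QG G) := by
      funext v
      rw [hG, QG_block]
    rw [hfun] at h
    exact h
  · obtain ⟨t, ht⟩ := hf
    have hkey : (-1) ^ d * G.det = η * (w * c ^ t) ^ 2 := by
      have cpow : c ^ f = c * (c ^ t) ^ 2 := by
        rw [ht]
        ring
      rw [hGdet, cpow]
      have e1 : (-1) ^ d * ((Ae e F).det * (c * (c ^ t) ^ 2 * (Ae f F).det)) = w * c * (c ^ t) ^ 2 := by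
        rw [hw]
        ring
      rw [e1]
      generalize c ^ t = X
      rw [hc]
      ring
    have ht0 : w * c ^ t ≠ 0 := mul_ne_zero hw0 (pow_ne_zero _ hc0)
    rw [hkey]
    constructor
    · rintro ⟨r, hr⟩
      refine ⟨r / (w * c ^ t), ?_⟩
      field_simp
      linear_combination hr
    · rintro ⟨r, hr⟩
      refine ⟨r * (w * c ^ t), ?_⟩
      rw [hr]
      ring

theorem oddpair_plus [Finite F] (h2 : (2 : F) ≠ 0) {e f p d : ℕ} (he : Odd e) (hf : Odd f) (hep : e ≤ p) (hfp : f ≤ p) (hd : e + f = 2 * d) :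
    RR (Cfsg.quadFormPlus d F) p ({e} + {f}) := by
  obtain ⟨G, h1, h3, h4, h5⟩ := oddpair (F := F) (d := d) h2 he hf hep hfp 1 one_ne_zero
  have hd1 : 1 ≤ d := by
    obtain ⟨t, ht⟩ := he
    omega
  have hc : Fintype.card (Fin e ⊕ Fin f) = 2 * d := by simp [hd]
  rcases std_forms h2 h1 h3 hd1 hc with ⟨-, g, hg⟩ | ⟨hns, -⟩
  · exact h4.transport g hg
  · exact absurd (h5.2 IsSquare.one) hns

theorem oddpair_minus [Finite F] (h2 : (2 : F) ≠ 0) (hη : ∃ η : F, ¬ IsSquare η) {e f p d : ℕ} (he : Odd e) (hf : Odd f) (hep : e ≤ p) (hfp : f ≤ p) (hd : e + f = 2 * d) :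
    ∃ ζ : F, (∀ t : F, t ^ 2 + t + ζ ≠ 0) ∧ RR (Cfsg.quadFormMinus (d - 1) F 1 ζ) p ({e} + {f}) := by
  obtain ⟨η, hns⟩ := hη
  have hη0 : η ≠ 0 := by
    rintro rfl
    exact hns IsSquare.zero
  obtain ⟨G, h1, h3, h4, h5⟩ := oddpair (F := F) (d := d) h2 he hf hep hfp η hη0
  have hd1 : 1 ≤ d := by
    obtain ⟨t, ht⟩ := he
    omega
  have hc : Fintype.card (Fin e ⊕ Fin f) = 2 * d := by simp [hd]
  rcases std_forms h2 h1 h3 hd1 hc with ⟨hs, -⟩ | ⟨-, g, ζ, hζ, hg⟩
  · exact absurd (h5.1 hs) hns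
  · exact ⟨ζ, hζ, h4.transport g hg⟩

/-- merging hyperbolic indices -/
def tauH (m n : ℕ) : Fin (m + n) ⊕ Fin (m + n) ≃ (Fin m ⊕ Fin m) ⊕ (Fin n ⊕ Fin n) :=
  (Equiv.sumCongr finSumFinEquiv.symm finSumFinEquiv.symm).trans (Equiv.sumSumSumComm _ _ _ _)

lemma tauH_ll (m n : ℕ) (i : Fin m) : tauH m n (Sum.inl (Fin.castAdd n i)) = Sum.inl (Sum.inl i) := by
  simp [tauH]
lemma tauH_lr (m n : ℕ) (i : Fin n) : tauH m n (Sum.inl (Fin.natAdd m i)) = Sum.inr (Sum.inl i) := by
  simp [tauH]
lemma tauH_rl (m n : ℕ) (i : Fin m) : tauH m n (Sum.inr (Fin.castAdd n i)) = Sum.inl (Sum.inr i) := by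
  simp [tauH]
lemma tauH_rr (m n : ℕ) (i : Fin n) : tauH m n (Sum.inr (Fin.natAdd m i)) = Sum.inr (Sum.inr i) := by
  simp [tauH]

theorem plus_add {m n p : ℕ} {μ₁ μ₂ : Multiset ℕ} (h₁ : RR (Cfsg.quadFormPlus m F) p μ₁) (h₂ : RR (Cfsg.quadFormPlus n F) p μ₂) :
    RR (Cfsg.quadFormPlus (m + n) F) p (μ₁ + μ₂) := by
  refine (RR.sum h₁ h₂).transport (LinearEquiv.funCongrLeft F F (tauH m n)) ?_
  intro v
  simp only [Cfsg.quadFormPlus, LinearEquiv.funCongrLeft_apply, LinearMap.funLeft_apply, Fin.sum_univ_add, tauH_ll, tauH_lr, tauH_rl, tauH_rr, Function.comp]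

lemma even_sum_of_even (s : Multiset ℕ) (h : ∀ x ∈ s, Even x) : Even s.sum := by
  induction s using Multiset.induction_on with
  | empty => simp
  | cons a s ih =>
    rw [Multiset.sum_cons]
    exact (h a (Multiset.mem_cons_self a s)).add (ih fun x hx => h x (Multiset.mem_cons_of_mem hx))

lemma exists_odd_of_odd_sum (s : Multiset ℕ) (h : Odd s.sum) : ∃ x ∈ s, Odd x := by
  by_contra hc
  push Not at hc
  have : Even s.sum := even_sum_of_even s fun x hx => Nat.not_odd_iff_even.1 (hc x hx)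
  exact (Nat.not_even_iff_odd.2 h) this

/-- **realization of a partition in the hyperbolic space** -/
theorem R_plus [Finite F] (h2 : (2 : F) ≠ 0) (p : ℕ) : ∀ (n : ℕ) (μ : Multiset ℕ), Multiset.card μ = n →
    (∀ e, Even e → Even (μ.count e)) → (∀ e ∈ μ, 0 < e ∧ e ≤ p) → ∀ d, μ.sum = 2 * d →
    RR (Cfsg.quadFormPlus d F) p μ := by
  classical
  intro n
  induction n using Nat.strong_induction_on with
  | _ n ih =>
    intro μ hn hpar hparts d hs
    rcases Multiset.empty_or_exists_mem μ with h0 | ⟨e, he⟩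
    · subst h0
      have hd0 : d = 0 := by simpa using hs.symm
      subst hd0
      refine ⟨0, ?_, ?_, ?_⟩
      · intro u v
        simp [polar, Cfsg.quadFormPlus]
      · apply LinearMap.ext
        intro v
        exact Subsingleton.elim _ _
      · intro k
        simp [Module.finrank_zero_of_subsingleton]
    · by_cases hex : ∃ e ∈ μ, Odd e
      · obtain ⟨e, he, heo⟩ := hex
        obtain ⟨μ₁, rfl⟩ := Multiset.exists_cons_of_mem he
        have hs1 : Odd μ₁.sum := by
          rw [Multiset.sum_cons] at hs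
          by_contra hc
          have := Nat.not_odd_iff_even.1 hc
          have h3 : Odd (e + μ₁.sum) := heo.add_even this
          rw [hs] at h3
          exact (Nat.not_even_iff_odd.2 h3) (even_two_mul d)
        obtain ⟨f, hf, hfo⟩ := exists_odd_of_odd_sum μ₁ hs1
        obtain ⟨μ₂, rfl⟩ := Multiset.exists_cons_of_mem hf
        have hcard : Multiset.card μ₂ < n := by
          rw [← hn]
          simp
        rw [Multiset.sum_cons, Multiset.sum_cons] at hs
        obtain ⟨t₁, ht₁⟩ := heo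
        obtain ⟨t₂, ht₂⟩ := hfo
        have hd1 : d = (t₁ + t₂ + 1) + (d - (t₁ + t₂ + 1)) := by omega
        have h₂ := ih _ hcard μ₂ rfl (fun t ht => by
            have := hpar t ht
            rw [Multiset.count_cons, Multiset.count_cons] at this
            have h1 : ¬ t = e := by
              rintro rfl
              exact (Nat.not_even_iff_odd.2 ⟨t₁, ht₁⟩) ht
            have h3 : ¬ t = f := by
              rintro rfl
              exact (Nat.not_even_iff_odd.2 ⟨t₂, ht₂⟩) ht
            simpa [h1, h3] using this)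
          (fun x hx => hparts x (Multiset.mem_cons_of_mem (Multiset.mem_cons_of_mem hx))) (d - (t₁ + t₂ + 1)) (by omega)
        have h₁ := oddpair_plus (F := F) (d := t₁ + t₂ + 1) h2 ⟨t₁, ht₁⟩ ⟨t₂, ht₂⟩ (hparts e (Multiset.mem_cons_self _ _)).2
          (hparts f (Multiset.mem_cons_of_mem (Multiset.mem_cons_self _ _))).2 (by omega)
        have h3 := plus_add h₁ h₂
        rw [← hd1] at h3
        have hμ : ({e} + {f} + μ₂ : Multiset ℕ) = e ::ₘ f ::ₘ μ₂ := by
          simp [Multiset.singleton_add]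
        rwa [hμ] at h3
      · push Not at hex
        have hee : Even e := Nat.not_odd_iff_even.1 (hex e he)
        obtain ⟨μ₁, rfl⟩ := Multiset.exists_cons_of_mem he
        have hcnt := hpar e hee
        have he1 : e ∈ μ₁ := by
          rw [Multiset.count_cons_self] at hcnt
          by_contra hc
          rw [Multiset.count_eq_zero_of_notMem hc] at hcnt
          simp at hcnt
        obtain ⟨μ₂, rfl⟩ := Multiset.exists_cons_of_mem he1
        have hcard : Multiset.card μ₂ < n := by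
          rw [← hn]
          simp
        rw [Multiset.sum_cons, Multiset.sum_cons] at hs
        have hd1 : d = e + (d - e) := by omega
        have h₂ := ih _ hcard μ₂ rfl (fun t ht => by
            have := hpar t ht
            rw [Multiset.count_cons, Multiset.count_cons] at this
            by_cases h1 : t = e
            · subst h1
              simp only [if_true] at this
              rw [show μ₂.count t + 1 + 1 = μ₂.count t + 2 from rfl] at this
              exact (Nat.even_add.1 this).2 even_two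
            · simpa [h1] using this)
          (fun x hx => hparts x (Multiset.mem_cons_of_mem (Multiset.mem_cons_of_mem hx))) (d - e) (by omega)
        have h₁ : RR (Cfsg.quadFormPlus e F) p {e, e} := pair_RR (hparts e (Multiset.mem_cons_self _ _)).2
        have h3 := plus_add h₁ h₂
        rw [← hd1] at h3
        have hμ : (({e, e} : Multiset ℕ) + μ₂) = e ::ₘ e ::ₘ μ₂ := by
          simp [Multiset.insert_eq_cons, Multiset.singleton_add]
        rwa [hμ] at h3

end Cfsg.Agent.H27.JT
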