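import Mathlib
import Cfsg.Agent.Lib.H27.JT5
import Cfsg.Agent.Lib.H11.OSum
import Cfsg.Prelude.Def_GeometricClasses

set_option autoImplicit false

namespace Cfsg.Agent.H27.JT

open Module Matrix QuadraticMap Cfsg Cfsg.Geo

variable {F : Type*} [Field F]

section cayley

variable {V : Type*} [AddCommGroup V] [Module F V] [FiniteDimensional F V]

variable (N : V →ₗ[F] V) (p : ℕ)

/-- the geometric sums -/
noncomputable def geoA : V →ₗ[F] V := ∑ k ∈ Finset.range p, N ^ k

/-- the Cayley transform -/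
noncomputable def cay : V →ₗ[F] V := (1 + N) * geoA N p

variable {N p}

lemma geoA_left (hn : N ^ p = 0) : (1 - N) * geoA N p = 1 := by
  rw [geoA, mul_neg_geom_sum, hn, sub_zero]

lemma geoA_right (hn : N ^ p = 0) : geoA N p * (1 - N) = 1 := by
  rw [geoA, geom_sum_mul_neg, hn, sub_zero]

lemma neg_pow_zero (hn : N ^ p = 0) : (-N) ^ p = 0 := by
  rw [neg_pow, hn, mul_zero]

lemma geoA'_left (hn : N ^ p = 0) : (1 + N) * geoA (-N) p = 1 := by
  have := geoA_left (neg_pow_zero hn)
  rwa [sub_neg_eq_add] at this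

lemma geoA'_right (hn : N ^ p = 0) : geoA (-N) p * (1 + N) = 1 := by
  have := geoA_right (neg_pow_zero hn)
  rwa [sub_neg_eq_add] at this

lemma cay_mul_cay' (hn : N ^ p = 0) : cay N p * cay (-N) p = 1 := by
  have h : cay (-N) p = (1 - N) * geoA (-N) p := by
    rw [cay, sub_eq_add_neg]
  rw [h, cay, mul_assoc, ← mul_assoc (geoA N p), geoA_right hn, one_mul, geoA'_left hn]

lemma cay'_mul_cay (hn : N ^ p = 0) : cay (-N) p * cay N p = 1 := by
  have h : cay (-N) p = (1 - N) * geoA (-N) p := by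
    rw [cay, sub_eq_add_neg]
  rw [h, cay, mul_assoc, ← mul_assoc (geoA (-N) p), geoA'_right hn, one_mul, geoA_left hn]

lemma comm_N_A : Commute N (geoA N p) := by
  unfold geoA
  apply Commute.sum_right
  intro k _
  exact (Commute.refl N).pow_right k

lemma cay_sub_one (hn : N ^ p = 0) : cay N p - 1 = (2 : F) • (N * geoA N p) := by
  have : cay N p - 1 = ((1 : V →ₗ[F] V) + N) * geoA N p - (1 - N) * geoA N p := by
    rw [geoA_left hn]
    rfl
  rw [this, ← sub_mul, show ((1 : V →ₗ[F] V) + N) - (1 - N) = (2 : F) • N by rw [two_smul]; abel, smul_mul_assoc]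

lemma cay_sub_one_pow (hn : N ^ p = 0) (k : ℕ) : (cay N p - 1) ^ k = ((2 : F) ^ k) • (geoA N p ^ k * N ^ k) := by
  rw [cay_sub_one hn, smul_pow, (comm_N_A).eq, (comm_N_A (N := N) (p := p)).symm.mul_pow]

lemma geoA_inj (hn : N ^ p = 0) (k : ℕ) (v : V) (h : (geoA N p ^ k) v = 0) : v = 0 := by
  induction k generalizing v with
  | zero => simpa using h
  | succ k ih =>
    rw [pow_succ_apply''] at h
    apply ih
    have h3 : ((1 - N) * geoA N p) ((geoA N p ^ k) v) = 0 := by
      change (1 - N) ((geoA N p) ((geoA N p ^ k) v)) = 0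
      rw [h, map_zero]
    rw [geoA_left hn] at h3
    exact h3

lemma ker_cay (h2 : (2 : F) ≠ 0) (hn : N ^ p = 0) (k : ℕ) (v : V) : ((cay N p - 1) ^ k) v = 0 ↔ (N ^ k) v = 0 := by
  rw [cay_sub_one_pow hn]
  constructor
  · intro h
    have h1 : ((2 : F) ^ k) • (geoA N p ^ k) ((N ^ k) v) = 0 := h
    have h3 := (smul_eq_zero.1 h1).resolve_left (pow_ne_zero _ h2)
    exact geoA_inj hn k _ h3
  · intro h
    change ((2 : F) ^ k) • (geoA N p ^ k) ((N ^ k) v) = 0
    rw [h, map_zero, smul_zero]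

lemma cay_sub_one_pow_p (hn : N ^ p = 0) : (cay N p - 1) ^ p = 0 := by
  rw [cay_sub_one_pow hn, hn, mul_zero, smul_zero]

variable (B : V →ₗ[F] V →ₗ[F] F) (hsk : ∀ u v, B (N u) v = - B u (N v))

include hsk in
lemma adj_pow (k : ℕ) (u v : V) : B ((N ^ k) u) v = B u (((-N) ^ k) v) := by
  induction k generalizing u v with
  | zero => simp
  | succ k ih =>
    rw [pow_succ_apply', ih, hsk, pow_succ_apply'']
    simp

include hsk in
lemma adj_A (u v : V) : B (geoA N p u) v = B u (geoA (-N) p v) := by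
  simp only [geoA, LinearMap.sum_apply, map_sum]
  apply Finset.sum_congr rfl
  intro k _
  exact adj_pow B hsk k u v

include hsk in
lemma cay_iso (hn : N ^ p = 0) (u v : V) : B (cay N p u) (cay N p v) = B u v := by
  have h1 : B (cay N p u) (cay N p v) = B (geoA N p u) ((1 - N) (cay N p v)) := by
    change B ((geoA N p u) + N (geoA N p u)) _ = _
    rw [map_add, LinearMap.add_apply, hsk]
    simp only [LinearMap.sub_apply, Module.End.one_apply, map_sub]
    ring
  rw [h1, adj_A B hsk]
  have h3 : geoA (-N) p ((1 - N) (cay N p v)) = v := by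
    have e : geoA (-N) p * (1 - N) * cay N p = 1 := by
      rw [cay, show geoA (-N) p * (1 - N) * ((1 + N) * geoA N p) = geoA (-N) p * ((1 - N) * (1 + N)) * geoA N p by noncomm_ring,
        show (1 - N) * (1 + N) = (1 + N) * (1 - N) by noncomm_ring,
        ← mul_assoc, geoA'_right hn, one_mul, geoA_left hn]
    have := congrArg (fun f : V →ₗ[F] V => f v) e
    simpa using this
  rw [h3]

end cayley

end Cfsg.Agent.H27.JT
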