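import Mathlib
import Cfsg.Agent.Lib.H27.JT6

set_option autoImplicit false

namespace Cfsg.Agent.H27.JT

open Module Matrix QuadraticMap Cfsg Cfsg.Geo

variable {F : Type*} [Field F]

lemma lt_of_big (μ : Multiset ℕ) (h : ∃ e ∈ μ, 2 ≤ e) :
    (μ.map (fun f => min f 1)).sum < (μ.map (fun f => min f 2)).sum := by
  induction μ using Multiset.induction_on with
  | empty => simp at h
  | cons a s ih =>
    simp only [Multiset.map_cons, Multiset.sum_cons]
    have hle : (s.map (fun f => min f 1)).sum ≤ (s.map (fun f => min f 2)).sum := by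
      apply Multiset.sum_map_le_sum_map
      intro i _
      omega
    by_cases ha : 2 ≤ a
    · omega
    · obtain ⟨e, he, he2⟩ := h
      rw [Multiset.mem_cons] at he
      rcases he with rfl | he
      · omega
      · have := ih ⟨e, he, he2⟩
        omega

section twostep

variable {V : Type*} [AddCommGroup V] [Module F V] [FiniteDimensional F V]

lemma sum_plain (a : ℕ → ℤ) (n : ℕ) :
    ∑ e ∈ Finset.range n, (2 * a (e + 1) - a e - a (e + 2)) = (a 1 - a 0) - (a (n + 1) - a n) := by
  induction n with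
  | zero => simp
  | succ n ih =>
    rw [Finset.sum_range_succ, ih]
    ring

theorem two_step (T : V →ₗ[F] V) (W : Submodule F V) {n : ℕ} (hn2 : 2 ≤ n) (hn : ∀ w ∈ W, (T ^ n) w = 0)
    (hm : ∀ e, e ≠ 1 → mlt T W e = 0) :
    (∀ w ∈ W, (T ^ 2) w = 0) ∧ 2 * finrank F ↥(W.map T) = finrank F ↥W := by
  have h1 := sum_mlt T W hn
  rw [Finset.sum_eq_single 1 (fun e _ he => by rw [hm e he, mul_zero]) (fun h => absurd (Finset.mem_range.2 (by omega)) h)] at h1
  have h3 := sum_plain (ak T W) n
  rw [ak_of_nil hn le_rfl, ak_of_nil hn (Nat.le_succ n), ak_zero] at h3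
  have h4 : ∑ e ∈ Finset.range n, (2 * ak T W (e + 1) - ak T W e - ak T W (e + 2)) = mlt T W 1 := by
    change ∑ e ∈ Finset.range n, mlt T W e = _
    rw [Finset.sum_eq_single 1 (fun e _ he => hm e he) (fun h => absurd (Finset.mem_range.2 (by omega)) h)]
  rw [h4] at h3
  have h5 := hm 0 (by omega)
  simp only [mlt, zero_add, ak_zero] at h5
  have h6 := map_rank T W
  have h7 : ak T W 1 = (finrank F ↥(W ⊓ LinearMap.ker T) : ℕ) := by
    unfold ak
    rw [pow_one]
  have h1' : ((1 : ℕ) + 1 : ℤ) * mlt T W 1 = finrank F ↥W := by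
    exact_mod_cast h1
  constructor
  · have h8 : W ⊓ LinearMap.ker (T ^ 2) = W := by
      apply Submodule.eq_of_le_of_finrank_eq inf_le_left
      have h9 : ak T W 2 = finrank F ↥W := by
        have : ak T W 2 = 2 * ak T W 1 := by
          linarith
        rw [this]
        push_cast at h1' 
        linarith
      simp only [ak] at h9
      exact_mod_cast h9
    intro w hw
    have : w ∈ W ⊓ LinearMap.ker (T ^ 2) := by
      rw [h8]
      exact hw
    exact this.2
  · have h10 : (finrank F ↥(W ⊓ LinearMap.ker T) : ℤ) = mlt T W 1 := by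
      rw [← h7]
      linarith
    push_cast at h1'
    have h11 : (2 * finrank F ↥(W ⊓ LinearMap.ker T) : ℤ) = finrank F ↥W := by
      rw [h10]
      linarith
    have h12 : 2 * finrank F ↥(W ⊓ LinearMap.ker T) = finrank F ↥W := by
      exact_mod_cast h11
    omega

end twostep

variable {T : Type} [Fintype T] [DecidableEq T] [Fintype F]

/-- **from a realization to an element of `Ω` of order `p`, and the sub-partition of a fixed space** -/
theorem sub_of_RR (Q : QuadraticForm F (T → F)) (hQ : (polarBilin Q).Nondegenerate) (hcard : Nat.card F ≠ 2) (h2 : (2 : F) ≠ 0)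
    {p : ℕ} [Fact p.Prime] [CharP F p] (hodd : Odd p) {μ : Multiset ℕ} (hR : RR (⇑Q) p μ) (hbig : ∃ e ∈ μ, 2 ≤ e) :
    ∃ g : GL T F, g ∈ omegaGL (⇑Q) ∧ g ^ p = 1 ∧ (∀ z : F, (g : Matrix T T F) ≠ z • 1) ∧
      ∀ W : Submodule F (T → F), IsNondegenerateOn (polar (⇑Q)) W → W.map (Matrix.toLin' (g : Matrix T T F)) ≤ W →
        ∃ ν : Multiset ℕ, ν ≤ μ ∧ ν.sum = finrank F ↥W ∧ (∀ e, Even e → Even (ν.count e)) ∧
          (ν.count 1 = 0 → (∀ e, 2 < e → ν.count e = 0) → IsPlusTypeOn (⇑Q) W) := by
  classical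
  obtain ⟨N, hsk, hn, hprof⟩ := hR
  have hp3 : 2 ≤ p := (Fact.out : p.Prime).two_le
  have hN : N ≠ 0 := by
    rintro rfl
    have h1 := hprof 1
    have h3 := hprof 2
    have e1 : LinearMap.ker ((0 : (T → F) →ₗ[F] (T → F)) ^ 1) = ⊤ := by simp
    have e3 : LinearMap.ker ((0 : (T → F) →ₗ[F] (T → F)) ^ 2) = ⊤ := by simp
    rw [e1] at h1
    rw [e3] at h3
    have := lt_of_big μ hbig
    omega
  haveI hT : Nonempty T := by
    by_contra hc
    rw [not_nonempty_iff] at hc
    apply hN
    apply LinearMap.ext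
    intro v
    exact Subsingleton.elim _ _
  set B : LinearMap.BilinForm F (T → F) := polarBilin Q with hB
  have hBa : ∀ u v, B u v = polar (⇑Q) u v := fun u v => polarBilin_apply_apply Q u v
  have hsk' : ∀ u v, B (N u) v = - B u (N v) := by
    intro u v
    rw [hBa, hBa]
    exact hsk u v
  have hsymm : ∀ u v, B u v = B v u := by
    intro u v
    rw [hBa, hBa, polar_comm]
  set X := cay N p with hX
  set Y := cay (-N) p with hY
  have hXY : X * Y = 1 := cay_mul_cay' hn
  have hYX : Y * X = 1 := cay'_mul_cay hn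
  have hiso : ∀ u v, B (X u) (X v) = B u v := cay_iso B hsk' hn
  have hself : ∀ w, B w w = 2 * Q w := by
    intro w
    rw [hBa, polar_self, two_smul, two_mul]
  have hqX : ∀ v, Q (X v) = Q v := by
    intro v
    have := hiso v v
    rw [hself, hself] at this
    exact mul_left_cancel₀ h2 this
  let g : GL T F := ⟨LinearMap.toMatrix' X, LinearMap.toMatrix' Y, by
      rw [← LinearMap.toMatrix'_mul]
      change LinearMap.toMatrix' (X * Y) = 1
      rw [hXY]
      exact LinearMap.toMatrix'_id, by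
      rw [← LinearMap.toMatrix'_mul]
      change LinearMap.toMatrix' (Y * X) = 1
      rw [hYX]
      exact LinearMap.toMatrix'_id⟩
  have hgval : (g : Matrix T T F) = LinearMap.toMatrix' X := rfl
  have hgl : Matrix.toLin' (g : Matrix T T F) = X := by
    rw [hgval, Matrix.toLin'_toMatrix']
  have hgm : ∀ v, (g : Matrix T T F) *ᵥ v = X v := by
    intro v
    rw [← Matrix.toLin'_apply, hgl]
  have hgiso : g ∈ isometryGroup F (⇑Q) := by
    intro u v
    change Q ((g : Matrix T T F) *ᵥ u) = Q u
    rw [hgm, hqX]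
  haveI : Nontrivial (Module.End F (T → F)) := by
    refine ⟨⟨0, 1, ?_⟩⟩
    intro h
    obtain ⟨v, hv⟩ := exists_ne (0 : T → F)
    have := LinearMap.congr_fun h v
    exact hv this.symm
  haveI hchar : CharP (Module.End F (T → F)) p := charP_of_injective_algebraMap (algebraMap F (Module.End F (T → F))).injective p
  have hXp : X ^ p = 1 := by
    have h1 := cay_sub_one_pow_p hn
    have h3 : (X - 1) ^ p = X ^ p - 1 ^ p := sub_pow_char_of_commute p (Commute.one_right X)
    rw [← hX, h3, one_pow] at h1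
    exact sub_eq_zero.1 h1
  have hgp : g ^ p = 1 := by
    apply Units.ext
    apply Matrix.toLin'.injective
    rw [Units.val_pow_eq_pow_val, ← toLin'_pow', hgl, hXp, Units.val_one, Matrix.toLin'_one]
    rfl
  refine ⟨g, ?_, hgp, ?_, ?_⟩
  · let G : ↥(isometryGroup F (⇑Q)) := ⟨g, hgiso⟩
    have hGp : G ^ p = 1 := by
      apply Subtype.ext
      simpa [G] using hgp
    obtain ⟨t, ht⟩ := hodd
    have hG : G = (G ^ (t + 1)) ^ 2 := by
      rw [← pow_mul, show (t + 1) * 2 = p + 1 by omega, pow_succ, hGp, one_mul]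
    refine ⟨G, ?_, rfl⟩
    rw [hG]
    exact Cfsg.Agent.H11.OSum.sq_mem_omega Q hQ (Or.inl hcard) _
  · intro z hz
    have hXz : X = z • 1 := by
      rw [← hgl, hz]
      apply LinearMap.ext
      intro v
      rw [Matrix.toLin'_apply, Matrix.smul_mulVec, Matrix.one_mulVec]
      rfl
    have h1 := cay_sub_one_pow_p hn
    rw [← hX, hXz] at h1
    have h3 : (z • (1 : Module.End F (T → F)) - 1) = (z - 1) • (1 : Module.End F (T → F)) := by
      apply LinearMap.ext
      intro v
      simp only [LinearMap.sub_apply, LinearMap.smul_apply, Module.End.one_apply, sub_smul, one_smul]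
    rw [h3, smul_pow, one_pow] at h1
    have hz1 : z = 1 := by
      have h4 : ((z - 1) ^ p) • (1 : Module.End F (T → F)) = 0 := h1
      rcases smul_eq_zero.1 h4 with h5 | h5
      · exact sub_eq_zero.1 (pow_eq_zero_iff (by omega) |>.1 h5)
      · exact absurd h5 one_ne_zero
    subst hz1
    rw [one_smul] at hXz
    have h5 := cay_sub_one hn
    rw [← hX, hXz, sub_self] at h5
    have h6 : N * geoA N p = 0 := by
      have := (smul_eq_zero.1 h5.symm).resolve_left h2
      exact this
    apply hN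
    calc N = N * (geoA N p * (1 - N)) := by rw [geoA_right hn, mul_one]
      _ = (N * geoA N p) * (1 - N) := by rw [mul_assoc]
      _ = 0 := by rw [h6, zero_mul]
  · intro W hnd hW
    rw [hgl] at hW
    have hxW : ∀ w ∈ W, X w ∈ W := fun w hw => hW (Submodule.mem_map_of_mem hw)
    have hY' : Y = X ^ (p - 1) := by
      have h1 : X * X ^ (p - 1) = 1 := by
        rw [← pow_succ', show p - 1 + 1 = p by omega, hXp]
      calc Y = Y * (X * X ^ (p - 1)) := by rw [h1, mul_one]
        _ = X ^ (p - 1) := by rw [← mul_assoc, hYX, one_mul]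
    have hyW : ∀ w ∈ W, Y w ∈ W := by
      intro w hw
      rw [hY']
      exact pow_mem hxW _ w hw
    have hnd' : ∀ w ∈ W, (∀ u ∈ W, B u w = 0) → w = 0 := by
      intro w hw h
      by_contra hne
      obtain ⟨⟨x, hx, hxw⟩, -⟩ := hnd w hw hne
      apply hxw
      rw [← hBa]
      exact h x hx
    have hnil : ∀ v, ((X - 1) ^ p) v = 0 := by
      intro v
      rw [cay_sub_one_pow_p hn]
      rfl
    have hμ : ∀ k, finrank F ↥(LinearMap.ker ((X - 1) ^ k)) = (μ.map (fun f => min f k)).sum := by
      intro k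
      have : LinearMap.ker ((X - 1) ^ k) = LinearMap.ker (N ^ k) := by
        ext v
        rw [LinearMap.mem_ker, LinearMap.mem_ker]
        exact ker_cay h2 hn k v
      rw [this, hprof]
    obtain ⟨ν, h1, h3, h4, h5⟩ := sub_of_fixed B hsymm X Y hXY hYX hiso h2 hnil W hxW hyW hnd' μ hμ
    refine ⟨ν, h1, h3, h4, ?_⟩
    intro hc1 hc2
    set Tt := X - 1 with hTt
    have hm : ∀ e, e ≠ 1 → mlt Tt W e = 0 := by
      intro e he
      rw [← h5]
      rcases e with _ | e
      · simpa using hc1
      · have : 2 < e + 1 + 1 := by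
          omega
        rw [hc2 _ (by omega)]
        simp
    obtain ⟨hT2, hT3⟩ := two_step Tt W hp3 (fun w _ => hnil w) hm
    refine ⟨W.map Tt, ?_, ?_, hT3⟩
    · rintro _ ⟨w, hw, rfl⟩
      change (X - 1) w ∈ W
      simp only [LinearMap.sub_apply, Module.End.one_apply]
      exact W.sub_mem (hxW w hw) hw
    · rintro _ ⟨w, hw, rfl⟩
      set t := Tt w with ht
      have hTt0 : Tt t = 0 := by
        have := hT2 w hw
        rw [pow_two] at this
        exact this
      have hXt : X t = t := by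
        have : X t - t = 0 := hTt0
        exact sub_eq_zero.1 this
      have hXw : X w = w + t := by
        simp only [ht, hTt, LinearMap.sub_apply, Module.End.one_apply]
        abel
      have e := hiso w t
      rw [hXt, hXw, map_add, LinearMap.add_apply] at e
      have e2 : B t t = 0 := by
        linear_combination e
      rw [hself] at e2
      exact (mul_eq_zero.1 e2).resolve_left h2

/-- the version for a form given as a function -/
theorem sub_of_RR' {q : (T → F) → F} (Q : QuadraticForm F (T → F)) (hq : ⇑Q = q) (hQ : (polarBilin Q).Nondegenerate) (hcard : Nat.card F ≠ 2) (h2 : (2 : F) ≠ 0)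
    {p : ℕ} [Fact p.Prime] [CharP F p] (hodd : Odd p) {μ : Multiset ℕ} (hR : RR q p μ) (hbig : ∃ e ∈ μ, 2 ≤ e) :
    ∃ g : GL T F, g ∈ omegaGL q ∧ g ^ p = 1 ∧ (∀ z : F, (g : Matrix T T F) ≠ z • 1) ∧
      ∀ W : Submodule F (T → F), IsNondegenerateOn (polar q) W → W.map (Matrix.toLin' (g : Matrix T T F)) ≤ W →
        ∃ ν : Multiset ℕ, ν ≤ μ ∧ ν.sum = finrank F ↥W ∧ (∀ e, Even e → Even (ν.count e)) ∧
          (ν.count 1 = 0 → (∀ e, 2 < e → ν.count e = 0) → IsPlusTypeOn q W) := by
  subst hq
  exact sub_of_RR Q hQ hcard h2 hodd hR hbig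

/-- partitions with all parts equal to one -/
lemma trivial_sub (μ : Multiset ℕ) (m : ℕ) (h : ∀ e ∈ μ, e = 1) (hm : m ≤ μ.sum) :
    ∃ ν : Multiset ℕ, ν ≤ μ ∧ ν.sum = m ∧ ∀ e : ℕ, Even e → Even (ν.count e) := by
  classical
  have hμ : μ = Multiset.replicate (Multiset.card μ) 1 := Multiset.eq_replicate_card.2 h
  have hs : μ.sum = Multiset.card μ := by
    conv_lhs => rw [hμ]
    simp
  refine ⟨Multiset.replicate m 1, ?_, by simp, ?_⟩
  · have h1 : m ≤ Multiset.card μ := hs ▸ hm
    calc Multiset.replicate m 1 ≤ Multiset.replicate (Multiset.card μ) 1 := (Multiset.replicate_le_replicate 1).2 h1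
      _ = μ := hμ.symm
  · intro e he
    have : e ≠ 1 := by
      rintro rfl
      exact absurd he (by decide)
    rw [Multiset.count_replicate]
    simp [this.symm]

lemma odd_of_char {p : ℕ} [Fact p.Prime] [CharP F p] {q : ℕ} (hq : Fintype.card F = q) (hqodd : Odd q) : Odd p ∧ (2 : F) ≠ 0 := by
  have hp := (Fact.out : p.Prime)
  have hp2 : p ≠ 2 := by
    rintro rfl
    obtain ⟨n, hn⟩ := FiniteField.card F 2
    have hq2 : q = 2 ^ (n : ℕ) := by
      rw [← hq, hn.2]
    rw [hq2] at hqodd
    have : Even (2 ^ (n : ℕ)) := (Nat.even_pow.2 ⟨even_two, n.pos.ne'⟩)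
    exact (Nat.not_even_iff_odd.2 hqodd) this
  refine ⟨hp.odd_of_ne_two hp2, ?_⟩
  intro h
  have h2 : ((2 : ℕ) : F) = 0 := by
    exact_mod_cast h
  have := (CharP.cast_eq_zero_iff F p 2).1 h2
  exact hp2 ((Nat.prime_dvd_prime_iff_eq hp Nat.prime_two).1 this)

lemma card_ne_two {q : ℕ} (hq : Fintype.card F = q) (hqodd : Odd q) : Nat.card F ≠ 2 := by
  rw [Nat.card_eq_fintype_card, hq]
  rintro rfl
  exact absurd hqodd (by decide)

end Cfsg.Agent.H27.JT
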