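import Mathlib
import Cfsg.Agent.Lib.H27.JT7

set_option autoImplicit false

namespace Cfsg.Agent.H27.JT

open Module Matrix QuadraticMap

variable {F : Type*} [Field F]

/-- rescaling of coordinates -/
def scaleE {T : Type*} (s : T → F) (hs : ∀ u, s u ≠ 0) : (T → F) ≃ₗ[F] (T → F) where
  toFun v := fun u => s u * v u
  map_add' u v := by
    funext i
    simp [mul_add]
  map_smul' c v := by
    funext i
    simp only [Pi.smul_apply, smul_eq_mul, RingHom.id_apply]
    ring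
  invFun v := fun u => (s u)⁻¹ * v u
  left_inv v := by
    funext i
    simp only
    rw [← mul_assoc, inv_mul_cancel₀ (hs i), one_mul]
  right_inv v := by
    funext i
    simp only
    rw [← mul_assoc, mul_inv_cancel₀ (hs i), one_mul]

/-- the positions of the hyperbolic coordinates on an odd Jordan block -/
def posF (a : ℕ) : Unit ⊕ (Fin a ⊕ Fin a) → Fin (2 * a + 1)
  | Sum.inl _ => ⟨a, by omega⟩
  | Sum.inr (Sum.inl i) => ⟨i, by have := i.2; omega⟩
  | Sum.inr (Sum.inr i) => ⟨2 * a - i, by omega⟩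

lemma posF_bij (a : ℕ) : Function.Bijective (posF a) := by
  rw [Fintype.bijective_iff_injective_and_card]
  constructor
  · rintro (_ | i | i) (_ | j | j) h <;> simp only [posF, Fin.mk.injEq] at h
    · rfl
    · have := j.2
      omega
    · have := j.2
      omega
    · have := i.2
      omega
    · have : i = j := Fin.ext h
      rw [this]
    · have := i.2
      have := j.2
      omega
    · have := i.2
      omega
    · have := i.2
      have := j.2
      omega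
    · have : i = j := Fin.ext (by have := i.2; have := j.2; omega)
      rw [this]
  · simp
    ring

lemma dot_Ae (e : ℕ) (v : Fin e → F) : v ⬝ᵥ (Ae e F *ᵥ v) = ∑ i : Fin e, (-1) ^ (i : ℕ) * v i * v i.rev := by
  simp only [dotProduct, Matrix.mulVec, Ae, Matrix.of_apply]
  apply Finset.sum_congr rfl
  intro i _
  have hi := i.2
  rw [Finset.sum_eq_single i.rev]
  · have h1 : (i : ℕ) + (i.rev : ℕ) + 1 = e := by
      rw [Fin.val_rev]
      omega
    rw [if_pos h1]
    ring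
  · intro j _ hj
    have : ¬ ((i : ℕ) + j + 1 = e) := by
      intro h
      apply hj
      apply Fin.ext
      rw [Fin.val_rev]
      omega
    simp [this]
  · simp

/-- the odd Jordan block in standard coordinates -/
theorem odd_std (h2 : (2 : F) ≠ 0) {a p : ℕ} (hep : 2 * a + 1 ≤ p) : RR (Cfsg.quadFormOdd a F) p {2 * a + 1} := by
  set c : F := 2 * (-1) ^ a with hc
  have h := odd_RR h2 (e := 2 * a + 1) (p := p) ⟨a, rfl⟩ hep c
  set s : Unit ⊕ (Fin a ⊕ Fin a) → F := Sum.elim (fun _ => 1) (Sum.elim (fun _ => 1) (fun i => 2 * (-1) ^ (a + (i : ℕ)))) with hs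
  have hs0 : ∀ u, s u ≠ 0 := by
    rintro (_ | i | i)
    · simp [hs]
    · simp [hs]
    · simp only [hs, Sum.elim_inr]
      exact mul_ne_zero h2 (pow_ne_zero _ (neg_ne_zero.2 one_ne_zero))
  let τ : Unit ⊕ (Fin a ⊕ Fin a) ≃ Fin (2 * a + 1) := Equiv.ofBijective _ (posF_bij a)
  refine h.transport ((LinearEquiv.funCongrLeft F F τ).trans (scaleE s hs0)) ?_
  intro v
  rw [QG_apply, Matrix.smul_mulVec, dotProduct_smul, dot_Ae]
  rw [← Equiv.sum_comp τ]
  simp only [Fintype.sum_sum_type, Finset.univ_unique, Finset.sum_singleton]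
  have hrev : ∀ i : Fin a, (τ (Sum.inr (Sum.inl i))).rev = τ (Sum.inr (Sum.inr i)) := by
    intro i
    apply Fin.ext
    rw [Fin.val_rev]
    change 2 * a + 1 - ((i : ℕ) + 1) = 2 * a - i
    omega
  have hrev2 : ∀ i : Fin a, (τ (Sum.inr (Sum.inr i))).rev = τ (Sum.inr (Sum.inl i)) := by
    intro i
    rw [← hrev, Fin.rev_rev]
  have hmid : (τ (Sum.inl default)).rev = τ (Sum.inl default) := by
    apply Fin.ext
    rw [Fin.val_rev]
    change 2 * a + 1 - (a + 1) = a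
    omega
  have hsign : ∀ i : Fin a, ((-1 : F) ^ ((τ (Sum.inr (Sum.inr i)) : Fin (2 * a + 1)) : ℕ)) = (-1) ^ (i : ℕ) := by
    intro i
    change ((-1 : F) ^ (2 * a - (i : ℕ))) = _
    apply neg_one_pow_congr
    have := i.2
    rw [Nat.even_sub (by omega)]
    simp
  have hsign0 : ∀ i : Fin a, ((-1 : F) ^ ((τ (Sum.inr (Sum.inl i)) : Fin (2 * a + 1)) : ℕ)) = (-1) ^ (i : ℕ) := fun i => rfl
  have hsignm : ((-1 : F) ^ ((τ (Sum.inl default) : Fin (2 * a + 1)) : ℕ)) = (-1) ^ a := rfl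
  simp only [hrev, hrev2, hmid, hsign, hsign0, hsignm]
  have hgv : ∀ u, ((LinearEquiv.funCongrLeft F F τ).trans (scaleE s hs0)) v u = s u * v (τ u) := fun u => rfl
  simp only [Cfsg.quadFormOdd, hgv]
  simp only [hs, Sum.elim_inl, Sum.elim_inr, one_mul]
  have hone : ((-1 : F) ^ a) * (-1) ^ a = 1 := by
    rw [← mul_pow]
    simp
  have hterm : ∀ i : Fin a, (2 : F) * (-1) ^ a * ((-1) ^ (i : ℕ) * v (τ (Sum.inr (Sum.inl i))) * v (τ (Sum.inr (Sum.inr i)))) =
      v (τ (Sum.inr (Sum.inl i))) * ((2 * (-1) ^ (a + (i : ℕ))) * v (τ (Sum.inr (Sum.inr i)))) := by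
    intro i
    rw [pow_add]
    ring
  rw [← Finset.sum_congr rfl (fun i _ => hterm i)]
  have hsw : ∀ i : Fin a, (-1 : F) ^ (i : ℕ) * v (τ (Sum.inr (Sum.inr i))) * v (τ (Sum.inr (Sum.inl i))) =
      (-1) ^ (i : ℕ) * v (τ (Sum.inr (Sum.inl i))) * v (τ (Sum.inr (Sum.inr i))) := fun i => by ring
  simp only [hsw, ← Finset.mul_sum]
  simp only [hc, smul_eq_mul]
  have hdef : (Sum.inl default : Unit ⊕ (Fin a ⊕ Fin a)) = Sum.inl () := rfl
  rw [hdef] at *
  set M := v (τ (Sum.inl ()))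
  set S := ∑ i : Fin a, (-1 : F) ^ (i : ℕ) * v (τ (Sum.inr (Sum.inl i))) * v (τ (Sum.inr (Sum.inr i)))
  field_simp
  linear_combination (M ^ 2) * hone

/-- merging the odd form with a hyperbolic space -/
theorem odd_add {a n p : ℕ} {μ₁ μ₂ : Multiset ℕ} (h₁ : RR (Cfsg.quadFormOdd a F) p μ₁) (h₂ : RR (Cfsg.quadFormPlus n F) p μ₂) :
    RR (Cfsg.quadFormOdd (a + n) F) p (μ₁ + μ₂) := by
  let τ : Unit ⊕ (Fin (a + n) ⊕ Fin (a + n)) ≃ (Unit ⊕ (Fin a ⊕ Fin a)) ⊕ (Fin n ⊕ Fin n) :=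
    (Equiv.sumCongr (Equiv.refl _) (tauH a n)).trans (Equiv.sumAssoc _ _ _).symm
  refine (RR.sum h₁ h₂).transport (LinearEquiv.funCongrLeft F F τ) ?_
  intro v
  have h0 : τ (Sum.inl ()) = Sum.inl (Sum.inl ()) := rfl
  have h1 : ∀ i : Fin a, τ (Sum.inr (Sum.inl (Fin.castAdd n i))) = Sum.inl (Sum.inr (Sum.inl i)) := by
    intro i
    simp [τ, tauH_ll]
  have h3 : ∀ i : Fin n, τ (Sum.inr (Sum.inl (Fin.natAdd a i))) = Sum.inr (Sum.inl i) := by
    intro i
    simp [τ, tauH_lr]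
  have h4 : ∀ i : Fin a, τ (Sum.inr (Sum.inr (Fin.castAdd n i))) = Sum.inl (Sum.inr (Sum.inr i)) := by
    intro i
    simp [τ, tauH_rl]
  have h5 : ∀ i : Fin n, τ (Sum.inr (Sum.inr (Fin.natAdd a i))) = Sum.inr (Sum.inr i) := by
    intro i
    simp [τ, tauH_rr]
  simp only [Cfsg.quadFormOdd, Cfsg.quadFormPlus, LinearEquiv.funCongrLeft_apply, LinearMap.funLeft_apply, Fin.sum_univ_add, Function.comp, h0, h1, h3, h4, h5]
  ring

/-- merging the elliptic form with a hyperbolic space -/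
theorem minus_add {k n p : ℕ} {a c : F} {μ₁ μ₂ : Multiset ℕ} (h₁ : RR (Cfsg.quadFormMinus k F a c) p μ₁) (h₂ : RR (Cfsg.quadFormPlus n F) p μ₂) :
    RR (Cfsg.quadFormMinus (k + n) F a c) p (μ₁ + μ₂) := by
  let E : ((Fin k ⊕ Fin k) ⊕ (Fin n ⊕ Fin n)) ⊕ Fin 2 ≃ ((Fin k ⊕ Fin k) ⊕ Fin 2) ⊕ (Fin n ⊕ Fin n) :=
    (Equiv.sumAssoc _ _ _).trans ((Equiv.sumCongr (Equiv.refl _) (Equiv.sumComm _ _)).trans (Equiv.sumAssoc _ _ _).symm)
  let τ : (Fin (k + n) ⊕ Fin (k + n)) ⊕ Fin 2 ≃ ((Fin k ⊕ Fin k) ⊕ Fin 2) ⊕ (Fin n ⊕ Fin n) :=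
    (Equiv.sumCongr (tauH k n) (Equiv.refl _)).trans E
  refine (RR.sum h₁ h₂).transport (LinearEquiv.funCongrLeft F F τ) ?_
  intro v
  have h0 : ∀ z : Fin 2, τ (Sum.inr z) = Sum.inl (Sum.inr z) := fun z => rfl
  have h1 : ∀ i : Fin k, τ (Sum.inl (Sum.inl (Fin.castAdd n i))) = Sum.inl (Sum.inl (Sum.inl i)) := by
    intro i
    simp [τ, E, tauH_ll]
  have h3 : ∀ i : Fin n, τ (Sum.inl (Sum.inl (Fin.natAdd k i))) = Sum.inr (Sum.inl i) := by
    intro i
    simp [τ, E, tauH_lr]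
  have h4 : ∀ i : Fin k, τ (Sum.inl (Sum.inr (Fin.castAdd n i))) = Sum.inl (Sum.inl (Sum.inr i)) := by
    intro i
    simp [τ, E, tauH_rl]
  have h5 : ∀ i : Fin n, τ (Sum.inl (Sum.inr (Fin.natAdd k i))) = Sum.inr (Sum.inr i) := by
    intro i
    simp [τ, E, tauH_rr]
  simp only [Cfsg.quadFormMinus, Cfsg.quadFormPlus, LinearEquiv.funCongrLeft_apply, LinearMap.funLeft_apply, Fin.sum_univ_add, Function.comp, h0, h1, h3, h4, h5]
  ring

/-- the binary elliptic forms are all isometric -/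
theorem binary_iso [Fintype F] (h2 : (2 : F) ≠ 0) {ζ : F} (hζ : ∀ t : F, t ^ 2 + t + ζ ≠ 0) {a b : F}
    (hab : ∀ x y : F, x ^ 2 + a * x * y + b * y ^ 2 = 0 → x = 0 ∧ y = 0) (k : ℕ) :
    ∃ g : ((Fin k ⊕ Fin k) ⊕ Fin 2 → F) ≃ₗ[F] ((Fin k ⊕ Fin k) ⊕ Fin 2 → F), ∀ v, Cfsg.quadFormMinus k F 1 ζ v = Cfsg.quadFormMinus k F a b (g v) := by
  classical
  have hD₁ : ¬ IsSquare (1 - 4 * ζ) := by
    rintro ⟨r, hr⟩
    apply hζ ((r - 1) / 2)
    field_simp
    linear_combination -hr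
  have hD₂ : ¬ IsSquare (a ^ 2 - 4 * b) := by
    rintro ⟨r, hr⟩
    have := (hab ((r - a) / 2) 1 (by
      field_simp
      linear_combination -hr)).2
    exact one_ne_zero this
  have h1 : (1 - 4 * ζ) ≠ 0 := fun h => hD₁ (h ▸ IsSquare.zero)
  have h3 : (a ^ 2 - 4 * b) ≠ 0 := fun h => hD₂ (h ▸ IsSquare.zero)
  have hχ : IsSquare ((a ^ 2 - 4 * b) * (1 - 4 * ζ)) := by
    have e1 := quadraticChar_neg_one_iff_not_isSquare.2 hD₁
    have e2 := quadraticChar_neg_one_iff_not_isSquare.2 hD₂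
    apply (quadraticChar_one_iff_isSquare (mul_ne_zero h3 h1)).1
    rw [map_mul, e1, e2]
    norm_num
  obtain ⟨r, hr⟩ := hχ
  set s : F := r / (1 - 4 * ζ) with hs
  have hrne : r ≠ 0 := by
    rintro rfl
    rw [mul_zero] at hr
    exact (mul_ne_zero h3 h1) hr
  have hs0 : s ≠ 0 := div_ne_zero hrne h1
  have hD : a ^ 2 - 4 * b = s ^ 2 * (1 - 4 * ζ) := by
    rw [hs]
    field_simp
    linear_combination hr
  set κ : F := (1 - a / s) / 2 with hκ
  set τ : F := 1 / s with hτ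
  let f : ((Fin k ⊕ Fin k) ⊕ Fin 2 → F) →ₗ[F] ((Fin k ⊕ Fin k) ⊕ Fin 2 → F) :=
    { toFun := fun v => Sum.elim (v ∘ Sum.inl) ![v (Sum.inr 0) + κ * v (Sum.inr 1), τ * v (Sum.inr 1)]
      map_add' := fun u v => by
        funext i
        rcases i with i | i
        · rfl
        · fin_cases i
          · simp
            ring
          · simp
            ring
      map_smul' := fun c v => by
        funext i
        rcases i with i | i
        · rfl
        · fin_cases i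
          · simp
            ring
          · simp
            ring }
  have hfa : ∀ v i, f v (Sum.inl i) = v (Sum.inl i) := fun v i => rfl
  have hf0 : ∀ v, f v (Sum.inr 0) = v (Sum.inr 0) + κ * v (Sum.inr 1) := fun v => rfl
  have hf1 : ∀ v, f v (Sum.inr 1) = τ * v (Sum.inr 1) := fun v => rfl
  have hτ0 : τ ≠ 0 := one_div_ne_zero hs0
  have hinj : Function.Injective f := by
    rw [injective_iff_map_eq_zero]
    intro v hv
    have h5 : v (Sum.inr 1) = 0 := by
      have := congrFun hv (Sum.inr 1)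
      rw [hf1] at this
      exact (mul_eq_zero.1 this).resolve_left hτ0
    have h6 : v (Sum.inr 0) = 0 := by
      have := congrFun hv (Sum.inr 0)
      rw [hf0, h5, mul_zero, add_zero] at this
      exact this
    funext i
    rcases i with i | i
    · exact congrFun hv (Sum.inl i)
    · fin_cases i
      · exact h6
      · exact h5
  refine ⟨LinearEquiv.ofInjectiveEndo f hinj, ?_⟩
  intro v
  simp only [LinearEquiv.coe_ofInjectiveEndo, Cfsg.quadFormMinus, hfa, hf0, hf1]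
  congr 1
  simp only [hκ, hτ]
  field_simp
  have hb : b = (a ^ 2 - s ^ 2 * (1 - 4 * ζ)) / 4 := by
    have h4 : (4 : F) ≠ 0 := by
      have : (4 : F) = 2 * 2 := by norm_num
      rw [this]
      exact mul_ne_zero h2 h2
    field_simp
    linear_combination -hD
  rw [hb]
  have h4 : (4 : F) ≠ 0 := by
    have : (4 : F) = 2 * 2 := by norm_num
    rw [this]
    exact mul_ne_zero h2 h2
  field_simp
  ring

/-- **realization of a partition of odd size in the odd-dimensional space** -/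
theorem R_odd [Finite F] (h2 : (2 : F) ≠ 0) (p : ℕ) (μ : Multiset ℕ)
    (hpar : ∀ e, Even e → Even (μ.count e)) (hparts : ∀ e ∈ μ, 0 < e ∧ e ≤ p) (d : ℕ) (hs : μ.sum = 2 * d + 1) :
    RR (Cfsg.quadFormOdd d F) p μ := by
  classical
  have hodd : Odd μ.sum := by
    rw [hs]
    exact ⟨d, rfl⟩
  obtain ⟨e, he, a, rfl⟩ := exists_odd_of_odd_sum μ hodd
  obtain ⟨μ₁, rfl⟩ := Multiset.exists_cons_of_mem he
  rw [Multiset.sum_cons] at hs
  have hd : d = a + (d - a) := by omega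
  have h₂ := R_plus (F := F) h2 p _ μ₁ rfl (fun t ht => by
      have := hpar t ht
      rw [Multiset.count_cons] at this
      have h1 : ¬ t = 2 * a + 1 := by
        rintro rfl
        exact (Nat.not_even_iff_odd.2 ⟨a, rfl⟩) ht
      simpa [h1] using this)
    (fun x hx => hparts x (Multiset.mem_cons_of_mem hx)) (d - a) (by omega)
  have h₁ := odd_std (F := F) h2 (a := a) (p := p) (hparts _ he).2
  have h3 := odd_add h₁ h₂
  rw [← hd] at h3
  have hμ : ({2 * a + 1} + μ₁ : Multiset ℕ) = (2 * a + 1) ::ₘ μ₁ := by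
    simp [Multiset.singleton_add]
  rwa [hμ] at h3

/-- **realization of a partition with an odd part in the elliptic space** -/
theorem R_minus [Fintype F] (h2 : (2 : F) ≠ 0) (hη : ∃ η : F, ¬ IsSquare η) {a b : F}
    (hab : ∀ x y : F, x ^ 2 + a * x * y + b * y ^ 2 = 0 → x = 0 ∧ y = 0) (p : ℕ) (μ : Multiset ℕ)
    (hpar : ∀ e, Even e → Even (μ.count e)) (hparts : ∀ e ∈ μ, 0 < e ∧ e ≤ p) (d : ℕ) (hs : μ.sum = 2 * d)
    (hex : ∃ e ∈ μ, Odd e) :
    RR (Cfsg.quadFormMinus (d - 1) F a b) p μ := by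
  classical
  obtain ⟨e, he, heo⟩ := hex
  obtain ⟨μ₁, rfl⟩ := Multiset.exists_cons_of_mem he
  have hs1 : Odd μ₁.sum := by
    rw [Multiset.sum_cons] at hs
    by_contra hc
    have := Nat.not_odd_iff_even.1 hc
    have h3 : Odd (e + μ₁.sum) := heo.add_even this
    rw [hs] at h3
    exact (Nat.not_even_iff_odd.2 h3) (even_two_mul d)
  obtain ⟨f, hf, hfo⟩ := exists_odd_of_odd_sum μ₁ hs1
  obtain ⟨μ₂, rfl⟩ := Multiset.exists_cons_of_mem hf
  rw [Multiset.sum_cons, Multiset.sum_cons] at hs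
  obtain ⟨t₁, ht₁⟩ := heo
  obtain ⟨t₂, ht₂⟩ := hfo
  have h₂ := R_plus (F := F) h2 p _ μ₂ rfl (fun t ht => by
      have := hpar t ht
      rw [Multiset.count_cons, Multiset.count_cons] at this
      have h1 : ¬ t = e := by
        rintro rfl
        exact (Nat.not_even_iff_odd.2 ⟨t₁, ht₁⟩) ht
      have h3 : ¬ t = f := by
        rintro rfl
        exact (Nat.not_even_iff_odd.2 ⟨t₂, ht₂⟩) ht
      simpa [h1, h3] using this)
    (fun x hx => hparts x (Multiset.mem_cons_of_mem (Multiset.mem_cons_of_mem hx))) (d - (t₁ + t₂ + 1)) (by omega)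
  obtain ⟨ζ, hζ, h₁⟩ := oddpair_minus (F := F) (d := t₁ + t₂ + 1) h2 hη ⟨t₁, ht₁⟩ ⟨t₂, ht₂⟩ (hparts e (Multiset.mem_cons_self _ _)).2
      (hparts f (Multiset.mem_cons_of_mem (Multiset.mem_cons_self _ _))).2 (by omega)
  have h3 := minus_add h₁ h₂
  have hk : t₁ + t₂ + 1 - 1 + (d - (t₁ + t₂ + 1)) = d - 1 := by omega
  rw [hk] at h3
  obtain ⟨g, hg⟩ := binary_iso (F := F) h2 hζ hab (d - 1)
  have h4 := h3.transport g hg
  have hμ : ({e} + {f} + μ₂ : Multiset ℕ) = e ::ₘ f ::ₘ μ₂ := by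
    simp [Multiset.singleton_add]
  rwa [hμ] at h4

end Cfsg.Agent.H27.JT
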