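import Mathlib
import Cfsg.Agent.Lib.H27.JT8

set_option autoImplicit false

namespace Cfsg.Agent.H27.JT

lemma le_of_le_cons_notMem {s t : Multiset ℕ} {a : ℕ} (h : s ≤ a ::ₘ t) (ha : a ∉ s) : s ≤ t := by
  classical
  rw [Multiset.le_iff_count] at h ⊢
  intro x
  by_cases hx : x = a
  · subst hx
    rw [Multiset.count_eq_zero_of_notMem ha]
    exact Nat.zero_le _
  · have := h x
    rwa [Multiset.count_cons_of_ne hx] at this

lemma sum_two_values (ν : Multiset ℕ) (r : ℕ) (hr : r ≠ 2) (h : ∀ x ∈ ν, x = 2 ∨ x = r) :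
    ν.sum = 2 * ν.count 2 + r * ν.count r := by
  classical
  induction ν using Multiset.induction_on with
  | empty => simp
  | cons a s ih =>
    have h1 := ih fun x hx => h x (Multiset.mem_cons_of_mem hx)
    rw [Multiset.sum_cons, h1, Multiset.count_cons, Multiset.count_cons]
    rcases h a (Multiset.mem_cons_self a s) with rfl | rfl
    · simp only [if_true, hr, if_false]
      ring
    · have hr' : ¬ 2 = a := hr.symm
      simp only [if_true, hr', if_false]
      ring

/-- replacing the pair `e + 1, e - 1` by `e, e` -/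
theorem replace_pair (μ₂ : Multiset ℕ) (e : ℕ) (he : Even e) (he2 : 2 ≤ e) (hμ₂ : ∀ x ∈ μ₂, Even x) (m : ℕ) (hm : Even m)
    (ν' : Multiset ℕ) (h1 : ν' ≤ (e + 1) ::ₘ (e - 1) ::ₘ μ₂) (h3 : ν'.sum = m) (h4 : ∀ t, Even t → Even (ν'.count t)) :
    ∃ ν : Multiset ℕ, ν ≤ e ::ₘ e ::ₘ μ₂ ∧ ν.sum = m ∧ ∀ t, Even t → Even (ν.count t) := by
  classical
  have hodd1 : ¬ Even (e + 1) := by
    rw [Nat.even_add_one]
    exact not_not.2 he
  have hodd2 : ¬ Even (e - 1) := by
    obtain ⟨r, hr⟩ := he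
    rw [show e - 1 = 2 * (r - 1) + 1 by omega]
    exact Nat.not_even_iff_odd.2 ⟨r - 1, rfl⟩
  have hne : e - 1 ≠ e + 1 := by omega
  by_cases ha : e + 1 ∈ ν'
  · obtain ⟨ν₁, rfl⟩ := Multiset.exists_cons_of_mem ha
    have h5 : ν₁ ≤ (e - 1) ::ₘ μ₂ := (Multiset.cons_le_cons_iff _).1 h1
    by_cases hb : e - 1 ∈ ν₁
    · obtain ⟨ν₂, rfl⟩ := Multiset.exists_cons_of_mem hb
      have h6 : ν₂ ≤ μ₂ := (Multiset.cons_le_cons_iff _).1 h5
      refine ⟨e ::ₘ e ::ₘ ν₂, ?_, ?_, ?_⟩
      · exact (Multiset.cons_le_cons_iff _).2 ((Multiset.cons_le_cons_iff _).2 h6)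
      · rw [← h3]
        simp only [Multiset.sum_cons]
        omega
      · intro t ht
        have h7 := h4 t ht
        have h8 : t ≠ e + 1 := by
          rintro rfl
          exact hodd1 ht
        have h9 : t ≠ e - 1 := by
          rintro rfl
          exact hodd2 ht
        rw [Multiset.count_cons_of_ne h8, Multiset.count_cons_of_ne h9] at h7
        rw [Multiset.count_cons, Multiset.count_cons]
        by_cases h10 : t = e
        · subst h10
          simp only [if_true]
          rw [show ν₂.count t + 1 + 1 = ν₂.count t + 2 from rfl]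
          exact h7.add even_two
        · simpa [h10] using h7
    · have h6 := le_of_le_cons_notMem h5 hb
      exfalso
      have h7 : Even ν₁.sum := even_sum_of_even _ fun x hx => hμ₂ x (Multiset.mem_of_le h6 hx)
      rw [Multiset.sum_cons] at h3
      rw [← h3] at hm
      exact hodd1 ((Nat.even_add.1 hm).2 h7)
  · have h5 := le_of_le_cons_notMem h1 ha
    by_cases hb : e - 1 ∈ ν'
    · obtain ⟨ν₁, rfl⟩ := Multiset.exists_cons_of_mem hb
      have h6 : ν₁ ≤ μ₂ := (Multiset.cons_le_cons_iff _).1 h5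
      exfalso
      have h7 : Even ν₁.sum := even_sum_of_even _ fun x hx => hμ₂ x (Multiset.mem_of_le h6 hx)
      rw [Multiset.sum_cons] at h3
      rw [← h3] at hm
      exact hodd2 ((Nat.even_add.1 hm).2 h7)
    · have h6 := le_of_le_cons_notMem h5 hb
      exact ⟨ν', h6.trans ((Multiset.le_cons_self _ _).trans (Multiset.le_cons_self _ _)), h3, h4⟩

end Cfsg.Agent.H27.JT
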