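import Mathlib

/-!
# A rank three action of degree 22 with subdegrees 1, 6, 15 does not exist
-/

set_option autoImplicit false

namespace Cfsg.Agent.H27.M22

theorem no_root (n : ℤ) (h : n * n = 5 ^ 21 * 49) : False := by
  have h1 : n.natAbs * n.natAbs = 5 ^ 21 * 49 := by
    have h0 : ((n.natAbs * n.natAbs : ℕ) : ℤ) = 5 ^ 21 * 49 := by
      rw [Nat.cast_mul, Int.natAbs_mul_self', h]
    exact_mod_cast h0
  set m := n.natAbs
  have hlt : m < 152856210 := by
    by_contra hc
    push Not at hc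
    nlinarith
  have hgt : 152856209 < m := by
    by_contra hc
    push Not at hc
    nlinarith
  omega

section Det

variable {Ω : Type*} [Fintype Ω] [DecidableEq Ω]

theorem det_rank_one (hΩ : Fintype.card Ω = 22) :
    ((5 : ℚ) • (1 : Matrix Ω Ω ℚ) + (2 : ℚ) • Matrix.of (fun _ _ => (1 : ℚ))).det = 5 ^ 21 * 49 := by
  have h1 : ((5 : ℚ) • (1 : Matrix Ω Ω ℚ) + (2 : ℚ) • Matrix.of (fun _ _ => (1 : ℚ))) =
      (5 : ℚ) • (1 + Matrix.replicateCol Unit (fun _ : Ω => (2 / 5 : ℚ)) *
        Matrix.replicateRow Unit (fun _ : Ω => (1 : ℚ))) := by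
    ext a b
    simp only [Matrix.add_apply, Matrix.smul_apply, Matrix.of_apply, smul_eq_mul, Matrix.mul_apply,
      Matrix.replicateCol_apply, Matrix.replicateRow_apply, Finset.univ_unique, Finset.sum_singleton,
      mul_add]
    norm_num
  rw [h1, Matrix.det_smul, Matrix.det_one_add_replicateCol_mul_replicateRow]
  simp only [dotProduct, Finset.sum_const, Finset.card_univ, hΩ]
  norm_num

theorem no_B (hΩ : Fintype.card Ω = 22) (B : Matrix Ω Ω ℤ)
    (hB : B * B = (5 : ℤ) • (1 : Matrix Ω Ω ℤ) + (2 : ℤ) • Matrix.of (fun _ _ => (1 : ℤ))) : False := by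
  have h1 : (B * B).det = 5 ^ 21 * 49 := by
    have h2 : (((B * B).det : ℤ) : ℚ) = 5 ^ 21 * 49 := by
      rw [hB, ← det_rank_one hΩ]
      rw [show (Int.cast : ℤ → ℚ) = (Int.castRingHom ℚ) from rfl, RingHom.map_det]
      congr 1
      ext a b
      simp only [RingHom.mapMatrix_apply, Matrix.map_apply, Matrix.add_apply, Matrix.smul_apply,
        Matrix.of_apply, smul_eq_mul, Matrix.one_apply]
      split_ifs <;> simp <;> norm_num
    exact_mod_cast h2
  rw [Matrix.det_mul] at h1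
  exact no_root _ h1

end Det

section Rank3

variable {G Ω : Type*} [Group G] [MulAction G Ω] [Fintype Ω] [DecidableEq Ω]

theorem rank3_false (hΩ : Fintype.card Ω = 22) (htr : ∀ a b : Ω, ∃ g : G, g • a = b)
    (Γ : Ω → Finset Ω) (h6 : ∀ a, (Γ a).card = 6) (hn : ∀ a, a ∉ Γ a)
    (heq : ∀ (g : G) (a b : Ω), b ∈ Γ a → g • b ∈ Γ (g • a))
    (hk1 : ∀ a, ∀ b ∈ Γ a, ∀ c ∈ Γ a, ∃ h : G, h • a = a ∧ h • b = c)
    (hk2 : ∀ a b c : Ω, b ≠ a → b ∉ Γ a → c ≠ a → c ∉ Γ a → ∃ h : G, h • a = a ∧ h • b = c) : False := by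
  classical
  have heq' : ∀ (g : G) (a b : Ω), b ∈ Γ a ↔ g • b ∈ Γ (g • a) := by
    intro g a b
    refine ⟨heq g a b, fun h => ?_⟩
    have := heq g⁻¹ _ _ h
    simpa using this
  -- the non-neighbours
  let Δ : Ω → Finset Ω := fun a => Finset.univ \ insert a (Γ a)
  have hmemΔ : ∀ a x, x ∈ Δ a ↔ x ≠ a ∧ x ∉ Γ a := by
    intro a x
    simp [Δ]
  have hN : ∀ a, (insert a (Γ a)).card = 7 := by
    intro a
    rw [Finset.card_insert_of_notMem (hn a), h6]
  have hΔ : ∀ a, (Δ a).card = 15 := by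
    intro a
    simp only [Δ]
    rw [Finset.card_sdiff_of_subset (Finset.subset_univ _), Finset.card_univ, hΩ, hN]
  -- in-neighbours
  let In : Ω → Finset Ω := fun a => Finset.univ.filter fun b => a ∈ Γ b
  have hIn : ∀ a a', (In a).card = (In a').card := by
    intro a a'
    obtain ⟨g, rfl⟩ := htr a a'
    refine Finset.card_bij (fun b _ => g • b) ?_ (fun _ _ _ _ h => MulAction.injective g h) ?_
    · intro b hb
      simp only [In, Finset.mem_filter, Finset.mem_univ, true_and] at hb ⊢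
      exact heq g _ _ hb
    · intro b hb
      simp only [In, Finset.mem_filter, Finset.mem_univ, true_and] at hb
      refine ⟨g⁻¹ • b, ?_, by simp⟩
      simp only [In, Finset.mem_filter, Finset.mem_univ, true_and]
      have := heq g⁻¹ _ _ hb
      simpa using this
  have hsum : ∑ a, (In a).card = ∑ b, (Γ b).card := by
    simp only [In, Finset.card_filter]
    rw [Finset.sum_comm]
    refine Finset.sum_congr rfl fun b _ => ?_
    rw [← Finset.card_filter]
    congr 1
    ext x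
    simp
  have hIn6 : ∀ a, (In a).card = 6 := by
    intro a
    have h1 : ∑ a', (In a').card = 22 * (In a).card := by
      rw [Finset.sum_congr rfl (fun a' _ => hIn a' a), Finset.sum_const, Finset.card_univ, hΩ, smul_eq_mul]
    have h2 : ∑ b, (Γ b).card = 132 := by
      rw [Finset.sum_congr rfl (fun b _ => h6 b), Finset.sum_const, Finset.card_univ, hΩ, smul_eq_mul]
    omega
  -- symmetry
  have hsym : ∀ a b, b ∈ Γ a → a ∈ Γ b := by
    intro a b hb
    by_contra hab
    have hdisj : ∀ c ∈ In a, c ∉ Γ a := by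
      intro c hc hcΓ
      obtain ⟨h, h1, h2⟩ := hk1 a c hcΓ b hb
      simp only [In, Finset.mem_filter, Finset.mem_univ, true_and] at hc
      have := heq h _ _ hc
      rw [h1, h2] at this
      exact hab this
    have hne : (In a).Nonempty := by
      rw [← Finset.card_pos, hIn6]
      norm_num
    obtain ⟨c, hc⟩ := hne
    have hca : c ≠ a := by
      rintro rfl
      simp only [In, Finset.mem_filter, Finset.mem_univ, true_and] at hc
      exact hn _ hc
    have hsub : Δ a ⊆ In a := by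
      intro e he
      obtain ⟨he1, he2⟩ := (hmemΔ a e).1 he
      obtain ⟨h, h1, h2⟩ := hk2 a c e hca (hdisj c hc) he1 he2
      simp only [In, Finset.mem_filter, Finset.mem_univ, true_and] at hc ⊢
      have := heq h _ _ hc
      rwa [h1, h2] at this
    have := Finset.card_le_card hsub
    rw [hΔ, hIn6] at this
    omega
  have hsym' : ∀ a b, b ∈ Γ a ↔ a ∈ Γ b := fun a b => ⟨hsym a b, hsym b a⟩
  -- common neighbours
  let C : Ω → Ω → ℕ := fun a x => (Γ a ∩ Γ x).card
  have hCg : ∀ (g : G) a x, C (g • a) (g • x) = C a x := by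
    intro g a x
    symm
    refine Finset.card_bij (fun b _ => g • b) ?_ (fun _ _ _ _ h => MulAction.injective g h) ?_
    · intro b hb
      simp only [Finset.mem_inter] at hb ⊢
      exact ⟨heq g _ _ hb.1, heq g _ _ hb.2⟩
    · intro b hb
      simp only [Finset.mem_inter] at hb
      refine ⟨g⁻¹ • b, ?_, by simp⟩
      simp only [Finset.mem_inter]
      have h1 := heq g⁻¹ _ _ hb.1
      have h2 := heq g⁻¹ _ _ hb.2
      simp only [inv_smul_smul] at h1 h2
      exact ⟨h1, h2⟩
  have hCadj : ∀ a x a' x', x ∈ Γ a → x' ∈ Γ a' → C a x = C a' x' := by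
    intro a x a' x' hx hx'
    obtain ⟨g, rfl⟩ := htr a a'
    obtain ⟨h, h1, h2⟩ := hk1 _ _ (heq g _ _ hx) _ hx'
    have := hCg (h * g) a x
    rw [mul_smul, mul_smul, h1, h2] at this
    exact this.symm
  have hCnon : ∀ a x a' x', x ≠ a → x ∉ Γ a → x' ≠ a' → x' ∉ Γ a' → C a x = C a' x' := by
    intro a x a' x' hx1 hx2 hx1' hx2'
    obtain ⟨g, rfl⟩ := htr a a'
    have h3 : g • x ≠ g • a := fun e => hx1 (MulAction.injective g e)
    have h4 : g • x ∉ Γ (g • a) := fun e => hx2 ((heq' g a x).2 e)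
    obtain ⟨h, h1, h2⟩ := hk2 _ _ _ h3 h4 hx1' hx2'
    have := hCg (h * g) a x
    rw [mul_smul, mul_smul, h1, h2] at this
    exact this.symm
  have hcardpos : 0 < Fintype.card Ω := by omega
  obtain ⟨a₀⟩ : Nonempty Ω := Fintype.card_pos_iff.1 hcardpos
  obtain ⟨b₀, hb₀⟩ : (Γ a₀).Nonempty := by
    rw [← Finset.card_pos, h6]; norm_num
  obtain ⟨c₀, hc₀⟩ : (Δ a₀).Nonempty := by
    rw [← Finset.card_pos, hΔ]; norm_num
  obtain ⟨hc₀1, hc₀2⟩ := (hmemΔ a₀ c₀).1 hc₀
  set lam := C a₀ b₀ with hlam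
  set mu := C a₀ c₀ with hmu
  have hCl : ∀ a x, x ∈ Γ a → C a x = lam := fun a x hx => hCadj _ _ _ _ hx hb₀
  have hCm : ∀ a x, x ≠ a → x ∉ Γ a → C a x = mu := fun a x h1 h2 => hCnon _ _ _ _ h1 h2 hc₀1 hc₀2
  -- the count of paths of length two
  have hpaths : ∑ x, C a₀ x = 36 := by
    have h1 : ∀ x, C a₀ x = ∑ b ∈ Γ a₀, if b ∈ Γ x then 1 else 0 := by
      intro x
      simp only [C]
      rw [← Finset.card_filter, Finset.filter_mem_eq_inter]
    simp only [h1]
    rw [Finset.sum_comm]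
    have h2 : ∀ b ∈ Γ a₀, (∑ x, if b ∈ Γ x then 1 else 0) = 6 := by
      intro b _
      rw [← Finset.card_filter, ← h6 b]
      congr 1
      ext x
      simp only [Finset.mem_filter, Finset.mem_univ, true_and]
      exact hsym' b x |>.symm
    rw [Finset.sum_congr rfl h2, Finset.sum_const, h6, smul_eq_mul]
  have hsplit : ∑ x, C a₀ x = 6 + 6 * lam + 15 * mu := by
    have hu : (Finset.univ : Finset Ω) = insert a₀ (Γ a₀) ∪ Δ a₀ := by
      simp only [Δ]
      rw [Finset.union_sdiff_of_subset (Finset.subset_univ _)]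
    have hd : Disjoint (insert a₀ (Γ a₀)) (Δ a₀) := by
      simp only [Δ]
      exact Finset.disjoint_sdiff
    rw [hu, Finset.sum_union hd, Finset.sum_insert (hn a₀)]
    have e1 : C a₀ a₀ = 6 := by
      simp only [C, Finset.inter_self, h6]
    have e2 : ∑ x ∈ Γ a₀, C a₀ x = 6 * lam := by
      rw [Finset.sum_congr rfl (fun x hx => hCl a₀ x hx), Finset.sum_const, h6, smul_eq_mul]
    have e3 : ∑ x ∈ Δ a₀, C a₀ x = 15 * mu := by
      rw [Finset.sum_congr rfl (fun x hx => hCm a₀ x ((hmemΔ a₀ x).1 hx).1 ((hmemΔ a₀ x).1 hx).2),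
        Finset.sum_const, hΔ, smul_eq_mul]
    rw [e1, e2, e3]
  have hcount : 6 * lam + 15 * mu = 30 := by omega
  have hcases : (lam = 5 ∧ mu = 0) ∨ (lam = 0 ∧ mu = 2) := by omega
  rcases hcases with ⟨hl, hm⟩ | ⟨hl, hm⟩
  · -- blocks of size 7
    have hdisj : ∀ a x, x ∉ insert a (Γ a) → Disjoint (insert a (Γ a)) (insert x (Γ x)) := by
      intro a x hx
      have hx1 : x ≠ a := fun e => hx (by rw [e]; exact Finset.mem_insert_self _ _)
      have hx2 : x ∉ Γ a := fun e => hx (Finset.mem_insert_of_mem e)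
      have hC0 : Γ a ∩ Γ x = ∅ := by
        have : C a x = 0 := by rw [hCm a x hx1 hx2, hm]
        exact Finset.card_eq_zero.1 this
      rw [Finset.disjoint_left]
      intro y hy1 hy2
      rcases Finset.mem_insert.1 hy1 with rfl | hy1
      · rcases Finset.mem_insert.1 hy2 with rfl | hy2
        · exact hx1 rfl
        · exact hx2 ((hsym' _ _).2 hy2)
      · rcases Finset.mem_insert.1 hy2 with rfl | hy2
        · exact hx2 hy1
        · have : y ∈ Γ a ∩ Γ x := Finset.mem_inter.2 ⟨hy1, hy2⟩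
          rw [hC0] at this
          cases this
    have hex : ∀ s : Finset Ω, s.card < 22 → ∃ x, x ∉ s := by
      intro s hs
      by_contra hc
      push Not at hc
      have : s = Finset.univ := Finset.eq_univ_iff_forall.2 hc
      rw [this, Finset.card_univ, hΩ] at hs
      omega
    let N : Ω → Finset Ω := fun a => insert a (Γ a)
    have hNc : ∀ a, (N a).card = 7 := hN
    obtain ⟨a₂, ha₂⟩ := hex (N a₀) (by rw [hNc]; norm_num)
    have d12 : Disjoint (N a₀) (N a₂) := hdisj _ _ ha₂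
    obtain ⟨a₃, ha₃⟩ := hex (N a₀ ∪ N a₂) (by
      rw [Finset.card_union_of_disjoint d12, hNc, hNc]; norm_num)
    have h3a : a₃ ∉ N a₀ := fun e => ha₃ (Finset.mem_union_left _ e)
    have h3b : a₃ ∉ N a₂ := fun e => ha₃ (Finset.mem_union_right _ e)
    have d13 : Disjoint (N a₀) (N a₃) := hdisj _ _ h3a
    have d23 : Disjoint (N a₂) (N a₃) := hdisj _ _ h3b
    have d123 : Disjoint (N a₀ ∪ N a₂) (N a₃) := Finset.disjoint_union_left.2 ⟨d13, d23⟩
    have c3 : (N a₀ ∪ N a₂ ∪ N a₃).card = 21 := by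
      rw [Finset.card_union_of_disjoint d123, Finset.card_union_of_disjoint d12, hNc, hNc, hNc]
    obtain ⟨a₄, ha₄⟩ := hex (N a₀ ∪ N a₂ ∪ N a₃) (by rw [c3]; norm_num)
    have h4a : a₄ ∉ N a₀ := fun e => ha₄ (Finset.mem_union_left _ (Finset.mem_union_left _ e))
    have h4b : a₄ ∉ N a₂ := fun e => ha₄ (Finset.mem_union_left _ (Finset.mem_union_right _ e))
    have h4c : a₄ ∉ N a₃ := fun e => ha₄ (Finset.mem_union_right _ e)
    have d4 : Disjoint (N a₀ ∪ N a₂ ∪ N a₃) (N a₄) :=
      Finset.disjoint_union_left.2 ⟨Finset.disjoint_union_left.2 ⟨hdisj _ _ h4a, hdisj _ _ h4b⟩, hdisj _ _ h4c⟩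
    have c4 := Finset.card_union_of_disjoint d4
    rw [c3, hNc] at c4
    have := Finset.card_le_univ (N a₀ ∪ N a₂ ∪ N a₃ ∪ N a₄)
    rw [hΩ] at this
    omega
  · -- the determinant
    let A : Matrix Ω Ω ℤ := Matrix.of fun a b => if b ∈ Γ a then 1 else 0
    have hAA : ∀ a x, (A * A) a x = (C a x : ℤ) := by
      intro a x
      simp only [Matrix.mul_apply, A, Matrix.of_apply, C]
      have : ∀ b, ((if b ∈ Γ a then (1 : ℤ) else 0) * if x ∈ Γ b then 1 else 0) =
          if b ∈ Γ a ∩ Γ x then 1 else 0 := by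
        intro b
        simp only [Finset.mem_inter, hsym' x b]
        by_cases h1 : b ∈ Γ a <;> by_cases h2 : b ∈ Γ x <;> simp [h1, h2]
      simp only [this]
      rw [Finset.sum_ite_mem, Finset.univ_inter]
      simp
    apply no_B hΩ (A + 1)
    ext a x
    have hexp : (A + 1) * (A + 1) = A * A + A + A + 1 := by
      rw [Matrix.add_mul, Matrix.mul_add, Matrix.mul_add, Matrix.mul_one, Matrix.one_mul, Matrix.one_mul]
      abel
    rw [hexp]
    simp only [Matrix.add_apply, hAA, Matrix.smul_apply, Matrix.of_apply, smul_eq_mul, Matrix.one_apply, A]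
    by_cases hax : a = x
    · subst hax
      have : C a a = 6 := by simp only [C, Finset.inter_self, h6]
      simp [this, hn a]
    · by_cases hxΓ : x ∈ Γ a
      · rw [hCl a x hxΓ, hl]
        simp [hax, hxΓ]
      · rw [hCm a x (Ne.symm hax) hxΓ, hm]
        simp [hax, hxΓ]

end Rank3

section Orbits

variable (G : Type*) {Ω : Type*} [Group G] [MulAction G Ω] [Fintype Ω] [DecidableEq Ω]

open Classical in
/-- The orbit of `b` under the stabiliser of `a`. -/
noncomputable def orb (a b : Ω) : Finset Ω :=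
  Finset.univ.filter fun c => ∃ h : G, h • a = a ∧ h • b = c

variable {G}

theorem mem_orb {a b c : Ω} : c ∈ orb G a b ↔ ∃ h : G, h • a = a ∧ h • b = c := by
  simp [orb]

theorem self_mem_orb (a b : Ω) : b ∈ orb G a b := mem_orb.2 ⟨1, one_smul _ _, one_smul _ _⟩

theorem orb_eq_of_mem {a b c : Ω} (hc : c ∈ orb G a b) : orb G a c = orb G a b := by
  obtain ⟨h, h1, rfl⟩ := mem_orb.1 hc
  ext x
  simp only [mem_orb]
  constructor
  · rintro ⟨k, k1, rfl⟩
    exact ⟨k * h, by rw [mul_smul, h1, k1], by rw [mul_smul]⟩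
  · rintro ⟨k, k1, rfl⟩
    refine ⟨k * h⁻¹, ?_, ?_⟩
    · rw [mul_smul, inv_smul_eq_iff.2 h1.symm, k1]
    · rw [mul_smul, inv_smul_smul]

theorem card_orb_smul (g : G) (a b : Ω) : (orb G (g • a) (g • b)).card = (orb G a b).card := by
  symm
  refine Finset.card_bij (fun c _ => g • c) ?_ (fun _ _ _ _ h => MulAction.injective g h) ?_
  · intro c hc
    obtain ⟨h, h1, rfl⟩ := mem_orb.1 hc
    refine mem_orb.2 ⟨g * h * g⁻¹, ?_, ?_⟩
    · simp [mul_smul, h1]
    · simp [mul_smul]
  · intro c hc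
    obtain ⟨h, h1, rfl⟩ := mem_orb.1 hc
    refine ⟨g⁻¹ • (h • g • b), mem_orb.2 ⟨g⁻¹ * h * g, ?_, ?_⟩, by simp⟩
    · simp only [mul_smul]
      rw [h1, inv_smul_smul]
    · simp [mul_smul]

theorem coe_orb (a b : Ω) :
    (orb G a b : Set Ω) = MulAction.orbit ↥(MulAction.stabilizer G a) b := by
  ext c
  simp only [Finset.mem_coe, mem_orb, MulAction.mem_orbit_iff]
  constructor
  · rintro ⟨h, h1, rfl⟩
    exact ⟨⟨h, h1⟩, rfl⟩
  · rintro ⟨⟨h, h1⟩, rfl⟩
    exact ⟨h, h1, rfl⟩

theorem card_orb_mul [Finite G] (a b : Ω) :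
    (orb G a b).card * Nat.card ↥(MulAction.stabilizer ↥(MulAction.stabilizer G a) b) =
      Nat.card ↥(MulAction.stabilizer G a) := by
  have e1 := Nat.card_congr (MulAction.orbitProdStabilizerEquivGroup ↥(MulAction.stabilizer G a) b)
  rw [Nat.card_prod] at e1
  rw [← e1, ← coe_orb, Nat.card_coe_set_eq, Set.ncard_coe_finset]

theorem card_stab_of_trans [Finite G] (htr : ∀ a b : Ω, ∃ g : G, g • a = b) (a : Ω) :
    Nat.card ↥(MulAction.stabilizer G a) * Fintype.card Ω = Nat.card G := by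
  have e1 := Nat.card_congr (MulAction.orbitProdStabilizerEquivGroup G a)
  rw [Nat.card_prod] at e1
  have e2 : MulAction.orbit G a = Set.univ := by
    ext x
    simp only [Set.mem_univ, iff_true]
    obtain ⟨g, hg⟩ := htr a x
    exact ⟨g, hg⟩
  rw [← e1, e2, Nat.card_coe_set_eq, Set.ncard_univ, Nat.card_eq_fintype_card (α := Ω), mul_comm]

theorem orb_modEq' (r : ℕ) [Fact r.Prime] (t : G) (ht : t ^ r = 1) (O : Finset Ω) (hO : ∀ x ∈ O, t • x ∈ O) :
    (O.filter fun x => t • x = x).card ≡ O.card [MOD r] := by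
  classical
  have hO' : ∀ x, t • x ∈ O ↔ x ∈ O := by
    intro x
    refine ⟨fun h => ?_, hO x⟩
    have h1 : ∀ n : ℕ, ∀ y, y ∈ O → t ^ n • y ∈ O := by
      intro n
      induction n with
      | zero => intro y hy; simpa using hy
      | succ n ih =>
        intro y hy
        rw [pow_succ, mul_smul]
        exact ih _ (hO y hy)
    have hr : 1 ≤ r := (Fact.out : r.Prime).one_lt.le
    have h2 := h1 (r - 1) _ h
    rw [← mul_smul, ← pow_succ, Nat.sub_add_cancel hr, ht, one_smul] at h2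
    exact h2
  let σ : Equiv.Perm ↥O := (MulAction.toPerm t).subtypePerm hO'
  have hσ : σ ^ r ^ 1 = 1 := by
    ext x
    have : ∀ n : ℕ, ((σ ^ n) x : Ω) = t ^ n • (x : Ω) := by
      intro n
      induction n with
      | zero => simp
      | succ n ih =>
        rw [pow_succ', Equiv.Perm.mul_apply, pow_succ', mul_smul, ← ih]
        rfl
    rw [this, pow_one, ht, one_smul, Equiv.Perm.coe_one, id_eq]
  have := Equiv.Perm.card_compl_support_modEq hσ
  have e1 : Fintype.card ↥O = O.card := Fintype.card_coe O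
  rw [e1] at this
  convert this using 2
  rw [← Finset.card_map (Function.Embedding.subtype _)]
  congr 1
  ext x
  simp only [Finset.mem_filter, Finset.mem_map, Finset.mem_compl, Equiv.Perm.mem_support, not_not,
    Function.Embedding.coe_subtype, Finset.mem_univ, true_and]
  constructor
  · rintro ⟨hx, hx2⟩
    exact ⟨⟨x, hx⟩, Subtype.ext hx2, rfl⟩
  · rintro ⟨⟨y, hy⟩, h1, rfl⟩
    exact ⟨hy, congrArg Subtype.val h1⟩

theorem orb_modEq (t : G) (ht : t ^ 5 = 1) (O : Finset Ω) (hO : ∀ x ∈ O, t • x ∈ O) :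
    (O.filter fun x => t • x = x).card ≡ O.card [MOD 5] := by
  haveI : Fact (Nat.Prime 5) := ⟨by norm_num⟩
  exact orb_modEq' 5 t ht O hO

/-- The suborbit structure forced by elements of order 5. -/
theorem exists_split [Finite G] (hΩ : Fintype.card Ω = 22) (a : Ω) (hK : Nat.card ↥(MulAction.stabilizer G a) = 360)
    (h9 : ∀ b, b ≠ a → ¬ 9 ∣ Nat.card ↥(MulAction.stabilizer ↥(MulAction.stabilizer G a) b))
    (t : G) (hta : t • a = a) (ht5 : t ^ 5 = 1)
    (hfix : (Finset.univ.filter fun x : Ω => t • x = x).card = 2) :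
    ∃ b₀, b₀ ≠ a ∧ (orb G a b₀).card = 6 ∧ ∀ b, b ≠ a → b ∉ orb G a b₀ →
      (orb G a b).card = 15 ∧ ∀ c, c ≠ a → c ∉ orb G a b₀ → c ∈ orb G a b := by
  classical
  -- the second fixed point
  have hamem : a ∈ Finset.univ.filter fun x : Ω => t • x = x := by simp [hta]
  obtain ⟨b₀, hb₀⟩ : ∃ b₀, (Finset.univ.filter fun x : Ω => t • x = x) = {a, b₀} ∧ b₀ ≠ a := by
    obtain ⟨x, y, hxy, e⟩ := Finset.card_eq_two.1 hfix
    rw [e] at hamem
    simp only [Finset.mem_insert, Finset.mem_singleton] at hamem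
    rcases hamem with rfl | rfl
    · exact ⟨y, e, hxy.symm⟩
    · exact ⟨x, by rw [e, Finset.pair_comm], hxy⟩
  obtain ⟨hfe, hb₀a⟩ := hb₀
  have hfixb : ∀ x, x ≠ a → (t • x = x ↔ x = b₀) := by
    intro x hx
    have : x ∈ Finset.univ.filter (fun x : Ω => t • x = x) ↔ x ∈ ({a, b₀} : Finset Ω) := by rw [hfe]
    simp only [Finset.mem_filter, Finset.mem_univ, true_and, Finset.mem_insert, Finset.mem_singleton, hx,
      false_or] at this
    exact this
  have hnot : ∀ b, b ≠ a → a ∉ orb G a b := by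
    intro b hb hc
    obtain ⟨h, h1, h2⟩ := mem_orb.1 hc
    exact hb (MulAction.injective h (h2.trans h1.symm))
  have hstable : ∀ b, ∀ x ∈ orb G a b, t • x ∈ orb G a b := by
    intro b x hx
    obtain ⟨h, h1, rfl⟩ := mem_orb.1 hx
    exact mem_orb.2 ⟨t * h, by rw [mul_smul, h1, hta], by rw [mul_smul]⟩
  have hL : ∀ b, b ≠ a → 3 ∣ (orb G a b).card ∧ (orb G a b).card ∣ 360 ∧ (orb G a b).card ≤ 21 ∧ 0 < (orb G a b).card := by
    intro b hb
    have h1 := card_orb_mul (G := G) a b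
    rw [hK] at h1
    refine ⟨?_, ⟨_, h1.symm⟩, ?_, Finset.card_pos.2 ⟨b, self_mem_orb a b⟩⟩
    · by_contra hc
      have hco : Nat.Coprime 9 (orb G a b).card := by
        rw [show (9 : ℕ) = 3 ^ 2 by norm_num]
        exact Nat.Coprime.pow_left 2 ((Nat.Prime.coprime_iff_not_dvd Nat.prime_three).2 hc)
      apply h9 b hb
      apply hco.dvd_of_dvd_mul_left
      rw [h1]
      norm_num
    · have : orb G a b ⊆ Finset.univ.erase a := by
        intro x hx
        refine Finset.mem_erase.2 ⟨?_, Finset.mem_univ _⟩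
        rintro rfl
        exact hnot b hb hx
      have := Finset.card_le_card this
      rw [Finset.card_erase_of_mem (Finset.mem_univ _), Finset.card_univ, hΩ] at this
      omega
  have hfilter : ∀ b, b ≠ a → (orb G a b).filter (fun x => t • x = x) = if b₀ ∈ orb G a b then {b₀} else ∅ := by
    intro b hb
    ext x
    simp only [Finset.mem_filter]
    constructor
    · rintro ⟨hx, hx2⟩
      have hxa : x ≠ a := by
        rintro rfl
        exact hnot b hb hx
      have := (hfixb x hxa).1 hx2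
      subst this
      simp [hx]
    · intro hx
      split_ifs at hx with hm
      · rw [Finset.mem_singleton] at hx
        subst hx
        exact ⟨hm, (hfixb _ hb₀a).2 rfl⟩
      · simp at hx
  have hb₀card : (orb G a b₀).card = 6 := by
    have h1 := orb_modEq t ht5 (orb G a b₀) (hstable b₀)
    rw [hfilter b₀ hb₀a, if_pos (self_mem_orb a b₀), Finset.card_singleton] at h1
    obtain ⟨h3, h360, h21, h0⟩ := hL b₀ hb₀a
    unfold Nat.ModEq at h1
    have hcases : (orb G a b₀).card = 6 ∨ (orb G a b₀).card = 21 := by omega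
    rcases hcases with h | h
    · exact h
    · rw [h] at h360
      norm_num at h360
  refine ⟨b₀, hb₀a, hb₀card, ?_⟩
  intro b hb hbn
  have hdisj : Disjoint (orb G a b) (orb G a b₀) := by
    rw [Finset.disjoint_left]
    intro x hx hx2
    apply hbn
    rw [← orb_eq_of_mem hx2, orb_eq_of_mem hx]
    exact self_mem_orb a b
  have hmod : (orb G a b).card % 5 = 0 := by
    have h1 := orb_modEq t ht5 (orb G a b) (hstable b)
    have hn : b₀ ∉ orb G a b := by
      intro hc
      exact (Finset.disjoint_left.1 hdisj hc) (self_mem_orb a b₀)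
    rw [hfilter b hb, if_neg hn, Finset.card_empty] at h1
    unfold Nat.ModEq at h1
    omega
  obtain ⟨h3, h360, h21, h0⟩ := hL b hb
  have hsub : orb G a b ⊆ (Finset.univ.erase a) \ orb G a b₀ := by
    intro x hx
    rw [Finset.mem_sdiff, Finset.mem_erase]
    refine ⟨⟨?_, Finset.mem_univ _⟩, Finset.disjoint_left.1 hdisj hx⟩
    rintro rfl
    exact hnot b hb hx
  have hc15 : ((Finset.univ.erase a) \ orb G a b₀).card = 15 := by
    have hs : orb G a b₀ ⊆ Finset.univ.erase a := by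
      intro x hx
      refine Finset.mem_erase.2 ⟨?_, Finset.mem_univ _⟩
      rintro rfl
      exact hnot b₀ hb₀a hx
    rw [Finset.card_sdiff_of_subset hs, Finset.card_erase_of_mem (Finset.mem_univ _), Finset.card_univ, hΩ, hb₀card]
  have hle := Finset.card_le_card hsub
  rw [hc15] at hle
  have hb15 : (orb G a b).card = 15 := by omega
  refine ⟨hb15, ?_⟩
  have heq := Finset.eq_of_subset_of_card_le hsub (by rw [hc15, hb15])
  intro c hc1 hc2
  rw [heq, Finset.mem_sdiff, Finset.mem_erase]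
  exact ⟨⟨hc1, Finset.mem_univ _⟩, hc2⟩

/-- There is no such action. -/
theorem no_action [Finite G] (hΩ : Fintype.card Ω = 22) (htr : ∀ a b : Ω, ∃ g : G, g • a = b)
    (hG : Nat.card G = 7920)
    (h9 : ∀ a b : Ω, b ≠ a → ¬ 9 ∣ Nat.card ↥(MulAction.stabilizer ↥(MulAction.stabilizer G a) b))
    (ht : ∀ a : Ω, ∃ t : G, t • a = a ∧ t ^ 5 = 1 ∧ (Finset.univ.filter fun x : Ω => t • x = x).card = 2) :
    False := by
  classical
  have hK : ∀ a : Ω, Nat.card ↥(MulAction.stabilizer G a) = 360 := by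
    intro a
    have := card_stab_of_trans (G := G) htr a
    rw [hΩ, hG] at this
    omega
  have hsplit : ∀ a : Ω, ∃ b₀, b₀ ≠ a ∧ (orb G a b₀).card = 6 ∧ ∀ b, b ≠ a → b ∉ orb G a b₀ →
      (orb G a b).card = 15 ∧ ∀ c, c ≠ a → c ∉ orb G a b₀ → c ∈ orb G a b := by
    intro a
    obtain ⟨t, h1, h2, h3⟩ := ht a
    exact exists_split hΩ a (hK a) (h9 a) t h1 h2 h3
  let Γ : Ω → Finset Ω := fun a => Finset.univ.filter fun b => b ≠ a ∧ (orb G a b).card = 6
  have hmem : ∀ a b, b ∈ Γ a ↔ b ≠ a ∧ (orb G a b).card = 6 := by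
    intro a b
    simp [Γ]
  have hnot : ∀ a b : Ω, b ≠ a → a ∉ orb G a b := by
    intro a b hb hc
    obtain ⟨h, h1, h2⟩ := mem_orb.1 hc
    exact hb (MulAction.injective h (h2.trans h1.symm))
  have hΓ : ∀ a b₀ : Ω, b₀ ≠ a → (orb G a b₀).card = 6 → (∀ b, b ≠ a → b ∉ orb G a b₀ →
      (orb G a b).card = 15 ∧ ∀ c, c ≠ a → c ∉ orb G a b₀ → c ∈ orb G a b) → Γ a = orb G a b₀ := by
    intro a b₀ h1 h2 h3
    ext x
    rw [hmem]
    constructor
    · rintro ⟨hx, hx2⟩
      by_contra hc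
      have := (h3 x hx hc).1
      omega
    · intro hx
      refine ⟨?_, by rw [orb_eq_of_mem hx, h2]⟩
      rintro rfl
      exact hnot _ _ h1 hx
  refine rank3_false (G := G) hΩ htr Γ ?_ ?_ ?_ ?_ ?_
  · intro a
    obtain ⟨b₀, h1, h2, h3⟩ := hsplit a
    rw [hΓ a b₀ h1 h2 h3, h2]
  · intro a h
    exact ((hmem a a).1 h).1 rfl
  · intro g a b hb
    rw [hmem] at hb ⊢
    exact ⟨fun e => hb.1 (MulAction.injective g e), by rw [card_orb_smul, hb.2]⟩
  · intro a b hb c hc
    obtain ⟨b₀, h1, h2, h3⟩ := hsplit a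
    rw [hΓ a b₀ h1 h2 h3] at hb hc
    rw [← orb_eq_of_mem hb] at hc
    exact mem_orb.1 hc
  · intro a b c hb hb2 hc hc2
    obtain ⟨b₀, h1, h2, h3⟩ := hsplit a
    rw [hΓ a b₀ h1 h2 h3] at hb2 hc2
    exact mem_orb.1 ((h3 b hb hb2).2 c hc hc2)

end Orbits

end Cfsg.Agent.H27.M22
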