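import Mathlib
import Cfsg.Agent.Lib.H27.M22A
import Cfsg.Agent.Lib.H07.GolayM12
import Cfsg.Agent.Lib.H27.GolayClasses

/-!
# Subgroups of orders 7920 and 2112 of the two-point stabiliser
-/

set_option autoImplicit false
set_option maxRecDepth 100000

namespace Cfsg.Agent.H27.M22

open Cfsg Cfsg.Agent.H27.Golay Cfsg.Agent.H07.Orb
open scoped Pointwise

abbrev X := GolayPt

theorem card_X : Fintype.card X = 24 := by decide

theorem inv_app (k : Equiv.Perm X) (x : X) : k⁻¹ (k x) = x := by simp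

theorem exists_base4 {a b c d : X} (hab : a ≠ b) (hac : a ≠ c) (had : a ≠ d) (hbc : b ≠ c) (hbd : b ≠ d)
    (hcd : c ≠ d) : ∃ k ∈ M24, k a = pt 23 ∧ k b = pt 0 ∧ k c = pt 1 ∧ k d = pt 2 := by
  obtain ⟨e, h1, h2, h3, h4⟩ := exists_ne4 a b c d
  have hinj : Function.Injective (![a, b, c, d, e] : Fin 5 → X) := by
    intro i j hij
    fin_cases i <;> fin_cases j <;> first | rfl | (exfalso; simp_all)
  obtain ⟨k, hk, hk2⟩ := exists_to_base hinj
  exact ⟨k, hk, hk2 0, hk2 1, hk2 2, hk2 3⟩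

theorem exists_base2 {a b : X} (hab : a ≠ b) : ∃ k ∈ M24, k a = pt 23 ∧ k b = pt 0 := by
  obtain ⟨c, h1, h2, -⟩ := exists_ne3 a b a
  obtain ⟨d, h3, h4, h5⟩ := exists_ne3 a b c
  obtain ⟨k, hk, e1, e2, -, -⟩ := exists_base4 hab h1.symm h3.symm h2.symm h4.symm h5.symm
  exact ⟨k, hk, e1, e2⟩

theorem fix_lt_five {g : Equiv.Perm X} (hg : g ∈ M24) (h : ¬ orderOf g ∣ 48) :
    (Finset.univ.filter fun p => g p = p).card < 5 := by
  by_contra hc
  push Not at hc
  obtain ⟨x, hx, hmem⟩ := exists_five_of_card hc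
  obtain ⟨k, hk, hki⟩ := exists_to_base hx
  have hfix : ∀ i, (k * g * k⁻¹) (b5 i) = b5 i := by
    intro i
    have h1 : g (x i) = x i := by simpa using hmem i
    rw [← hki i]
    simp [Equiv.Perm.mul_apply, h1]
  have hmem' : k * g * k⁻¹ ∈ fixG [3, 2, 1, 0, 23] := by
    refine ⟨M24.mul_mem (M24.mul_mem hk hg) (M24.inv_mem hk), ?_⟩
    intro i hi
    simp only [List.mem_cons, List.not_mem_nil, or_false] at hi
    rcases hi with rfl | rfl | rfl | rfl | rfl
    · exact hfix 4
    · exact hfix 3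
    · exact hfix 2
    · exact hfix 1
    · exact hfix 0
  have h2 := Subgroup.orderOf_dvd_natCard _ hmem'
  rw [card_fix5, orderOf_conj'] at h2
  exact h h2

theorem card_map_conj (k : Equiv.Perm X) (S : Subgroup (Equiv.Perm X)) :
    Nat.card ↥(S.map (MulAut.conj k).toMonoidHom) = Nat.card S :=
  (Nat.card_congr (S.equivMapOfInjective _ (MulAut.conj k).injective).toEquiv).symm

theorem card_dvd_960 {S : Subgroup (Equiv.Perm X)} (hS : S ≤ M24) {a b c d : X} (hab : a ≠ b) (hac : a ≠ c)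
    (had : a ≠ d) (hbc : b ≠ c) (hbd : b ≠ d) (hcd : c ≠ d)
    (hfix : ∀ s ∈ S, s a = a ∧ s b = b ∧ s c = c ∧ s d = d) : Nat.card S ∣ 960 := by
  obtain ⟨k, hk, e1, e2, e3, e4⟩ := exists_base4 hab hac had hbc hbd hcd
  have hle : S.map (MulAut.conj k).toMonoidHom ≤ fixG [2, 1, 0, 23] := by
    rintro _ ⟨s, hs, rfl⟩
    obtain ⟨h1, h2, h3, h4⟩ := hfix s hs
    refine ⟨M24.mul_mem (M24.mul_mem hk (hS hs)) (M24.inv_mem hk), ?_⟩
    intro i hi
    simp only [List.mem_cons, List.not_mem_nil, or_false] at hi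
    rcases hi with rfl | rfl | rfl | rfl
    · rw [← e4]; simp [MulAut.conj_apply, Equiv.Perm.mul_apply, h4]
    · rw [← e3]; simp [MulAut.conj_apply, Equiv.Perm.mul_apply, h3]
    · rw [← e2]; simp [MulAut.conj_apply, Equiv.Perm.mul_apply, h2]
    · rw [← e1]; simp [MulAut.conj_apply, Equiv.Perm.mul_apply, h1]
  have := Subgroup.card_dvd_of_le hle
  rwa [card_fix4, card_map_conj] at this

theorem card_two {p q : X} (hpq : p ≠ q) :
    Nat.card ↥(MulAction.stabilizer M24 p ⊓ MulAction.stabilizer M24 q) = 443520 := by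
  obtain ⟨k, hk, e1, e2⟩ := exists_base2 hpq
  set T := MulAction.stabilizer M24 p ⊓ MulAction.stabilizer M24 q with hT
  have h1 : Nat.card T = Nat.card ↥(T.map M24.subtype) :=
    Nat.card_congr (T.equivMapOfInjective _ M24.subtype_injective).toEquiv
  have h2 : (T.map M24.subtype).map (MulAut.conj k).toMonoidHom = fixG [0, 23] := by
    ext u
    constructor
    · rintro ⟨_, ⟨s, hs, rfl⟩, rfl⟩
      have hs1 : (s : Equiv.Perm X) p = p := hs.1
      have hs2 : (s : Equiv.Perm X) q = q := hs.2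
      refine ⟨M24.mul_mem (M24.mul_mem hk s.2) (M24.inv_mem hk), ?_⟩
      have e3 : (k * (s : Equiv.Perm X) * k⁻¹) (k p) = k p := by
        rw [Equiv.Perm.mul_apply, Equiv.Perm.mul_apply, inv_app, hs1]
      have e4 : (k * (s : Equiv.Perm X) * k⁻¹) (k q) = k q := by
        rw [Equiv.Perm.mul_apply, Equiv.Perm.mul_apply, inv_app, hs2]
      rw [e1] at e3
      rw [e2] at e4
      intro i hi
      simp only [List.mem_cons, List.not_mem_nil, or_false] at hi
      rcases hi with rfl | rfl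
      · exact e4
      · exact e3
    · rintro ⟨hu, hu2⟩
      have h3 : u (pt 0) = pt 0 := hu2 0 (by simp)
      have h4 : u (pt 23) = pt 23 := hu2 23 (by simp)
      have hmem : k⁻¹ * u * k ∈ M24 := M24.mul_mem (M24.mul_mem (M24.inv_mem hk) hu) hk
      refine ⟨k⁻¹ * u * k, ⟨⟨_, hmem⟩, ⟨?_, ?_⟩, rfl⟩, ?_⟩
      · show (k⁻¹ * u * k) p = p
        rw [Equiv.Perm.mul_apply, Equiv.Perm.mul_apply, e1, h4, ← e1, inv_app]
      · show (k⁻¹ * u * k) q = q
        rw [Equiv.Perm.mul_apply, Equiv.Perm.mul_apply, e2, h3, ← e2, inv_app]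
      · show k * (k⁻¹ * u * k) * k⁻¹ = u
        group
  rw [h1, ← card_map_conj k, h2, card_fix2]

theorem card_dps {d : Finset X} {r s : X} (hd : d ∈ dodecads) (hr : r ∈ d) (hs : s ∉ d) :
    Nat.card ↥(MulAction.stabilizer M24 d ⊓ MulAction.stabilizer M24 r ⊓ MulAction.stabilizer M24 s) = 660 := by
  refine card_inf_eq (G := ↥M24) _ s (↑(dᶜ) : Set X) (a := 660) (b := 12) (by norm_num)
    (by rw [Set.ncard_coe_finset, Finset.card_compl, card_dod hd]; rfl) (by rw [card_S1 hd hr]) ?_ ?_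
  · intro g hg
    refine Finset.mem_coe.mpr (Finset.mem_compl.mpr ?_)
    intro hc
    apply hs
    have h0 : (g : Equiv.Perm X) • d = d := hg.1
    have hc' : (g : Equiv.Perm X) s ∈ d := hc
    have := smul_pt_mem (g := (g : Equiv.Perm X)⁻¹) (by rw [inv_smul_eq_iff, h0]) hc'
    simpa using this
  · intro y hy
    have hy2 : y ∉ d := Finset.mem_compl.mp (Finset.mem_coe.mp hy)
    obtain ⟨h1, hh1, rfl, rfl, rfl⟩ := flagC1 hd hr hs
    obtain ⟨h2, hh2, e2, e3, rfl⟩ := flagC1 hd hr hy2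
    refine ⟨⟨h2 * h1⁻¹, M24.mul_mem hh2 (M24.inv_mem hh1)⟩, ⟨?_, ?_⟩, ?_⟩
    · show (h2 * h1⁻¹) • h1 • fs D0 = h1 • fs D0
      rw [mul_smul, inv_smul_smul, e2]
    · show (h2 * h1⁻¹) (h1 (pt 1)) = h1 (pt 1)
      simp [e3]
    · show (h2 * h1⁻¹) (h1 (pt 0)) = h2 (pt 0)
      simp

/-! ### Elements of prime order -/

theorem prime_dvd_card_set (r : ℕ) [Fact r.Prime] {g : Equiv.Perm X} (hg : g ^ r = 1) (F : Finset X)
    (hF : ∀ y ∈ F, g y ∈ F) (hfree : ∀ y ∈ F, g y ≠ y) : r ∣ F.card := by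
  have h := orb_modEq' (G := Equiv.Perm X) r g hg F hF
  have h0 : (F.filter fun x => g • x = x) = ∅ := by
    apply Finset.filter_eq_empty_iff.2
    intro y hy
    exact hfree y hy
  rw [h0, Finset.card_empty] at h
  exact (Nat.modEq_zero_iff_dvd.1 h.symm)

open Classical in
/-- The orbit of `x` under the powers of `g`. -/
noncomputable def gorb (g : Equiv.Perm X) (x : X) : Finset X :=
  Finset.univ.filter fun y => ∃ i : ℤ, (g ^ i) x = y

theorem mem_gorb {g : Equiv.Perm X} {x y : X} : y ∈ gorb g x ↔ ∃ i : ℤ, (g ^ i) x = y := by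
  simp [gorb]

theorem gorb_stable (g : Equiv.Perm X) (x : X) : ∀ y ∈ gorb g x, g y ∈ gorb g x := by
  intro y hy
  obtain ⟨i, rfl⟩ := mem_gorb.1 hy
  refine mem_gorb.2 ⟨1 + i, ?_⟩
  rw [zpow_add, zpow_one, Equiv.Perm.mul_apply]

theorem self_mem_gorb (g : Equiv.Perm X) (x : X) : x ∈ gorb g x := mem_gorb.2 ⟨0, by simp⟩

/-- The fixed points of an element of order 11 fixing `p, q`. -/
theorem fix_eleven {g : Equiv.Perm X} (hg : g ∈ M24) (h11 : orderOf g = 11) {p q : X} (hpq : p ≠ q)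
    (hp : g p = p) (hq : g q = q) (y : X) (hy : g y = y) : y = p ∨ y = q := by
  haveI : Fact (Nat.Prime 11) := ⟨by norm_num⟩
  have h1 := fix_lt_five hg (by rw [h11]; norm_num)
  have h2 : (Finset.univ.filter fun p => g p = p).card ≡ 24 [MOD 11] := by
    convert fix_modEq g 11 (by rw [← h11]; exact pow_orderOf_eq_one g)
  have hsub : ({p, q} : Finset X) ⊆ Finset.univ.filter fun p => g p = p := by
    intro x hx
    simp only [Finset.mem_insert, Finset.mem_singleton] at hx
    rcases hx with rfl | rfl <;> simp [hp, hq]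
  have h3 := Finset.card_le_card hsub
  rw [Finset.card_pair hpq] at h3
  unfold Nat.ModEq at h2
  have h4 : (Finset.univ.filter fun p => g p = p).card = 2 := by omega
  have h5 := Finset.eq_of_subset_of_card_le hsub (by rw [h4, Finset.card_pair hpq])
  have h6 : y ∈ Finset.univ.filter fun p => g p = p := by simp [hy]
  rw [← h5] at h6
  simpa using h6

theorem card_gorb {g : Equiv.Perm X} (hg : g ^ 11 = 1) {x : X} (hfree : ∀ y ∈ gorb g x, g y ≠ y) :
    11 ≤ (gorb g x).card := by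
  haveI : Fact (Nat.Prime 11) := ⟨by norm_num⟩
  have h1 := prime_dvd_card_set 11 hg _ (gorb_stable g x) hfree
  exact Nat.le_of_dvd (Finset.card_pos.2 ⟨x, self_mem_gorb g x⟩) h1

theorem gorb_avoid {g : Equiv.Perm X} {p x : X} (hp : g p = p) (hx : x ≠ p) : p ∉ gorb g x := by
  intro h
  obtain ⟨i, hi⟩ := mem_gorb.1 h
  apply hx
  have h2 : (g ^ i) p = p := Equiv.Perm.zpow_apply_eq_self_of_apply_eq_self hp i
  exact (g ^ i).injective (hi.trans h2.symm)

theorem exists_fixed_dod {g : Equiv.Perm X} (hg : g ∈ M24) (h11 : g ^ 11 = 1) : ∃ d ∈ dodecads, g • d = d := by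
  classical
  haveI : Fact (Nat.Prime 11) := ⟨by norm_num⟩
  by_contra hc
  push Not at hc
  have hfin : (dodecads : Set (Finset X)).Finite := Set.toFinite _
  have h1 := orb_modEq' (G := Equiv.Perm X) 11 g h11 hfin.toFinset (by
    intro d hd
    rw [Set.Finite.mem_toFinset] at hd ⊢
    exact smul_mem_dodecads hg hd)
  have h0 : (hfin.toFinset.filter fun x => g • x = x) = ∅ := by
    apply Finset.filter_eq_empty_iff.2
    intro d hd
    rw [Set.Finite.mem_toFinset] at hd
    exact hc d hd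
  rw [h0, Finset.card_empty] at h1
  have h2 : hfin.toFinset.card = 2576 := by
    rw [← Set.ncard_eq_toFinset_card _ hfin, ncard_dodecads_all]
  rw [h2] at h1
  unfold Nat.ModEq at h1
  omega

section Main

variable {H : Subgroup (Equiv.Perm X)} {p q : X}

theorem stable_zpow {g : Equiv.Perm X} (hg : g ^ 11 = 1) {F : Finset X} (hF : ∀ y ∈ F, g y ∈ F) (i : ℤ) :
    ∀ y ∈ F, (g ^ i) y ∈ F := by
  have hpow : ∀ n : ℕ, ∀ y ∈ F, (g ^ n) y ∈ F := by
    intro n
    induction n with
    | zero => intro y hy; simpa using hy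
    | succ n ih =>
      intro y hy
      rw [pow_succ', Equiv.Perm.mul_apply]
      exact hF _ (ih y hy)
  have hinv : g⁻¹ = g ^ 10 := by
    rw [inv_eq_iff_mul_eq_one, ← pow_succ', hg]
  induction i using Int.induction_on with
  | zero => intro y hy; simpa using hy
  | succ n ih =>
    intro y hy
    rw [add_comm, zpow_add, zpow_one, Equiv.Perm.mul_apply]
    exact hF _ (ih y hy)
  | pred n ih =>
    intro y hy
    rw [sub_eq_neg_add, zpow_add, zpow_neg_one, Equiv.Perm.mul_apply, hinv]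
    exact hpow 10 _ (ih y hy)

theorem trans_or (hM : H ≤ M24) (hpq : p ≠ q) (hp : ∀ h ∈ H, h p = p) (hq : ∀ h ∈ H, h q = q)
    {g : Equiv.Perm X} (hgH : g ∈ H) (hg : orderOf g = 11) :
    (∀ a b : X, a ≠ p → a ≠ q → b ≠ p → b ≠ q → ∃ h ∈ H, h a = b) ∨ Nat.card H ∣ 660 := by
  classical
  haveI : Fact (Nat.Prime 11) := ⟨by norm_num⟩
  have hg11 : g ^ 11 = 1 := by rw [← hg]; exact pow_orderOf_eq_one g
  have hgM := hM hgH
  have hfx := fix_eleven hgM hg hpq (hp g hgH) (hq g hgH)
  have hfree : ∀ y, y ≠ p → y ≠ q → g y ≠ y := by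
    intro y h1 h2 h3
    rcases hfx y h3 with h | h
    · exact h1 h
    · exact h2 h
  have hgp : g p = p := hp g hgH
  have hgq : g q = q := hq g hgH
  obtain ⟨d, hd, hgd⟩ := exists_fixed_dod hgM hg11
  have hdc := card_dod hd
  set D := (d.erase p).erase q with hD
  have hmemD : ∀ y, y ∈ D ↔ y ≠ q ∧ y ≠ p ∧ y ∈ d := by
    intro y
    simp [hD]
  have hDs : ∀ y ∈ D, g y ∈ D := by
    intro y hy
    obtain ⟨h1, h2, h3⟩ := (hmemD y).1 hy
    refine (hmemD _).2 ⟨?_, ?_, smul_pt_mem hgd h3⟩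
    · intro e
      exact h1 (g.injective (e.trans hgq.symm))
    · intro e
      exact h2 (g.injective (e.trans hgp.symm))
  have hDf : ∀ y ∈ D, g y ≠ y := by
    intro y hy
    obtain ⟨h1, h2, h3⟩ := (hmemD y).1 hy
    exact hfree y h2 h1
  have h11D := prime_dvd_card_set 11 hg11 D hDs hDf
  have hDc : D.card = 11 ∧ ((p ∈ d ∧ q ∉ d) ∨ (q ∈ d ∧ p ∉ d)) := by
    by_cases h1 : p ∈ d <;> by_cases h2 : q ∈ d
    · exfalso
      have h3 : q ∈ d.erase p := Finset.mem_erase.2 ⟨hpq.symm, h2⟩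
      have : D.card = 10 := by
        rw [hD, Finset.card_erase_of_mem h3, Finset.card_erase_of_mem h1, hdc]
      rw [this] at h11D
      norm_num at h11D
    · refine ⟨?_, Or.inl ⟨h1, h2⟩⟩
      have h3 : q ∉ d.erase p := fun e => h2 (Finset.mem_of_mem_erase e)
      rw [hD, Finset.erase_eq_of_notMem h3, Finset.card_erase_of_mem h1, hdc]
    · refine ⟨?_, Or.inr ⟨h2, h1⟩⟩
      rw [hD, Finset.erase_eq_of_notMem h1, Finset.card_erase_of_mem h2, hdc]
    · exfalso
      have h3 : q ∉ d.erase p := fun e => h2 (Finset.mem_of_mem_erase e)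
      have : D.card = 12 := by
        rw [hD, Finset.erase_eq_of_notMem h3, Finset.erase_eq_of_notMem h1, hdc]
      rw [this] at h11D
      norm_num at h11D
  obtain ⟨hDc, hcase⟩ := hDc
  obtain ⟨e, he⟩ : D.Nonempty := by
    rw [← Finset.card_pos, hDc]
    norm_num
  obtain ⟨he1, he2, he3⟩ := (hmemD e).1 he
  set W : Finset X := Finset.univ.filter fun y => ∃ h ∈ H, h e = y with hW
  have hmemW : ∀ y, y ∈ W ↔ ∃ h ∈ H, h e = y := by
    intro y
    simp [hW]
  have heW : e ∈ W := (hmemW e).2 ⟨1, H.one_mem, rfl⟩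
  have hWs : ∀ y ∈ W, g y ∈ W := by
    intro y hy
    obtain ⟨h, hh, rfl⟩ := (hmemW y).1 hy
    exact (hmemW _).2 ⟨g * h, H.mul_mem hgH hh, rfl⟩
  have hWn : ∀ y ∈ W, y ≠ q ∧ y ≠ p := by
    intro y hy
    obtain ⟨h, hh, rfl⟩ := (hmemW y).1 hy
    constructor
    · intro e1
      exact he1 (h.injective (e1.trans (hq h hh).symm))
    · intro e1
      exact he2 (h.injective (e1.trans (hp h hh).symm))
  have hWf : ∀ y ∈ W, g y ≠ y := by
    intro y hy
    exact hfree y (hWn y hy).2 (hWn y hy).1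
  have h11W := prime_dvd_card_set 11 hg11 W hWs hWf
  have hWsub : W ⊆ (Finset.univ.erase p).erase q := by
    intro y hy
    rw [Finset.mem_erase, Finset.mem_erase]
    exact ⟨(hWn y hy).1, (hWn y hy).2, Finset.mem_univ _⟩
  have hc22 : (((Finset.univ : Finset X).erase p).erase q).card = 22 := by
    rw [Finset.card_erase_of_mem (Finset.mem_erase.2 ⟨hpq.symm, Finset.mem_univ _⟩),
      Finset.card_erase_of_mem (Finset.mem_univ _), Finset.card_univ, card_X]
  have hWle := Finset.card_le_card hWsub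
  rw [hc22] at hWle
  -- the orbit of `e` under `g` is `D`
  have hgorb : gorb g e = D := by
    apply Finset.eq_of_subset_of_card_le
    · intro y hy
      obtain ⟨i, rfl⟩ := mem_gorb.1 hy
      exact stable_zpow hg11 hDs i e he
    · rw [hDc]
      apply card_gorb hg11
      intro y hy
      apply hDf
      obtain ⟨i, rfl⟩ := mem_gorb.1 hy
      exact stable_zpow hg11 hDs i e he
  have hDW : D ⊆ W := by
    intro y hy
    rw [← hgorb] at hy
    obtain ⟨i, rfl⟩ := mem_gorb.1 hy
    exact stable_zpow hg11 hWs i e heW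
  have hWge : 11 ≤ W.card := by
    rw [← hDc]
    exact Finset.card_le_card hDW
  have hWcases : W.card = 22 ∨ W.card = 11 := by omega
  rcases hWcases with h22 | h11'
  · left
    have hWall := Finset.eq_of_subset_of_card_le hWsub (by rw [hc22, h22])
    intro a b ha1 ha2 hb1 hb2
    have ha : a ∈ W := by
      rw [hWall, Finset.mem_erase, Finset.mem_erase]
      exact ⟨ha2, ha1, Finset.mem_univ _⟩
    have hb : b ∈ W := by
      rw [hWall, Finset.mem_erase, Finset.mem_erase]
      exact ⟨hb2, hb1, Finset.mem_univ _⟩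
    obtain ⟨h1, hh1, rfl⟩ := (hmemW a).1 ha
    obtain ⟨h2, hh2, rfl⟩ := (hmemW b).1 hb
    exact ⟨h2 * h1⁻¹, H.mul_mem hh2 (H.inv_mem hh1), by simp⟩
  · right
    have hWD : W = D := (Finset.eq_of_subset_of_card_le hDW (by rw [hDc, h11'])).symm
    have hstab : ∀ h ∈ H, h • d = d := by
      intro h hh
      apply Finset.eq_of_subset_of_card_le
      · intro x hx
        obtain ⟨y, hy, rfl⟩ := Finset.mem_smul_finset.1 hx
        show h y ∈ d
        by_cases hy1 : y = p
        · subst hy1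
          rw [hp h hh]
          exact hy
        by_cases hy2 : y = q
        · subst hy2
          rw [hq h hh]
          exact hy
        have hyD : y ∈ D := (hmemD y).2 ⟨hy2, hy1, hy⟩
        rw [← hWD] at hyD
        obtain ⟨h1, hh1, rfl⟩ := (hmemW y).1 hyD
        have : h (h1 e) ∈ W := (hmemW _).2 ⟨h * h1, H.mul_mem hh hh1, rfl⟩
        rw [hWD] at this
        exact ((hmemD _).1 this).2.2
      · rw [Finset.card_smul_finset]
    obtain ⟨r, s, hrs, hsr, hr, hs⟩ : ∃ r s : X, (∀ h ∈ H, h r = r) ∧ (∀ h ∈ H, h s = s) ∧ r ∈ d ∧ s ∉ d := by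
      rcases hcase with ⟨h1, h2⟩ | ⟨h1, h2⟩
      · exact ⟨p, q, hp, hq, h1, h2⟩
      · exact ⟨q, p, hq, hp, h1, h2⟩
    have hle : H ≤ (MulAction.stabilizer M24 d ⊓ MulAction.stabilizer M24 r ⊓ MulAction.stabilizer M24 s).map M24.subtype := by
      intro h hh
      exact ⟨⟨h, hM hh⟩, ⟨⟨hstab h hh, hrs h hh⟩, hsr h hh⟩, rfl⟩
    have hdv := Subgroup.card_dvd_of_le hle
    have hcm : Nat.card ↥((MulAction.stabilizer M24 d ⊓ MulAction.stabilizer M24 r ⊓ MulAction.stabilizer M24 s).map M24.subtype) = 660 := by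
      rw [← card_dps hd hr hs]
      exact (Nat.card_congr (Subgroup.equivMapOfInjective _ _ M24.subtype_injective).toEquiv).symm
    rwa [hcm] at hdv

/-- The 22 points. -/
abbrev Om (p q : X) := {x : X // x ≠ p ∧ x ≠ q}

theorem card_Om (hpq : p ≠ q) : Fintype.card (Om p q) = 22 := by
  rw [Fintype.card_subtype]
  have : (Finset.univ.filter fun x : X => x ≠ p ∧ x ≠ q) = ((Finset.univ : Finset X).erase p).erase q := by
    ext x
    simp [and_comm]
  rw [this, Finset.card_erase_of_mem (Finset.mem_erase.2 ⟨hpq.symm, Finset.mem_univ _⟩),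
      Finset.card_erase_of_mem (Finset.mem_univ _), Finset.card_univ, card_X]

/-- The action on the 22 points. -/
def actOm (hp : ∀ h ∈ H, h p = p) (hq : ∀ h ∈ H, h q = q) : MulAction ↥H (Om p q) where
  smul h x := ⟨h.1 x.1,
    fun e => x.2.1 (h.1.injective (e.trans (hp h.1 h.2).symm)),
    fun e => x.2.2 (h.1.injective (e.trans (hq h.1 h.2).symm))⟩
  one_smul _ := Subtype.ext rfl
  mul_smul _ _ _ := Subtype.ext rfl

theorem om_fix {u : Equiv.Perm X} (hpq : p ≠ q) (hpu : u p = p) (hqu : u q = q)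
    (hf : (Finset.univ.filter fun y => u y = y).card = 4) :
    (Finset.univ.filter fun x : Om p q => u x.1 = x.1).card = 2 := by
  have h1 : ((Finset.univ.filter fun x : Om p q => u x.1 = x.1).map (Function.Embedding.subtype _)) =
      ((Finset.univ.filter fun y => u y = y).erase p).erase q := by
    ext y
    simp only [Finset.mem_map, Finset.mem_filter, Finset.mem_univ, true_and, Function.Embedding.coe_subtype,
      Finset.mem_erase]
    constructor
    · rintro ⟨x, hx, rfl⟩
      exact ⟨x.2.2, x.2.1, hx⟩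
    · rintro ⟨h1, h2, h3⟩
      exact ⟨⟨y, h2, h1⟩, h3, rfl⟩
  rw [← Finset.card_map (Function.Embedding.subtype _), h1,
    Finset.card_erase_of_mem (Finset.mem_erase.2 ⟨hpq.symm, by simp [hqu]⟩),
    Finset.card_erase_of_mem (by simp [hpu]), hf]

theorem no7920 (hM : H ≤ M24) (hpq : p ≠ q) (hp : ∀ h ∈ H, h p = p) (hq : ∀ h ∈ H, h q = q)
    (hc : Nat.card H = 7920) : False := by
  classical
  haveI h11 : Fact (Nat.Prime 11) := ⟨by norm_num⟩
  haveI h5 : Fact (Nat.Prime 5) := ⟨by norm_num⟩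
  obtain ⟨g, hg⟩ := exists_prime_orderOf_dvd_card' (G := ↥H) 11 (by rw [hc]; norm_num)
  have hg' : orderOf (g : Equiv.Perm X) = 11 := by rw [← hg]; exact Subgroup.orderOf_coe g
  rcases trans_or hM hpq hp hq g.2 hg' with htr | hdv
  swap
  · rw [hc] at hdv
    norm_num at hdv
  letI := actOm hp hq
  have htr' : ∀ a b : Om p q, ∃ h : ↥H, h • a = b := by
    intro a b
    obtain ⟨h, hh, e⟩ := htr a.1 b.1 a.2.1 a.2.2 b.2.1 b.2.2
    exact ⟨⟨h, hh⟩, Subtype.ext e⟩
  refine no_action (G := ↥H) (Ω := Om p q) (card_Om hpq) htr' hc ?_ ?_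
  · intro a b hba h9
    let K := MulAction.stabilizer ↥H a
    let S0 := MulAction.stabilizer ↥K b
    let φ : ↥K →* Equiv.Perm X := H.subtype.comp K.subtype
    have hφ : Function.Injective φ := H.subtype_injective.comp K.subtype_injective
    have hcS : Nat.card ↥(S0.map φ) = Nat.card S0 :=
      (Nat.card_congr (S0.equivMapOfInjective φ hφ).toEquiv).symm
    have hdv : Nat.card ↥(S0.map φ) ∣ 960 := by
      refine card_dvd_960 (a := p) (b := q) (c := a.1) (d := b.1) ?_ hpq a.2.1.symm b.2.1.symm a.2.2.symm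
        b.2.2.symm ?_ ?_
      · rintro _ ⟨s, -, rfl⟩
        exact hM s.1.2
      · exact fun e => hba (Subtype.ext e).symm
      · rintro _ ⟨s, hs, rfl⟩
        refine ⟨hp _ s.1.2, hq _ s.1.2, ?_, ?_⟩
        · exact congrArg Subtype.val (show (s.1 : ↥H) • a = a from s.2)
        · exact congrArg Subtype.val (show (s.1 : ↥H) • b = b from hs)
    rw [hcS] at hdv
    have := h9.trans hdv
    norm_num at this
  · intro a
    let K := MulAction.stabilizer ↥H a
    have hK : Nat.card K = 360 := by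
      have := card_stab_of_trans (G := ↥H) htr' a
      rw [card_Om hpq, hc] at this
      show Nat.card ↥(MulAction.stabilizer ↥H a) = 360
      omega
    obtain ⟨t, ht⟩ := exists_prime_orderOf_dvd_card' (G := ↥K) 5 (by rw [hK]; norm_num)
    have ht1 : orderOf (t.1 : ↥H) = 5 := by rw [← ht]; exact Subgroup.orderOf_coe t
    have ht2 : orderOf (t.1.1 : Equiv.Perm X) = 5 := by rw [← ht1]; exact Subgroup.orderOf_coe t.1
    refine ⟨t.1, t.2, ?_, ?_⟩
    · rw [← ht1]
      exact pow_orderOf_eq_one _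
    · have hlt := fix_lt_five (hM t.1.2) (by rw [ht2]; norm_num)
      have hmod : (Finset.univ.filter fun y => (t.1.1 : Equiv.Perm X) y = y).card ≡ 24 [MOD 5] := by
        convert fix_modEq (t.1.1 : Equiv.Perm X) 5 (by rw [← ht2]; exact pow_orderOf_eq_one _)
      unfold Nat.ModEq at hmod
      have hf4 : (Finset.univ.filter fun y => (t.1.1 : Equiv.Perm X) y = y).card = 4 := by omega
      have := om_fix (p := p) (q := q) hpq (hp _ t.1.2) (hq _ t.1.2) hf4
      rw [← this]
      congr 1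
      ext x
      simp only [Finset.mem_filter, Finset.mem_univ, true_and]
      exact Subtype.ext_iff

theorem zpow_fix_of_not_dvd {g : Equiv.Perm X} (hg : g ^ 11 = 1) {m : ℤ} (hm : ¬ (11 : ℤ) ∣ m) {x : X}
    (h : (g ^ m) x = x) : g x = x := by
  have hco : IsCoprime m 11 := by
    have h11 : Prime (11 : ℤ) := Int.prime_iff_natAbs_prime.2 (by norm_num)
    exact (h11.coprime_iff_not_dvd.2 hm).symm
  obtain ⟨a, b, hab⟩ := hco
  have h1 : g = (g ^ m) ^ a := by
    have h2 : g ^ (a * m + b * 11) = g := by rw [hab, zpow_one]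
    rw [zpow_add, zpow_mul' g b, show (11 : ℤ) = ((11 : ℕ) : ℤ) by norm_num, zpow_natCast, hg, one_zpow, mul_one, zpow_mul'] at h2
    exact h2.symm
  rw [h1]
  exact Equiv.Perm.zpow_apply_eq_self_of_apply_eq_self h a

theorem zpow_eq_one_of_dvd {g : Equiv.Perm X} (hg : g ^ 11 = 1) {m : ℤ} (hm : (11 : ℤ) ∣ m) : g ^ m = 1 := by
  obtain ⟨c, rfl⟩ := hm
  rw [zpow_mul, show (11 : ℤ) = ((11 : ℕ) : ℤ) by norm_num, zpow_natCast, hg, one_zpow]

theorem even_normalizer {c n : ℕ} (h : c * n = 2112) (hn : n % 11 = 1) : 2 ∣ c := by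
  by_contra hc
  have h1 : Nat.Coprime c (2 ^ 6) := by
    apply Nat.Coprime.pow_right
    rw [Nat.coprime_comm]
    exact (Nat.Prime.coprime_iff_not_dvd Nat.prime_two).2 hc
  have h2 : c ∣ 2 ^ 6 * 33 := ⟨n, by rw [h]; norm_num⟩
  have h3 : c ∣ 33 := h1.dvd_of_dvd_mul_left h2
  have h4 : c ≤ 33 := Nat.le_of_dvd (by norm_num) h3
  interval_cases c <;> omega

theorem no2112 (hM : H ≤ M24) (hpq : p ≠ q) (hp : ∀ h ∈ H, h p = p) (hq : ∀ h ∈ H, h q = q)
    (hc : Nat.card H = 2112) : False := by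
  classical
  haveI h11 : Fact (Nat.Prime 11) := ⟨by norm_num⟩
  haveI h2 : Fact (Nat.Prime 2) := ⟨by norm_num⟩
  obtain ⟨P⟩ : Nonempty (Sylow 11 ↥H) := Sylow.nonempty
  have hn := card_sylow_modEq_one 11 ↥H
  have hidx := P.card_eq_index_normalizer
  have hcm := Subgroup.card_mul_index (Subgroup.normalizer (P : Set ↥H))
  rw [← hidx, hc] at hcm
  have h2N : 2 ∣ Nat.card ↥(Subgroup.normalizer (P : Set ↥H)) := by
    apply even_normalizer hcm
    unfold Nat.ModEq at hn
    exact hn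
  obtain ⟨x, hx⟩ := exists_prime_orderOf_dvd_card' (G := ↥(Subgroup.normalizer (P : Set ↥H))) 2 h2N
  have hcP : Nat.card P = 11 := by
    rw [P.card_eq_multiplicity, hc]
    have : Nat.factorization 2112 11 = 1 := by
      rw [show (2112 : ℕ) = 11 * 192 by norm_num, Nat.factorization_mul (by norm_num) (by norm_num)]
      simp only [Finsupp.coe_add, Pi.add_apply, Nat.Prime.factorization_self (show Nat.Prime 11 by norm_num)]
      rw [Nat.factorization_eq_zero_of_not_dvd (by norm_num)]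
    rw [this, pow_one]
  haveI : Fact (Nat.Prime (Nat.card P)) := ⟨by rw [hcP]; norm_num⟩
  haveI hcyc : IsCyclic P := isCyclic_of_prime_card rfl
  obtain ⟨g0, hg0⟩ := IsCyclic.exists_generator (α := P)
  have hog0 : orderOf g0 = 11 := (orderOf_eq_card_of_forall_mem_zpowers hg0).trans hcP
  set g : Equiv.Perm X := ((g0 : ↥H) : Equiv.Perm X) with hgdef
  have hog : orderOf g = 11 := by
    rw [← hog0, hgdef, Subgroup.orderOf_coe, Subgroup.orderOf_coe]
  have hg11 : g ^ 11 = 1 := by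
    rw [← hog]
    exact pow_orderOf_eq_one g
  have hgH : g ∈ H := (g0 : ↥H).2
  set u : Equiv.Perm X := ((x : ↥H) : Equiv.Perm X) with hudef
  have hou : orderOf u = 2 := by
    rw [← hx, hudef, Subgroup.orderOf_coe, Subgroup.orderOf_coe]
  have huH : u ∈ H := (x : ↥H).2
  -- conjugation
  obtain ⟨k, hk⟩ : ∃ k : ℤ, u * g * u⁻¹ = g ^ k := by
    have hmem : (x : ↥H) * (g0 : ↥H) * (x : ↥H)⁻¹ ∈ P := (Subgroup.mem_normalizer_iff.1 x.2 _).1 g0.2
    obtain ⟨k, hk⟩ := hg0 ⟨_, hmem⟩
    refine ⟨k, ?_⟩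
    have h1 := congrArg (fun z : ↥P => (((z : ↥H) : Equiv.Perm X))) hk
    simp only [Subgroup.coe_zpow, Subgroup.coe_mul, Subgroup.coe_inv] at h1
    exact h1.symm
  have hconj : ∀ i : ℤ, u * g ^ i * u⁻¹ = g ^ (k * i) := by
    intro i
    rw [zpow_mul, ← hk, conj_zpow]
  have hfx := fix_eleven (hM hgH) hog hpq (hp g hgH) (hq g hgH)
  have hfree : ∀ y, y ≠ p → y ≠ q → g y ≠ y := by
    intro y h1 h2 h3
    rcases hfx y h3 with h | h
    · exact h1 h
    · exact h2 h
  -- the fixed points of `u`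
  have hf8 : (Finset.univ.filter fun y => u y = y).card = 8 := by
    rcases fix_order2 (hM huH) hou with h | h
    · exfalso
      exact fixed_filter_empty h p (hp u huH)
    · exact h
  set F : Finset X := ((Finset.univ.filter fun y => u y = y).erase p).erase q with hF
  have hmemF : ∀ y, y ∈ F ↔ y ≠ q ∧ y ≠ p ∧ u y = y := by
    intro y
    simp [hF]
  have hFc : F.card = 6 := by
    rw [hF, Finset.card_erase_of_mem (Finset.mem_erase.2 ⟨hpq.symm, by simp [hq u huH]⟩),
      Finset.card_erase_of_mem (by simp [hp u huH]), hf8]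
  -- two fixed points of `u` in one orbit coincide
  have hconflict : ∀ y ∈ F, ∀ i : ℤ, (g ^ i) y ∈ F → (g ^ i) y = y := by
    intro y hy i hi
    obtain ⟨hy1, hy2, hy3⟩ := (hmemF y).1 hy
    obtain ⟨-, -, hi3⟩ := (hmemF _).1 hi
    by_contra hne
    have h1 : (g ^ (k * i)) y = (g ^ i) y := by
      rw [← hconj i]
      simp only [Equiv.Perm.mul_apply]
      have h3 : u⁻¹ y = y := by
        rw [Equiv.Perm.inv_eq_iff_eq]
        exact hy3.symm
      rw [h3, hi3]
    have h2 : (g ^ ((k - 1) * i)) y = y := by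
      rw [sub_mul, one_mul, sub_eq_neg_add, zpow_add, Equiv.Perm.mul_apply, h1, ← Equiv.Perm.mul_apply,
        ← zpow_add]
      simp
    have h3 : (11 : ℤ) ∣ (k - 1) * i := by
      by_contra hnd
      exact hfree y hy2 hy1 (zpow_fix_of_not_dvd hg11 hnd h2)
    have h11p : Prime (11 : ℤ) := Int.prime_iff_natAbs_prime.2 (by norm_num)
    rcases h11p.dvd_or_dvd h3 with h4 | h4
    · -- `u` commutes with `g`
      have h5 : g ^ (k - 1) = 1 := zpow_eq_one_of_dvd hg11 h4
      have h6 : g ^ k = g := by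
        have : g ^ k = g ^ (k - 1) * g := by
          rw [← zpow_add_one]
          congr 1
          ring
        rw [this, h5, one_mul]
      have h7 : u * g = g * u := by
        rw [h6] at hk
        calc u * g = u * g * u⁻¹ * u := by group
          _ = g * u := by rw [hk]
      have hFg : ∀ z ∈ F, g z ∈ F := by
        intro z hz
        obtain ⟨h8, h9, h10⟩ := (hmemF z).1 hz
        refine (hmemF _).2 ⟨?_, ?_, ?_⟩
        · intro e
          exact h8 (g.injective (e.trans (hq g hgH).symm))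
        · intro e
          exact h9 (g.injective (e.trans (hp g hgH).symm))
        · have := congrArg (fun w : Equiv.Perm X => w z) h7
          simp only [Equiv.Perm.mul_apply, h10] at this
          exact this
      have := prime_dvd_card_set 11 hg11 F hFg (fun z hz => hfree z ((hmemF z).1 hz).2.1 ((hmemF z).1 hz).1)
      rw [hFc] at this
      norm_num at this
    · apply hne
      rw [zpow_eq_one_of_dvd hg11 h4]
      rfl
  -- three disjoint orbits
  obtain ⟨x₁, h1, x₂, h2, x₃, h3, h12, h13, h23⟩ := Finset.two_lt_card.1 (show 2 < F.card by omega)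
  have hcardO : ∀ y ∈ F, 11 ≤ (gorb g y).card ∧ gorb g y ⊆ (Finset.univ.erase p).erase q := by
    intro y hy
    obtain ⟨hy1, hy2, -⟩ := (hmemF y).1 hy
    have hn1 : ∀ z ∈ gorb g y, z ≠ p := fun z hz e => gorb_avoid (hp g hgH) hy2 (e ▸ hz)
    have hn2 : ∀ z ∈ gorb g y, z ≠ q := fun z hz e => gorb_avoid (hq g hgH) hy1 (e ▸ hz)
    refine ⟨card_gorb hg11 fun z hz => hfree z (hn1 z hz) (hn2 z hz), ?_⟩
    intro z hz
    rw [Finset.mem_erase, Finset.mem_erase]
    exact ⟨hn2 z hz, hn1 z hz, Finset.mem_univ _⟩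
  have hdisj : ∀ y ∈ F, ∀ z ∈ F, y ≠ z → Disjoint (gorb g y) (gorb g z) := by
    intro y hy z hz hyz
    rw [Finset.disjoint_left]
    intro w hw1 hw2
    obtain ⟨i, rfl⟩ := mem_gorb.1 hw1
    obtain ⟨j, hj⟩ := mem_gorb.1 hw2
    have h5 : (g ^ (-j + i)) y = z := by
      rw [zpow_add, Equiv.Perm.mul_apply, ← hj, ← Equiv.Perm.mul_apply, ← zpow_add]
      simp
    have h6 := hconflict y hy (-j + i) (by rw [h5]; exact hz)
    exact hyz (h6.symm.trans h5)
  have hd123 : Disjoint (gorb g x₁ ∪ gorb g x₂) (gorb g x₃) :=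
    Finset.disjoint_union_left.2 ⟨hdisj _ h1 _ h3 h13, hdisj _ h2 _ h3 h23⟩
  have hcard3 := Finset.card_union_of_disjoint hd123
  rw [Finset.card_union_of_disjoint (hdisj _ h1 _ h2 h12)] at hcard3
  have hsub : gorb g x₁ ∪ gorb g x₂ ∪ gorb g x₃ ⊆ (Finset.univ.erase p).erase q :=
    Finset.union_subset (Finset.union_subset (hcardO _ h1).2 (hcardO _ h2).2) (hcardO _ h3).2
  have hle := Finset.card_le_card hsub
  rw [Finset.card_erase_of_mem (Finset.mem_erase.2 ⟨hpq.symm, Finset.mem_univ _⟩),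
      Finset.card_erase_of_mem (Finset.mem_univ _), Finset.card_univ, card_X] at hle
  have := (hcardO _ h1).1
  have := (hcardO _ h2).1
  have := (hcardO _ h3).1
  omega

end Main

/-- The statement of the two-point stabiliser. -/
theorem main_index (p q : X) (hpq : p ≠ q)
    (H : Subgroup ↥(MulAction.stabilizer M24 p ⊓ MulAction.stabilizer M24 q)) :
    H.index ≠ 56 ∧ H.index ≠ 210 := by
  classical
  have hT := card_two hpq
  have hi := Subgroup.card_mul_index H
  rw [hT] at hi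
  let φ : ↥(MulAction.stabilizer M24 p ⊓ MulAction.stabilizer M24 q) →* Equiv.Perm X :=
    M24.subtype.comp (MulAction.stabilizer M24 p ⊓ MulAction.stabilizer M24 q).subtype
  have hφ : Function.Injective φ := M24.subtype_injective.comp (Subtype.val_injective)
  have hcard : Nat.card ↥(H.map φ) = Nat.card H :=
    (Nat.card_congr (H.equivMapOfInjective φ hφ).toEquiv).symm
  have hM : H.map φ ≤ M24 := by
    rintro _ ⟨s, -, rfl⟩
    exact s.1.2
  have hp : ∀ h ∈ H.map φ, h p = p := by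
    rintro _ ⟨s, -, rfl⟩
    exact s.2.1
  have hq : ∀ h ∈ H.map φ, h q = q := by
    rintro _ ⟨s, -, rfl⟩
    exact s.2.2
  constructor
  · intro h56
    rw [h56] at hi
    exact no7920 hM hpq hp hq (by rw [hcard]; omega)
  · intro h210
    rw [h210] at hi
    exact no2112 hM hpq hp hq (by rw [hcard]; omega)

end Cfsg.Agent.H27.M22
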