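import Mathlib
import Cfsg.Agent.Lib.H27.M22B
import Cfsg.Agent.Lib.H07.GolayFlag
import Cfsg.Agent.Lib.H27.GolayStab

/-!
# Fixed points of elements fixing five points; orbits of subgroups on the 24 points
-/

set_option autoImplicit false
set_option maxRecDepth 100000

namespace Cfsg.Agent.H27.M22

open Cfsg Cfsg.Agent.H27.Golay Cfsg.Agent.H07.Orb
open scoped Pointwise

def h48test (c : ℕ) : Bool :=
  idF (pa c) || Nat.blt (popc (fixMask (pa c))) 8 || octadL.any (Nat.beq (fixMask (pa c)))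

theorem h48_fix : allL h48test H48L = true := by decide +kernel

theorem h48_pow : allL (fun c => pow2F (pa c) || pow3F (pa c)) H48L = true := by decide +kernel

theorem fix_eq_fs {g : Equiv.Perm GolayPt} {e : ℕ → ℕ} (h : Rep g e) :
    (Finset.univ.filter fun p => g p = p) = fs (fixMask e) := by
  ext p
  rw [Finset.mem_filter, mem_fs]
  have h1 := testBit_fixMaskN e 24 (idx p)
  show _ ↔ (fixMask e).testBit (idx p) = true
  have h2 : (fixMask e).testBit (idx p) = true ↔ idx p < 24 ∧ e (idx p) = idx p := h1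
  rw [h2]
  constructor
  · rintro ⟨-, hp⟩
    refine ⟨idx_lt p, ?_⟩
    rw [h.apply] at hp
    have := congrArg idx hp
    rwa [idx_pt' (h _ (idx_lt p)).1] at this
  · rintro ⟨-, hp⟩
    refine ⟨Finset.mem_univ _, ?_⟩
    rw [h.apply, hp, pt_idx]

theorem fix_conj_smul (u k : Equiv.Perm X) :
    (Finset.univ.filter fun p => u p = p) = k⁻¹ • (Finset.univ.filter fun p => (k * u * k⁻¹) p = p) := by
  ext p
  rw [Finset.mem_inv_smul_finset_iff, Finset.mem_filter, Finset.mem_filter]
  simp only [Finset.mem_univ, true_and, Equiv.Perm.smul_def, Equiv.Perm.mul_apply, inv_app]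
  constructor
  · intro h
    rw [h]
  · intro h
    exact k.injective h

theorem fix8 {u : Equiv.Perm X} (hu : u ∈ M24) (h1 : u ≠ 1) :
    (Finset.univ.filter fun p => u p = p).card ≤ 8 ∧
      ((Finset.univ.filter fun p => u p = p).card = 8 → (Finset.univ.filter fun p => u p = p) ∈ octads) := by
  by_cases h5 : 5 ≤ (Finset.univ.filter fun p => u p = p).card
  · obtain ⟨k, hk, c, hc, hok, e⟩ := exists_conj_H48 hu h5
    have htest := allL_spec h48_fix c hc
    have hne : P c ≠ 1 := by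
      rw [← e]
      intro h2
      apply h1
      have : u = k⁻¹ * (k * u * k⁻¹) * k := by group
      rw [this, h2]
      group
    have hr := rep_P hok
    have hid : idF (pa c) = false := not_idF_of hr hne
    have hcard : (Finset.univ.filter fun p => u p = p).card = popc (fixMask (pa c)) := by
      rw [← card_fix_conj u k, e, card_fix_eq hr]
    unfold h48test at htest
    rw [hid, Bool.false_or, Bool.or_eq_true] at htest
    rcases htest with h2 | h2
    · have h3 : popc (fixMask (pa c)) < 8 := by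
        simpa using h2
      rw [hcard]
      exact ⟨by omega, fun h4 => by omega⟩
    · obtain ⟨m, hm, hm2⟩ := List.any_eq_true.1 h2
      have hm3 : fixMask (pa c) = m := Nat.eq_of_beq_eq_true hm2
      have hfix : (Finset.univ.filter fun p => (k * u * k⁻¹) p = p) = fs m := by
        rw [e, fix_eq_fs hr, hm3]
      have hoct : fs m ∈ octads := fs_mem_octads hm
      have hfu : (Finset.univ.filter fun p => u p = p) ∈ octads := by
        rw [fix_conj_smul u k, hfix]
        exact smul_mem_octads (M24.inv_mem hk) hoct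
      have hc8 : (Finset.univ.filter fun p => u p = p).card = 8 := hfu.2
      exact ⟨hc8.le, fun _ => hfu⟩
  · push Not at h5
    exact ⟨by omega, fun h4 => by omega⟩

theorem pow23_of_five {u : Equiv.Perm X} (hu : u ∈ M24) (h5 : 5 ≤ (Finset.univ.filter fun p => u p = p).card) :
    u ^ 2 = 1 ∨ u ^ 3 = 1 := by
  obtain ⟨k, hk, c, hc, hok, e⟩ := exists_conj_H48 hu h5
  have htest := allL_spec h48_pow c hc
  have hr := rep_P hok
  have hconj : ∀ n : ℕ, (P c) ^ n = 1 → u ^ n = 1 := by
    intro n hn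
    rw [← e, conj_pow] at hn
    have : u ^ n = k⁻¹ * (k * u ^ n * k⁻¹) * k := by group
    rw [this, hn]
    group
  rw [Bool.or_eq_true] at htest
  rcases htest with h2 | h3
  · left
    apply hconj
    ext p
    have h1 := Nat.eq_of_beq_eq_true (allBelow_spec h2 _ (idx_lt p))
    simp only [pow_succ, pow_zero, one_mul, Equiv.Perm.mul_apply, Equiv.Perm.coe_one, id_eq]
    rw [hr.apply, P_apply hok]
    rw [idx_pt' (pa_lt hok (idx_lt p)), h1, pt_idx]
  · right
    apply hconj
    ext p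
    have h1 := Nat.eq_of_beq_eq_true (allBelow_spec h3 _ (idx_lt p))
    simp only [pow_succ, pow_zero, one_mul, Equiv.Perm.mul_apply, Equiv.Perm.coe_one, id_eq]
    rw [hr.apply, P_apply hok, P_apply hok]
    rw [idx_pt' (pa_lt hok (idx_lt p)), idx_pt' (pa_lt hok (pa_lt hok (idx_lt p))), h1, pt_idx]

theorem card_dvd_20160 {S : Subgroup (Equiv.Perm X)} (hS : S ≤ M24) {a b c : X} (hab : a ≠ b) (hac : a ≠ c)
    (hbc : b ≠ c) (hfix : ∀ s ∈ S, s a = a ∧ s b = b ∧ s c = c) : Nat.card S ∣ 20160 := by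
  obtain ⟨d, h1, h2, h3⟩ := exists_ne3 a b c
  obtain ⟨k, hk, e1, e2, e3, -⟩ := exists_base4 hab hac h1.symm hbc h2.symm h3.symm
  have hle : S.map (MulAut.conj k).toMonoidHom ≤ fixG [1, 0, 23] := by
    rintro _ ⟨s, hs, rfl⟩
    obtain ⟨h4, h5, h6⟩ := hfix s hs
    refine ⟨M24.mul_mem (M24.mul_mem hk (hS hs)) (M24.inv_mem hk), ?_⟩
    intro i hi
    simp only [List.mem_cons, List.not_mem_nil, or_false] at hi
    rcases hi with rfl | rfl | rfl
    · rw [← e3]; simp [MulAut.conj_apply, Equiv.Perm.mul_apply, h6]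
    · rw [← e2]; simp [MulAut.conj_apply, Equiv.Perm.mul_apply, h5]
    · rw [← e1]; simp [MulAut.conj_apply, Equiv.Perm.mul_apply, h4]
  have := Subgroup.card_dvd_of_le hle
  rwa [card_fix3, card_map_conj] at this

theorem card_one (p : X) : Nat.card ↥(MulAction.stabilizer M24 p) = 10200960 := by
  obtain ⟨b, -, hb, -⟩ := exists_ne3 p p p
  obtain ⟨k, hk, e1, -⟩ := exists_base2 hb.symm
  set T := MulAction.stabilizer M24 p with hT
  have h1 : Nat.card T = Nat.card ↥(T.map M24.subtype) :=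
    Nat.card_congr (T.equivMapOfInjective _ M24.subtype_injective).toEquiv
  have h2 : (T.map M24.subtype).map (MulAut.conj k).toMonoidHom = fixG [23] := by
    ext u
    constructor
    · rintro ⟨_, ⟨s, hs, rfl⟩, rfl⟩
      have hs1 : (s : Equiv.Perm X) p = p := hs
      refine ⟨M24.mul_mem (M24.mul_mem hk s.2) (M24.inv_mem hk), ?_⟩
      have e3 : (k * (s : Equiv.Perm X) * k⁻¹) (k p) = k p := by
        rw [Equiv.Perm.mul_apply, Equiv.Perm.mul_apply, inv_app, hs1]
      rw [e1] at e3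
      intro i hi
      simp only [List.mem_cons, List.not_mem_nil, or_false] at hi
      rcases hi with rfl
      exact e3
    · rintro ⟨hu, hu2⟩
      have h4 : u (pt 23) = pt 23 := hu2 23 (by simp)
      have hmem : k⁻¹ * u * k ∈ M24 := M24.mul_mem (M24.mul_mem (M24.inv_mem hk) hu) hk
      refine ⟨k⁻¹ * u * k, ⟨⟨_, hmem⟩, ?_, rfl⟩, ?_⟩
      · show (k⁻¹ * u * k) p = p
        rw [Equiv.Perm.mul_apply, Equiv.Perm.mul_apply, e1, h4, ← e1, inv_app]
      · show k * (k⁻¹ * u * k) * k⁻¹ = u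
        group
  rw [h1, ← card_map_conj k, h2, card_fix1]

section Orbits

variable (H : Subgroup (Equiv.Perm X))

open Classical in
/-- The orbit of `a` under `H`. -/
noncomputable def W (a : X) : Finset X := Finset.univ.filter fun y => ∃ h ∈ H, h a = y

variable {H}

theorem mem_W {a y : X} : y ∈ W H a ↔ ∃ h ∈ H, h a = y := by
  simp [W]

theorem self_W (a : X) : a ∈ W H a := mem_W.2 ⟨1, H.one_mem, rfl⟩

theorem W_stable (a : X) {h : Equiv.Perm X} (hh : h ∈ H) {y : X} (hy : y ∈ W H a) : h y ∈ W H a := by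
  obtain ⟨h1, hh1, rfl⟩ := mem_W.1 hy
  exact mem_W.2 ⟨h * h1, H.mul_mem hh hh1, rfl⟩

theorem W_eq {a y : X} (hy : y ∈ W H a) : W H y = W H a := by
  obtain ⟨h1, hh1, rfl⟩ := mem_W.1 hy
  ext z
  simp only [mem_W]
  constructor
  · rintro ⟨h, hh, rfl⟩
    exact ⟨h * h1, H.mul_mem hh hh1, rfl⟩
  · rintro ⟨h, hh, rfl⟩
    exact ⟨h * h1⁻¹, H.mul_mem hh (H.inv_mem hh1), by simp⟩

theorem W_disj {a b : X} (hb : b ∉ W H a) : Disjoint (W H a) (W H b) := by
  rw [Finset.disjoint_left]
  intro y hy hy2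
  apply hb
  have h1 : W H b = W H a := (W_eq hy2).symm.trans (W_eq hy)
  rw [← h1]
  exact self_W b

theorem W_iff (a : X) {h : Equiv.Perm X} (hh : h ∈ H) (y : X) : h y ∈ W H a ↔ y ∈ W H a := by
  refine ⟨fun hy => ?_, W_stable a hh⟩
  have := W_stable a (H.inv_mem hh) hy
  simpa using this

theorem W_x {x : X} (hx : ∀ h ∈ H, h x = x) {a : X} (ha : a ≠ x) : x ∉ W H a := by
  intro h1
  obtain ⟨h, hh, e⟩ := mem_W.1 h1
  exact ha (h.injective (e.trans (hx h hh).symm))

theorem W_card_mul (a : X) : Nat.card ↥(H ⊓ MulAction.stabilizer (Equiv.Perm X) a) * (W H a).card = Nat.card H := by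
  have h := card_inf_of_orbit H a (↑(W H a) : Set X) (fun g hg => Finset.mem_coe.2 (mem_W.2 ⟨g, hg, rfl⟩))
    (fun y hy => by
      obtain ⟨h, hh, e⟩ := mem_W.1 (Finset.mem_coe.1 hy)
      exact ⟨h, hh, e⟩)
  rwa [Set.ncard_coe_finset] at h

theorem W_dvd (a : X) : (W H a).card ∣ Nat.card H := ⟨_, by rw [← W_card_mul a, mul_comm]⟩

theorem W_mod (r : ℕ) [Fact r.Prime] {g : Equiv.Perm X} (hg : g ∈ H) (hr : g ^ r = 1) (a : X) :
    ((W H a).filter fun y => g y = y).card ≡ (W H a).card [MOD r] :=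
  orb_modEq' (G := Equiv.Perm X) r g hr (W H a) (fun _ hy => W_stable a hg hy)

/-- Restriction to a stable set. -/
def resHom (S : Finset X) (hS : ∀ h ∈ H, ∀ y, h y ∈ S ↔ y ∈ S) : ↥H →* Equiv.Perm ↥S where
  toFun h := (h.1).subtypePerm (hS h.1 h.2)
  map_one' := by
    ext
    rfl
  map_mul' _ _ := by
    ext
    rfl

theorem resHom_apply (S : Finset X) (hS : ∀ h ∈ H, ∀ y, h y ∈ S ↔ y ∈ S) (h : ↥H) (y : ↥S) :
    ((resHom S hS h y : ↥S) : X) = h.1 y.1 := rfl

end Orbits

end Cfsg.Agent.H27.M22
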