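import Mathlib
import Cfsg.Agent.Lib.H27.M23A

/-!
# Subgroups of order 40320 of the point stabiliser
-/

set_option autoImplicit false
set_option maxRecDepth 100000

namespace Cfsg.Agent.H27.M22

open Cfsg Cfsg.Agent.H27.Golay Cfsg.Agent.H07.Orb
open scoped Pointwise

variable {H : Subgroup (Equiv.Perm X)} {x : X}

theorem mem_filter_fix {u : Equiv.Perm X} {y : X} : y ∈ (Finset.univ.filter fun p => u p = p) ↔ u y = y := by
  simp

/-- A stable 7-set together with the fixed point is an octad. -/
theorem heptad_case (hM : H ≤ M24) (hx : ∀ h ∈ H, h x = x) (hc : Nat.card H = 40320) (T : Finset X)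
    (hT : T.card = 7) (hxT : x ∉ T) (hS : ∀ h ∈ H, ∀ y, h y ∈ T ↔ y ∈ T) : insert x T ∈ octads := by
  classical
  have hcard : Nat.card (Equiv.Perm ↥T) < Nat.card ↥H := by
    rw [Nat.card_eq_fintype_card, Fintype.card_perm, Fintype.card_coe, hT, hc]
    decide
  have hni : ¬ Function.Injective (resHom T hS) := fun hi =>
    absurd (Nat.card_le_card_of_injective _ hi) (not_le.2 hcard)
  obtain ⟨h₁, h₂, heq, hne⟩ := Function.not_injective_iff.1 hni
  set u : Equiv.Perm X := h₁.1⁻¹ * h₂.1 with hu
  have huM : u ∈ M24 := M24.mul_mem (M24.inv_mem (hM h₁.2)) (hM h₂.2)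
  have hu1 : u ≠ 1 := by
    intro h
    apply hne
    apply Subtype.ext
    rw [hu, inv_mul_eq_one] at h
    exact h
  have huT : ∀ y ∈ T, u y = y := by
    intro y hy
    have h1 := congrArg (fun f : Equiv.Perm ↥T => ((f ⟨y, hy⟩ : ↥T) : X)) heq
    simp only [resHom_apply] at h1
    rw [hu, Equiv.Perm.mul_apply, ← h1]
    simp
  have hux : u x = x := by
    rw [hu, Equiv.Perm.mul_apply, hx _ h₂.2]
    rw [Equiv.Perm.inv_eq_iff_eq]
    exact (hx _ h₁.2).symm
  have hsub : insert x T ⊆ Finset.univ.filter fun p => u p = p := by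
    intro y hy
    rw [mem_filter_fix]
    rcases Finset.mem_insert.1 hy with rfl | hy
    · exact hux
    · exact huT y hy
  have hcE : (insert x T).card = 8 := by
    rw [Finset.card_insert_of_notMem hxT, hT]
  obtain ⟨h8, h8'⟩ := fix8 huM hu1
  have he := Finset.eq_of_subset_of_card_le hsub (by rw [hcE]; exact h8)
  rw [he]
  apply h8'
  rw [← he, hcE]

theorem no_8 (hM : H ≤ M24) (hx : ∀ h ∈ H, h x = x) (hc : Nat.card H = 40320) (S : Finset X)
    (hS8 : S.card = 8) (hxS : x ∉ S) (hS : ∀ h ∈ H, ∀ y, h y ∈ S ↔ y ∈ S) : False := by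
  classical
  have hinj : Function.Injective (resHom S hS) := by
    intro h₁ h₂ heq
    by_contra hne
    set u : Equiv.Perm X := h₁.1⁻¹ * h₂.1 with hu
    have huM : u ∈ M24 := M24.mul_mem (M24.inv_mem (hM h₁.2)) (hM h₂.2)
    have hu1 : u ≠ 1 := by
      intro h
      apply hne
      apply Subtype.ext
      rw [hu, inv_mul_eq_one] at h
      exact h
    have huT : ∀ y ∈ S, u y = y := by
      intro y hy
      have h1 := congrArg (fun f : Equiv.Perm ↥S => ((f ⟨y, hy⟩ : ↥S) : X)) heq
      simp only [resHom_apply] at h1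
      rw [hu, Equiv.Perm.mul_apply, ← h1]
      simp
    have hux : u x = x := by
      rw [hu, Equiv.Perm.mul_apply, hx _ h₂.2]
      rw [Equiv.Perm.inv_eq_iff_eq]
      exact (hx _ h₁.2).symm
    have hsub : insert x S ⊆ Finset.univ.filter fun p => u p = p := by
      intro y hy
      rw [mem_filter_fix]
      rcases Finset.mem_insert.1 hy with rfl | hy
      · exact hux
      · exact huT y hy
    have := Finset.card_le_card hsub
    rw [Finset.card_insert_of_notMem hxS, hS8] at this
    have := (fix8 huM hu1).1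
    omega
  have hsurj : Function.Surjective (resHom S hS) := by
    apply (hinj.bijective_of_nat_card_le _).2
    rw [Nat.card_eq_fintype_card (α := Equiv.Perm ↥S), Fintype.card_perm, Fintype.card_coe, hS8, hc]
    decide
  let e := S.equivFinOfCardEq hS8
  let a := e.symm 0
  let b := e.symm 1
  let c := e.symm 2
  let d := e.symm 3
  have hab : a ≠ b := fun h => absurd (e.symm.injective h) (by decide)
  have hac : a ≠ c := fun h => absurd (e.symm.injective h) (by decide)
  have had : a ≠ d := fun h => absurd (e.symm.injective h) (by decide)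
  have hbc : b ≠ c := fun h => absurd (e.symm.injective h) (by decide)
  have hbd : b ≠ d := fun h => absurd (e.symm.injective h) (by decide)
  have hcd : c ≠ d := fun h => absurd (e.symm.injective h) (by decide)
  obtain ⟨u, hu⟩ := hsurj (Equiv.swap a b * Equiv.swap b c * Equiv.swap c d)
  have happ : ∀ y : ↥S, u.1 y.1 = (((Equiv.swap a b * Equiv.swap b c * Equiv.swap c d) y : ↥S) : X) := by
    intro y
    rw [← hu]
    rfl
  have hua : u.1 a.1 = b.1 := by
    rw [happ a, Equiv.Perm.mul_apply, Equiv.Perm.mul_apply, Equiv.swap_apply_of_ne_of_ne hac had,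
      Equiv.swap_apply_of_ne_of_ne hab hac, Equiv.swap_apply_left]
  have hub : u.1 b.1 = c.1 := by
    rw [happ b, Equiv.Perm.mul_apply, Equiv.Perm.mul_apply, Equiv.swap_apply_of_ne_of_ne hbc hbd,
      Equiv.swap_apply_left, Equiv.swap_apply_of_ne_of_ne hac.symm hbc.symm]
  have huc : u.1 c.1 = d.1 := by
    rw [happ c, Equiv.Perm.mul_apply, Equiv.Perm.mul_apply, Equiv.swap_apply_left,
      Equiv.swap_apply_of_ne_of_ne hbd.symm hcd.symm, Equiv.swap_apply_of_ne_of_ne had.symm hbd.symm]
  have hfixS : ∀ y : ↥S, y ≠ a → y ≠ b → y ≠ c → y ≠ d → u.1 y.1 = y.1 := by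
    intro y h1 h2 h3 h4
    rw [happ y, Equiv.Perm.mul_apply, Equiv.Perm.mul_apply, Equiv.swap_apply_of_ne_of_ne h3 h4,
      Equiv.swap_apply_of_ne_of_ne h2 h3, Equiv.swap_apply_of_ne_of_ne h1 h2]
  have hsub : insert x ((((S.erase a.1).erase b.1).erase c.1).erase d.1) ⊆
      Finset.univ.filter fun p => u.1 p = p := by
    intro y hy
    rw [mem_filter_fix]
    rcases Finset.mem_insert.1 hy with rfl | hy
    · exact hx _ u.2
    · simp only [Finset.mem_erase] at hy
      obtain ⟨h4, h3, h2, h1, hyS⟩ := hy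
      exact hfixS ⟨y, hyS⟩ (fun e => h1 (congrArg Subtype.val e)) (fun e => h2 (congrArg Subtype.val e))
        (fun e => h3 (congrArg Subtype.val e)) (fun e => h4 (congrArg Subtype.val e))
  have hcard5 : (insert x ((((S.erase a.1).erase b.1).erase c.1).erase d.1)).card = 5 := by
    have hnotin : x ∉ (((S.erase a.1).erase b.1).erase c.1).erase d.1 := by
      intro h
      simp only [Finset.mem_erase] at h
      exact hxS h.2.2.2.2
    have hne : ∀ {p q : ↥S}, p ≠ q → p.1 ≠ q.1 := fun h e => h (Subtype.ext e)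
    rw [Finset.card_insert_of_notMem hnotin]
    rw [Finset.card_erase_of_mem, Finset.card_erase_of_mem, Finset.card_erase_of_mem, Finset.card_erase_of_mem,
      hS8]
    · exact a.2
    · exact Finset.mem_erase.2 ⟨hne hab.symm, b.2⟩
    · exact Finset.mem_erase.2 ⟨hne hbc.symm, Finset.mem_erase.2 ⟨hne hac.symm, c.2⟩⟩
    · exact Finset.mem_erase.2 ⟨hne hcd.symm, Finset.mem_erase.2 ⟨hne hbd.symm,
        Finset.mem_erase.2 ⟨hne had.symm, d.2⟩⟩⟩
  have h5 : 5 ≤ (Finset.univ.filter fun p => u.1 p = p).card := by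
    rw [← hcard5]
    exact Finset.card_le_card hsub
  rcases pow23_of_five (hM u.2) h5 with h | h
  · have h1 : (u.1 ^ 2) a.1 = c.1 := by
      rw [pow_two, Equiv.Perm.mul_apply, hua, hub]
    rw [h] at h1
    exact hac (Subtype.ext h1)
  · have h1 : (u.1 ^ 3) a.1 = d.1 := by
      rw [pow_succ, pow_two, Equiv.Perm.mul_apply, Equiv.Perm.mul_apply, hua, hub, huc]
    rw [h] at h1
    exact had (Subtype.ext h1)

theorem fix_card_of_prime {g : Equiv.Perm X} (hg : g ∈ M24) {r : ℕ} [Fact r.Prime] (ho : orderOf g = r)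
    (h48 : ¬ r ∣ 48) : (Finset.univ.filter fun p => g p = p).card < 5 ∧
      (Finset.univ.filter fun p => g p = p).card ≡ 24 [MOD r] := by
  refine ⟨fix_lt_five hg (by rwa [ho]), ?_⟩
  convert fix_modEq g r (by rw [← ho]; exact pow_orderOf_eq_one g)

theorem m23_cases (hM : H ≤ M24) (hx : ∀ h ∈ H, h x = x) (hc : Nat.card H = 40320) :
    (∃ s : Finset X, s.card = 2 ∧ x ∉ s ∧ ∀ h ∈ H, ∀ y, h y ∈ s ↔ y ∈ s) ∨
      (∃ T : Finset X, T.card = 7 ∧ x ∉ T ∧ ∀ h ∈ H, ∀ y, h y ∈ T ↔ y ∈ T) := by
  classical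
  haveI f7 : Fact (Nat.Prime 7) := ⟨by norm_num⟩
  haveI f5 : Fact (Nat.Prime 5) := ⟨by norm_num⟩
  obtain ⟨g0, hg0⟩ := exists_prime_orderOf_dvd_card' (G := ↥H) 7 (by rw [hc]; norm_num)
  obtain ⟨t0, ht0⟩ := exists_prime_orderOf_dvd_card' (G := ↥H) 5 (by rw [hc]; norm_num)
  set g : Equiv.Perm X := g0.1 with hgd
  set t : Equiv.Perm X := t0.1 with htd
  have hog : orderOf g = 7 := by rw [← hg0]; exact Subgroup.orderOf_coe g0
  have hot : orderOf t = 5 := by rw [← ht0]; exact Subgroup.orderOf_coe t0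
  have hgH : g ∈ H := g0.2
  have htH : t ∈ H := t0.2
  have hg7 : g ^ 7 = 1 := by rw [← hog]; exact pow_orderOf_eq_one g
  have ht5 : t ^ 5 = 1 := by rw [← hot]; exact pow_orderOf_eq_one t
  have hFg : (Finset.univ.filter fun p => g p = p).card = 3 := by
    obtain ⟨h1, h2⟩ := fix_card_of_prime (hM hgH) hog (by norm_num)
    unfold Nat.ModEq at h2
    omega
  have hFt : (Finset.univ.filter fun p => t p = p).card = 4 := by
    obtain ⟨h1, h2⟩ := fix_card_of_prime (hM htH) hot (by norm_num)
    unfold Nat.ModEq at h2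
    omega
  have hxg : x ∈ Finset.univ.filter fun p => g p = p := mem_filter_fix.2 (hx g hgH)
  have hxt : x ∈ Finset.univ.filter fun p => t p = p := mem_filter_fix.2 (hx t htH)
  have hFg2 : ((Finset.univ.filter fun p => g p = p).erase x).card = 2 := by
    rw [Finset.card_erase_of_mem hxg, hFg]
  have hFt2 : ((Finset.univ.filter fun p => t p = p).erase x).card = 3 := by
    rw [Finset.card_erase_of_mem hxt, hFt]
  obtain ⟨a₁, a₂, h12, hFge⟩ := Finset.card_eq_two.1 hFg2
  have hgfix : ∀ y, y ≠ x → g y = y → y = a₁ ∨ y = a₂ := by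
    intro y h1 h2
    have : y ∈ (Finset.univ.filter fun p => g p = p).erase x :=
      Finset.mem_erase.2 ⟨h1, mem_filter_fix.2 h2⟩
    rw [hFge] at this
    simpa using this
  have ha₁ : a₁ ∈ (Finset.univ.filter fun p => g p = p).erase x := by
    rw [hFge]
    simp
  have ha₂ : a₂ ∈ (Finset.univ.filter fun p => g p = p).erase x := by
    rw [hFge]
    simp
  have ha₁x : a₁ ≠ x := (Finset.mem_erase.1 ha₁).1
  have ha₂x : a₂ ≠ x := (Finset.mem_erase.1 ha₂).1
  have hga₁ : g a₁ = a₁ := mem_filter_fix.1 (Finset.mem_erase.1 ha₁).2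
  have hga₂ : g a₂ = a₂ := mem_filter_fix.1 (Finset.mem_erase.1 ha₂).2
  -- numerics
  have hsub : ∀ a, a ≠ x → W H a ⊆ Finset.univ.erase x := by
    intro a ha y hy
    refine Finset.mem_erase.2 ⟨?_, Finset.mem_univ _⟩
    rintro rfl
    exact W_x hx ha hy
  have hcu : ((Finset.univ : Finset X).erase x).card = 23 := by
    rw [Finset.card_erase_of_mem (Finset.mem_univ _), Finset.card_univ, card_X]
  have hle : ∀ a, a ≠ x → (W H a).card ≤ 23 := by
    intro a ha
    have := Finset.card_le_card (hsub a ha)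
    rwa [hcu] at this
  have hpos : ∀ a, 0 < (W H a).card := fun a => Finset.card_pos.2 ⟨a, self_W a⟩
  have hdvd : ∀ a, (W H a).card ∣ 40320 := by
    intro a
    have := W_dvd (H := H) a
    rwa [hc] at this
  have hne22 : ∀ a, (W H a).card ≠ 22 := by
    intro a h
    have := hdvd a
    rw [h] at this
    norm_num at this
  have hne23 : ∀ a, (W H a).card ≠ 23 := by
    intro a h
    have := hdvd a
    rw [h] at this
    norm_num at this
  have hmod7 : ∀ a, ((W H a).filter fun y => g y = y).card % 7 = (W H a).card % 7 :=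
    fun a => W_mod 7 hgH hg7 a
  have hmod5 : ∀ a, ((W H a).filter fun y => t y = y).card % 5 = (W H a).card % 5 :=
    fun a => W_mod 5 htH ht5 a
  have hfsub : ∀ a, a ≠ x → ((W H a).filter fun y => t y = y) ⊆ (Finset.univ.filter fun p => t p = p).erase x := by
    intro a ha y hy
    obtain ⟨h1, h2⟩ := Finset.mem_filter.1 hy
    refine Finset.mem_erase.2 ⟨?_, mem_filter_fix.2 h2⟩
    rintro rfl
    exact W_x hx ha h1
  have hfle : ∀ a, a ≠ x → ((W H a).filter fun y => t y = y).card ≤ 3 := by
    intro a ha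
    have := Finset.card_le_card (hfsub a ha)
    rwa [hFt2] at this
  have hstableW : ∀ a, ∀ h ∈ H, ∀ y, h y ∈ W H a ↔ y ∈ W H a := fun a h hh y => W_iff a hh y
  have hstableC : ∀ a, ∀ h ∈ H, ∀ y, h y ∈ (Finset.univ.erase x) \ W H a ↔ y ∈ (Finset.univ.erase x) \ W H a := by
    intro a h hh y
    simp only [Finset.mem_sdiff, Finset.mem_erase, Finset.mem_univ, and_true, W_iff a hh]
    have : h y ≠ x ↔ y ≠ x := by
      constructor
      · rintro h1 rfl
        exact h1 (hx h hh)
      · intro h1 h2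
        exact h1 (h.injective (h2.trans (hx h hh).symm))
    rw [this]
  by_cases h2A : a₂ ∈ W H a₁
  · -- one orbit contains both fixed points
    have he : ((W H a₁).filter fun y => g y = y).card = 2 := by
      have : ((W H a₁).filter fun y => g y = y) = {a₁, a₂} := by
        ext y
        simp only [Finset.mem_filter, Finset.mem_insert, Finset.mem_singleton]
        constructor
        · rintro ⟨h1, h2⟩
          have hyx : y ≠ x := by
            rintro rfl
            exact W_x hx ha₁x h1
          exact hgfix y hyx h2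
        · rintro (rfl | rfl)
          · exact ⟨self_W _, hga₁⟩
          · exact ⟨h2A, hga₂⟩
      rw [this, Finset.card_pair h12]
    have h1 := hmod7 a₁
    have h2 := hmod5 a₁
    have h3 := hfle a₁ ha₁x
    have h4 := hle a₁ ha₁x
    have h5 := hne23 a₁
    rw [he] at h1
    have hcases : (W H a₁).card = 2 ∨ (W H a₁).card = 16 := by omega
    rcases hcases with hL | hL
    · left
      exact ⟨W H a₁, hL, W_x hx ha₁x, hstableW a₁⟩
    · right
      refine ⟨(Finset.univ.erase x) \ W H a₁, ?_, ?_, hstableC a₁⟩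
      · rw [Finset.card_sdiff_of_subset (hsub a₁ ha₁x), hcu, hL]
      · simp
  · -- two orbits
    have hdisj := W_disj (H := H) h2A
    have hecard : ∀ a b, (a = a₁ ∧ b = a₂ ∨ a = a₂ ∧ b = a₁) → b ∉ W H a → ((W H a).filter fun y => g y = y).card = 1 := by
      intro a b hab hb
      have ha : a ≠ x := by
        rcases hab with ⟨rfl, -⟩ | ⟨rfl, -⟩
        · exact ha₁x
        · exact ha₂x
      have hga : g a = a := by
        rcases hab with ⟨rfl, -⟩ | ⟨rfl, -⟩
        · exact hga₁
        · exact hga₂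
      have : ((W H a).filter fun y => g y = y) = {a} := by
        ext y
        simp only [Finset.mem_filter, Finset.mem_singleton]
        constructor
        · rintro ⟨h1, h2⟩
          have hyx : y ≠ x := by
            rintro rfl
            exact W_x hx ha h1
          rcases hab with ⟨rfl, rfl⟩ | ⟨rfl, rfl⟩
          · rcases hgfix y hyx h2 with h | h
            · exact h
            · rw [h] at h1
              exact absurd h1 hb
          · rcases hgfix y hyx h2 with h | h
            · rw [h] at h1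
              exact absurd h1 hb
            · exact h
        · rintro rfl
          exact ⟨self_W _, hga⟩
      rw [this, Finset.card_singleton]
    have h1B : a₁ ∉ W H a₂ := by
      intro h
      apply h2A
      rw [W_eq h]
      exact self_W _
    have he1 := hecard a₁ a₂ (Or.inl ⟨rfl, rfl⟩) h2A
    have he2 := hecard a₂ a₁ (Or.inr ⟨rfl, rfl⟩) h1B
    have m71 := hmod7 a₁
    have m72 := hmod7 a₂
    rw [he1] at m71
    rw [he2] at m72
    have m51 := hmod5 a₁
    have m52 := hmod5 a₂
    have hfsum : ((W H a₁).filter fun y => t y = y).card + ((W H a₂).filter fun y => t y = y).card ≤ 3 := by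
      have hd : Disjoint ((W H a₁).filter fun y => t y = y) ((W H a₂).filter fun y => t y = y) :=
        Finset.disjoint_filter_filter hdisj
      have h0 := Finset.card_le_card (Finset.union_subset (hfsub a₁ ha₁x) (hfsub a₂ ha₂x))
      rwa [Finset.card_union_of_disjoint hd, hFt2] at h0
    have hsum : (W H a₁).card + (W H a₂).card ≤ 23 := by
      have h0 := Finset.card_le_card (Finset.union_subset (hsub a₁ ha₁x) (hsub a₂ ha₂x))
      rwa [Finset.card_union_of_disjoint hdisj, hcu] at h0
    have h22₁ := hne22 a₁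
    have h22₂ := hne22 a₂
    have hcases : ((W H a₁).card = 1 ∧ (W H a₂).card = 1) ∨ ((W H a₁).card = 1 ∧ (W H a₂).card = 15) ∨
        ((W H a₁).card = 15 ∧ (W H a₂).card = 1) ∨ ((W H a₁).card = 8 ∧ (W H a₂).card = 15) ∨
        ((W H a₁).card = 15 ∧ (W H a₂).card = 8) := by
      have c1 : (W H a₁).card = 1 ∨ (W H a₁).card = 8 ∨ (W H a₁).card = 15 := by omega
      have c2 : (W H a₂).card = 1 ∨ (W H a₂).card = 8 ∨ (W H a₂).card = 15 := by omega
      rcases c1 with c1 | c1 | c1 <;> rcases c2 with c2 | c2 | c2 <;> rw [c1] at m51 hsum ⊢ <;>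
        rw [c2] at m52 hsum ⊢ <;> omega
    -- the case of a fixed point and an orbit of length 15
    have hno15 : ∀ b b' : X, (b = a₁ ∧ b' = a₂ ∨ b = a₂ ∧ b' = a₁) → (W H b).card = 1 → (W H b').card = 15 → False := by
      intro b b' hbb h1 h15
      have hb : b ≠ x := by
        rcases hbb with ⟨rfl, -⟩ | ⟨rfl, -⟩
        · exact ha₁x
        · exact ha₂x
      have hb' : b' ≠ x := by
        rcases hbb with ⟨-, rfl⟩ | ⟨-, rfl⟩
        · exact ha₂x
        · exact ha₁x
      have hd' : Disjoint (W H b) (W H b') := by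
        rcases hbb with ⟨rfl, rfl⟩ | ⟨rfl, rfl⟩
        · exact hdisj
        · exact hdisj.symm
      have hbfix : ∀ h ∈ H, h b = b := by
        intro h hh
        have h2 : h b ∈ W H b := mem_W.2 ⟨h, hh, rfl⟩
        obtain ⟨z, hz⟩ := Finset.card_eq_one.1 h1
        have h3 : b = z := by
          have := self_W (H := H) b
          rw [hz] at this
          simpa using this
        rw [hz] at h2
        rw [Finset.mem_singleton] at h2
        rw [h2, h3]
      set R := (Finset.univ.erase x) \ (W H b ∪ W H b') with hR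
      have hRc : R.card = 7 := by
        rw [hR, Finset.card_sdiff_of_subset (Finset.union_subset (hsub b hb) (hsub b' hb')),
          Finset.card_union_of_disjoint hd', hcu, h1, h15]
      obtain ⟨c, hcR⟩ : R.Nonempty := by
        rw [← Finset.card_pos, hRc]
        norm_num
      have hcmem : c ≠ x ∧ c ∉ W H b ∧ c ∉ W H b' := by
        simp only [hR, Finset.mem_sdiff, Finset.mem_erase, Finset.mem_union, Finset.mem_univ, and_true, not_or] at hcR
        exact hcR
      obtain ⟨hc1, hc2, hc3⟩ := hcmem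
      have hsubR : W H c ⊆ R := by
        intro y hy
        simp only [hR, Finset.mem_sdiff, Finset.mem_erase, Finset.mem_union, Finset.mem_univ, and_true, not_or]
        refine ⟨?_, ?_, ?_⟩
        · rintro rfl
          exact W_x hx hc1 hy
        · exact Finset.disjoint_right.1 (W_disj hc2) hy
        · exact Finset.disjoint_right.1 (W_disj hc3) hy
      have hfilt : ((W H c).filter fun y => g y = y) = ∅ := by
        apply Finset.filter_eq_empty_iff.2
        intro y hy hgy
        have hyR := hsubR hy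
        simp only [hR, Finset.mem_sdiff, Finset.mem_erase, Finset.mem_union, Finset.mem_univ, and_true, not_or] at hyR
        obtain ⟨hy1, hy2, hy3⟩ := hyR
        rcases hgfix y hy1 hgy with rfl | rfl
        · rcases hbb with ⟨rfl, -⟩ | ⟨-, rfl⟩
          · exact hy2 (self_W _)
          · exact hy3 (self_W _)
        · rcases hbb with ⟨-, rfl⟩ | ⟨rfl, -⟩
          · exact hy3 (self_W _)
          · exact hy2 (self_W _)
      have hm := hmod7 c
      rw [hfilt, Finset.card_empty] at hm
      have hle7 := Finset.card_le_card hsubR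
      rw [hRc] at hle7
      have hLc : (W H c).card = 7 := by
        have := hpos c
        omega
      have hcm := W_card_mul (H := H) c
      rw [hLc, hc] at hcm
      have hdv : Nat.card ↥(H ⊓ MulAction.stabilizer (Equiv.Perm X) c) ∣ 20160 := by
        refine card_dvd_20160 (a := x) (b := b) (c := c) (inf_le_left.trans hM) hb.symm hc1.symm ?_ ?_
        · rintro rfl
          exact hc2 (self_W _)
        · intro s hs
          exact ⟨hx s hs.1, hbfix s hs.1, hs.2⟩
      have h5760 : Nat.card ↥(H ⊓ MulAction.stabilizer (Equiv.Perm X) c) = 5760 := by omega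
      rw [h5760] at hdv
      norm_num at hdv
    rcases hcases with ⟨h1, h2⟩ | ⟨h1, h2⟩ | ⟨h1, h2⟩ | ⟨h1, h2⟩ | ⟨h1, h2⟩
    · left
      refine ⟨W H a₁ ∪ W H a₂, ?_, ?_, ?_⟩
      · rw [Finset.card_union_of_disjoint hdisj, h1, h2]
      · simp only [Finset.mem_union, not_or]
        exact ⟨W_x hx ha₁x, W_x hx ha₂x⟩
      · intro h hh y
        simp only [Finset.mem_union, W_iff _ hh]
    · exact (hno15 a₁ a₂ (Or.inl ⟨rfl, rfl⟩) h1 h2).elim
    · exact (hno15 a₂ a₁ (Or.inr ⟨rfl, rfl⟩) h2 h1).elim
    · exact (no_8 hM hx hc _ h1 (W_x hx ha₁x) (hstableW a₁)).elim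
    · exact (no_8 hM hx hc _ h2 (W_x hx ha₂x) (hstableW a₂)).elim

theorem smul_of_stable {s : Finset X} {h : Equiv.Perm X} (hs : ∀ y, h y ∈ s ↔ y ∈ s) : h • s = s := by
  ext y
  constructor
  · intro hy
    obtain ⟨z, hz, rfl⟩ := Finset.mem_smul_finset.1 hy
    exact (hs z).2 hz
  · intro hy
    refine Finset.mem_smul_finset.2 ⟨h⁻¹ y, ?_, by simp⟩
    apply (hs _).1
    simpa using hy

theorem card_subgroupOf' {G : Type*} [Group G] (A B : Subgroup G) :
    Nat.card ↥(A.subgroupOf B) = Nat.card ↥(A ⊓ B) := by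
  rw [← Subgroup.subgroupOf_map_subtype]
  exact Nat.card_congr (Subgroup.equivMapOfInjective _ _ B.subtype_injective).toEquiv

theorem smul_pair' (g : Equiv.Perm X) (a b : X) : g • ({a, b} : Finset X) = {g a, g b} := by
  rw [Finset.smul_finset_insert, Finset.smul_finset_singleton]
  rfl

theorem card_duad {s : Finset X} {x : X} (hs : s.card = 2) (hx : x ∉ s) :
    Nat.card ↥(MulAction.stabilizer M24 s ⊓ MulAction.stabilizer M24 x) = 40320 := by
  rw [inf_comm]
  obtain ⟨a, b, hab, rfl⟩ := Finset.card_eq_two.1 hs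
  have hax : a ≠ x := fun e => hx (by rw [← e]; simp)
  have hbx : b ≠ x := fun e => hx (by rw [← e]; simp)
  refine card_inf_eq (G := ↥M24) _ ({a, b} : Finset X)
    (↑(Finset.powersetCard 2 ((Finset.univ : Finset X).erase x)) : Set (Finset X)) (a := 40320) (b := 253) (by norm_num)
    ?_ (by rw [card_one]) ?_ ?_
  · rw [Set.ncard_coe_finset, Finset.card_powersetCard, Finset.card_erase_of_mem (Finset.mem_univ _),
      Finset.card_univ, card_X]
    rfl
  · intro g hg
    have h1 : (g : Equiv.Perm X) x = x := hg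
    show (g : Equiv.Perm X) • ({a, b} : Finset X) ∈ _
    rw [smul_pair']
    refine Finset.mem_coe.2 (Finset.mem_powersetCard.2 ⟨?_, ?_⟩)
    · intro y hy
      simp only [Finset.mem_insert, Finset.mem_singleton] at hy
      refine Finset.mem_erase.2 ⟨?_, Finset.mem_univ _⟩
      rcases hy with rfl | rfl
      · exact fun e => hax ((g : Equiv.Perm X).injective (e.trans h1.symm))
      · exact fun e => hbx ((g : Equiv.Perm X).injective (e.trans h1.symm))
    · rw [Finset.card_pair]
      exact fun e => hab ((g : Equiv.Perm X).injective e)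
  · intro y hy
    obtain ⟨hy1, hy2⟩ := Finset.mem_powersetCard.1 (Finset.mem_coe.1 hy)
    obtain ⟨a', b', hab', rfl⟩ := Finset.card_eq_two.1 hy2
    have ha' : a' ≠ x := (Finset.mem_erase.1 (hy1 (by simp))).1
    have hb' : b' ≠ x := (Finset.mem_erase.1 (hy1 (by simp))).1
    obtain ⟨d, h1, h2, h3⟩ := exists_ne3 x a b
    obtain ⟨k1, hk1, e1, e2, e3, -⟩ := exists_base4 hax.symm hbx.symm h1.symm hab h2.symm h3.symm
    obtain ⟨d', h1', h2', h3'⟩ := exists_ne3 x a' b'
    obtain ⟨k2, hk2, e1', e2', e3', -⟩ := exists_base4 ha'.symm hb'.symm h1'.symm hab' h2'.symm h3'.symm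
    have hm : k2⁻¹ * k1 ∈ M24 := M24.mul_mem (M24.inv_mem hk2) hk1
    refine ⟨⟨k2⁻¹ * k1, hm⟩, ?_, ?_⟩
    · show (k2⁻¹ * k1) x = x
      rw [Equiv.Perm.mul_apply, e1, ← e1', inv_app]
    · show (k2⁻¹ * k1) • ({a, b} : Finset X) = {a', b'}
      rw [smul_pair', Equiv.Perm.mul_apply, Equiv.Perm.mul_apply, e2, e3, ← e2', ← e3', inv_app, inv_app]

theorem card_hept {o : Finset X} {x : X} (ho : o ∈ octads) (hx : x ∈ o) :
    Nat.card ↥(MulAction.stabilizer M24 o ⊓ MulAction.stabilizer M24 x) = 40320 := by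
  refine card_inf_eq (G := ↥M24) _ x (↑o : Set X) (a := 40320) (b := 8) (by norm_num)
    (by rw [Set.ncard_coe_finset]; exact ho.2) (by rw [card_stab_octad ho]) ?_ ?_
  · intro g hg
    exact smul_pt_mem (g := (g : Equiv.Perm X)) hg hx
  · intro y hy
    obtain ⟨h1, hh1, rfl, rfl⟩ := flag_in ho hx
    obtain ⟨h2, hh2, e2, rfl⟩ := flag_in ho hy
    refine ⟨⟨h2 * h1⁻¹, M24.mul_mem hh2 (M24.inv_mem hh1)⟩, ?_, ?_⟩
    · show (h2 * h1⁻¹) • h1 • fs O0 = h1 • fs O0
      rw [mul_smul, inv_smul_smul, e2]
    · show (h2 * h1⁻¹) (h1 (pt 23)) = h2 (pt 23)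
      simp

theorem main_m23 (x : X) (H : Subgroup ↥(MulAction.stabilizer M24 x)) (hH : H.index = 253) :
    (∃ s : Finset X, s.card = 2 ∧ x ∉ s ∧
      H = (MulAction.stabilizer M24 s).subgroupOf (MulAction.stabilizer M24 x)) ∨
    ∃ o ∈ octads, x ∈ o ∧ H = (MulAction.stabilizer M24 o).subgroupOf (MulAction.stabilizer M24 x) := by
  classical
  have hi := Subgroup.card_mul_index H
  rw [card_one, hH] at hi
  have hcH : Nat.card H = 40320 := by omega
  let φ : ↥(MulAction.stabilizer M24 x) →* Equiv.Perm X :=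
    M24.subtype.comp (MulAction.stabilizer M24 x).subtype
  have hφ : Function.Injective φ := M24.subtype_injective.comp (Subtype.val_injective)
  have hcard : Nat.card ↥(H.map φ) = Nat.card H :=
    (Nat.card_congr (H.equivMapOfInjective φ hφ).toEquiv).symm
  have hM : H.map φ ≤ M24 := by
    rintro _ ⟨s, -, rfl⟩
    exact s.1.2
  have hx : ∀ h ∈ H.map φ, h x = x := by
    rintro _ ⟨s, -, rfl⟩
    exact s.2
  have hc' : Nat.card ↥(H.map φ) = 40320 := by rw [hcard, hcH]
  have key : ∀ s : Finset X, (∀ h ∈ H.map φ, ∀ y, h y ∈ s ↔ y ∈ s) →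
      Nat.card ↥(MulAction.stabilizer M24 s ⊓ MulAction.stabilizer M24 x) = 40320 →
      H = (MulAction.stabilizer M24 s).subgroupOf (MulAction.stabilizer M24 x) := by
    intro s hs hcs
    apply Subgroup.eq_of_le_of_card_ge
    · intro h hh
      rw [Subgroup.mem_subgroupOf]
      exact smul_of_stable (hs _ ⟨h, hh, rfl⟩)
    · rw [card_subgroupOf', hcs, hcH]
  rcases m23_cases hM hx hc' with ⟨s, h1, h2, h3⟩ | ⟨T, h1, h2, h3⟩
  · left
    exact ⟨s, h1, h2, key s h3 (card_duad h1 h2)⟩
  · right
    have ho := heptad_case hM hx hc' T h1 h2 h3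
    have hxo : x ∈ insert x T := Finset.mem_insert_self _ _
    refine ⟨_, ho, hxo, key _ ?_ (card_hept ho hxo)⟩
    intro h hh y
    rw [Finset.mem_insert, Finset.mem_insert, h3 h hh]
    have : h y = x ↔ y = x := by
      constructor
      · intro e
        exact h.injective (e.trans (hx h hh).symm)
      · rintro rfl
        exact hx h hh
    rw [this]

end Cfsg.Agent.H27.M22
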