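import Mathlib
import Cfsg.Agent.Lib.H27.M22A

/-!
# Rank three actions: the path count and block systems
-/

set_option autoImplicit false

namespace Cfsg.Agent.H27.M22

section Rank3Gen

variable {G Ω : Type*} [Group G] [MulAction G Ω] [Fintype Ω] [DecidableEq Ω]

theorem rank3_count {k l : ℕ} (hΩ : Fintype.card Ω = k + l + 1) (hkl : k < l) (hk0 : 0 < k)
    (htr : ∀ a b : Ω, ∃ g : G, g • a = b)
    (Γ : Ω → Finset Ω) (h6 : ∀ a, (Γ a).card = k) (hn : ∀ a, a ∉ Γ a)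
    (heq : ∀ (g : G) (a b : Ω), b ∈ Γ a → g • b ∈ Γ (g • a))
    (hk1 : ∀ a, ∀ b ∈ Γ a, ∀ c ∈ Γ a, ∃ h : G, h • a = a ∧ h • b = c)
    (hk2 : ∀ a b c : Ω, b ≠ a → b ∉ Γ a → c ≠ a → c ∉ Γ a → ∃ h : G, h • a = a ∧ h • b = c) :
    (∀ a b, b ∈ Γ a → a ∈ Γ b) ∧ ∃ lam mu : ℕ, k * k = k + k * lam + l * mu ∧
      (∀ a x, x ∈ Γ a → (Γ a ∩ Γ x).card = lam) ∧ (∀ a x, x ≠ a → x ∉ Γ a → (Γ a ∩ Γ x).card = mu) := by
  classical
  have heq' : ∀ (g : G) (a b : Ω), b ∈ Γ a ↔ g • b ∈ Γ (g • a) := by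
    intro g a b
    refine ⟨heq g a b, fun h => ?_⟩
    have := heq g⁻¹ _ _ h
    simpa using this
  let Δ : Ω → Finset Ω := fun a => Finset.univ \ insert a (Γ a)
  have hmemΔ : ∀ a x, x ∈ Δ a ↔ x ≠ a ∧ x ∉ Γ a := by
    intro a x
    simp [Δ]
  have hN : ∀ a, (insert a (Γ a)).card = k + 1 := by
    intro a
    rw [Finset.card_insert_of_notMem (hn a), h6]
  have hΔ : ∀ a, (Δ a).card = l := by
    intro a
    simp only [Δ]
    rw [Finset.card_sdiff_of_subset (Finset.subset_univ _), Finset.card_univ, hΩ, hN]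
    omega
  let In : Ω → Finset Ω := fun a => Finset.univ.filter fun b => a ∈ Γ b
  have hIn : ∀ a a', (In a).card = (In a').card := by
    intro a a'
    obtain ⟨g, rfl⟩ := htr a a'
    refine Finset.card_bij (fun b _ => g • b) ?_ (fun _ _ _ _ h => MulAction.injective g h) ?_
    · intro b hb
      simp only [In, Finset.mem_filter, Finset.mem_univ, true_and] at hb ⊢
      exact heq g _ _ hb
    · intro b hb
      simp only [In, Finset.mem_filter, Finset.mem_univ, true_and] at hb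
      refine ⟨g⁻¹ • b, ?_, by simp⟩
      simp only [In, Finset.mem_filter, Finset.mem_univ, true_and]
      have := heq g⁻¹ _ _ hb
      simpa using this
  have hsum : ∑ a, (In a).card = ∑ b, (Γ b).card := by
    simp only [In, Finset.card_filter]
    rw [Finset.sum_comm]
    refine Finset.sum_congr rfl fun b _ => ?_
    rw [← Finset.card_filter]
    congr 1
    ext x
    simp
  have hIn6 : ∀ a, (In a).card = k := by
    intro a
    have h1 : ∑ a', (In a').card = (k + l + 1) * (In a).card := by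
      rw [Finset.sum_congr rfl (fun a' _ => hIn a' a), Finset.sum_const, Finset.card_univ, hΩ, smul_eq_mul]
    have h2 : ∑ b, (Γ b).card = (k + l + 1) * k := by
      rw [Finset.sum_congr rfl (fun b _ => h6 b), Finset.sum_const, Finset.card_univ, hΩ, smul_eq_mul]
    have h3 : (k + l + 1) * (In a).card = (k + l + 1) * k := by
      rw [← h1, hsum, h2]
    exact Nat.eq_of_mul_eq_mul_left (by omega) h3
  have hsym : ∀ a b, b ∈ Γ a → a ∈ Γ b := by
    intro a b hb
    by_contra hab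
    have hdisj : ∀ c ∈ In a, c ∉ Γ a := by
      intro c hc hcΓ
      obtain ⟨h, h1, h2⟩ := hk1 a c hcΓ b hb
      simp only [In, Finset.mem_filter, Finset.mem_univ, true_and] at hc
      have := heq h _ _ hc
      rw [h1, h2] at this
      exact hab this
    have hne : (In a).Nonempty := by
      rw [← Finset.card_pos, hIn6]
      exact hk0
    obtain ⟨c, hc⟩ := hne
    have hca : c ≠ a := by
      rintro rfl
      simp only [In, Finset.mem_filter, Finset.mem_univ, true_and] at hc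
      exact hn _ hc
    have hsub : Δ a ⊆ In a := by
      intro e he
      obtain ⟨he1, he2⟩ := (hmemΔ a e).1 he
      obtain ⟨h, h1, h2⟩ := hk2 a c e hca (hdisj c hc) he1 he2
      simp only [In, Finset.mem_filter, Finset.mem_univ, true_and] at hc ⊢
      have := heq h _ _ hc
      rwa [h1, h2] at this
    have := Finset.card_le_card hsub
    rw [hΔ, hIn6] at this
    omega
  have hsym' : ∀ a b, b ∈ Γ a ↔ a ∈ Γ b := fun a b => ⟨hsym a b, hsym b a⟩
  refine ⟨hsym, ?_⟩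
  let C : Ω → Ω → ℕ := fun a x => (Γ a ∩ Γ x).card
  have hCg : ∀ (g : G) a x, C (g • a) (g • x) = C a x := by
    intro g a x
    symm
    refine Finset.card_bij (fun b _ => g • b) ?_ (fun _ _ _ _ h => MulAction.injective g h) ?_
    · intro b hb
      simp only [Finset.mem_inter] at hb ⊢
      exact ⟨heq g _ _ hb.1, heq g _ _ hb.2⟩
    · intro b hb
      simp only [Finset.mem_inter] at hb
      refine ⟨g⁻¹ • b, ?_, by simp⟩
      simp only [Finset.mem_inter]
      have h1 := heq g⁻¹ _ _ hb.1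
      have h2 := heq g⁻¹ _ _ hb.2
      simp only [inv_smul_smul] at h1 h2
      exact ⟨h1, h2⟩
  have hCadj : ∀ a x a' x', x ∈ Γ a → x' ∈ Γ a' → C a x = C a' x' := by
    intro a x a' x' hx hx'
    obtain ⟨g, rfl⟩ := htr a a'
    obtain ⟨h, h1, h2⟩ := hk1 _ _ (heq g _ _ hx) _ hx'
    have := hCg (h * g) a x
    rw [mul_smul, mul_smul, h1, h2] at this
    exact this.symm
  have hCnon : ∀ a x a' x', x ≠ a → x ∉ Γ a → x' ≠ a' → x' ∉ Γ a' → C a x = C a' x' := by
    intro a x a' x' hx1 hx2 hx1' hx2'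
    obtain ⟨g, rfl⟩ := htr a a'
    have h3 : g • x ≠ g • a := fun e => hx1 (MulAction.injective g e)
    have h4 : g • x ∉ Γ (g • a) := fun e => hx2 ((heq' g a x).2 e)
    obtain ⟨h, h1, h2⟩ := hk2 _ _ _ h3 h4 hx1' hx2'
    have := hCg (h * g) a x
    rw [mul_smul, mul_smul, h1, h2] at this
    exact this.symm
  have hcardpos : 0 < Fintype.card Ω := by omega
  obtain ⟨a₀⟩ : Nonempty Ω := Fintype.card_pos_iff.1 hcardpos
  obtain ⟨b₀, hb₀⟩ : (Γ a₀).Nonempty := by
    rw [← Finset.card_pos, h6]; exact hk0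
  obtain ⟨c₀, hc₀⟩ : (Δ a₀).Nonempty := by
    rw [← Finset.card_pos, hΔ]; omega
  obtain ⟨hc₀1, hc₀2⟩ := (hmemΔ a₀ c₀).1 hc₀
  have hCl : ∀ a x, x ∈ Γ a → C a x = C a₀ b₀ := fun a x hx => hCadj _ _ _ _ hx hb₀
  have hCm : ∀ a x, x ≠ a → x ∉ Γ a → C a x = C a₀ c₀ := fun a x h1 h2 => hCnon _ _ _ _ h1 h2 hc₀1 hc₀2
  refine ⟨C a₀ b₀, C a₀ c₀, ?_, hCl, hCm⟩
  have hpaths : ∑ x, C a₀ x = k * k := by
    have h1 : ∀ x, C a₀ x = ∑ b ∈ Γ a₀, if b ∈ Γ x then 1 else 0 := by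
      intro x
      simp only [C]
      rw [← Finset.card_filter, Finset.filter_mem_eq_inter]
    simp only [h1]
    rw [Finset.sum_comm]
    have h2 : ∀ b ∈ Γ a₀, (∑ x, if b ∈ Γ x then 1 else 0) = k := by
      intro b _
      rw [← Finset.card_filter, ← h6 b]
      congr 1
      ext x
      simp only [Finset.mem_filter, Finset.mem_univ, true_and]
      exact hsym' b x |>.symm
    rw [Finset.sum_congr rfl h2, Finset.sum_const, h6, smul_eq_mul]
  have hsplit : ∑ x, C a₀ x = k + k * C a₀ b₀ + l * C a₀ c₀ := by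
    have hu : (Finset.univ : Finset Ω) = insert a₀ (Γ a₀) ∪ Δ a₀ := by
      simp only [Δ]
      rw [Finset.union_sdiff_of_subset (Finset.subset_univ _)]
    have hd : Disjoint (insert a₀ (Γ a₀)) (Δ a₀) := by
      simp only [Δ]
      exact Finset.disjoint_sdiff
    rw [hu, Finset.sum_union hd, Finset.sum_insert (hn a₀)]
    have e1 : C a₀ a₀ = k := by
      simp only [C, Finset.inter_self, h6]
    have e2 : ∑ x ∈ Γ a₀, C a₀ x = k * C a₀ b₀ := by
      rw [Finset.sum_congr rfl (fun x hx => hCl a₀ x hx), Finset.sum_const, h6, smul_eq_mul]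
    have e3 : ∑ x ∈ Δ a₀, C a₀ x = l * C a₀ c₀ := by
      rw [Finset.sum_congr rfl (fun x hx => hCm a₀ x ((hmemΔ a₀ x).1 hx).1 ((hmemΔ a₀ x).1 hx).2),
        Finset.sum_const, hΔ, smul_eq_mul]
    rw [e1, e2, e3]
  rw [← hpaths, hsplit]

/-- Under the hypothesis of a split of all suborbits, neighbourhoods are blocks. -/
theorem rank3_blocks [Finite G] {k l : ℕ} (hΩ : Fintype.card Ω = k + l + 1) (hkl : k < l) (hk0 : 0 < k)
    (hmu : ∀ lam mu : ℕ, k * k = k + k * lam + l * mu → mu = 0)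
    (htr : ∀ a b : Ω, ∃ g : G, g • a = b)
    (hsplit : ∀ a : Ω, ∃ b₀, b₀ ≠ a ∧ (orb G a b₀).card = k ∧ ∀ b, b ≠ a → b ∉ orb G a b₀ →
      (orb G a b).card = l ∧ ∀ c, c ≠ a → c ∉ orb G a b₀ → c ∈ orb G a b) :
    ∃ Γ : Ω → Finset Ω, (∀ a, (Γ a).card = k) ∧ (∀ a, a ∉ Γ a) ∧
      (∀ (g : G) (a b : Ω), b ∈ Γ a → g • b ∈ Γ (g • a)) ∧
      (∀ a b, b ∈ Γ a → insert a (Γ a) = insert b (Γ b)) ∧
      (∀ a, ∀ b ∈ Γ a, ∀ c ∈ Γ a, ∃ h : G, h • a = a ∧ h • b = c) := by
  classical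
  have hkl' : k ≠ l := by omega
  let Γ : Ω → Finset Ω := fun a => Finset.univ.filter fun b => b ≠ a ∧ (orb G a b).card = k
  have hmem : ∀ a b, b ∈ Γ a ↔ b ≠ a ∧ (orb G a b).card = k := by
    intro a b
    simp [Γ]
  have hnot : ∀ a b : Ω, b ≠ a → a ∉ orb G a b := by
    intro a b hb hc
    obtain ⟨h, h1, h2⟩ := mem_orb.1 hc
    exact hb (MulAction.injective h (h2.trans h1.symm))
  have hΓ : ∀ a b₀ : Ω, b₀ ≠ a → (orb G a b₀).card = k → (∀ b, b ≠ a → b ∉ orb G a b₀ →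
      (orb G a b).card = l ∧ ∀ c, c ≠ a → c ∉ orb G a b₀ → c ∈ orb G a b) → Γ a = orb G a b₀ := by
    intro a b₀ h1 h2 h3
    ext x
    rw [hmem]
    constructor
    · rintro ⟨hx, hx2⟩
      by_contra hc
      have := (h3 x hx hc).1
      omega
    · intro hx
      refine ⟨?_, by rw [orb_eq_of_mem hx, h2]⟩
      rintro rfl
      exact hnot _ _ h1 hx
  have h6 : ∀ a, (Γ a).card = k := by
    intro a
    obtain ⟨b₀, h1, h2, h3⟩ := hsplit a
    rw [hΓ a b₀ h1 h2 h3, h2]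
  have hn : ∀ a, a ∉ Γ a := fun a h => ((hmem a a).1 h).1 rfl
  have heq : ∀ (g : G) (a b : Ω), b ∈ Γ a → g • b ∈ Γ (g • a) := by
    intro g a b hb
    rw [hmem] at hb ⊢
    exact ⟨fun e => hb.1 (MulAction.injective g e), by rw [card_orb_smul, hb.2]⟩
  have hk1 : ∀ a, ∀ b ∈ Γ a, ∀ c ∈ Γ a, ∃ h : G, h • a = a ∧ h • b = c := by
    intro a b hb c hc
    obtain ⟨b₀, h1, h2, h3⟩ := hsplit a
    rw [hΓ a b₀ h1 h2 h3] at hb hc
    rw [← orb_eq_of_mem hb] at hc
    exact mem_orb.1 hc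
  have hk2 : ∀ a b c : Ω, b ≠ a → b ∉ Γ a → c ≠ a → c ∉ Γ a → ∃ h : G, h • a = a ∧ h • b = c := by
    intro a b c hb hb2 hc hc2
    obtain ⟨b₀, h1, h2, h3⟩ := hsplit a
    rw [hΓ a b₀ h1 h2 h3] at hb2 hc2
    exact mem_orb.1 ((h3 b hb hb2).2 c hc hc2)
  obtain ⟨hsym, lam, mu, hcount, hl, hm⟩ := rank3_count (G := G) hΩ hkl hk0 htr Γ h6 hn heq hk1 hk2
  have hmu0 := hmu lam mu hcount
  subst hmu0
  -- `lam = k - 1`
  have hlam : lam + 1 = k := by
    have h1 : k * k = k * (1 + lam) := by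
      rw [hcount]
      ring
    have h2 := Nat.eq_of_mul_eq_mul_left hk0 h1
    omega
  refine ⟨Γ, h6, hn, heq, ?_, hk1⟩
  intro a b hb
  have hsub : Γ a ∩ Γ b ⊆ (Γ a).erase b := by
    intro y hy
    rw [Finset.mem_inter] at hy
    refine Finset.mem_erase.2 ⟨?_, hy.1⟩
    rintro rfl
    exact hn _ hy.2
  have hce : ((Γ a).erase b).card = lam := by
    rw [Finset.card_erase_of_mem hb, h6]
    omega
  have heq2 := Finset.eq_of_subset_of_card_le hsub (by rw [hce, hl a b hb])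
  have hsub2 : insert a (Γ a) ⊆ insert b (Γ b) := by
    intro y hy
    rw [Finset.mem_insert] at hy ⊢
    rcases hy with rfl | hy
    · exact Or.inr (hsym _ _ hb)
    · by_cases hyb : y = b
      · exact Or.inl hyb
      · right
        have : y ∈ (Γ a).erase b := Finset.mem_erase.2 ⟨hyb, hy⟩
        rw [← heq2] at this
        exact (Finset.mem_inter.1 this).2
  exact Finset.eq_of_subset_of_card_le hsub2 (by
    rw [Finset.card_insert_of_notMem (hn a), Finset.card_insert_of_notMem (hn b), h6, h6])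

end Rank3Gen

end Cfsg.Agent.H27.M22
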