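import Mathlib
import Cfsg.Agent.Lib.H27.M23B
import Cfsg.Agent.Lib.H27.M24A

/-!
# Transitive subgroups of the group of the code whose point stabilisers have order divisible by 35
-/

set_option autoImplicit false
set_option maxRecDepth 100000

namespace Cfsg.Agent.H27.M22

open Cfsg Cfsg.Agent.H27.Golay Cfsg.Agent.H07.Orb
open scoped Pointwise

variable {H K : Subgroup (Equiv.Perm X)} {x : X}

/-- Two orbits on the points other than `x`. -/
def Split (K : Subgroup (Equiv.Perm X)) (x : X) (k l : ℕ) : Prop :=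
  ∃ c, c ≠ x ∧ (W K c).card = k ∧ ∀ b, b ≠ x → b ∉ W K c →
    (W K b).card = l ∧ ∀ d, d ≠ x → d ∉ W K c → d ∈ W K b

theorem W_univ_sub {x a : X} (hx : ∀ h ∈ K, h x = x) (ha : a ≠ x) : W K a ⊆ Finset.univ.erase x := by
  intro y hy
  refine Finset.mem_erase.2 ⟨?_, Finset.mem_univ _⟩
  rintro rfl
  exact W_x hx ha hy

theorem W_fixed_of_card {a : X} (h1 : (W K a).card = 1) : ∀ h ∈ K, h a = a := by
  intro h hh
  obtain ⟨z, hz⟩ := Finset.card_eq_one.1 h1
  have h3 : a = z := by
    have := self_W (H := K) a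
    rw [hz] at this
    simpa using this
  have h2 : h a ∈ W K a := mem_W.2 ⟨h, hh, rfl⟩
  rw [hz, Finset.mem_singleton] at h2
  rw [h2, h3]

theorem orbit_list (hM : K ≤ M24) (hx : ∀ h ∈ K, h x = x) (h7 : 7 ∣ Nat.card K) (h5 : 5 ∣ Nat.card K)
    (h11 : ¬ 11 ∣ Nat.card K) (h23 : ¬ 23 ∣ Nat.card K) :
    Split K x 7 16 ∨ Split K x 2 21 ∨ Split K x 8 15 ∨ ∃ a, a ≠ x ∧ ∀ h ∈ K, h a = a := by
  classical
  haveI f7 : Fact (Nat.Prime 7) := ⟨by norm_num⟩
  haveI f5 : Fact (Nat.Prime 5) := ⟨by norm_num⟩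
  obtain ⟨g0, hg0⟩ := exists_prime_orderOf_dvd_card' (G := ↥K) 7 h7
  obtain ⟨t0, ht0⟩ := exists_prime_orderOf_dvd_card' (G := ↥K) 5 h5
  set g : Equiv.Perm X := g0.1 with hgd
  set t : Equiv.Perm X := t0.1 with htd
  have hog : orderOf g = 7 := by rw [← hg0]; exact Subgroup.orderOf_coe g0
  have hot : orderOf t = 5 := by rw [← ht0]; exact Subgroup.orderOf_coe t0
  have hgH : g ∈ K := g0.2
  have htH : t ∈ K := t0.2
  have hg7 : g ^ 7 = 1 := by rw [← hog]; exact pow_orderOf_eq_one g
  have ht5 : t ^ 5 = 1 := by rw [← hot]; exact pow_orderOf_eq_one t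
  have hFg : (Finset.univ.filter fun p => g p = p).card = 3 := by
    obtain ⟨h1, h2⟩ := fix_card_of_prime (hM hgH) hog (by norm_num)
    unfold Nat.ModEq at h2
    omega
  have hFt : (Finset.univ.filter fun p => t p = p).card = 4 := by
    obtain ⟨h1, h2⟩ := fix_card_of_prime (hM htH) hot (by norm_num)
    unfold Nat.ModEq at h2
    omega
  have hxg : x ∈ Finset.univ.filter fun p => g p = p := mem_filter_fix.2 (hx g hgH)
  have hxt : x ∈ Finset.univ.filter fun p => t p = p := mem_filter_fix.2 (hx t htH)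
  have hFg2 : ((Finset.univ.filter fun p => g p = p).erase x).card = 2 := by
    rw [Finset.card_erase_of_mem hxg, hFg]
  have hFt2 : ((Finset.univ.filter fun p => t p = p).erase x).card = 3 := by
    rw [Finset.card_erase_of_mem hxt, hFt]
  obtain ⟨a₁, a₂, h12, hFge⟩ := Finset.card_eq_two.1 hFg2
  have hgfix : ∀ y, y ≠ x → g y = y → y = a₁ ∨ y = a₂ := by
    intro y h1 h2
    have : y ∈ (Finset.univ.filter fun p => g p = p).erase x :=
      Finset.mem_erase.2 ⟨h1, mem_filter_fix.2 h2⟩
    rw [hFge] at this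
    simpa using this
  have ha₁ : a₁ ∈ (Finset.univ.filter fun p => g p = p).erase x := by
    rw [hFge]
    simp
  have ha₂ : a₂ ∈ (Finset.univ.filter fun p => g p = p).erase x := by
    rw [hFge]
    simp
  have ha₁x : a₁ ≠ x := (Finset.mem_erase.1 ha₁).1
  have ha₂x : a₂ ≠ x := (Finset.mem_erase.1 ha₂).1
  have hga₁ : g a₁ = a₁ := mem_filter_fix.1 (Finset.mem_erase.1 ha₁).2
  have hga₂ : g a₂ = a₂ := mem_filter_fix.1 (Finset.mem_erase.1 ha₂).2
  have hsub : ∀ a, a ≠ x → W K a ⊆ Finset.univ.erase x := fun a ha => W_univ_sub hx ha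
  have hcu : ((Finset.univ : Finset X).erase x).card = 23 := by
    rw [Finset.card_erase_of_mem (Finset.mem_univ _), Finset.card_univ, card_X]
  have hle : ∀ a, a ≠ x → (W K a).card ≤ 23 := by
    intro a ha
    have := Finset.card_le_card (hsub a ha)
    rwa [hcu] at this
  have hpos : ∀ a, 0 < (W K a).card := fun a => Finset.card_pos.2 ⟨a, self_W a⟩
  have hne22 : ∀ a, (W K a).card ≠ 22 := by
    intro a h
    have := W_dvd (H := K) a
    rw [h] at this
    exact h11 ((by norm_num : 11 ∣ 22).trans this)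
  have hne23 : ∀ a, (W K a).card ≠ 23 := by
    intro a h
    have := W_dvd (H := K) a
    rw [h] at this
    exact h23 this
  have hmod7 : ∀ a, ((W K a).filter fun y => g y = y).card % 7 = (W K a).card % 7 :=
    fun a => W_mod 7 hgH hg7 a
  have hmod5 : ∀ a, ((W K a).filter fun y => t y = y).card % 5 = (W K a).card % 5 :=
    fun a => W_mod 5 htH ht5 a
  have hfsub : ∀ a, a ≠ x → ((W K a).filter fun y => t y = y) ⊆ (Finset.univ.filter fun p => t p = p).erase x := by
    intro a ha y hy
    obtain ⟨h1, h2⟩ := Finset.mem_filter.1 hy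
    refine Finset.mem_erase.2 ⟨?_, mem_filter_fix.2 h2⟩
    rintro rfl
    exact W_x hx ha h1
  have hfle : ∀ a, a ≠ x → ((W K a).filter fun y => t y = y).card ≤ 3 := by
    intro a ha
    have := Finset.card_le_card (hfsub a ha)
    rwa [hFt2] at this
  have hfsum : ∀ a b, a ≠ x → b ≠ x → Disjoint (W K a) (W K b) →
      ((W K a).filter fun y => t y = y).card + ((W K b).filter fun y => t y = y).card ≤ 3 := by
    intro a b ha hb hab
    have hd : Disjoint ((W K a).filter fun y => t y = y) ((W K b).filter fun y => t y = y) :=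
      Finset.disjoint_filter_filter hab
    have h0 := Finset.card_le_card (Finset.union_subset (hfsub a ha) (hfsub b hb))
    rwa [Finset.card_union_of_disjoint hd, hFt2] at h0
  by_cases h2A : a₂ ∈ W K a₁
  · -- one orbit contains both fixed points
    have he : ((W K a₁).filter fun y => g y = y).card = 2 := by
      have : ((W K a₁).filter fun y => g y = y) = {a₁, a₂} := by
        ext y
        simp only [Finset.mem_filter, Finset.mem_insert, Finset.mem_singleton]
        constructor
        · rintro ⟨h1, h2⟩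
          have hyx : y ≠ x := by
            rintro rfl
            exact W_x hx ha₁x h1
          exact hgfix y hyx h2
        · rintro (rfl | rfl)
          · exact ⟨self_W _, hga₁⟩
          · exact ⟨h2A, hga₂⟩
      rw [this, Finset.card_pair h12]
    have h1 := hmod7 a₁
    have h2 := hmod5 a₁
    have h3 := hfle a₁ ha₁x
    have h4 := hle a₁ ha₁x
    have h5' := hne23 a₁
    rw [he] at h1
    have hcases : (W K a₁).card = 2 ∨ (W K a₁).card = 16 := by omega
    -- the rest
    set R := (Finset.univ.erase x) \ W K a₁ with hR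
    have hmemR : ∀ y, y ∈ R ↔ y ≠ x ∧ y ∉ W K a₁ := by
      intro y
      simp [hR]
    have hcR : R.card + (W K a₁).card = 23 := by
      rw [hR, Finset.card_sdiff_of_subset (hsub a₁ ha₁x), hcu]
      have := hle a₁ ha₁x
      omega
    have hWR : ∀ c ∈ R, W K c ⊆ R ∧ (W K c).card % 7 = 0 ∧ Disjoint (W K a₁) (W K c) := by
      intro c hc
      obtain ⟨hc1, hc2⟩ := (hmemR c).1 hc
      have hd := W_disj (H := K) hc2
      have hs : W K c ⊆ R := by
        intro y hy
        exact (hmemR y).2 ⟨fun e => W_x hx hc1 (e ▸ hy), Finset.disjoint_right.1 hd hy⟩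
      refine ⟨hs, ?_, hd⟩
      have hf : ((W K c).filter fun y => g y = y) = ∅ := by
        apply Finset.filter_eq_empty_iff.2
        intro y hy hgy
        have hyR := (hmemR y).1 (hs hy)
        rcases hgfix y hyR.1 hgy with rfl | rfl
        · exact hyR.2 (self_W _)
        · exact hyR.2 h2A
      have := hmod7 c
      rw [hf, Finset.card_empty] at this
      omega
    have hRne : R.Nonempty := by
      rw [← Finset.card_pos]
      omega
    obtain ⟨c, hc⟩ := hRne
    obtain ⟨hc1, hc2, hc3⟩ := hWR c hc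
    have hWle := Finset.card_le_card hc1
    have hcpos := hpos c
    have hcx : c ≠ x := ((hmemR c).1 hc).1
    rcases hcases with hL | hL
    · -- orbits of lengths 2 and 21
      right; left
      have hfA : ((W K a₁).filter fun y => t y = y).card = 2 := by omega
      have hfc := hfsum a₁ c ha₁x hcx hc3
      have hmc := hmod5 c
      have hRc : R.card = 21 := by omega
      have hcL : (W K c).card = 21 := by
        have c0 : (W K c).card = 7 ∨ (W K c).card = 14 ∨ (W K c).card = 21 := by omega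
        rcases c0 with c0 | c0 | c0
        · rw [c0] at hmc
          omega
        · rw [c0] at hmc
          omega
        · exact c0
      have hWRe : W K c = R := Finset.eq_of_subset_of_card_le hc1 (by omega)
      refine ⟨a₁, ha₁x, hL, ?_⟩
      intro b hb1 hb2
      have hbR : b ∈ W K c := by
        rw [hWRe]
        exact (hmemR b).2 ⟨hb1, hb2⟩
      rw [W_eq hbR]
      refine ⟨hcL, ?_⟩
      intro d hd1 hd2
      rw [hWRe]
      exact (hmemR d).2 ⟨hd1, hd2⟩
    · -- orbits of lengths 16 and 7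
      left
      have hcL : (W K c).card = 7 := by omega
      have hWRe : W K c = R := Finset.eq_of_subset_of_card_le hc1 (by omega)
      refine ⟨c, hcx, hcL, ?_⟩
      intro b hb1 hb2
      have hbA : b ∈ W K a₁ := by
        by_contra hcon
        apply hb2
        rw [hWRe]
        exact (hmemR b).2 ⟨hb1, hcon⟩
      rw [W_eq hbA]
      refine ⟨hL, ?_⟩
      intro d hd1 hd2
      by_contra hcon
      apply hd2
      rw [hWRe]
      exact (hmemR d).2 ⟨hd1, hcon⟩
  · -- two orbits
    have hdisj := W_disj (H := K) h2A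
    have hecard : ∀ a b, (a = a₁ ∧ b = a₂ ∨ a = a₂ ∧ b = a₁) → b ∉ W K a → ((W K a).filter fun y => g y = y).card = 1 := by
      intro a b hab hb
      have ha : a ≠ x := by
        rcases hab with ⟨rfl, -⟩ | ⟨rfl, -⟩
        · exact ha₁x
        · exact ha₂x
      have hga : g a = a := by
        rcases hab with ⟨rfl, -⟩ | ⟨rfl, -⟩
        · exact hga₁
        · exact hga₂
      have : ((W K a).filter fun y => g y = y) = {a} := by
        ext y
        simp only [Finset.mem_filter, Finset.mem_singleton]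
        constructor
        · rintro ⟨h1, h2⟩
          have hyx : y ≠ x := by
            rintro rfl
            exact W_x hx ha h1
          rcases hab with ⟨rfl, rfl⟩ | ⟨rfl, rfl⟩
          · rcases hgfix y hyx h2 with h | h
            · exact h
            · rw [h] at h1
              exact absurd h1 hb
          · rcases hgfix y hyx h2 with h | h
            · rw [h] at h1
              exact absurd h1 hb
            · exact h
        · rintro rfl
          exact ⟨self_W _, hga⟩
      rw [this, Finset.card_singleton]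
    have h1B : a₁ ∉ W K a₂ := by
      intro h
      apply h2A
      rw [W_eq h]
      exact self_W _
    have he1 := hecard a₁ a₂ (Or.inl ⟨rfl, rfl⟩) h2A
    have he2 := hecard a₂ a₁ (Or.inr ⟨rfl, rfl⟩) h1B
    have m71 := hmod7 a₁
    have m72 := hmod7 a₂
    rw [he1] at m71
    rw [he2] at m72
    have m51 := hmod5 a₁
    have m52 := hmod5 a₂
    have hfsum' := hfsum a₁ a₂ ha₁x ha₂x hdisj
    have hsum : (W K a₁).card + (W K a₂).card ≤ 23 := by
      have h0 := Finset.card_le_card (Finset.union_subset (hsub a₁ ha₁x) (hsub a₂ ha₂x))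
      rwa [Finset.card_union_of_disjoint hdisj, hcu] at h0
    have h22₁ := hne22 a₁
    have h22₂ := hne22 a₂
    have hcases : ((W K a₁).card = 1 ∧ (W K a₂).card = 1) ∨ ((W K a₁).card = 1 ∧ (W K a₂).card = 15) ∨
        ((W K a₁).card = 15 ∧ (W K a₂).card = 1) ∨ ((W K a₁).card = 8 ∧ (W K a₂).card = 15) ∨
        ((W K a₁).card = 15 ∧ (W K a₂).card = 8) := by
      have c1 : (W K a₁).card = 1 ∨ (W K a₁).card = 8 ∨ (W K a₁).card = 15 := by omega
      have c2 : (W K a₂).card = 1 ∨ (W K a₂).card = 8 ∨ (W K a₂).card = 15 := by omega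
      rcases c1 with c1 | c1 | c1 <;> rcases c2 with c2 | c2 | c2 <;> rw [c1] at m51 hsum ⊢ <;>
        rw [c2] at m52 hsum ⊢ <;> omega
    have hcover : (W K a₁).card + (W K a₂).card = 23 → ∀ y, y ≠ x → y ∈ W K a₁ ∨ y ∈ W K a₂ := by
      intro h y hy
      have heq := Finset.eq_of_subset_of_card_le (Finset.union_subset (hsub a₁ ha₁x) (hsub a₂ ha₂x))
        (by rw [Finset.card_union_of_disjoint hdisj, h, hcu])
      have : y ∈ (Finset.univ : Finset X).erase x := Finset.mem_erase.2 ⟨hy, Finset.mem_univ _⟩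
      rw [← heq] at this
      exact Finset.mem_union.1 this
    rcases hcases with ⟨h1, h2⟩ | ⟨h1, h2⟩ | ⟨h1, h2⟩ | ⟨h1, h2⟩ | ⟨h1, h2⟩
    · exact Or.inr (Or.inr (Or.inr ⟨a₁, ha₁x, W_fixed_of_card h1⟩))
    · exact Or.inr (Or.inr (Or.inr ⟨a₁, ha₁x, W_fixed_of_card h1⟩))
    · exact Or.inr (Or.inr (Or.inr ⟨a₂, ha₂x, W_fixed_of_card h2⟩))
    · right; right; left
      have hc := hcover (by omega)
      refine ⟨a₁, ha₁x, h1, ?_⟩
      intro b hb1 hb2
      have hb3 : b ∈ W K a₂ := (hc b hb1).resolve_left hb2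
      rw [W_eq hb3]
      refine ⟨h2, ?_⟩
      intro d hd1 hd2
      exact (hc d hd1).resolve_left hd2
    · right; right; left
      have hc := hcover (by omega)
      refine ⟨a₂, ha₂x, h2, ?_⟩
      intro b hb1 hb2
      have hb3 : b ∈ W K a₁ := (hc b hb1).resolve_right hb2
      rw [W_eq hb3]
      refine ⟨h1, ?_⟩
      intro d hd1 hd2
      exact (hc d hd1).resolve_right hd2

/-! ### Transitive groups -/

abbrev Kp (H : Subgroup (Equiv.Perm X)) (y : X) : Subgroup (Equiv.Perm X) :=
  H ⊓ MulAction.stabilizer (Equiv.Perm X) y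

theorem mem_Kp {y : X} {h : Equiv.Perm X} : h ∈ Kp H y ↔ h ∈ H ∧ h y = y := Iff.rfl

theorem W_Kp_eq_orb (y b : X) : W (Kp H y) b = orb ↥H y b := by
  ext c
  rw [mem_W, mem_orb]
  constructor
  · rintro ⟨h, hh, rfl⟩
    exact ⟨⟨h, hh.1⟩, hh.2, rfl⟩
  · rintro ⟨⟨h, hh⟩, h1, rfl⟩
    exact ⟨h, ⟨hh, h1⟩, rfl⟩

theorem card_Kp_of_trans (htr : ∀ a b : X, ∃ h ∈ H, h a = b) (y : X) :
    Nat.card ↥(Kp H y) * 24 = Nat.card H := by
  have h := W_card_mul (H := H) y
  have hu : W H y = Finset.univ := by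
    ext z
    simp only [Finset.mem_univ, iff_true]
    obtain ⟨h, hh, e⟩ := htr y z
    exact mem_W.2 ⟨h, hh, e⟩
  rw [hu, Finset.card_univ, card_X] at h
  exact h

theorem mem_orb_smul (g : ↥H) (a b y : X) : y ∈ orb ↥H a b ↔ g • y ∈ orb ↥H (g • a) (g • b) := by
  simp only [mem_orb]
  constructor
  · rintro ⟨h, h1, rfl⟩
    refine ⟨g * h * g⁻¹, ?_, ?_⟩
    · simp [mul_smul, h1]
    · simp [mul_smul]
  · rintro ⟨h, h1, h2⟩
    refine ⟨g⁻¹ * h * g, ?_, ?_⟩
    · simp only [mul_smul]
      rw [h1, inv_smul_smul]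
    · simp only [mul_smul]
      rw [h2, inv_smul_smul]

/-- Transport of a split to all points. -/
theorem split_all (htr : ∀ a b : X, ∃ h ∈ H, h a = b) {x₀ : X} {k l : ℕ} (hs : Split (Kp H x₀) x₀ k l) (a : X) :
    ∃ b₀, b₀ ≠ a ∧ (orb ↥H a b₀).card = k ∧ ∀ b, b ≠ a → b ∉ orb ↥H a b₀ →
      (orb ↥H a b).card = l ∧ ∀ c, c ≠ a → c ∉ orb ↥H a b₀ → c ∈ orb ↥H a b := by
  obtain ⟨c, hc1, hc2, hc3⟩ := hs
  simp only [W_Kp_eq_orb] at hc2 hc3
  obtain ⟨g, hg, e0⟩ := htr x₀ a
  let g' : ↥H := ⟨g, hg⟩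
  have ea : a = g' • x₀ := e0.symm
  have hne : g' • c ≠ a := by
    rw [ea]
    intro e
    exact hc1 (smul_left_cancel g' e)
  refine ⟨g' • c, hne, ?_, ?_⟩
  · rw [ea, card_orb_smul, hc2]
  · intro b hb1 hb2
    have hbe : g' • (g'⁻¹ • b) = b := smul_inv_smul g' b
    have hb1' : g'⁻¹ • b ≠ x₀ := by
      intro e
      apply hb1
      rw [← hbe, e, ea]
    have hb2' : g'⁻¹ • b ∉ orb ↥H x₀ c := by
      intro e
      apply hb2
      rw [← hbe, ea]
      exact (mem_orb_smul g' _ _ _).1 e
    obtain ⟨h1, h2⟩ := hc3 _ hb1' hb2'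
    refine ⟨?_, ?_⟩
    · rw [← hbe, ea, card_orb_smul, h1]
    · intro d hd1 hd2
      have hde : g' • (g'⁻¹ • d) = d := smul_inv_smul g' d
      have hd1' : g'⁻¹ • d ≠ x₀ := by
        intro e
        apply hd1
        rw [← hde, e, ea]
      have hd2' : g'⁻¹ • d ∉ orb ↥H x₀ c := by
        intro e
        apply hd2
        rw [← hde, ea]
        exact (mem_orb_smul g' _ _ _).1 e
      have h3 := h2 _ hd1' hd2'
      rw [← hde, ← hbe, ea]
      exact (mem_orb_smul g' _ _ _).1 h3

/-- No fixed points of a stabiliser in a transitive group, as long as an element of order 7 exists. -/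
theorem no_partner (hM : H ≤ M24) (htr : ∀ a b : X, ∃ h ∈ H, h a = b) {x₀ a : X} (ha : a ≠ x₀)
    (hfix : ∀ h ∈ Kp H x₀, h a = a) (h20160 : ¬ Nat.card ↥(Kp H x₀) ∣ 20160) (h7 : 7 ∣ Nat.card H) : False := by
  classical
  haveI f7 : Fact (Nat.Prime 7) := ⟨by norm_num⟩
  have hcardK : ∀ y, Nat.card ↥(Kp H y) = Nat.card ↥(Kp H x₀) := by
    intro y
    have h1 := card_Kp_of_trans htr y
    have h2 := card_Kp_of_trans htr x₀
    omega
  have hπ : ∀ y, ∃ z, z ≠ y ∧ ∀ h ∈ H, h y = y → h z = z := by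
    intro y
    obtain ⟨g, hg, rfl⟩ := htr x₀ y
    refine ⟨g a, fun e => ha (g.injective e), ?_⟩
    intro h hh hy
    have h1 : g⁻¹ * h * g ∈ Kp H x₀ := by
      refine ⟨H.mul_mem (H.mul_mem (H.inv_mem hg) hh) hg, ?_⟩
      show (g⁻¹ * h * g) x₀ = x₀
      rw [Equiv.Perm.mul_apply, Equiv.Perm.mul_apply, hy]
      simp
    have h2 := hfix _ h1
    rw [Equiv.Perm.mul_apply, Equiv.Perm.mul_apply, Equiv.Perm.inv_eq_iff_eq] at h2
    exact h2
  choose π hπ1 hπ2 using hπ
  have huniq : ∀ y z, z ≠ y → (∀ h ∈ H, h y = y → h z = z) → z = π y := by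
    intro y z hz hz2
    by_contra hne
    apply h20160
    rw [← hcardK y]
    refine card_dvd_20160 (a := y) (b := z) (c := π y) (inf_le_left.trans hM) hz.symm (hπ1 y).symm hne ?_
    intro s hs
    exact ⟨hs.2, hz2 s hs.1 hs.2, hπ2 y s hs.1 hs.2⟩
  have hinv : ∀ y, π (π y) = y := by
    intro y
    symm
    apply huniq (π y) y (hπ1 y).symm
    have hle : Kp H y ≤ Kp H (π y) := by
      intro h hh
      exact ⟨hh.1, hπ2 y h hh.1 hh.2⟩
    have heq := Subgroup.eq_of_le_of_card_ge hle (by rw [hcardK y, hcardK (π y)])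
    intro h hh e
    have : h ∈ Kp H y := by
      rw [heq]
      exact ⟨hh, e⟩
    exact this.2
  obtain ⟨g0, hg0⟩ := exists_prime_orderOf_dvd_card' (G := ↥H) 7 h7
  have hog : orderOf (g0 : Equiv.Perm X) = 7 := by rw [← hg0]; exact Subgroup.orderOf_coe g0
  have hFg : (Finset.univ.filter fun p => (g0 : Equiv.Perm X) p = p).card = 3 := by
    obtain ⟨h1, h2⟩ := fix_card_of_prime (hM g0.2) hog (by norm_num)
    unfold Nat.ModEq at h2
    omega
  obtain ⟨p, q, r, hpq, hpr, hqr, hset⟩ := Finset.card_eq_three.1 hFg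
  have hmem : ∀ y, (g0 : Equiv.Perm X) y = y ↔ y = p ∨ y = q ∨ y = r := by
    intro y
    have : y ∈ (Finset.univ.filter fun p => (g0 : Equiv.Perm X) p = p) ↔ y ∈ ({p, q, r} : Finset X) := by
      rw [hset]
    simpa using this
  have hclosed : ∀ y, (y = p ∨ y = q ∨ y = r) → (π y = p ∨ π y = q ∨ π y = r) := by
    intro y hy
    rw [← hmem]
    exact hπ2 y _ g0.2 ((hmem y).2 hy)
  have hpp := hπ1 p
  have hqq := hπ1 q
  have hrr := hπ1 r
  have h1 := hclosed p (Or.inl rfl)
  have h2 := hclosed q (Or.inr (Or.inl rfl))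
  have h3 := hclosed r (Or.inr (Or.inr rfl))
  have i1 := hinv p
  have i2 := hinv q
  have i3 := hinv r
  rcases h1 with h1 | h1 | h1
  · exact hpp h1
  · rw [h1] at i1
    rcases h3 with h3 | h3 | h3
    · rw [h3, h1] at i3
      exact hqr i3
    · rw [h3, i1] at i3
      exact hpr i3
    · exact hrr h3
  · rw [h1] at i1
    rcases h2 with h2 | h2 | h2
    · rw [h2, h1] at i2
      exact hqr i2.symm
    · exact hqq h2
    · rw [h2, i1] at i2
      exact hpq i2

/-! ### Blocks -/

/-- A system of blocks of size `k + 1` permuted by `H`. -/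
structure IsBlocks (H : Subgroup (Equiv.Perm X)) (k : ℕ) (B : X → Finset X) : Prop where
  card : ∀ a, (B a).card = k + 1
  self : ∀ a, a ∈ B a
  eq : ∀ a b, b ∈ B a → B b = B a
  equi : ∀ h ∈ H, ∀ a y, y ∈ B a → h y ∈ B (h a)

theorem exists_blocks (htr : ∀ a b : X, ∃ h ∈ H, h a = b) {x₀ : X} {k l : ℕ} (hkl : k + l + 1 = 24) (hk : k < l)
    (hk0 : 0 < k) (hmu : ∀ lam mu : ℕ, k * k = k + k * lam + l * mu → mu = 0)
    (hs : Split (Kp H x₀) x₀ k l) : ∃ B, IsBlocks H k B := by
  classical
  obtain ⟨Γ, h1, h2, h3, h4, -⟩ := rank3_blocks (G := ↥H) (Ω := X) (k := k) (l := l)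
    (by rw [card_X]; omega) hk hk0 hmu
    (fun a b => by
      obtain ⟨h, hh, e⟩ := htr a b
      exact ⟨⟨h, hh⟩, e⟩)
    (split_all htr hs)
  refine ⟨fun a => insert a (Γ a), ?_, ?_, ?_, ?_⟩
  · intro a
    exact (Finset.card_insert_of_notMem (h2 a)).trans (by rw [h1])
  · intro a
    exact Finset.mem_insert_self _ _
  · intro a b hb
    rcases Finset.mem_insert.1 hb with rfl | hb
    · rfl
    · exact (h4 a b hb).symm
  · intro h hh a y hy
    rcases Finset.mem_insert.1 hy with rfl | hy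
    · exact Finset.mem_insert_self _ _
    · exact Finset.mem_insert_of_mem (h3 ⟨h, hh⟩ a y hy)

section Blocks

variable {k : ℕ} {B : X → Finset X}

theorem IsBlocks.disj (hB : IsBlocks H k B) {a y : X} (hy : y ∉ B a) : Disjoint (B a) (B y) := by
  rw [Finset.disjoint_left]
  intro z hz hz2
  apply hy
  have h1 := hB.eq a z hz
  have h2 := hB.eq y z hz2
  rw [← h1, h2]
  exact hB.self y

theorem IsBlocks.stable (hB : IsBlocks H k B) {a : X} {h : Equiv.Perm X} (hh : h ∈ H) (ha : h a = a) (y : X) :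
    h y ∈ B a ↔ y ∈ B a := by
  constructor
  · intro hy
    have h1 := hB.equi h⁻¹ (H.inv_mem hh) a (h y) hy
    have e : h⁻¹ a = a := by
      rw [Equiv.Perm.inv_eq_iff_eq]
      exact ha.symm
    rw [e] at h1
    simpa using h1
  · intro hy
    have h1 := hB.equi h hh a y hy
    rwa [ha] at h1

theorem IsBlocks.smul_eq (hB : IsBlocks H k B) {h : Equiv.Perm X} (hh : h ∈ H) (a : X) : h • B a = B (h a) := by
  apply Finset.eq_of_subset_of_card_le
  · intro y hy
    obtain ⟨z, hz, rfl⟩ := Finset.mem_smul_finset.1 hy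
    exact hB.equi h hh a z hz
  · rw [Finset.card_smul_finset, hB.card, hB.card]

/-- Three disjoint blocks. -/
theorem IsBlocks.three (hB : IsBlocks H k B) (hk : 2 * (k + 1) < 24) (x : X) :
    ∃ y z, y ∉ B x ∧ z ∉ B x ∧ z ∉ B y ∧ 3 * (k + 1) ≤ 24 ∧
      (3 * (k + 1) = 24 → ∀ p, p ∈ B x ∨ p ∈ B y ∨ p ∈ B z) := by
  classical
  have hcx : (Finset.univ : Finset X).card = 24 := by
    rw [Finset.card_univ, card_X]
  have h1 : ∃ y, y ∉ B x := by
    by_contra hc
    push Not at hc
    have := Finset.card_le_card (fun y (_ : y ∈ (Finset.univ : Finset X)) => hc y)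
    rw [hcx, hB.card] at this
    omega
  obtain ⟨y, hy⟩ := h1
  have hdxy := hB.disj hy
  have hcxy : (B x ∪ B y).card = 2 * (k + 1) := by
    rw [Finset.card_union_of_disjoint hdxy, hB.card, hB.card]
    ring
  have h2 : ∃ z, z ∉ B x ∪ B y := by
    by_contra hc
    push Not at hc
    have := Finset.card_le_card (fun y (_ : y ∈ (Finset.univ : Finset X)) => hc y)
    rw [hcx, hcxy] at this
    omega
  obtain ⟨z, hz⟩ := h2
  rw [Finset.mem_union] at hz
  push Not at hz
  obtain ⟨hz1, hz2⟩ := hz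
  have hd3 : Disjoint (B x ∪ B y) (B z) :=
    Finset.disjoint_union_left.2 ⟨hB.disj hz1, hB.disj hz2⟩
  have hc3 : (B x ∪ B y ∪ B z).card = 3 * (k + 1) := by
    rw [Finset.card_union_of_disjoint hd3, hcxy, hB.card]
    ring
  refine ⟨y, z, hy, hz1, hz2, ?_, ?_⟩
  · have := Finset.card_le_card (Finset.subset_univ (B x ∪ B y ∪ B z))
    rwa [hc3, hcx] at this
  · intro h3 p
    have he := Finset.eq_of_subset_of_card_le (Finset.subset_univ (B x ∪ B y ∪ B z)) (by rw [hc3, hcx, h3])
    have hp : p ∈ B x ∪ B y ∪ B z := by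
      rw [he]
      exact Finset.mem_univ _
    simpa [or_assoc, Finset.mem_union] using hp

end Blocks

theorem exists_elt {K : Subgroup (Equiv.Perm X)} (r : ℕ) [Fact r.Prime] (hr : r ∣ Nat.card K) :
    ∃ t ∈ K, orderOf t = r := by
  obtain ⟨g0, hg0⟩ := exists_prime_orderOf_dvd_card' (G := ↥K) r hr
  exact ⟨g0.1, g0.2, by rw [← hg0]; exact Subgroup.orderOf_coe g0⟩

theorem no_split_2_21 (hM : H ≤ M24) (htr : ∀ a b : X, ∃ h ∈ H, h a = b) {x₀ : X}
    (hs : Split (Kp H x₀) x₀ 2 21) (h5 : 5 ∣ Nat.card (Kp H x₀)) : False := by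
  classical
  haveI f5 : Fact (Nat.Prime 5) := ⟨by norm_num⟩
  obtain ⟨B, hB⟩ := exists_blocks htr (k := 2) (l := 21) (by norm_num) (by norm_num) (by norm_num)
    (by intro lam mu h; omega) hs
  obtain ⟨t, ht, hot⟩ := exists_elt 5 h5
  have htH : t ∈ H := ht.1
  have ht5 : t ^ 5 = 1 := by
    rw [← hot]
    exact pow_orderOf_eq_one t
  have hFt : (Finset.univ.filter fun p => t p = p).card = 4 := by
    obtain ⟨h1, h2⟩ := fix_card_of_prime (hM htH) hot (by norm_num)
    unfold Nat.ModEq at h2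
    omega
  have hsub : ∀ c, t c = c → B c ⊆ Finset.univ.filter fun p => t p = p := by
    intro c hc
    have h1 := orb_modEq' (G := Equiv.Perm X) 5 t ht5 (B c) (fun y hy => (hB.stable htH hc y).2 hy)
    unfold Nat.ModEq at h1
    have hle := Finset.card_filter_le (B c) (fun y => t • y = y)
    rw [hB.card] at h1 hle
    have h3 : ((B c).filter fun y => t • y = y).card = 3 := by omega
    have he := Finset.eq_of_subset_of_card_le (Finset.filter_subset (fun y => t • y = y) (B c))
      (by rw [h3, hB.card])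
    intro y hy
    rw [← he] at hy
    exact mem_filter_fix.2 (Finset.mem_filter.1 hy).2
  have h0 := hsub x₀ ht.2
  have h1 : ∃ y, t y = y ∧ y ∉ B x₀ := by
    by_contra hc
    push Not at hc
    have h2 : (Finset.univ.filter fun p => t p = p) ⊆ B x₀ := by
      intro y hy
      exact hc y (mem_filter_fix.1 hy)
    have := Finset.card_le_card h2
    rw [hFt, hB.card] at this
    omega
  obtain ⟨y, hy1, hy2⟩ := h1
  have h3 := Finset.card_le_card (Finset.union_subset h0 (hsub y hy1))
  rw [Finset.card_union_of_disjoint (hB.disj hy2), hB.card, hB.card, hFt] at h3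
  omega

theorem no_split_8_15 (htr : ∀ a b : X, ∃ h ∈ H, h a = b) {x₀ : X}
    (hs : Split (Kp H x₀) x₀ 8 15) : False := by
  obtain ⟨B, hB⟩ := exists_blocks htr (k := 8) (l := 15) (by norm_num) (by norm_num) (by norm_num)
    (by intro lam mu h; omega) hs
  obtain ⟨y, z, -, -, -, h, -⟩ := hB.three (by norm_num) x₀
  omega

/-- A stable 7-set together with the fixed point is an octad, for large groups. -/
theorem heptad_case' {K : Subgroup (Equiv.Perm X)} (hM : K ≤ M24) (hx : ∀ h ∈ K, h x = x) (hc : 5040 < Nat.card K)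
    (T : Finset X) (hT : T.card = 7) (hxT : x ∉ T) (hS : ∀ h ∈ K, ∀ y, h y ∈ T ↔ y ∈ T) : insert x T ∈ octads := by
  classical
  have hcard : Nat.card (Equiv.Perm ↥T) < Nat.card ↥K := by
    have h1 : Nat.card (Equiv.Perm ↥T) = 5040 := by
      rw [Nat.card_eq_fintype_card, Fintype.card_perm, Fintype.card_coe, hT]
      decide
    rw [h1]
    exact hc
  have hni : ¬ Function.Injective (resHom T hS) := fun hi =>
    absurd (Nat.card_le_card_of_injective _ hi) (not_le.2 hcard)
  obtain ⟨h₁, h₂, heq, hne⟩ := Function.not_injective_iff.1 hni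
  set u : Equiv.Perm X := h₁.1⁻¹ * h₂.1 with hu
  have huM : u ∈ M24 := M24.mul_mem (M24.inv_mem (hM h₁.2)) (hM h₂.2)
  have hu1 : u ≠ 1 := by
    intro h
    apply hne
    apply Subtype.ext
    rw [hu, inv_mul_eq_one] at h
    exact h
  have huT : ∀ y ∈ T, u y = y := by
    intro y hy
    have h1 := congrArg (fun f : Equiv.Perm ↥T => ((f ⟨y, hy⟩ : ↥T) : X)) heq
    simp only [resHom_apply] at h1
    rw [hu, Equiv.Perm.mul_apply, ← h1]
    simp
  have hux : u x = x := by
    rw [hu, Equiv.Perm.mul_apply, hx _ h₂.2]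
    rw [Equiv.Perm.inv_eq_iff_eq]
    exact (hx _ h₁.2).symm
  have hsub : insert x T ⊆ Finset.univ.filter fun p => u p = p := by
    intro y hy
    rw [mem_filter_fix]
    rcases Finset.mem_insert.1 hy with rfl | hy
    · exact hux
    · exact huT y hy
  have hcE : (insert x T).card = 8 := by
    rw [Finset.card_insert_of_notMem hxT, hT]
  obtain ⟨h8, h8'⟩ := fix8 huM hu1
  have he := Finset.eq_of_subset_of_card_le hsub (by rw [hcE]; exact h8)
  rw [he]
  apply h8'
  rw [← he, hcE]

/-- Stabilisers of families of sets. -/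
theorem card_dvd_stab (hM : H ≤ M24) (S : Finset (Finset X)) (hS : ∀ h ∈ H, ∀ o ∈ S, h • o ∈ S) :
    Nat.card H ∣ Nat.card ↥(MulAction.stabilizer M24 S) := by
  classical
  have hle : H.subgroupOf M24 ≤ MulAction.stabilizer M24 S := by
    intro g hg
    have hg' : (g : Equiv.Perm X) ∈ H := Subgroup.mem_subgroupOf.1 hg
    rw [MulAction.mem_stabilizer_iff]
    apply Finset.eq_of_subset_of_card_le
    · intro o ho
      obtain ⟨o', ho', rfl⟩ := Finset.mem_smul_finset.1 ho
      exact hS _ hg' _ ho'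
    · rw [Finset.card_smul_finset]
  have h1 := Subgroup.card_dvd_of_le hle
  rwa [card_subgroupOf', inf_eq_left.2 hM] at h1

theorem no_split_7_16 (hM : H ≤ M24) (htr : ∀ a b : X, ∃ h ∈ H, h a = b) {x₀ : X}
    (hs : Split (Kp H x₀) x₀ 7 16) (h5040 : 5040 < Nat.card (Kp H x₀)) (h64512 : ¬ Nat.card H ∣ 64512) : False := by
  classical
  obtain ⟨B, hB⟩ := exists_blocks htr (k := 7) (l := 16) (by norm_num) (by norm_num) (by norm_num)
    (by intro lam mu h; omega) hs
  have hcardK : ∀ y, Nat.card ↥(Kp H y) = Nat.card ↥(Kp H x₀) := by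
    intro y
    have h1 := card_Kp_of_trans htr y
    have h2 := card_Kp_of_trans htr x₀
    omega
  have hoct : ∀ a, B a ∈ octads := by
    intro a
    have h1 := heptad_case' (x := a) (K := Kp H a) (inf_le_left.trans hM) (fun h hh => hh.2)
      (by rw [hcardK a]; exact h5040) ((B a).erase a)
      (by rw [Finset.card_erase_of_mem (hB.self a), hB.card]) (Finset.notMem_erase _ _)
      (by
        intro h hh y
        have hya : h y = a ↔ y = a := by
          constructor
          · intro e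
            exact h.injective (e.trans hh.2.symm)
          · rintro rfl
            exact hh.2
        rw [Finset.mem_erase, Finset.mem_erase, hB.stable hh.1 hh.2 y, Ne, Ne, hya])
    rwa [Finset.insert_erase (hB.self a)] at h1
  obtain ⟨y, z, hy, hz1, hz2, -, hc⟩ := hB.three (by norm_num) x₀
  have hcover := hc (by norm_num)
  have hne : ∀ a b, b ∉ B a → B a ≠ B b := by
    intro a b hb e
    apply hb
    rw [e]
    exact hB.self b
  let T : Finset (Finset X) := {B x₀, B y, B z}
  have hTmem : ∀ o, o ∈ T ↔ o = B x₀ ∨ o = B y ∨ o = B z := by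
    intro o
    simp [T]
  have hT : T ∈ trios := by
    refine ⟨Finset.card_eq_three.2 ⟨_, _, _, hne _ _ hy, hne _ _ hz1, hne _ _ hz2, rfl⟩, ?_, ?_⟩
    · intro o ho
      rcases (hTmem o).1 ho with rfl | rfl | rfl <;> exact hoct _
    · have d1 := hB.disj hy
      have d2 := hB.disj hz1
      have d3 := hB.disj hz2
      intro o ho o' ho' hne'
      rcases (hTmem o).1 ho with rfl | rfl | rfl <;> rcases (hTmem o').1 ho' with rfl | rfl | rfl
      · exact absurd rfl hne'
      · exact d1
      · exact d2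
      · exact d1.symm
      · exact absurd rfl hne'
      · exact d3
      · exact d2.symm
      · exact d3.symm
      · exact absurd rfl hne'
  have hstab : ∀ h ∈ H, ∀ o ∈ T, h • o ∈ T := by
    intro h hh o ho
    rw [hTmem]
    have key : ∀ a, h • B a = B x₀ ∨ h • B a = B y ∨ h • B a = B z := by
      intro a
      rw [hB.smul_eq hh]
      rcases hcover (h a) with h1 | h1 | h1
      · exact Or.inl (hB.eq _ _ h1)
      · exact Or.inr (Or.inl (hB.eq _ _ h1))
      · exact Or.inr (Or.inr (hB.eq _ _ h1))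
    rcases (hTmem o).1 ho with rfl | rfl | rfl <;> exact key _
  have h1 := card_dvd_stab hM T hstab
  rw [card_stab_trio hT] at h1
  exact h64512 h1

theorem no_trans35 (hM : H ≤ M24) (htr : ∀ a b : X, ∃ h ∈ H, h a = b) {x₀ : X}
    (h7 : 7 ∣ Nat.card (Kp H x₀)) (h5 : 5 ∣ Nat.card (Kp H x₀)) (h11 : ¬ 11 ∣ Nat.card (Kp H x₀))
    (h23 : ¬ 23 ∣ Nat.card (Kp H x₀)) (h20160 : ¬ Nat.card (Kp H x₀) ∣ 20160)
    (h5040 : 5040 < Nat.card (Kp H x₀)) (h64512 : ¬ Nat.card H ∣ 64512) : False := by
  rcases orbit_list (K := Kp H x₀) (x := x₀) (inf_le_left.trans hM) (fun h hh => hh.2) h7 h5 h11 h23 with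
    h | h | h | ⟨a, ha, hfix⟩
  · exact no_split_7_16 hM htr h h5040 h64512
  · exact no_split_2_21 hM htr h h5
  · exact no_split_8_15 htr h
  · have h7' : 7 ∣ Nat.card H := by
      rw [← card_Kp_of_trans htr x₀]
      exact h7.trans (Nat.dvd_mul_right _ _)
    exact no_partner hM htr ha hfix h20160 h7'

end Cfsg.Agent.H27.M22
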