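import Mathlib
import Cfsg.Agent.Lib.H27.M24B

/-!
# Subgroups of index 759, 276 and 253 of the group of the code
-/

set_option autoImplicit false
set_option maxRecDepth 100000

namespace Cfsg.Agent.H27.M22

open Cfsg Cfsg.Agent.H27.Golay Cfsg.Agent.H07.Orb
open scoped Pointwise

variable {H : Subgroup (Equiv.Perm X)}

theorem Kp_dvd (hM : H ≤ M24) (a : X) : Nat.card ↥(Kp H a) ∣ 10200960 := by
  have hc : Nat.card ↥((MulAction.stabilizer M24 a).map M24.subtype) = 10200960 := by
    rw [← card_one a]
    exact (Nat.card_congr ((MulAction.stabilizer M24 a).equivMapOfInjective _ M24.subtype_injective).toEquiv).symm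
  have hle : Kp H a ≤ (MulAction.stabilizer M24 a).map M24.subtype := by
    intro h hh
    exact ⟨⟨h, hM hh.1⟩, hh.2, rfl⟩
  have h1 := Subgroup.card_dvd_of_le hle
  rwa [hc] at h1

theorem W_card_pos (a : X) : 0 < (W H a).card := Finset.card_pos.2 ⟨a, self_W a⟩

theorem W_card_le (a : X) : (W H a).card ≤ 24 := by
  have := Finset.card_le_card (Finset.subset_univ (W H a))
  rwa [Finset.card_univ, card_X] at this

theorem W_facts (hM : H ≤ M24) (a : X) :
    (W H a).card ∣ Nat.card H ∧ Nat.card H / (W H a).card ∣ 10200960 := by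
  have h1 := W_card_mul (H := H) a
  refine ⟨W_dvd a, ?_⟩
  rw [← h1, Nat.mul_div_cancel _ (W_card_pos a)]
  exact Kp_dvd hM a

theorem trans_of_card (h : ∀ a, (W H a).card = 24) : ∀ a b : X, ∃ h ∈ H, h a = b := by
  intro a b
  have he : W H a = Finset.univ := by
    apply Finset.eq_of_subset_of_card_le (Finset.subset_univ _)
    rw [Finset.card_univ, card_X, h]
  have hb : b ∈ W H a := by
    rw [he]
    exact Finset.mem_univ _
  exact mem_W.1 hb

/-- Two orbits when the group is not transitive. -/
theorem exists_two_orbits (htr : ¬ ∀ a b : X, ∃ h ∈ H, h a = b) :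
    ∃ a b, (W H a).card + (W H b).card ≤ 24 := by
  classical
  push Not at htr
  obtain ⟨a, b, hab⟩ := htr
  refine ⟨a, b, ?_⟩
  have hb : b ∉ W H a := by
    intro hb
    obtain ⟨h, hh, e⟩ := mem_W.1 hb
    exact hab h hh e
  have h1 := Finset.card_le_card (Finset.subset_univ (W H a ∪ W H b))
  rwa [Finset.card_union_of_disjoint (W_disj hb), Finset.card_univ, card_X] at h1

theorem W_stable_iff (a : X) : ∀ h ∈ H, ∀ y, h y ∈ W H a ↔ y ∈ W H a :=
  fun _ hh y => W_iff a hh y

theorem num_759 : ∀ L, L < 25 → 0 < L → L ∣ 322560 → 322560 / L ∣ 10200960 → L = 8 ∨ L = 16 ∨ L = 24 := by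
  decide

theorem num_253 : ∀ L, L < 25 → 0 < L → L ∣ 967680 → 967680 / L ∣ 10200960 → L = 24 := by
  decide

theorem num_276' : ∀ L, L < 25 → (0 < L ∧ L ∣ 887040 ∧ 887040 / L ∣ 10200960 ∧ L % 11 ≤ 2 ∧ L % 7 ≤ 3) →
    L = 2 ∨ L = 22 ∨ L = 24 := by
  decide

theorem num_276 (L : ℕ) (h0 : L < 25) (h1 : 0 < L) (h2 : L ∣ 887040) (h3 : 887040 / L ∣ 10200960)
    (h4 : L % 11 ≤ 2) (h5 : L % 7 ≤ 3) : L = 2 ∨ L = 22 ∨ L = 24 :=
  num_276' L h0 ⟨h1, h2, h3, h4, h5⟩

/-- Index 253 does not occur. -/
theorem no_253 (hM : H ≤ M24) (hc : Nat.card H = 967680) : False := by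
  have hW : ∀ a, (W H a).card = 24 := by
    intro a
    obtain ⟨h1, h2⟩ := W_facts hM a
    rw [hc] at h1 h2
    exact num_253 _ (Nat.lt_succ_of_le (W_card_le a)) (W_card_pos a) h1 h2
  have htr := trans_of_card hW
  have x₀ : X := pt 0
  have hK := card_Kp_of_trans htr x₀
  rw [hc] at hK
  have hK' : Nat.card ↥(Kp H x₀) = 40320 := by omega
  refine no_trans35 (x₀ := x₀) hM htr ?_ ?_ ?_ ?_ ?_ ?_ ?_ <;> try (rw [hK'] <;> norm_num)
  rw [hc]
  norm_num

/-- Index 759. -/
theorem case_759 (hM : H ≤ M24) (hc : Nat.card H = 322560) :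
    ∃ o ∈ octads, ∀ h ∈ H, ∀ y, h y ∈ o ↔ y ∈ o := by
  classical
  by_cases htr : ∀ a b : X, ∃ h ∈ H, h a = b
  · exfalso
    have x₀ : X := pt 0
    have hK := card_Kp_of_trans htr x₀
    rw [hc] at hK
    have hK' : Nat.card ↥(Kp H x₀) = 13440 := by omega
    refine no_trans35 (x₀ := x₀) hM htr ?_ ?_ ?_ ?_ ?_ ?_ ?_ <;> try (rw [hK'] <;> norm_num)
    rw [hc]
    norm_num
  · obtain ⟨a, b, hab⟩ := exists_two_orbits htr
    have hL : ∀ a, (W H a).card = 8 ∨ (W H a).card = 16 ∨ (W H a).card = 24 := by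
      intro a
      obtain ⟨h1, h2⟩ := W_facts hM a
      rw [hc] at h1 h2
      exact num_759 _ (Nat.lt_succ_of_le (W_card_le a)) (W_card_pos a) h1 h2
    have h8 : ∃ a, (W H a).card = 8 := by
      rcases hL a with h | h | h
      · exact ⟨a, h⟩
      · rcases hL b with h' | h' | h'
        · exact ⟨b, h'⟩
        · omega
        · omega
      · rcases hL b with h' | h' | h' <;> omega
    obtain ⟨a, ha⟩ := h8
    set S := W H a with hS
    have hst : ∀ h ∈ H, ∀ y, h y ∈ S ↔ y ∈ S := W_stable_iff a
    refine ⟨S, ?_, hst⟩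
    have hcard : Nat.card (Equiv.Perm ↥S) < Nat.card ↥H := by
      rw [Nat.card_eq_fintype_card, Fintype.card_perm, Fintype.card_coe, ha, hc]
      decide
    have hni : ¬ Function.Injective (resHom S hst) := fun hi =>
      absurd (Nat.card_le_card_of_injective _ hi) (not_le.2 hcard)
    obtain ⟨h₁, h₂, heq, hne⟩ := Function.not_injective_iff.1 hni
    set u : Equiv.Perm X := h₁.1⁻¹ * h₂.1 with hu
    have huM : u ∈ M24 := M24.mul_mem (M24.inv_mem (hM h₁.2)) (hM h₂.2)
    have hu1 : u ≠ 1 := by
      intro h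
      apply hne
      apply Subtype.ext
      rw [hu, inv_mul_eq_one] at h
      exact h
    have huT : ∀ y ∈ S, u y = y := by
      intro y hy
      have h1 := congrArg (fun f : Equiv.Perm ↥S => ((f ⟨y, hy⟩ : ↥S) : X)) heq
      simp only [resHom_apply] at h1
      rw [hu, Equiv.Perm.mul_apply, ← h1]
      simp
    have hsub : S ⊆ Finset.univ.filter fun p => u p = p := by
      intro y hy
      exact mem_filter_fix.2 (huT y hy)
    obtain ⟨h8, h8'⟩ := fix8 huM hu1
    have he := Finset.eq_of_subset_of_card_le hsub (by rw [ha]; exact h8)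
    rw [he]
    apply h8'
    rw [← he, ha]

/-- Index 276. -/
theorem case_276 (hM : H ≤ M24) (hc : Nat.card H = 887040) :
    ∃ s : Finset X, s.card = 2 ∧ ∀ h ∈ H, ∀ y, h y ∈ s ↔ y ∈ s := by
  classical
  haveI f11 : Fact (Nat.Prime 11) := ⟨by norm_num⟩
  haveI f7 : Fact (Nat.Prime 7) := ⟨by norm_num⟩
  by_cases htr : ∀ a b : X, ∃ h ∈ H, h a = b
  · exfalso
    have x₀ : X := pt 0
    have hK := card_Kp_of_trans htr x₀
    rw [hc] at hK
    have hK' : Nat.card ↥(Kp H x₀) = 36960 := by omega
    obtain ⟨g, hg, hog⟩ := exists_elt (K := Kp H x₀) 11 (by rw [hK']; norm_num)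
    obtain ⟨t, ht, hot⟩ := exists_elt (K := Kp H x₀) 7 (by rw [hK']; norm_num)
    have hg11 : g ^ 11 = 1 := by
      rw [← hog]
      exact pow_orderOf_eq_one g
    have ht7 : t ^ 7 = 1 := by
      rw [← hot]
      exact pow_orderOf_eq_one t
    have hFg : (Finset.univ.filter fun p => g p = p).card = 2 := by
      obtain ⟨h1, h2⟩ := fix_card_of_prime (hM hg.1) hog (by norm_num)
      unfold Nat.ModEq at h2
      omega
    have hFt : (Finset.univ.filter fun p => t p = p).card = 3 := by
      obtain ⟨h1, h2⟩ := fix_card_of_prime (hM ht.1) hot (by norm_num)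
      unfold Nat.ModEq at h2
      omega
    have hx₀ : x₀ ∈ Finset.univ.filter fun p => g p = p := mem_filter_fix.2 hg.2
    obtain ⟨a, ha⟩ : ∃ a, (Finset.univ.filter fun p => g p = p) = {x₀, a} ∧ a ≠ x₀ := by
      obtain ⟨x, y, hxy, e⟩ := Finset.card_eq_two.1 hFg
      rw [e] at hx₀
      simp only [Finset.mem_insert, Finset.mem_singleton] at hx₀
      rcases hx₀ with rfl | rfl
      · exact ⟨y, e, hxy.symm⟩
      · exact ⟨x, by rw [e, Finset.pair_comm], hxy⟩
    obtain ⟨ha, hax⟩ := ha
    have hgfix : ∀ y, g y = y ↔ y = x₀ ∨ y = a := by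
      intro y
      rw [← mem_filter_fix, ha]
      simp
    set K := Kp H x₀ with hKd
    have hxK : ∀ h ∈ K, h x₀ = x₀ := fun h hh => hh.2
    have hnx : x₀ ∉ W K a := W_x hxK hax
    have hfg : ((W K a).filter fun y => g y = y) = {a} := by
      ext y
      simp only [Finset.mem_filter, Finset.mem_singleton]
      constructor
      · rintro ⟨h1, h2⟩
        rcases (hgfix y).1 h2 with rfl | h
        · exact absurd h1 hnx
        · exact h
      · rintro rfl
        exact ⟨self_W _, (hgfix _).2 (Or.inr rfl)⟩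
    have hm11 := W_mod 11 hg hg11 a
    rw [hfg, Finset.card_singleton] at hm11
    unfold Nat.ModEq at hm11
    have hle : (W K a).card ≤ 23 := by
      have h1 := Finset.card_le_card (W_univ_sub hxK hax)
      rwa [Finset.card_erase_of_mem (Finset.mem_univ _), Finset.card_univ, card_X] at h1
    have hcases : (W K a).card = 1 ∨ (W K a).card = 12 ∨ (W K a).card = 23 := by omega
    have hfix : ∀ h ∈ K, h a = a := by
      rcases hcases with h | h | h
      · exact W_fixed_of_card h
      · exfalso
        have hm7 := W_mod 7 ht ht7 a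
        rw [h] at hm7
        unfold Nat.ModEq at hm7
        have hsub : ((W K a).filter fun y => t y = y) ⊆ (Finset.univ.filter fun p => t p = p).erase x₀ := by
          intro y hy
          obtain ⟨h1, h2⟩ := Finset.mem_filter.1 hy
          refine Finset.mem_erase.2 ⟨?_, mem_filter_fix.2 h2⟩
          rintro rfl
          exact hnx h1
        have h3 := Finset.card_le_card hsub
        rw [Finset.card_erase_of_mem (mem_filter_fix.2 ht.2), hFt] at h3
        omega
      · exfalso
        have h1 := W_dvd (H := K) a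
        rw [h, hK'] at h1
        norm_num at h1
    refine no_partner hM htr hax hfix ?_ ?_
    · rw [hK']
      norm_num
    · rw [hc]
      norm_num
  · obtain ⟨g, hg, hog⟩ := exists_elt (K := H) 11 (by rw [hc]; norm_num)
    obtain ⟨t, ht, hot⟩ := exists_elt (K := H) 7 (by rw [hc]; norm_num)
    have hg11 : g ^ 11 = 1 := by
      rw [← hog]
      exact pow_orderOf_eq_one g
    have ht7 : t ^ 7 = 1 := by
      rw [← hot]
      exact pow_orderOf_eq_one t
    have hFg : (Finset.univ.filter fun p => g p = p).card = 2 := by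
      obtain ⟨h1, h2⟩ := fix_card_of_prime (hM hg) hog (by norm_num)
      unfold Nat.ModEq at h2
      omega
    have hFt : (Finset.univ.filter fun p => t p = p).card = 3 := by
      obtain ⟨h1, h2⟩ := fix_card_of_prime (hM ht) hot (by norm_num)
      unfold Nat.ModEq at h2
      omega
    have hL : ∀ a, (W H a).card = 2 ∨ (W H a).card = 22 ∨ (W H a).card = 24 := by
      intro a
      obtain ⟨h1, h2⟩ := W_facts hM a
      rw [hc] at h1 h2
      have hm11 := W_mod 11 hg hg11 a
      have hm7 := W_mod 7 ht ht7 a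
      unfold Nat.ModEq at hm11 hm7
      have h3 : ((W H a).filter fun y => g y = y).card ≤ 2 := by
        rw [← hFg]
        exact Finset.card_le_card (Finset.filter_subset_filter _ (Finset.subset_univ _))
      have h4 : ((W H a).filter fun y => t y = y).card ≤ 3 := by
        rw [← hFt]
        exact Finset.card_le_card (Finset.filter_subset_filter _ (Finset.subset_univ _))
      exact num_276 _ (Nat.lt_succ_of_le (W_card_le a)) (W_card_pos a) h1 h2 (by omega) (by omega)
    obtain ⟨a, b, hab⟩ := exists_two_orbits htr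
    have h2 : ∃ a, (W H a).card = 2 := by
      rcases hL a with h | h | h
      · exact ⟨a, h⟩
      · rcases hL b with h' | h' | h'
        · exact ⟨b, h'⟩
        · omega
        · omega
      · rcases hL b with h' | h' | h' <;> omega
    obtain ⟨a, ha⟩ := h2
    exact ⟨W H a, ha, W_stable_iff a⟩

/-- The stabiliser of a duad. -/
theorem card_stab_duad {s : Finset X} (hs : s.card = 2) :
    Nat.card ↥(MulAction.stabilizer M24 s) ≤ 887040 := by
  classical
  obtain ⟨p, q, hpq, rfl⟩ := Finset.card_eq_two.1 hs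
  set A := MulAction.stabilizer M24 ({p, q} : Finset X) with hA
  set T := A.map M24.subtype with hT
  have hTA : Nat.card ↥T = Nat.card ↥A :=
    (Nat.card_congr (A.equivMapOfInjective _ M24.subtype_injective).toEquiv).symm
  have hmem : ∀ u ∈ T, ∀ y, y ∈ ({p, q} : Finset X) → u y ∈ ({p, q} : Finset X) := by
    rintro _ ⟨g, hg, rfl⟩ y hy
    have h1 : g • ({p, q} : Finset X) = {p, q} := hg
    have h2 : g • y ∈ g • ({p, q} : Finset X) := Finset.smul_mem_smul_finset hy
    rwa [h1] at h2
  have hW : W T p ⊆ {p, q} := by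
    intro y hy
    obtain ⟨u, hu, rfl⟩ := mem_W.1 hy
    exact hmem u hu p (by simp)
  have hWc : (W T p).card ≤ 2 := by
    have := Finset.card_le_card hW
    rwa [Finset.card_pair hpq] at this
  have hK : Nat.card ↥(T ⊓ MulAction.stabilizer (Equiv.Perm X) p) ≤ 443520 := by
    rw [← card_two hpq]
    have hle : T ⊓ MulAction.stabilizer (Equiv.Perm X) p ≤
        (MulAction.stabilizer M24 p ⊓ MulAction.stabilizer M24 q).map M24.subtype := by
      rintro u ⟨hu1, hu2⟩
      have hup : u p = p := hu2
      have huq : u q = q := by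
        have h1 := hmem u hu1 q (by simp)
        simp only [Finset.mem_insert, Finset.mem_singleton] at h1
        rcases h1 with h1 | h1
        · exfalso
          exact hpq (u.injective (hup.trans h1.symm))
        · exact h1
      have huM : u ∈ M24 := by
        obtain ⟨g, -, rfl⟩ := hu1
        exact g.2
      exact ⟨⟨u, huM⟩, ⟨hup, huq⟩, rfl⟩
    have h2 := Subgroup.card_le_of_le hle
    have h3 : Nat.card ↥((MulAction.stabilizer M24 p ⊓ MulAction.stabilizer M24 q).map M24.subtype) =
        Nat.card ↥(MulAction.stabilizer M24 p ⊓ MulAction.stabilizer M24 q) :=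
      (Nat.card_congr (Subgroup.equivMapOfInjective _ _ M24.subtype_injective).toEquiv).symm
    rwa [h3] at h2
  have h1 := W_card_mul (H := T) p
  rw [← hTA, ← h1]
  calc _ ≤ 443520 * 2 := Nat.mul_le_mul hK hWc
    _ = 887040 := by norm_num

end Cfsg.Agent.H27.M22
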