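import Mathlib
import Cfsg.Agent.Lib.H27.M24C

/-!
# The pointwise stabiliser of an octad and subgroups of the Sylow order
-/

set_option autoImplicit false
set_option maxRecDepth 100000

namespace Cfsg.Agent.H27.M22

open Cfsg Cfsg.Agent.H27.Golay Cfsg.Agent.H07.Orb
open scoped Pointwise

variable {H : Subgroup (Equiv.Perm X)}

/-- The pointwise stabiliser of a set of points in the group of the code. -/
def FixS (O : Finset X) : Subgroup (Equiv.Perm X) where
  carrier := {g | g ∈ M24 ∧ ∀ p ∈ O, g p = p}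
  mul_mem' := by
    rintro a b ⟨ha, ha'⟩ ⟨hb, hb'⟩
    refine ⟨M24.mul_mem ha hb, fun i hi => ?_⟩
    rw [Equiv.Perm.mul_apply, hb' i hi, ha' i hi]
  one_mem' := ⟨M24.one_mem, fun _ _ => rfl⟩
  inv_mem' := by
    rintro a ⟨ha, ha'⟩
    refine ⟨M24.inv_mem ha, fun i hi => ?_⟩
    rw [Equiv.Perm.inv_eq_iff_eq, ha' i hi]

theorem mem_FixS {O : Finset X} {g : Equiv.Perm X} : g ∈ FixS O ↔ g ∈ M24 ∧ ∀ p ∈ O, g p = p := Iff.rfl

def O0L : List ℕ := [0, 1, 2, 3, 5, 14, 17, 23]

def compL : List ℕ := [4, 6, 7, 8, 9, 10, 11, 12, 13, 15, 16, 18, 19, 20, 21, 22]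

theorem E0_check : allL (fun j => H48L.any (fun c => isFix O0L c && Nat.beq (pa c 4) j)) compL = true := by
  decide +kernel

def nonBaseL : List ℕ := [4, 5, 6, 7, 8, 9, 10, 11, 12, 13, 14, 15, 16, 17, 18, 19, 20, 21, 22]

theorem move_check :
    allL (fun j => H48L.any (fun c => isFix [3, 2, 1, 0, 23] c && !(Nat.beq (pa c j) j))) nonBaseL = true := by
  decide +kernel

theorem mem_O0L {p : X} (hp : p ∈ fs O0) : ∃ i ∈ O0L, p = pt i := by
  revert p
  decide +kernel

theorem mem_compL {p : X} (hp : p ∉ fs O0) : ∃ i ∈ compL, p = pt i := by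
  revert p
  decide +kernel

theorem mem_nonBaseL {p : X} (h0 : p ≠ pt 3) (h1 : p ≠ pt 2) (h2 : p ≠ pt 1) (h3 : p ≠ pt 0) (h4 : p ≠ pt 23) :
    ∃ i ∈ nonBaseL, p = pt i := by
  revert p
  decide +kernel

theorem E0_exists {p : X} (hp : p ∉ fs O0) : ∃ u ∈ fixG O0L, u (pt 4) = p := by
  obtain ⟨j, hj, rfl⟩ := mem_compL hp
  have h1 := allL_spec E0_check j hj
  obtain ⟨c, hc, h2⟩ := List.any_eq_true.1 h1
  rw [Bool.and_eq_true] at h2
  have hl : ∀ i ∈ O0L, i < 24 := by decide
  refine ⟨P c, P_mem_fixG hl h2.1, ?_⟩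
  have hok := isM24_permOK (isFix_isM24 h2.1)
  rw [P_pt hok (by norm_num), Nat.eq_of_beq_eq_true h2.2]

theorem fixG_O0L_fix {u : Equiv.Perm X} (hu : u ∈ fixG O0L) {p : X} (hp : p ∈ fs O0) : u p = p := by
  obtain ⟨i, hi, rfl⟩ := mem_O0L hp
  exact hu.2 i hi

/-- The pointwise stabiliser of an octad is transitive on the complement. -/
theorem E_trans {O : Finset X} (hO : O ∈ octads) {z w : X} (hz : z ∉ O) (hw : w ∉ O) :
    ∃ u ∈ FixS O, u z = w := by
  obtain ⟨k, hk, rfl⟩ := exists_smul_O0 hO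
  have hz' : k⁻¹ z ∉ fs O0 := by
    intro h
    apply hz
    rw [Finset.mem_smul_finset]
    exact ⟨_, h, by simp⟩
  have hw' : k⁻¹ w ∉ fs O0 := by
    intro h
    apply hw
    rw [Finset.mem_smul_finset]
    exact ⟨_, h, by simp⟩
  obtain ⟨u₁, hu₁, e₁⟩ := E0_exists hz'
  obtain ⟨u₂, hu₂, e₂⟩ := E0_exists hw'
  refine ⟨k * (u₂ * u₁⁻¹) * k⁻¹, ⟨?_, ?_⟩, ?_⟩
  · exact M24.mul_mem (M24.mul_mem hk (M24.mul_mem hu₂.1 (M24.inv_mem hu₁.1))) (M24.inv_mem hk)
  · intro p hp
    obtain ⟨q, hq, rfl⟩ := Finset.mem_smul_finset.1 hp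
    have h1 : u₁⁻¹ q = q := by
      rw [Equiv.Perm.inv_eq_iff_eq]
      exact (fixG_O0L_fix hu₁ hq).symm
    have h2 := fixG_O0L_fix hu₂ hq
    show (k * (u₂ * u₁⁻¹) * k⁻¹) (k q) = k q
    simp only [Equiv.Perm.mul_apply, inv_app]
    rw [h1, h2]
  · show (k * (u₂ * u₁⁻¹) * k⁻¹) z = w
    simp only [Equiv.Perm.mul_apply]
    have h1 : u₁⁻¹ (k⁻¹ z) = pt 4 := by
      rw [Equiv.Perm.inv_eq_iff_eq]
      exact e₁.symm
    rw [h1, e₂]
    simp

theorem octad_card {O : Finset X} (hO : O ∈ octads) : O.card = 8 := hO.2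

theorem exists_notMem_octad {O : Finset X} (hO : O ∈ octads) : ∃ z, z ∉ O := by
  by_contra hc
  push Not at hc
  have := Finset.card_le_card (fun y (_ : y ∈ (Finset.univ : Finset X)) => hc y)
  rw [Finset.card_univ, card_X, octad_card hO] at this
  omega

/-- The order of the pointwise stabiliser of an octad. -/
theorem card_E {O : Finset X} (hO : O ∈ octads) : Nat.card ↥(FixS O) = 16 := by
  classical
  obtain ⟨z, hz⟩ := exists_notMem_octad hO
  have h1 := W_card_mul (H := FixS O) z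
  have hb : FixS O ⊓ MulAction.stabilizer (Equiv.Perm X) z = ⊥ := by
    rw [eq_bot_iff]
    rintro u ⟨hu, huz⟩
    by_contra hne
    have hne' : u ≠ 1 := hne
    obtain ⟨h8, -⟩ := fix8 hu.1 hne'
    have hsub : insert z O ⊆ Finset.univ.filter fun p => u p = p := by
      intro y hy
      rw [mem_filter_fix]
      rcases Finset.mem_insert.1 hy with rfl | hy
      · exact huz
      · exact hu.2 y hy
    have h9 := Finset.card_le_card hsub
    rw [Finset.card_insert_of_notMem hz, octad_card hO] at h9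
    omega
  rw [hb, Subgroup.card_bot, one_mul] at h1
  rw [← h1]
  have he : W (FixS O) z = Finset.univ \ O := by
    ext w
    rw [mem_W, Finset.mem_sdiff]
    constructor
    · rintro ⟨u, hu, rfl⟩
      refine ⟨Finset.mem_univ _, ?_⟩
      intro hw
      have h2 := hu.2 _ hw
      have h3 : u z = z := u.injective h2
      apply hz
      rw [← h3]
      exact hw
    · rintro ⟨-, hw⟩
      exact E_trans hO hz hw
  rw [he, Finset.card_sdiff_of_subset (Finset.subset_univ _), Finset.card_univ, card_X, octad_card hO]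

/-- A subgroup whose order is divisible by `2 ^ 10` contains the pointwise stabiliser of an octad. -/
theorem exists_octad_E (hM : H ≤ M24) (h1024 : 1024 ∣ Nat.card H) : ∃ O ∈ octads, FixS O ≤ H := by
  classical
  haveI f2 : Fact (Nat.Prime 2) := ⟨by norm_num⟩
  obtain ⟨Q, hQ⟩ := Sylow.exists_subgroup_card_pow_prime (G := ↥H) 2 (n := 10) (by rw [show (2 : ℕ) ^ 10 = 1024 by norm_num]; exact h1024)
  set P₂ : Subgroup (Equiv.Perm X) := Q.map H.subtype with hP₂
  have hP₂H : P₂ ≤ H := by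
    rintro _ ⟨g, -, rfl⟩
    exact g.2
  have hcP : Nat.card ↥P₂ = 2 ^ 10 := by
    rw [← hQ]
    exact (Nat.card_congr (Q.equivMapOfInjective _ H.subtype_injective).toEquiv).symm
  have hpP : IsPGroup 2 ↥P₂ := IsPGroup.of_card hcP
  let A : SubMulAction ↥P₂ (Finset X) :=
    { carrier := octads
      smul_mem' := fun g o ho => smul_mem_octads (hM (hP₂H g.2)) ho }
  have hcA : ¬ 2 ∣ Nat.card ↥A := by
    have h1 : Nat.card ↥A = octads.ncard := Nat.card_coe_set_eq octads
    rw [h1, ncard_octads_all]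
    norm_num
  obtain ⟨o₀, ho₀⟩ := hpP.nonempty_fixed_point_of_prime_not_dvd_card ↥A hcA
  refine ⟨o₀.1, o₀.2, ?_⟩
  set O := o₀.1 with hOdef
  have hO : O ∈ octads := o₀.2
  have hfix : ∀ g ∈ P₂, g • O = O := by
    intro g hg
    have h1 := ho₀ ⟨g, hg⟩
    exact congrArg Subtype.val h1
  have hfix' : ∀ g ∈ P₂, ∀ p, g p ∈ O ↔ p ∈ O := by
    intro g hg p
    have h1 := hfix g hg
    constructor
    · intro h
      have h2 : g⁻¹ • O = O := by
        conv_lhs => rw [← h1]
        exact inv_smul_smul g O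
      rw [← h2]
      exact Finset.mem_smul_finset.2 ⟨g p, h, by simp⟩
    · intro h
      rw [← h1]
      exact Finset.mem_smul_finset.2 ⟨p, h, rfl⟩
  have hEp : IsPGroup 2 ↥(FixS O) := IsPGroup.of_card (n := 4) (by rw [card_E hO]; norm_num)
  have hN : P₂ ≤ Subgroup.normalizer (↑(FixS O)) := by
    intro g hg
    have hgM : g ∈ M24 := hM (hP₂H hg)
    rw [Subgroup.mem_normalizer_iff]
    intro u
    constructor
    · rintro ⟨hu1, hu2⟩
      refine ⟨M24.mul_mem (M24.mul_mem hgM hu1) (M24.inv_mem hgM), ?_⟩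
      intro p hp
      have h1 : g⁻¹ p ∈ O := by
        rw [← hfix' g hg]
        simpa using hp
      simp only [Equiv.Perm.mul_apply]
      rw [hu2 _ h1]
      simp
    · rintro ⟨hu1, hu2⟩
      have hu : u = g⁻¹ * (g * u * g⁻¹) * g := by group
      refine ⟨?_, ?_⟩
      · rw [hu]
        exact M24.mul_mem (M24.mul_mem (M24.inv_mem hgM) hu1) hgM
      · intro p hp
        have h1 : g p ∈ O := (hfix' g hg p).2 hp
        have h2 := hu2 _ h1
        simp only [Equiv.Perm.mul_apply] at h2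
        rw [inv_app] at h2
        exact g.injective h2
  have hsup := IsPGroup.to_sup_of_normal_right' hpP hEp hN
  obtain ⟨n, hn⟩ := hsup.exists_card_eq
  have hcS : Nat.card ↥((MulAction.stabilizer M24 O).map M24.subtype) = 322560 := by
    rw [← card_stab_octad hO]
    exact (Nat.card_congr ((MulAction.stabilizer M24 O).equivMapOfInjective _ M24.subtype_injective).toEquiv).symm
  have hle : P₂ ⊔ FixS O ≤ (MulAction.stabilizer M24 O).map M24.subtype := by
    apply sup_le
    · intro g hg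
      exact ⟨⟨g, hM (hP₂H hg)⟩, hfix g hg, rfl⟩
    · intro u hu
      refine ⟨⟨u, hu.1⟩, ?_, rfl⟩
      exact smul_of_stable (fun y => by
        constructor
        · intro hy
          have h1 := hu.2 _ hy
          have h3 : u y = y := u.injective h1
          rwa [h3] at hy
        · intro hy
          rwa [hu.2 y hy])
  have hdvd := Subgroup.card_dvd_of_le hle
  rw [hn, hcS] at hdvd
  have hn10 : n ≤ 10 := by
    by_contra hcon
    have h11 : 2 ^ 11 ∣ 2 ^ n := pow_dvd_pow 2 (by omega)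
    have := h11.trans hdvd
    norm_num at this
  have heq : P₂ = P₂ ⊔ FixS O := by
    apply Subgroup.eq_of_le_of_card_ge le_sup_left
    rw [hn, hcP]
    exact Nat.pow_le_pow_right (by norm_num) hn10
  have hsubE : FixS O ≤ P₂ := by
    rw [heq]
    exact le_sup_right
  exact hsubE.trans hP₂H

/-- Six fixed points cut down the order. -/
theorem fix6_lt {S : Subgroup (Equiv.Perm X)} (hS : S ≤ M24) (Z : Finset X) (hZ : Z.card = 6)
    (hfix : ∀ s ∈ S, ∀ p ∈ Z, s p = p) : Nat.card S < 48 := by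
  classical
  have hne : Z.Nonempty := by
    rw [← Finset.card_pos, hZ]
    norm_num
  obtain ⟨y, hy⟩ := hne
  have hc5 : (Z.erase y).card = 5 := by
    rw [Finset.card_erase_of_mem hy, hZ]
  let e := (Z.erase y).equivFinOfCardEq hc5
  let x : Fin 5 → X := fun i => (e.symm i : X)
  have hxinj : Function.Injective x := fun i j hij => e.symm.injective (Subtype.ext hij)
  have hxZ : ∀ i, x i ∈ Z := fun i => Finset.mem_of_mem_erase (e.symm i).2
  have hxy : ∀ i, x i ≠ y := fun i => Finset.ne_of_mem_erase (e.symm i).2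
  obtain ⟨k, hk, hki⟩ := exists_to_base hxinj
  have hle : S.map (MulAut.conj k).toMonoidHom ≤ fixG [3, 2, 1, 0, 23] := by
    rintro _ ⟨s, hs, rfl⟩
    refine ⟨M24.mul_mem (M24.mul_mem hk (hS hs)) (M24.inv_mem hk), ?_⟩
    have hfi : ∀ i, (k * s * k⁻¹) (b5 i) = b5 i := by
      intro i
      rw [← hki i]
      simp [Equiv.Perm.mul_apply, hfix s hs _ (hxZ i)]
    intro i hi
    simp only [List.mem_cons, List.not_mem_nil, or_false] at hi
    rcases hi with rfl | rfl | rfl | rfl | rfl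
    · exact hfi 4
    · exact hfi 3
    · exact hfi 2
    · exact hfi 1
    · exact hfi 0
  have hdvd := Subgroup.card_dvd_of_le hle
  rw [card_fix5, card_map_conj] at hdvd
  have hle48 := Nat.le_of_dvd (by norm_num) hdvd
  by_contra hcon
  have hc48 : Nat.card S = 48 := by omega
  have heq : S.map (MulAut.conj k).toMonoidHom = fixG [3, 2, 1, 0, 23] :=
    Subgroup.eq_of_le_of_card_ge hle (by rw [card_fix5, card_map_conj, hc48])
  have hky : ∀ i, k y ≠ b5 i := by
    intro i h
    rw [← hki i] at h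
    exact hxy i (k.injective h).symm
  obtain ⟨j, hj, hjy⟩ := mem_nonBaseL (p := k y) (hky 4) (hky 3) (hky 2) (hky 1) (hky 0)
  obtain ⟨c, hc, h2⟩ := List.any_eq_true.1 (allL_spec move_check j hj)
  rw [Bool.and_eq_true] at h2
  have hl : ∀ i ∈ [3, 2, 1, 0, 23], i < 24 := by decide
  have hmem : P c ∈ S.map (MulAut.conj k).toMonoidHom := by
    rw [heq]
    exact P_mem_fixG hl h2.1
  obtain ⟨s, hs, hse⟩ := hmem
  have hok := isM24_permOK (isFix_isM24 h2.1)
  have hlnb : ∀ i ∈ nonBaseL, i < 24 := by decide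
  have hj24 : j < 24 := hlnb j hj
  have h3 : P c (k y) = k y := by
    rw [← hse]
    simp [MulAut.conj_apply, Equiv.Perm.mul_apply, hfix s hs y hy]
  rw [hjy, P_pt hok hj24] at h3
  have h4 := congrArg idx h3
  rw [idx_pt' (pa_lt hok hj24), idx_pt' hj24] at h4
  have h5 := h2.2
  rw [h4] at h5
  simp at h5

theorem kernel_exists {K : Subgroup (Equiv.Perm X)} (T : Finset X) (hS : ∀ h ∈ K, ∀ y, h y ∈ T ↔ y ∈ T) :
    ∃ K0 : Subgroup (Equiv.Perm X), K0 ≤ K ∧ (∀ u ∈ K0, ∀ p ∈ T, u p = p) ∧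
      Nat.card K ≤ Nat.card K0 * T.card.factorial := by
  classical
  let f := resHom T hS
  refine ⟨f.ker.map K.subtype, ?_, ?_, ?_⟩
  · rintro _ ⟨g, -, rfl⟩
    exact g.2
  · rintro _ ⟨g, hg, rfl⟩ p hp
    have h1 : f g = 1 := hg
    have h2 := congrArg (fun σ : Equiv.Perm ↥T => ((σ ⟨p, hp⟩ : ↥T) : X)) h1
    exact h2
  · have h1 : Nat.card ↥(f.ker.map K.subtype) = Nat.card f.ker :=
      (Nat.card_congr (f.ker.equivMapOfInjective _ K.subtype_injective).toEquiv).symm
    rw [h1]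
    have h2 := Subgroup.card_mul_index f.ker
    rw [Subgroup.index_ker] at h2
    have h3 : Nat.card f.range ≤ T.card.factorial := by
      have h4 := Subgroup.card_le_card_group f.range
      rwa [Nat.card_eq_fintype_card (α := Equiv.Perm ↥T), Fintype.card_perm, Fintype.card_coe] at h4
    rw [← h2]
    exact Nat.mul_le_mul_left _ h3

/-- Five points lie on an octad. -/
theorem exists_octad_sup (T : Finset X) (y : X) (hT : T.card = 4) (hy : y ∉ T) : ∃ O ∈ octads, T ⊆ O ∧ y ∈ O := by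
  classical
  have hc : (insert y T).card = 5 := by
    rw [Finset.card_insert_of_notMem hy, hT]
  obtain ⟨g, hg, e⟩ := exists_smul_base5 hc
  have base5_sub : ({pt 23, pt 0, pt 1, pt 2, pt 3} : Finset GolayPt) ⊆ fs O0 := by decide +kernel
  refine ⟨g • fs O0, smul_mem_octads hg fs_O0_octad, ?_, ?_⟩
  · intro p hp
    have h1 : p ∈ insert y T := Finset.mem_insert_of_mem hp
    rw [← e] at h1
    obtain ⟨q, hq, rfl⟩ := Finset.mem_smul_finset.1 h1
    exact Finset.mem_smul_finset.2 ⟨q, base5_sub hq, rfl⟩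
  · have h1 : y ∈ insert y T := Finset.mem_insert_self _ _
    rw [← e] at h1
    obtain ⟨q, hq, rfl⟩ := Finset.mem_smul_finset.1 h1
    exact Finset.mem_smul_finset.2 ⟨q, base5_sub hq, rfl⟩

end Cfsg.Agent.H27.M22
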