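import Mathlib
import Cfsg.Agent.Lib.H27.M24D

/-!
# Subgroups of index 1771 of the group of the code
-/

set_option autoImplicit false
set_option maxRecDepth 100000

namespace Cfsg.Agent.H27.M22

open Cfsg Cfsg.Agent.H27.Golay Cfsg.Agent.H07.Orb
open scoped Pointwise

variable {H : Subgroup (Equiv.Perm X)}

theorem exists_partner (hM : H ≤ M24) (htr : ∀ a b : X, ∃ h ∈ H, h a = b) {x₀ a : X} (ha : a ≠ x₀)
    (hfix : ∀ h ∈ Kp H x₀, h a = a) (h20160 : ¬ Nat.card ↥(Kp H x₀) ∣ 20160) :
    ∃ π : X → X, (∀ y, π y ≠ y) ∧ (∀ y, ∀ h ∈ H, h y = y → h (π y) = π y) ∧ (∀ y, π (π y) = y) ∧ π x₀ = a := by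
  classical
  have hcardK : ∀ y, Nat.card ↥(Kp H y) = Nat.card ↥(Kp H x₀) := by
    intro y
    have h1 := card_Kp_of_trans htr y
    have h2 := card_Kp_of_trans htr x₀
    omega
  have hπ : ∀ y, ∃ z, z ≠ y ∧ ∀ h ∈ H, h y = y → h z = z := by
    intro y
    obtain ⟨g, hg, rfl⟩ := htr x₀ y
    refine ⟨g a, fun e => ha (g.injective e), ?_⟩
    intro h hh hy
    have h1 : g⁻¹ * h * g ∈ Kp H x₀ := by
      refine ⟨H.mul_mem (H.mul_mem (H.inv_mem hg) hh) hg, ?_⟩
      show (g⁻¹ * h * g) x₀ = x₀
      rw [Equiv.Perm.mul_apply, Equiv.Perm.mul_apply, hy]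
      simp
    have h2 := hfix _ h1
    rw [Equiv.Perm.mul_apply, Equiv.Perm.mul_apply, Equiv.Perm.inv_eq_iff_eq] at h2
    exact h2
  choose π hπ1 hπ2 using hπ
  have huniq : ∀ y z, z ≠ y → (∀ h ∈ H, h y = y → h z = z) → z = π y := by
    intro y z hz hz2
    by_contra hne
    apply h20160
    rw [← hcardK y]
    refine card_dvd_20160 (a := y) (b := z) (c := π y) (inf_le_left.trans hM) hz.symm (hπ1 y).symm hne ?_
    intro s hs
    exact ⟨hs.2, hz2 s hs.1 hs.2, hπ2 y s hs.1 hs.2⟩
  have hinv : ∀ y, π (π y) = y := by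
    intro y
    symm
    apply huniq (π y) y (hπ1 y).symm
    have hle : Kp H y ≤ Kp H (π y) := by
      intro h hh
      exact ⟨hh.1, hπ2 y h hh.1 hh.2⟩
    have heq := Subgroup.eq_of_le_of_card_ge hle (by rw [hcardK y, hcardK (π y)])
    intro h hh e
    have : h ∈ Kp H y := by
      rw [heq]
      exact ⟨hh, e⟩
    exact this.2
  refine ⟨π, hπ1, hπ2, hinv, ?_⟩
  symm
  apply huniq x₀ a ha
  intro h hh e
  exact hfix h ⟨hh, e⟩

theorem num_1771 : ∀ L, L < 25 → 0 < L → L ∣ 138240 → 138240 / L ∣ 10200960 → L = 24 := by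
  decide

theorem num_L1 : ∀ L, L < 24 → 16 ≤ L → L ∣ 5760 → L = 16 ∨ L = 18 ∨ L = 20 := by
  decide

/-- Index 1771: the orbit structure of a point stabiliser. -/
theorem split_1771 (hM : H ≤ M24) (hc : Nat.card H = 138240) (htr : ∀ a b : X, ∃ h ∈ H, h a = b) {O : Finset X}
    (hO : O ∈ octads) (hEH : FixS O ≤ H) {c : X} (hcO : c ∈ O) : Split (Kp H c) c 3 20 := by
  classical
  haveI f5 : Fact (Nat.Prime 5) := ⟨by norm_num⟩
  obtain ⟨z₀, hz₀⟩ := exists_notMem_octad hO
  have hK := card_Kp_of_trans htr c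
  rw [hc] at hK
  have hK' : Nat.card ↥(Kp H c) = 5760 := by omega
  set K := Kp H c with hKd
  have hKM : K ≤ M24 := inf_le_left.trans hM
  have hxK : ∀ h ∈ K, h c = c := fun h hh => hh.2
  have hz₀c : z₀ ≠ c := by
    rintro rfl
    exact hz₀ hcO
  have hEK : ∀ w, w ∉ O → w ∈ W K z₀ := by
    intro w hw
    obtain ⟨u, hu, e⟩ := E_trans hO hz₀ hw
    exact mem_W.2 ⟨u, ⟨hEH hu, hu.2 c hcO⟩, e⟩
  have hL1ge : 16 ≤ (W K z₀).card := by
    have h1 : Finset.univ \ O ⊆ W K z₀ := by
      intro w hw
      exact hEK w (Finset.mem_sdiff.1 hw).2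
    have h2 := Finset.card_le_card h1
    rwa [Finset.card_sdiff_of_subset (Finset.subset_univ _), Finset.card_univ, card_X, octad_card hO] at h2
  have hsub : ∀ a, a ≠ c → W K a ⊆ Finset.univ.erase c := fun a ha => W_univ_sub hxK ha
  have hcu : ((Finset.univ : Finset X).erase c).card = 23 := by
    rw [Finset.card_erase_of_mem (Finset.mem_univ _), Finset.card_univ, card_X]
  have hle : ∀ a, a ≠ c → (W K a).card ≤ 23 := by
    intro a ha
    have := Finset.card_le_card (hsub a ha)
    rwa [hcu] at this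
  have hdv : ∀ a, (W K a).card ∣ 5760 := by
    intro a
    rw [← hK']
    exact W_dvd a
  have hL1 := num_L1 _ (Nat.lt_succ_of_le (hle z₀ hz₀c)) hL1ge (hdv z₀)
  set R := (Finset.univ.erase c) \ W K z₀ with hR
  have hmemR : ∀ y, y ∈ R ↔ y ≠ c ∧ y ∉ W K z₀ := by
    intro y
    simp [hR]
  have hcR : R.card + (W K z₀).card = 23 := by
    rw [hR, Finset.card_sdiff_of_subset (hsub z₀ hz₀c), hcu]
    have := hle z₀ hz₀c
    omega
  have hWR : ∀ r ∈ R, W K r ⊆ R := by
    intro r hr y hy
    obtain ⟨h1, h2⟩ := (hmemR r).1 hr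
    have hd := W_disj (H := K) h2
    exact (hmemR y).2 ⟨fun e => W_x hxK h1 (e ▸ hy), Finset.disjoint_right.1 hd hy⟩
  have hRst : ∀ h ∈ K, ∀ y, y ∈ R → h y ∈ R := by
    intro h hh y hy
    obtain ⟨h1, h2⟩ := (hmemR y).1 hy
    refine (hmemR _).2 ⟨?_, fun e => h2 ((W_iff z₀ hh y).1 e)⟩
    intro e
    exact h1 (h.injective (e.trans (hxK h hh).symm))
  -- an element of order 5
  obtain ⟨t, ht, hot⟩ := exists_elt (K := K) 5 (by rw [hK']; norm_num)
  have ht5 : t ^ 5 = 1 := by
    rw [← hot]
    exact pow_orderOf_eq_one t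
  have hFt : (Finset.univ.filter fun p => t p = p).card = 4 := by
    obtain ⟨h1, h2⟩ := fix_card_of_prime (hKM ht) hot (by norm_num)
    unfold Nat.ModEq at h2
    omega
  have htc : t c = c := hxK t ht
  have hsplitF : (Finset.univ.filter fun p => t p = p).erase c =
      ((W K z₀).filter fun y => t y = y) ∪ (R.filter fun y => t y = y) := by
    ext y
    simp only [Finset.mem_erase, Finset.mem_filter, Finset.mem_univ, true_and, Finset.mem_union, hmemR]
    constructor
    · rintro ⟨h1, h2⟩
      by_cases h3 : y ∈ W K z₀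
      · exact Or.inl ⟨h3, h2⟩
      · exact Or.inr ⟨⟨h1, h3⟩, h2⟩
    · rintro (⟨h1, h2⟩ | ⟨⟨h1, -⟩, h2⟩)
      · refine ⟨?_, h2⟩
        rintro rfl
        exact W_x hxK hz₀c h1
      · exact ⟨h1, h2⟩
  have hFsum : ((W K z₀).filter fun y => t y = y).card + (R.filter fun y => t y = y).card = 3 := by
    have hd : Disjoint ((W K z₀).filter fun y => t y = y) (R.filter fun y => t y = y) := by
      apply Finset.disjoint_filter_filter
      rw [Finset.disjoint_left]
      intro y hy hy2
      exact ((hmemR y).1 hy2).2 hy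
    rw [← Finset.card_union_of_disjoint hd, ← hsplitF, Finset.card_erase_of_mem (mem_filter_fix.2 htc), hFt]
  have hmW := W_mod 5 ht ht5 z₀
  have hmR : (R.filter fun y => t y = y).card ≡ R.card [MOD 5] :=
    orb_modEq' (G := Equiv.Perm X) 5 t ht5 R (fun y hy => hRst t ht y hy)
  unfold Nat.ModEq at hmW hmR
  have hFle : ∀ r ∈ R, ((W K r).filter fun y => t y = y).card ≤ (R.filter fun y => t y = y).card := by
    intro r hr
    exact Finset.card_le_card (Finset.filter_subset_filter _ (hWR r hr))
  have hWle : ∀ r ∈ R, (W K r).card ≤ R.card := fun r hr => Finset.card_le_card (hWR r hr)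
  have hrc : ∀ r ∈ R, r ≠ c := fun r hr => ((hmemR r).1 hr).1
  have no5 : ∀ r, r ≠ c → (W K r).card ≠ 5 := by
    intro r hr h5
    obtain ⟨K0, hK0, hfix, hcard⟩ := kernel_exists (K := K) (W K r) (W_stable_iff r)
    rw [h5, hK'] at hcard
    have hcW : c ∉ W K r := W_x hxK hr
    have h6 := fix6_lt (hK0.trans hKM) (insert c (W K r))
      (by rw [Finset.card_insert_of_notMem hcW, h5]) (by
        intro s hs p hp
        rcases Finset.mem_insert.1 hp with rfl | hp
        · exact hxK s (hK0 hs)
        · exact hfix s hs p hp)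
    have h7 : Nat.factorial 5 = 120 := rfl
    rw [h7] at hcard
    omega
  have hmr : ∀ r, ((W K r).filter fun y => t y = y).card % 5 = (W K r).card % 5 := fun r => W_mod 5 ht ht5 r
  rcases hL1 with h16 | h18 | h20
  · -- sixteen
    exfalso
    rw [h16] at hmW hcR
    have hR7 : R.card = 7 := by omega
    rw [hR7] at hmR
    have hFR : (R.filter fun y => t y = y).card = 2 := by omega
    obtain ⟨r, hr, hrt⟩ : ∃ r ∈ R, t r ≠ r := by
      by_contra hcon
      push Not at hcon
      have h1 : R.filter (fun y => t y = y) = R := Finset.filter_true_of_mem hcon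
      rw [h1] at hFR
      omega
    have hr1 := hFle r hr
    rw [hFR] at hr1
    have hr2 := hmr r
    have hr3 := hWle r hr
    rw [hR7] at hr3
    have hr4 := no5 r (hrc r hr)
    have hr5 := hdv r
    have hr6 : 0 < (W K r).card := W_card_pos r
    have hr7 : ((W K r).filter fun y => t y = y).card < (W K r).card := by
      apply Finset.card_lt_card
      refine ⟨Finset.filter_subset _ _, fun h => ?_⟩
      exact hrt (Finset.mem_filter.1 (h (self_W r))).2
    have hL6 : (W K r).card = 6 := by
      have h7 : (W K r).card ≠ 7 := by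
        intro h
        rw [h] at hr5
        norm_num at hr5
      have hc : (W K r).card = 1 ∨ (W K r).card = 2 ∨ (W K r).card = 3 ∨ (W K r).card = 4 ∨ (W K r).card = 6 := by
        omega
      rcases hc with h | h | h | h | h
      · rw [h] at hr2 hr7
        omega
      · rw [h] at hr2 hr7
        omega
      · rw [h] at hr2
        omega
      · rw [h] at hr2
        omega
      · exact h
    have hsd : (R \ W K r).card = 1 := by
      rw [Finset.card_sdiff_of_subset (hWR r hr), hR7, hL6]
    obtain ⟨a, ha⟩ := Finset.card_eq_one.1 hsd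
    have haR : a ∈ R \ W K r := by
      rw [ha]
      exact Finset.mem_singleton_self a
    obtain ⟨haR1, haR2⟩ := Finset.mem_sdiff.1 haR
    have hWa : (W K a).card = 1 := by
      have hsub2 : W K a ⊆ R \ W K r := by
        intro y hy
        refine Finset.mem_sdiff.2 ⟨hWR a haR1 hy, ?_⟩
        intro hy2
        apply haR2
        have h1 := W_eq hy
        have h2 := W_eq hy2
        rw [← h2, h1]
        exact self_W a
      have h1 := Finset.card_le_card hsub2
      rw [hsd] at h1
      have h2 : 0 < (W K a).card := W_card_pos a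
      omega
    have haK := W_fixed_of_card hWa
    have hac : a ≠ c := hrc a haR1
    obtain ⟨π, hπ1, hπ2, hπ3, hπ4⟩ := exists_partner hM htr hac haK (by rw [hK']; norm_num)
    have haz : a ≠ z₀ := by
      rintro rfl
      exact ((hmemR a).1 haR1).2 (self_W a)
    have h360 := W_card_mul (H := K) z₀
    rw [h16, hK'] at h360
    have hK360 : Nat.card ↥(K ⊓ MulAction.stabilizer (Equiv.Perm X) z₀) = 360 := by omega
    have hdv960 := card_dvd_960 (S := K ⊓ MulAction.stabilizer (Equiv.Perm X) z₀) (a := c) (b := a) (c := z₀)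
      (d := π z₀) (inf_le_left.trans hKM) hac.symm hz₀c.symm
      (by
        intro e
        apply haz
        have h1 := congrArg π e
        rw [hπ3, hπ4] at h1
        exact h1)
      haz
      (by
        intro e
        have h1 := congrArg π e
        rw [hπ3, ← hπ4, hπ3] at h1
        exact hz₀c h1.symm)
      (hπ1 z₀).symm
      (by
        intro s hs
        have hsH : s ∈ H := hs.1.1
        have hsz : s z₀ = z₀ := hs.2
        exact ⟨hxK s hs.1, haK s hs.1, hsz, hπ2 z₀ s hsH hsz⟩)
    rw [hK360] at hdv960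
    norm_num at hdv960
  · -- eighteen
    exfalso
    rw [h18] at hmW hcR
    have hR5 : R.card = 5 := by omega
    rw [hR5] at hmR
    have hFR : (R.filter fun y => t y = y).card = 0 := by omega
    obtain ⟨r, hr⟩ : R.Nonempty := by
      rw [← Finset.card_pos]
      omega
    have hr1 := hFle r hr
    rw [hFR] at hr1
    have hr2 := hmr r
    have hr3 := hWle r hr
    rw [hR5] at hr3
    have hr4 := no5 r (hrc r hr)
    have hr6 : 0 < (W K r).card := W_card_pos r
    omega
  · -- twenty
    rw [h20] at hcR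
    have hR3 : R.card = 3 := by omega
    obtain ⟨a, b, d, hab, had, hbd, hRe⟩ := Finset.card_eq_three.1 hR3
    have haR : a ∈ R := by
      rw [hRe]
      simp
    have hbR : b ∈ R := by
      rw [hRe]
      simp
    have hdR : d ∈ R := by
      rw [hRe]
      simp
    have hWa3 : (W K a).card = 3 := by
      by_contra hne
      have h1 := hWle a haR
      rw [hR3] at h1
      have h2 : (W K a).card ≤ 2 := by omega
      have h3 := W_card_mul (H := K) a
      rw [hK'] at h3
      set Ka := K ⊓ MulAction.stabilizer (Equiv.Perm X) a with hKa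
      have hKa0 : 2880 ≤ Nat.card ↥Ka := by
        by_contra hcon
        have h4 : Nat.card ↥Ka * (W K a).card ≤ 2879 * 2 := Nat.mul_le_mul (by omega) h2
        omega
      have hsubb : W Ka b ⊆ {b, d} := by
        intro y hy
        obtain ⟨u, hu, rfl⟩ := mem_W.1 hy
        have h4 : u b ∈ R := hRst u hu.1 b hbR
        rw [hRe] at h4
        simp only [Finset.mem_insert, Finset.mem_singleton] at h4 ⊢
        rcases h4 with h4 | h4 | h4
        · exfalso
          have hua : u a = a := hu.2
          exact hab (u.injective (hua.trans h4.symm))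
        · exact Or.inl h4
        · exact Or.inr h4
      have hWb : (W Ka b).card ≤ 2 := by
        have := Finset.card_le_card hsubb
        rwa [Finset.card_pair hbd] at this
      have h5 := W_card_mul (H := Ka) b
      set Kab := Ka ⊓ MulAction.stabilizer (Equiv.Perm X) b with hKab
      have hKab0 : 1440 ≤ Nat.card ↥Kab := by
        by_contra hcon
        have h6 : Nat.card ↥Kab * (W Ka b).card ≤ 1439 * 2 := Nat.mul_le_mul (by omega) hWb
        omega
      have hfx : ∀ s ∈ Kab, s c = c ∧ s a = a ∧ s b = b ∧ s d = d := by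
        intro s hs
        have hsK : s ∈ K := hs.1.1
        have hsa : s a = a := hs.1.2
        have hsb : s b = b := hs.2
        refine ⟨hxK s hsK, hsa, hsb, ?_⟩
        have h6 : s d ∈ R := hRst s hsK d hdR
        rw [hRe] at h6
        simp only [Finset.mem_insert, Finset.mem_singleton] at h6
        rcases h6 with h6 | h6 | h6
        · exact absurd (s.injective (h6.trans hsa.symm)) had.symm
        · exact absurd (s.injective (h6.trans hsb.symm)) hbd.symm
        · exact h6
      have hd960 := card_dvd_960 (S := Kab) (a := c) (b := a) (c := b) (d := d)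
        ((inf_le_left.trans inf_le_left).trans hKM) (hrc a haR).symm (hrc b hbR).symm (hrc d hdR).symm
        hab had hbd hfx
      have := Nat.le_of_dvd (by norm_num) hd960
      omega
    have hWaR : W K a = R := Finset.eq_of_subset_of_card_le (hWR a haR) (by rw [hR3, hWa3])
    refine ⟨a, hrc a haR, hWa3, ?_⟩
    have hinW : ∀ y, y ≠ c → y ∉ W K a → y ∈ W K z₀ := by
      intro y h1 h2
      by_contra h3
      apply h2
      rw [hWaR]
      exact (hmemR y).2 ⟨h1, h3⟩
    intro y h1 h2
    have h3 := hinW y h1 h2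
    rw [W_eq h3]
    refine ⟨h20, ?_⟩
    intro e h4 h5
    exact hinW e h4 h5

/-- Index 1771. -/
theorem case_1771 (hM : H ≤ M24) (hc : Nat.card H = 138240) : ∃ S ∈ sextets, ∀ h ∈ H, ∀ o ∈ S, h • o ∈ S := by
  classical
  have hW : ∀ a, (W H a).card = 24 := by
    intro a
    obtain ⟨h1, h2⟩ := W_facts hM a
    rw [hc] at h1 h2
    exact num_1771 _ (Nat.lt_succ_of_le (W_card_le a)) (W_card_pos a) h1 h2
  have htr := trans_of_card hW
  obtain ⟨O, hO, hEH⟩ := exists_octad_E hM (by rw [hc]; norm_num)
  obtain ⟨c, hcO⟩ : O.Nonempty := by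
    rw [← Finset.card_pos, octad_card hO]
    norm_num
  have hsp := split_1771 hM hc htr hO hEH hcO
  obtain ⟨B, hB⟩ := exists_blocks htr (k := 3) (l := 20) (by norm_num) (by norm_num) (by norm_num)
    (by intro lam mu h; omega) hsp
  have hK := card_Kp_of_trans htr c
  rw [hc] at hK
  have hK' : Nat.card ↥(Kp H c) = 5760 := by omega
  have hT'st : ∀ h ∈ Kp H c, ∀ y, h y ∈ (B c).erase c ↔ y ∈ (B c).erase c := by
    intro h hh y
    have hya : h y = c ↔ y = c := by
      constructor
      · intro e
        exact h.injective (e.trans hh.2.symm)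
      · rintro rfl
        exact hh.2
    rw [Finset.mem_erase, Finset.mem_erase, hB.stable hh.1 hh.2 y, Ne, Ne, hya]
  have hT'c : ((B c).erase c).card = 3 := by
    rw [Finset.card_erase_of_mem (hB.self c), hB.card]
  obtain ⟨K0, hK0, hfix, hcard⟩ := kernel_exists (K := Kp H c) ((B c).erase c) hT'st
  rw [hT'c, hK'] at hcard
  have h6 : Nat.factorial 3 = 6 := rfl
  rw [h6] at hcard
  have hK0le : K0 ≤ FixS (B c) := by
    intro u hu
    refine ⟨hM (hK0 hu).1, ?_⟩
    intro p hp
    by_cases hpc : p = c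
    · rw [hpc]
      exact (hK0 hu).2
    · exact hfix u hu p (Finset.mem_erase.2 ⟨hpc, hp⟩)
  have hF960 : Nat.card ↥(FixS (B c)) ≤ 960 := by
    obtain ⟨p, q, r, hpq, hpr, hqr, he⟩ := Finset.card_eq_three.1 hT'c
    have hm : ∀ y ∈ ({p, q, r} : Finset X), y ≠ c ∧ y ∈ B c := by
      intro y hy
      rw [← he] at hy
      exact Finset.mem_erase.1 hy
    have hp := hm p (by simp)
    have hq := hm q (by simp)
    have hr := hm r (by simp)
    have := card_dvd_960 (S := FixS (B c)) (a := c) (b := p) (c := q) (d := r) (fun u hu => hu.1)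
      hp.1.symm hq.1.symm hr.1.symm hpq hpr hqr
      (fun s hs => ⟨hs.2 c (hB.self c), hs.2 p hp.2, hs.2 q hq.2, hs.2 r hr.2⟩)
    exact Nat.le_of_dvd (by norm_num) this
  have hK0eq : K0 = FixS (B c) := Subgroup.eq_of_le_of_card_ge hK0le (by omega)
  have hFT : FixS (B c) ≤ H := by
    rw [← hK0eq]
    exact hK0.trans inf_le_left
  have key : ∀ y, y ∉ B c → B c ∪ B y ∈ octads := by
    intro y hy
    obtain ⟨O', hO', hTO', hyO'⟩ := exists_octad_sup (B c) y (hB.card c) hy
    have hsubO : B y ⊆ O' := by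
      intro z hz
      by_contra hzO
      have hall : Finset.univ \ O' ⊆ B y := by
        intro w hw
        obtain ⟨u, hu, e⟩ := E_trans hO' hzO (Finset.mem_sdiff.1 hw).2
        have huH : u ∈ H := hFT ⟨hu.1, fun p hp => hu.2 p (hTO' hp)⟩
        have huy : u y = y := hu.2 y hyO'
        rw [← e]
        exact (hB.stable huH huy z).2 hz
      have h1 := Finset.card_le_card hall
      rw [Finset.card_sdiff_of_subset (Finset.subset_univ _), Finset.card_univ, card_X, octad_card hO', hB.card] at h1
      omega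
    have hu : B c ∪ B y ⊆ O' := Finset.union_subset hTO' hsubO
    have he := Finset.eq_of_subset_of_card_le hu
      (by rw [Finset.card_union_of_disjoint (hB.disj hy), hB.card, hB.card, octad_card hO'])
    rw [he]
    exact hO'
  have hkey : ∀ a y, y ∉ B a → B a ∪ B y ∈ octads := by
    intro a y hy
    obtain ⟨g, hg, rfl⟩ := htr c a
    have hy' : g⁻¹ y ∉ B c := by
      intro h
      apply hy
      have := hB.equi g hg c _ h
      simpa using this
    have h1 := smul_mem_octads (hM hg) (key _ hy')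
    rw [Finset.smul_finset_union, hB.smul_eq hg, hB.smul_eq hg] at h1
    simpa using h1
  let S : Finset (Finset X) := Finset.univ.image B
  have hmemS : ∀ o, o ∈ S ↔ ∃ a, B a = o := by
    intro o
    simp [S]
  have hpd : (↑S : Set (Finset X)).PairwiseDisjoint id := by
    intro t ht u hu htu
    obtain ⟨a, rfl⟩ := (hmemS t).1 ht
    obtain ⟨b, rfl⟩ := (hmemS u).1 hu
    have hb : b ∉ B a := by
      intro h
      exact htu (hB.eq a b h).symm
    exact hB.disj hb
  have hbi : S.biUnion id = Finset.univ := by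
    ext p
    simp only [Finset.mem_biUnion, id, Finset.mem_univ, iff_true]
    exact ⟨B p, (hmemS _).2 ⟨p, rfl⟩, hB.self p⟩
  have hScard : S.card = 6 := by
    have h1 := Finset.card_biUnion hpd
    rw [hbi, Finset.card_univ, card_X] at h1
    have h2 : ∑ u ∈ S, (id u : Finset X).card = S.card * 4 := by
      rw [Finset.sum_const_nat]
      intro t ht
      obtain ⟨a, rfl⟩ := (hmemS t).1 ht
      exact hB.card a
    rw [h2] at h1
    omega
  refine ⟨S, ⟨hScard, ?_, ?_⟩, ?_⟩
  · intro t ht
    obtain ⟨a, rfl⟩ := (hmemS t).1 ht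
    exact hB.card a
  · intro t ht u hu htu
    obtain ⟨a, rfl⟩ := (hmemS t).1 ht
    obtain ⟨b, rfl⟩ := (hmemS u).1 hu
    apply hkey
    intro h
    exact htu (hB.eq a b h).symm
  · intro h hh o ho
    obtain ⟨a, rfl⟩ := (hmemS o).1 ho
    rw [hB.smul_eq hh]
    exact (hmemS _).2 ⟨_, rfl⟩

theorem main_m24 :
    (∀ H : Subgroup ↥M24, H.index = 759 → ∃ o ∈ octads, H = MulAction.stabilizer M24 o) ∧
    (∀ H : Subgroup ↥M24, H.index = 276 → ∃ s : Finset X, s.card = 2 ∧ H = MulAction.stabilizer M24 s) ∧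
    (∀ H : Subgroup ↥M24, H.index = 1771 → ∃ S ∈ sextets, H = MulAction.stabilizer M24 S) ∧
    ∀ H : Subgroup ↥M24, H.index ≠ 253 := by
  have hcard : ∀ H : Subgroup ↥M24, Nat.card ↥(H.map M24.subtype) = Nat.card H := fun H =>
    (Nat.card_congr (H.equivMapOfInjective _ M24.subtype_injective).toEquiv).symm
  have hMle : ∀ H : Subgroup ↥M24, H.map M24.subtype ≤ M24 := by
    rintro H _ ⟨g, -, rfl⟩
    exact g.2
  have hidx : ∀ H : Subgroup ↥M24, Nat.card H * H.index = 244823040 := by
    intro H
    rw [Subgroup.card_mul_index, card_M24]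
  refine ⟨?_, ?_, ?_, ?_⟩
  · intro H hH
    have h1 := hidx H
    rw [hH] at h1
    have hc : Nat.card H = 322560 := by omega
    obtain ⟨o, ho, hst⟩ := case_759 (hMle H) (by rw [hcard, hc])
    refine ⟨o, ho, Subgroup.eq_of_le_of_card_ge ?_ (by rw [card_stab_octad ho, hc])⟩
    intro g hg
    exact smul_of_stable (hst _ ⟨g, hg, rfl⟩)
  · intro H hH
    have h1 := hidx H
    rw [hH] at h1
    have hc : Nat.card H = 887040 := by omega
    obtain ⟨s, hs, hst⟩ := case_276 (hMle H) (by rw [hcard, hc])
    refine ⟨s, hs, Subgroup.eq_of_le_of_card_ge ?_ (by rw [hc]; exact card_stab_duad hs)⟩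
    intro g hg
    exact smul_of_stable (hst _ ⟨g, hg, rfl⟩)
  · intro H hH
    have h1 := hidx H
    rw [hH] at h1
    have hc : Nat.card H = 138240 := by omega
    obtain ⟨S, hS, hst⟩ := case_1771 (hMle H) (by rw [hcard, hc])
    refine ⟨S, hS, Subgroup.eq_of_le_of_card_ge ?_ (by rw [card_stab_sextet hS, hc])⟩
    intro g hg
    rw [MulAction.mem_stabilizer_iff]
    apply Finset.eq_of_subset_of_card_le
    · intro o ho
      obtain ⟨o', ho', rfl⟩ := Finset.mem_smul_finset.1 ho
      exact hst _ ⟨g, hg, rfl⟩ _ ho'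
    · rw [Finset.card_smul_finset]
  · intro H hH
    have h1 := hidx H
    rw [hH] at h1
    have hc : Nat.card H = 967680 := by omega
    exact no_253 (hMle H) (by rw [hcard, hc])

end Cfsg.Agent.H27.M22
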