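import Cfsg.Agent.Lib.H01.OmEven2
import Cfsg.Agent.Lib.H09.RankAlt
/-! Fixed nonsingular points of orthogonal elements in characteristic two. -/
set_option autoImplicit false
set_option linter.unusedSimpArgs false
set_option linter.style.haveILetI false
set_option linter.unusedSectionVars false
set_option linter.unusedVariables false
namespace Cfsg.Agent.H27.OmFp
open Matrix Cfsg.Agent.Lead.Ortho Cfsg.Agent.Lead.Omega Cfsg.Agent.H01.Om

variable {F : Type*} [Field F] [Fintype F] {ι : Type} [Fintype ι] [DecidableEq ι]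
variable {Q : (ι → F) → F} {B : (ι → F) → (ι → F) → F}

lemma one_of_sq (h2 : (2 : F) = 0) {c : F} (hc : c ^ 2 = 1) : c = 1 := by
  have e3 : (c - 1) ^ 2 = 0 := by
    have : (c - 1) ^ 2 = c ^ 2 - 2 * c + 1 := by ring
    rw [this, hc, h2]
    linear_combination h2
  have := pow_eq_zero_iff (two_ne_zero) |>.1 e3
  exact sub_eq_zero.1 this

lemma exists_sqrt (h2 : (2 : F) = 0) (c : F) : ∃ d : F, d ^ 2 = c := by
  have hinj : Function.Injective (fun x : F => x ^ 2) := by
    intro a b e
    have e1 : (a - b) ^ 2 = 0 := by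
      have : (a - b) ^ 2 = a ^ 2 + b ^ 2 - 2 * (a * b) := by ring
      rw [this, h2, zero_mul, sub_zero]
      change a ^ 2 = b ^ 2 at e
      rw [e]
      linear_combination (b ^ 2) * h2
    exact sub_eq_zero.1 (pow_eq_zero_iff two_ne_zero |>.1 e1)
  exact Finite.surjective_of_injective hinj c

lemma scal_one (h : QF Q B) (h2 : (2 : F) = 0) (g : OG F Q) {v : ι → F} (hv : Q v ≠ 0) {c : F} (hc : act g v = c • v) :
    c = 1 := by
  have e1 := Q_act g v
  rw [hc, h.smul] at e1
  exact one_of_sq h2 (mul_right_cancel₀ hv (by rw [e1, one_mul]))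

lemma ne_zero_of_Q (h : QF Q B) {v : ι → F} (hv : Q v ≠ 0) : v ≠ 0 := by
  rintro rfl
  exact hv h.Q_zero

/-- a fixed nonsingular line is fixed pointwise -/
lemma fix_of_line (h : QF Q B) (h2 : (2 : F) = 0) (g : OG F Q) {W : Submodule F (ι → F)}
    (hW1 : Module.finrank F W = 1) {v : ι → F} (hvW : v ∈ W) (hv : Q v ≠ 0)
    (hm : W.map (Matrix.toLin' ((g : GL ι F) : Matrix ι ι F)) ≤ W) : act g v = v := by
  have hv0 := ne_zero_of_Q h hv
  have hne : (⟨v, hvW⟩ : W) ≠ 0 := fun e => hv0 (congrArg Subtype.val e)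
  have hsp := (finrank_eq_one_iff_of_nonzero' (⟨v, hvW⟩ : W) hne).1 hW1
  have hmem : act g v ∈ W := hm ⟨v, hvW, by
    simp [act, Matrix.toLin'_apply]⟩
  obtain ⟨c, hc⟩ := hsp ⟨act g v, hmem⟩
  have hc' : c • v = act g v := congrArg Subtype.val hc
  rw [← hc', scal_one h h2 g hv hc'.symm, one_smul]

lemma line_of_fix (g : OG F Q) {v : ι → F} (hv0 : v ≠ 0) (hv : Q v ≠ 0) (hf : act g v = v) :
    ∃ W : Submodule F (ι → F), (Module.finrank F W = 1 ∧ ∃ v ∈ W, Q v ≠ 0) ∧
      W.map (Matrix.toLin' ((g : GL ι F) : Matrix ι ι F)) ≤ W := by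
  refine ⟨Submodule.span F {v}, ⟨finrank_span_singleton hv0, v, Submodule.mem_span_singleton_self v, hv⟩, ?_⟩
  rintro _ ⟨w, hw, rfl⟩
  obtain ⟨c, rfl⟩ := Submodule.mem_span_singleton.1 hw
  have : Matrix.toLin' ((g : GL ι F) : Matrix ι ι F) (c • v) = c • act g v := by
    rw [map_smul]
    rfl
  rw [this, hf]
  exact Submodule.smul_mem _ _ (Submodule.mem_span_singleton_self v)

/-- nonsingular lines correspond to vectors of norm one -/
lemma card_lines (h : QF Q B) (h2 : (2 : F) = 0) :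
    Nat.card {W : Submodule F (ι → F) // Module.finrank F W = 1 ∧ ∃ v ∈ W, Q v ≠ 0} = cntS Q ⊤ 1 := by
  classical
  unfold cntS
  symm
  refine Nat.card_congr (Equiv.ofBijective (fun x => ⟨Submodule.span F {x.1}, ?_, x.1, Submodule.mem_span_singleton_self _, ?_⟩) ⟨?_, ?_⟩)
  · have : Q x.1 ≠ 0 := by rw [x.2.2]; exact one_ne_zero
    exact finrank_span_singleton (ne_zero_of_Q h this)
  · rw [x.2.2]; exact one_ne_zero
  · rintro ⟨x, _, hx⟩ ⟨y, _, hy⟩ e
    have e' : Submodule.span F {x} = Submodule.span F {y} := congrArg Subtype.val e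
    have hxm : x ∈ Submodule.span F {y} := by
      rw [← e']
      exact Submodule.mem_span_singleton_self x
    obtain ⟨c, hc⟩ := Submodule.mem_span_singleton.1 hxm
    have e1 : c ^ 2 = 1 := by
      have := h.smul c y
      rw [hc, hx, hy, mul_one] at this
      exact this.symm
    rw [one_of_sq h2 e1, one_smul] at hc
    exact Subtype.ext hc.symm
  · rintro ⟨W, hW, v, hvW, hv⟩
    obtain ⟨d, hd⟩ := exists_sqrt h2 (Q v)⁻¹
    have hd0 : d ≠ 0 := by
      rintro rfl
      rw [zero_pow two_ne_zero] at hd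
      exact inv_ne_zero hv hd.symm
    have hQ : Q (d • v) = 1 := by
      rw [h.smul, hd]
      exact inv_mul_cancel₀ hv
    refine ⟨⟨d • v, trivial, hQ⟩, Subtype.ext ?_⟩
    change Submodule.span F {d • v} = W
    have hv0 := ne_zero_of_Q h hv
    have hne : d • v ≠ 0 := smul_ne_zero hd0 hv0
    have hle : Submodule.span F {d • v} ≤ W := by
      rw [Submodule.span_le, Set.singleton_subset_iff]
      exact W.smul_mem d hvW
    apply Submodule.eq_of_le_of_finrank_eq hle
    rw [hW, finrank_span_singleton hne]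

/-- an isotropic subspace has at most half the dimension -/
lemma two_mul_finrank_le (h : QF Q B) (hnd : ND B (⊤ : Submodule F (ι → F))) (K : Submodule F (ι → F))
    (hK : ∀ u ∈ K, ∀ w ∈ K, B u w = 0) : 2 * Module.finrank F K ≤ Fintype.card ι := by
  classical
  let BB : LinearMap.BilinForm F (ι → F) :=
    LinearMap.mk₂ F B h.add_left (fun c x y => by simp [h.smul_left]) h.add_right (fun c x y => by simp [h.smul_right])
  have hBB : ∀ x y, BB x y = B x y := fun x y => rfl
  have hsymm : LinearMap.BilinForm.IsSymm BB := ⟨fun x y => by simp [hBB, h.symm x y]⟩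
  have hnd' : BB.Nondegenerate := by
    have hl : LinearMap.SeparatingLeft BB := by
      intro x hx
      by_contra hx0
      obtain ⟨y, -, hy⟩ := hnd x trivial hx0
      exact hy (hx y)
    refine ⟨hl, ?_⟩
    intro y hy
    by_contra hy0
    obtain ⟨x, -, hx⟩ := hnd y trivial hy0
    apply hx
    rw [h.symm]
    exact hy x
  have e1 := LinearMap.BilinForm.finrank_orthogonal hnd' K
  have hle : K ≤ BB.orthogonal K := by
    intro u hu w hw
    exact hK w hw u hu
  have e2 := Submodule.finrank_mono hle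
  have e3 : Module.finrank F (ι → F) = Fintype.card ι := Module.finrank_fintype_fun_eq_card F
  have e4 : Module.finrank F K ≤ Module.finrank F (ι → F) := Submodule.finrank_le K
  omega

/-- the element with prescribed order is in `Ω` when `Ω` has index two -/
lemma mem_omega_of_odd (hidx : Nat.card (OG F Q) = 2 * Nat.card (Cfsg.Omega F Q)) (g : OG F Q) {r : ℕ} (hr : Odd r)
    (hg : g ^ r = 1) : g ∈ Cfsg.Omega F Q := by
  have hi : (Cfsg.Omega F Q).index = 2 := by
    have e := Subgroup.index_mul_card (Cfsg.Omega F Q)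
    rw [hidx] at e
    have hpos : 0 < Nat.card (Cfsg.Omega F Q) := Nat.card_pos
    exact Nat.eq_of_mul_eq_mul_right hpos e
  obtain ⟨k, rfl⟩ := hr
  have e1 : g = ((g ^ 2) ^ k)⁻¹ := by
    rw [pow_succ, pow_mul] at hg
    exact eq_inv_of_mul_eq_one_right hg
  rw [e1]
  exact Subgroup.inv_mem _ (Subgroup.pow_mem _ (Subgroup.sq_mem_of_index_two hi g) k)

/-- turning the hypothesis of the statement into a contradiction -/
lemma no_fpf (h : QF Q B) (h2 : (2 : F) = 0) {r : ℕ}
    (H : ∀ x : GL ι F, x ∈ Cfsg.Geo.omegaGL Q →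
      (∃ z : F, ((x ^ r : GL ι F) : Matrix ι ι F) = z • (1 : Matrix ι ι F)) →
      (∀ z : F, (x : Matrix ι ι F) ≠ z • (1 : Matrix ι ι F)) →
      ∃ W : Submodule F (ι → F), (Module.finrank F ↥W = 1 ∧ ∃ v ∈ W, Q v ≠ 0) ∧ W.map (Matrix.toLin' (x : Matrix ι ι F)) ≤ W)
    {v₀ : ι → F} (hv₀ : Q v₀ ≠ 0)
    (g : OG F Q) (hgΩ : g ∈ Cfsg.Omega F Q) (hgr : g ^ r = 1) (hfp : ∀ v, act g v = v → v = 0) : False := by
  have hx : (g : GL ι F) ∈ Cfsg.Geo.omegaGL Q := ⟨g, hgΩ, rfl⟩
  obtain ⟨W, ⟨hW1, v, hvW, hv⟩, hm⟩ := H g.1 hx ⟨1, by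
      have : ((g : GL ι F) ^ r : GL ι F) = 1 := by
        have := congrArg Subtype.val hgr
        simpa using this
      rw [this]
      simp⟩ (by
      intro z hz
      have e : act g v₀ = z • v₀ := by
        unfold act
        rw [hz, Matrix.smul_mulVec, Matrix.one_mulVec]
      have e1 := scal_one h h2 g hv₀ e
      rw [e1, one_smul] at e
      exact ne_zero_of_Q h hv₀ (hfp _ e))
  have := fix_of_line h h2 g hW1 hvW hv hm
  exact ne_zero_of_Q h hv (hfp _ this)

end Cfsg.Agent.H27.OmFp
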