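import Cfsg.Agent.Lib.H27.OmFpMinus
/-! Recognising the minus type form, characteristic two. -/
set_option autoImplicit false
set_option linter.unusedSimpArgs false
set_option linter.style.haveILetI false
set_option linter.unusedSectionVars false
set_option linter.unusedVariables false
namespace Cfsg.Agent.H27.OmFp
open Matrix Cfsg.Agent.Lead.Ortho Cfsg.Agent.Lead.Omega Cfsg.Agent.H01.Om

variable {F : Type*} [Field F] [Fintype F] {ι : Type} [Fintype ι] [DecidableEq ι]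
variable {Q : (ι → F) → F} {B : (ι → F) → (ι → F) → F}

/-- a singular vector in a subspace with more than `q ^ 2` elements -/
lemma exists_sing (h : QF Q B) (h2 : (2 : F) = 0) {S : Submodule F (ι → F)} (hS : Fintype.card F ^ 2 < Nat.card S) :
    ∃ z ∈ S, z ≠ 0 ∧ Q z = 0 := by
  classical
  have h3 : 3 ≤ Module.finrank F S := by
    by_contra hlt
    have e1 : Nat.card S = Nat.card F ^ Module.finrank F S := Module.natCard_eq_pow_finrank
    rw [Nat.card_eq_fintype_card (α := F)] at e1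
    have e2 : Fintype.card F ^ Module.finrank F S ≤ Fintype.card F ^ 2 :=
      Nat.pow_le_pow_right Fintype.card_pos (by omega)
    omega
  let bS := Module.finBasis F S
  have hli : LinearIndependent F (fun i : Fin 3 => bS (Fin.castLE h3 i)) :=
    bS.linearIndependent.comp _ (Fin.castLE_injective h3)
  obtain ⟨u, v, w, hu, hv, hw, hind⟩ : ∃ u v w : ι → F, u ∈ S ∧ v ∈ S ∧ w ∈ S ∧
      ∀ α β γ : F, α • u + β • v + γ • w = 0 → α = 0 ∧ β = 0 ∧ γ = 0 := by
    refine ⟨(bS (Fin.castLE h3 0) : ι → F), (bS (Fin.castLE h3 1) : ι → F), (bS (Fin.castLE h3 2) : ι → F),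
      (bS _).2, (bS _).2, (bS _).2, ?_⟩
    intro α β γ e
    have := Fintype.linearIndependent_iff.1 hli ![α, β, γ] (by
      rw [Fin.sum_univ_three]
      apply Subtype.ext
      simpa using e)
    exact ⟨this 0, this 1, this 2⟩
  have hB0 : ∀ x, B x x = 0 := fun x => by rw [h.self, h2, zero_mul]
  have hu0 : u ≠ 0 := by
    rintro rfl
    have := hind 1 0 0 (by simp)
    exact one_ne_zero this.1
  have hv0 : v ≠ 0 := by
    rintro rfl
    have := hind 0 1 0 (by simp)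
    exact one_ne_zero this.2.1
  obtain ⟨r, y, hrS, hyS, hr0, hBy, hyr⟩ : ∃ r y : ι → F, r ∈ S ∧ y ∈ S ∧ r ≠ 0 ∧ B y r = 0 ∧ ∀ s : F, y + s • r ≠ 0 := by
    by_cases hr₀ : B v w • u + B w u • v + B u v • w = 0
    · obtain ⟨-, -, e3⟩ := hind _ _ _ hr₀
      refine ⟨u, v, hu, hv, hu0, by rw [h.symm]; exact e3, fun s e => ?_⟩
      have := hind s 1 0 (by rw [zero_smul, add_zero, one_smul, add_comm]; exact e)
      exact one_ne_zero this.2.1
    · set r₀ := B v w • u + B w u • v + B u v • w with hr₀def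
      have e5 : (2 : F) * (B w u * B u v) = 0 := by rw [h2, zero_mul]
      have e6 : (2 : F) * (B v w * B u v) = 0 := by rw [h2, zero_mul]
      have hBu : B u r₀ = 0 := by
        rw [hr₀def, h.add_right, h.add_right, h.smul_right, h.smul_right, h.smul_right, hB0, h.symm u w]
        linear_combination (1 : F) * e5
      have hBv : B v r₀ = 0 := by
        rw [hr₀def, h.add_right, h.add_right, h.smul_right, h.smul_right, h.smul_right, hB0, h.symm v u]
        linear_combination (1 : F) * e6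
      have hr₀S : r₀ ∈ S := S.add_mem (S.add_mem (S.smul_mem _ hu) (S.smul_mem _ hv)) (S.smul_mem _ hw)
      by_cases hus : ∀ s : F, u + s • r₀ ≠ 0
      · exact ⟨r₀, u, hr₀S, hu, hr₀, hBu, hus⟩
      · refine ⟨r₀, v, hr₀S, hv, hr₀, hBv, fun t ht => ?_⟩
        push Not at hus
        obtain ⟨s, hs⟩ := hus
        have e7 : t • u + (-s) • v + (0 : F) • w = 0 := by
          have : t • u + (-s) • v + (0 : F) • w = t • (u + s • r₀) - s • (v + t • r₀) := by
            simp only [smul_add, smul_smul, zero_smul, add_zero, neg_smul, sub_eq_add_neg, neg_add]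
            rw [mul_comm s t]
            abel
          rw [this, hs, ht, smul_zero, smul_zero, sub_zero]
        obtain ⟨e8, e9, -⟩ := hind _ _ _ e7
        have e10 : s = 0 := neg_eq_zero.1 e9
        rw [e10, zero_smul, add_zero] at hs
        exact hu0 hs
  by_cases hQr : Q r = 0
  · exact ⟨r, hrS, hr0, hQr⟩
  · obtain ⟨s, hs⟩ := exists_sqrt h2 (Q y * (Q r)⁻¹)
    refine ⟨y + s • r, S.add_mem hyS (S.smul_mem _ hrS), hyr s, ?_⟩
    rw [h.add, h.smul, h.smul_right, hBy, hs, mul_zero, add_zero, mul_assoc, inv_mul_cancel₀ hQr, mul_one]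
    have : (2 : F) * Q y = 0 := by rw [h2, zero_mul]
    linear_combination this

lemma card_top_eq {n : ℕ} (hι : Fintype.card ι = 2 * n + 2) :
    Nat.card (⊤ : Submodule F (ι → F)) = Fintype.card F ^ (2 * n + 2) := by
  rw [Nat.card_congr Submodule.topEquiv.toEquiv, Nat.card_eq_fintype_card, Fintype.card_fun, hι]

lemma exists_frames (h : QF Q B) (hnd : ND B (⊤ : Submodule F (ι → F))) (h2 : (2 : F) = 0) {n : ℕ}
    (hι : Fintype.card ι = 2 * n + 2) : ∀ k ≤ n, ∃ t : Fin k → (ι → F) × (ι → F), IsHF Q B t := by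
  intro k
  induction k with
  | zero =>
    intro _
    exact ⟨Fin.elim0, fun i => i.elim0⟩
  | succ k ih =>
    intro hk
    obtain ⟨t, ht⟩ := ih (by omega)
    obtain ⟨e1, -⟩ := cnt_top h ht 0
    rw [card_top_eq hι] at e1
    have hq2 : 2 ≤ Fintype.card F := Fintype.one_lt_card
    have hS : Fintype.card F ^ 2 < Nat.card (perpOf h t) := by
      by_contra hlt
      push Not at hlt
      have e2 : Fintype.card F ^ (2 * n + 2) ≤ Fintype.card F ^ (2 * k) * Fintype.card F ^ 2 := by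
        rw [e1]
        exact Nat.mul_le_mul_left _ hlt
      rw [← pow_add] at e2
      have e3 := (Nat.pow_le_pow_iff_right (by omega : 1 < Fintype.card F)).1 e2
      omega
    obtain ⟨z, hz, hz0, hQz⟩ := exists_sing h h2 hS
    obtain ⟨v, hv, hQv, hvz⟩ := exists_partner h (ND_perpOf h hnd t ht) hz hz0 hQz
    exact ⟨Fin.cons (z, v) t, (isHF_cons_iff h _ _).2 ⟨ht, hz, hv, hQz, hQv, by rw [h.symm]; exact hvz⟩⟩

lemma perp_anis (h : QF Q B) (hnd : ND B (⊤ : Submodule F (ι → F))) (h2 : (2 : F) = 0) {n : ℕ}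
    (hι : Fintype.card ι = 2 * n + 2) {t : Fin n → (ι → F) × (ι → F)} (ht : IsHF Q B t) {r : ℕ} (hr : r.Prime) (hr2 : r ≠ 2)
    (hrd : r ∣ Fintype.card F ^ (n + 1) + 1) (hfree : r ∣ cntS Q ⊤ 1) :
    ∀ w ∈ perpOf h t, Q w = 0 → w = 0 := by
  classical
  intro z hz hQz
  by_contra hz0
  obtain ⟨v, hv, hQv, hvz⟩ := exists_partner h (ND_perpOf h hnd t ht) hz hz0 hQz
  have ht' : IsHF Q B (Fin.cons (z, v) t : Fin (n + 1) → (ι → F) × (ι → F)) :=
    (isHF_cons_iff h _ _).2 ⟨ht, hz, hv, hQz, hQv, by rw [h.symm]; exact hvz⟩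
  obtain ⟨e1, e2⟩ := cnt_top h ht' 1
  rw [card_top_eq hι] at e1
  have hq : 0 < Fintype.card F := Fintype.card_pos
  have hone : Nat.card (perpOf h (Fin.cons (z, v) t : Fin (n + 1) → (ι → F) × (ι → F))) = 1 := by
    have e3 : Fintype.card F ^ (2 * n + 2) = Fintype.card F ^ (2 * (n + 1)) * 1 := by
      rw [mul_one]
      congr 1
    rw [e3] at e1
    exact (Nat.eq_of_mul_eq_mul_left (pow_pos hq _) e1).symm
  have hzero : cntS Q (perpOf h (Fin.cons (z, v) t : Fin (n + 1) → (ι → F) × (ι → F))) 1 = 0 := by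
    have hall : ∀ x ∈ perpOf h (Fin.cons (z, v) t : Fin (n + 1) → (ι → F) × (ι → F)), x = 0 := by
      intro x hx
      rw [Nat.card_eq_one_iff_unique] at hone
      have := hone.1.elim (⟨x, hx⟩ : perpOf h (Fin.cons (z, v) t : Fin (n + 1) → (ι → F) × (ι → F))) 0
      exact congrArg Subtype.val this
    unfold cntS
    have : IsEmpty {x : ι → F // x ∈ perpOf h (Fin.cons (z, v) t : Fin (n + 1) → (ι → F) × (ι → F)) ∧ Q x = 1} := ⟨fun x => by
      have e4 := x.2.2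
      rw [hall _ x.2.1, h.Q_zero] at e4
      exact zero_ne_one e4⟩
    exact Nat.card_of_isEmpty
  rw [hzero, hone] at e2
  have hq' : (Fintype.card F : ℤ) ≠ 0 := by exact_mod_cast hq.ne'
  have e5 : (cntS Q ⊤ 1 : ℤ) = (Fintype.card F : ℤ) ^ n * ((Fintype.card F : ℤ) ^ (n + 1) - 1) := by
    apply mul_left_cancel₀ hq'
    rw [e2]
    push_cast
    ring
  have h1 : 1 ≤ Fintype.card F ^ (n + 1) := Nat.one_le_pow _ _ hq
  have e6 : cntS Q ⊤ 1 = Fintype.card F ^ n * (Fintype.card F ^ (n + 1) - 1) := by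
    zify [h1]
    exact e5
  rw [e6] at hfree
  have e7 : r ∣ Fintype.card F ^ (n + 1) - 1 :=
    (hr.dvd_mul.1 hfree).resolve_left (not_dvd_of_char_two h2 hr hr2 _)
  have e8 : r ∣ 2 := by
    have := Nat.dvd_sub hrd e7
    have e9 : Fintype.card F ^ (n + 1) + 1 - (Fintype.card F ^ (n + 1) - 1) = 2 := by omega
    rwa [e9] at this
  exact hr2 ((Nat.prime_dvd_prime_iff_eq hr Nat.prime_two).1 e8)

/-- recognising the form -/
theorem exists_psi (h : QF Q B) (hnd : ND B (⊤ : Submodule F (ι → F))) (h2 : (2 : F) = 0) {n : ℕ}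
    (hι : Fintype.card ι = 2 * n + 2) (a b : F)
    (hab : ∀ z₁ z₂ : F, z₁ ^ 2 + a * z₁ * z₂ + b * z₂ ^ 2 = 0 → z₁ = 0 ∧ z₂ = 0) {r : ℕ} (hr : r.Prime) (hr2 : r ≠ 2)
    (hrd : r ∣ Fintype.card F ^ (n + 1) + 1) (hfree : r ∣ cntS Q ⊤ 1) :
    ∃ ψ : ((Fin n ⊕ Fin n) ⊕ Fin 2 → F) →ₗ[F] (ι → F), ∀ v, Q (ψ v) = Cfsg.quadFormMinus n F a b v := by
  classical
  obtain ⟨t, ht⟩ := exists_frames h hnd h2 hι n le_rfl
  have hc := card_perp_plane h ht hι
  have hani := perp_anis h hnd h2 hι ht hr hr2 hrd hfree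
  have hbf := binary_frames h hc hani (ND_perpOf h hnd t ht) a b hab
  have hpos : 0 < Nat.card {p : (ι → F) × (ι → F) // p.1 ∈ perpOf h t ∧ p.2 ∈ perpOf h t ∧ Q p.1 = 1 ∧ Q p.2 = b ∧ B p.1 p.2 = a} := by
    rw [hbf]
    omega
  obtain ⟨⟨⟨w₁, w₂⟩, hw₁, hw₂, Qw₁, Qw₂, Bw⟩⟩ := (Nat.card_pos_iff.1 hpos).1
  simp only at hw₁ hw₂ Qw₁ Qw₂ Bw
  let ψ : ((Fin n ⊕ Fin n) ⊕ Fin 2 → F) →ₗ[F] (ι → F) :=
    { toFun := fun v => ∑ i, (v (.inl (.inl i)) • (t i).1 + v (.inl (.inr i)) • (t i).2) + (v (.inr 0) • w₁ + v (.inr 1) • w₂)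
      map_add' := fun x y => by
        simp only [Pi.add_apply, add_smul, Finset.sum_add_distrib]
        abel
      map_smul' := fun c x => by
        simp only [Pi.smul_apply, smul_eq_mul, mul_smul, smul_add, Finset.smul_sum, RingHom.id_apply] }
  refine ⟨ψ, fun v => ?_⟩
  change Q (∑ i, (v (.inl (.inl i)) • (t i).1 + v (.inl (.inr i)) • (t i).2) + (v (.inr 0) • w₁ + v (.inr 1) • w₂)) = _
  rw [Q_comb h t ht _ _ _ ((perpOf h t).add_mem ((perpOf h t).smul_mem _ hw₁) ((perpOf h t).smul_mem _ hw₂)),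
    h.add, h.smul, h.smul, Qw₁, Qw₂, h.smul_left, h.smul_right, Bw]
  unfold Cfsg.quadFormMinus
  ring

/-- the recognising map is a linear equivalence -/
theorem exists_psi_equiv (h2 : (2 : F) = 0) {n : ℕ} {Q₁ : ((Fin n ⊕ Fin n) ⊕ Fin 2 → F) → F} {B₁ : ((Fin n ⊕ Fin n) ⊕ Fin 2 → F) → ((Fin n ⊕ Fin n) ⊕ Fin 2 → F) → F}
    (h : QF Q₁ B₁) (hnd : ND B₁ (⊤ : Submodule F ((Fin n ⊕ Fin n) ⊕ Fin 2 → F))) (a b : F)
    (hab : ∀ z₁ z₂ : F, z₁ ^ 2 + a * z₁ * z₂ + b * z₂ ^ 2 = 0 → z₁ = 0 ∧ z₂ = 0) {r : ℕ} (hr : r.Prime) (hr2 : r ≠ 2)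
    (hrd : r ∣ Fintype.card F ^ (n + 1) + 1) (hfree : r ∣ cntS Q₁ ⊤ 1) :
    ∃ ψ : ((Fin n ⊕ Fin n) ⊕ Fin 2 → F) ≃ₗ[F] ((Fin n ⊕ Fin n) ⊕ Fin 2 → F), ∀ v, Q₁ (ψ v) = Cfsg.quadFormMinus n F a b v := by
  have hι : Fintype.card ((Fin n ⊕ Fin n) ⊕ Fin 2) = 2 * n + 2 := by
    simp only [Fintype.card_sum, Fintype.card_fin]
    ring
  obtain ⟨ψ, hψ⟩ := exists_psi h hnd h2 hι a b hab hr hr2 hrd hfree
  have hm := qfMinus (F := F) n a b
  have hinj : Function.Injective ψ := by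
    rw [injective_iff_map_eq_zero]
    intro v hv
    by_contra hv0
    obtain ⟨u, -, hu⟩ := ndMinus (F := F) n a b hab v trivial hv0
    apply hu
    have e1 := hψ v
    rw [hv, h.Q_zero] at e1
    have e2 := hψ (v + u)
    rw [map_add, hv, zero_add, hψ, hm.add, ← e1] at e2
    linear_combination -e2
  exact ⟨LinearEquiv.ofInjectiveEndo ψ hinj, fun v => by
    have e := hψ v
    rwa [← LinearEquiv.coe_ofInjectiveEndo ψ hinj] at e⟩

end Cfsg.Agent.H27.OmFp
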