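import Cfsg.Agent.Lib.H27.OmFpIso
/-! The field model of the minus type form. -/
set_option autoImplicit false
set_option linter.unusedSimpArgs false
set_option linter.style.haveILetI false
set_option linter.unusedSectionVars false
set_option linter.unusedVariables false
namespace Cfsg.Agent.H27.OmFp
open Matrix Cfsg.Agent.Lead.Ortho Cfsg.Agent.Lead.Omega Cfsg.Agent.H01.Om

variable {F : Type*} [Field F] [Fintype F]

section LModel
variable {L : Type*} [Field L] [Algebra F L]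

/-- the form on the field -/
noncomputable def QL (σ : L ≃ₐ[F] L) (θ x : L) : F := Algebra.trace F L (θ * x * σ x)
/-- its polar form -/
noncomputable def BL (σ : L ≃ₐ[F] L) (x y : L) : F := Algebra.trace F L (x * σ y)

lemma qfL (σ : L ≃ₐ[F] L) (hσ : ∀ x, σ (σ x) = x) {θ : L} (hθ : θ + σ θ = 1) : QF (QL σ θ) (BL σ) where
  add x y := by
    have e1 : Algebra.trace F L (θ * y * σ x) = Algebra.trace F L (σ θ * x * σ y) := by
      have e0 := Algebra.trace_eq_of_algEquiv σ (θ * y * σ x)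
      rw [map_mul σ, map_mul σ, hσ] at e0
      rw [← e0]
      congr 1
      ring
    have e2 : θ * (x + y) * σ (x + y) = θ * x * σ x + θ * y * σ y + (θ * x * σ y + θ * y * σ x) := by
      rw [map_add]
      ring
    have e3 : x * σ y = θ * x * σ y + σ θ * x * σ y := by
      linear_combination (-(x * σ y)) * hθ
    unfold QL BL
    rw [e2, map_add, map_add, map_add, e1, e3, map_add]
  smul c x := by
    unfold QL
    have e : θ * (c • x) * σ (c • x) = c ^ 2 • (θ * x * σ x) := by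
      rw [map_smul]
      simp only [mul_smul_comm, smul_mul_assoc, smul_smul]
      rw [sq]
    rw [e, map_smul, smul_eq_mul]
  add_left x y z := by
    unfold BL
    rw [add_mul, map_add]
  smul_left c x z := by
    unfold BL
    rw [smul_mul_assoc, map_smul, smul_eq_mul]
  symm x y := by
    unfold BL
    have e0 := Algebra.trace_eq_of_algEquiv σ (y * σ x)
    rw [map_mul σ, hσ] at e0
    rw [← e0]
    congr 1
    ring

lemma ndL [FiniteDimensional F L] [Algebra.IsSeparable F L] (σ : L ≃ₐ[F] L) (hσ : ∀ x, σ (σ x) = x) (x : L) (hx : x ≠ 0) :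
    ∃ y, BL σ x y ≠ 0 := by
  by_contra hcon
  push Not at hcon
  apply hx
  apply (traceForm_nondegenerate F L).1 x
  intro z
  rw [Algebra.traceForm_apply]
  have := hcon (σ z)
  unfold BL at this
  rwa [hσ] at this

lemma QL_mul (σ : L ≃ₐ[F] L) {θ ζ : L} (hζ : σ ζ * ζ = 1) (x : L) : QL σ θ (ζ * x) = QL σ θ x := by
  unfold QL
  congr 1
  rw [map_mul]
  linear_combination (θ * x * σ x) * hζ

lemma QL_zero (σ : L ≃ₐ[F] L) {θ : L} : QL σ θ 0 = 0 := by
  unfold QL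
  simp

end LModel

lemma card_zero_aux {α : Type*} (inst : Fintype α) (h : IsEmpty α) : @Fintype.card α inst = 0 :=
  (@Fintype.card_eq_zero_iff α inst).2 h

lemma dvd_card_of_no_fix {X : Type*} [Fintype X] [DecidableEq X] {r : ℕ} [Fact r.Prime] (f : Function.End X) (hf : f ^ r = 1)
    (hno : ∀ x, f x ≠ x) : r ∣ Fintype.card X := by
  have hmod := Equiv.Perm.card_fixedPoints_modEq (p := r) (n := 1) (f := f) (by rwa [pow_one])
  haveI : IsEmpty ↑(f.fixedPoints) := ⟨fun x => hno x.1 x.2⟩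
  have e0 : Fintype.card X ≡ 0 [MOD r] := by
    convert hmod using 1
    symm
    exact card_zero_aux _ inferInstance
  exact (Nat.modEq_zero_iff_dvd).1 e0

theorem minus_model {n r : ℕ} [Fact r.Prime] (h2 : (2 : F) = 0) (hr2 : r ≠ 2) (a b : F)
    (hab : ∀ z₁ z₂ : F, z₁ ^ 2 + a * z₁ * z₂ + b * z₂ ^ 2 = 0 → z₁ = 0 ∧ z₂ = 0)
    (hrd : r ∣ Fintype.card F ^ (n + 1) + 1)
    {L : Type*} [Field L] [Algebra F L] [FiniteDimensional F L] [Algebra.IsSeparable F L]
    (hL : Module.finrank F L = 2 * n + 2) (σ : L ≃ₐ[F] L) (hσ : ∀ x, σ (σ x) = x) {ζ : L} (hζ0 : ζ ≠ 0)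
    (hσζ : σ ζ * ζ = 1) (hζ2 : ζ * ζ ≠ 1) (hζr : ζ ^ r = 1) (hζ1 : ζ ≠ 1) :
    ∃ g : OG F (Cfsg.quadFormMinus n F a b), g ^ r = 1 ∧ ∀ v, act g v = v → v = 0 := by
  classical
  have hpr : r.Prime := Fact.out
  have h2L : (2 : L) = 0 := by
    rw [← map_ofNat (algebraMap F L) 2, h2, map_zero]
  have hσζ' : σ ζ = ζ⁻¹ := eq_inv_of_mul_eq_one_left hσζ
  have hc : ζ + ζ⁻¹ ≠ 0 := by
    intro e
    apply hζ2
    have e1 : ζ * ζ + 1 = 0 := by
      have : ζ * (ζ + ζ⁻¹) = ζ * ζ + 1 := by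
        rw [mul_add, mul_inv_cancel₀ hζ0]
      rw [← this, e, mul_zero]
    linear_combination e1 - h2L
  have hσc : σ (ζ + ζ⁻¹) = ζ + ζ⁻¹ := by
    rw [map_add, map_inv₀, hσζ', inv_inv, add_comm]
  obtain ⟨θ, hθ⟩ : ∃ θ, θ + σ θ = 1 := by
    refine ⟨ζ * (ζ + ζ⁻¹)⁻¹, ?_⟩
    rw [map_mul, map_inv₀, hσc, hσζ', ← add_mul, mul_inv_cancel₀ hc]
  have hQL := qfL σ hσ hθ
  let ι := (Fin n ⊕ Fin n) ⊕ Fin 2
  have hι : Fintype.card ι = 2 * n + 2 := by
    simp only [ι, Fintype.card_sum, Fintype.card_fin]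
    ring
  have hfr : Module.finrank F (ι → F) = Module.finrank F L := by
    rw [Module.finrank_fintype_fun_eq_card, hι, hL]
  let e : (ι → F) ≃ₗ[F] L := LinearEquiv.ofFinrankEq _ _ hfr
  let Q₁ : (ι → F) → F := fun v => QL σ θ (e v)
  let B₁ : (ι → F) → (ι → F) → F := fun u v => BL σ (e u) (e v)
  have h₁ : QF Q₁ B₁ :=
    { add := fun x y => by
        simp only [Q₁, B₁, map_add]
        exact hQL.add _ _
      smul := fun c x => by
        simp only [Q₁, map_smul]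
        exact hQL.smul _ _
      add_left := fun x y z => by
        simp only [B₁, map_add]
        exact hQL.add_left _ _ _
      smul_left := fun c x z => by
        simp only [B₁, map_smul]
        exact hQL.smul_left _ _ _
      symm := fun x y => hQL.symm _ _ }
  have hnd₁ : ND B₁ (⊤ : Submodule F (ι → F)) := by
    intro x _ hx
    obtain ⟨y, hy⟩ := ndL σ hσ (e x) (fun e0 => hx (e.map_eq_zero_iff.1 e0))
    refine ⟨e.symm y, trivial, ?_⟩
    simp only [B₁, LinearEquiv.apply_symm_apply]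
    exact hy
  have hfree : r ∣ cntS Q₁ ⊤ 1 := by
    unfold cntS
    haveI : Fintype {x : ι → F // x ∈ (⊤ : Submodule F (ι → F)) ∧ Q₁ x = 1} := Fintype.ofFinite _
    rw [Nat.card_eq_fintype_card]
    let f : Function.End {x : ι → F // x ∈ (⊤ : Submodule F (ι → F)) ∧ Q₁ x = 1} :=
      fun x => ⟨e.symm (ζ * e x.1), trivial, by
        simp only [Q₁, LinearEquiv.apply_symm_apply]
        rw [QL_mul σ hσζ]
        exact x.2.2⟩
    have hp : ∀ (k : ℕ) (x : {x : ι → F // x ∈ (⊤ : Submodule F (ι → F)) ∧ Q₁ x = 1}),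
        ((f ^ k) x).1 = e.symm (ζ ^ k * e x.1) := by
      intro k
      induction k with
      | zero =>
        intro x
        rw [pow_zero, pow_zero, one_mul, LinearEquiv.symm_apply_apply]
        rfl
      | succ k ih =>
        intro x
        rw [pow_succ']
        change e.symm (ζ * e ((f ^ k) x).1) = _
        rw [ih, LinearEquiv.apply_symm_apply, pow_succ', mul_assoc]
    have hf : f ^ r = 1 := by
      funext x
      apply Subtype.ext
      rw [hp, hζr, one_mul, LinearEquiv.symm_apply_apply]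
      rfl
    refine dvd_card_of_no_fix f hf fun x hx => ?_
    have e2 : e.symm (ζ * e x.1) = x.1 := congrArg Subtype.val hx
    have e3 : ζ * e x.1 = e x.1 := by
      have := congrArg e e2
      rwa [LinearEquiv.apply_symm_apply] at this
    have e4 : (ζ - 1) * e x.1 = 0 := by rw [sub_mul, e3, one_mul, sub_self]
    have e5 : e x.1 = 0 := (mul_eq_zero.1 e4).resolve_left (sub_ne_zero.2 hζ1)
    have e6 := x.2.2
    simp only [Q₁] at e6
    rw [e5, QL_zero] at e6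
    exact zero_ne_one e6
  obtain ⟨ψ, hψ⟩ := exists_psi_equiv h2 h₁ hnd₁ a b hab hpr hr2 hrd hfree
  let Ψ : (ι → F) ≃ₗ[F] L := ψ.trans e
  have hΨ : ∀ v, QL σ θ (Ψ v) = Cfsg.quadFormMinus n F a b v := fun v => hψ v
  let f : (ι → F) →ₗ[F] (ι → F) := Ψ.symm.toLinearMap ∘ₗ (LinearMap.mulLeft F ζ) ∘ₗ Ψ.toLinearMap
  let f' : (ι → F) →ₗ[F] (ι → F) := Ψ.symm.toLinearMap ∘ₗ (LinearMap.mulLeft F ζ⁻¹) ∘ₗ Ψ.toLinearMap
  have hf : ∀ x, f x = Ψ.symm (ζ * Ψ x) := fun x => rfl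
  have hf' : ∀ x, f' x = Ψ.symm (ζ⁻¹ * Ψ x) := fun x => rfl
  let g : OG F (Cfsg.quadFormMinus n F a b) := mkO f f'
    (fun x => by
      rw [hf, hf', LinearEquiv.apply_symm_apply, ← mul_assoc, mul_inv_cancel₀ hζ0, one_mul, LinearEquiv.symm_apply_apply])
    (fun x => by
      rw [hf, hf', LinearEquiv.apply_symm_apply, ← mul_assoc, inv_mul_cancel₀ hζ0, one_mul, LinearEquiv.symm_apply_apply])
    (fun x => by
      rw [← hΨ, ← hΨ x, hf, LinearEquiv.apply_symm_apply, QL_mul σ hσζ])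
  have hg : ∀ x, act g x = Ψ.symm (ζ * Ψ x) := fun x => by
    rw [act_mkO]
    exact hf x
  have hp : ∀ (k : ℕ) (x : ι → F), act (g ^ k) x = Ψ.symm (ζ ^ k * Ψ x) := by
    intro k
    induction k with
    | zero =>
      intro x
      rw [pow_zero, pow_zero, one_mul, LinearEquiv.symm_apply_apply, act_one]
    | succ k ih =>
      intro x
      rw [pow_succ', act_mul, ih, hg, LinearEquiv.apply_symm_apply, pow_succ', mul_assoc]
  refine ⟨g, og_ext fun x => ?_, fun v hv => ?_⟩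
  · rw [hp, hζr, one_mul, LinearEquiv.symm_apply_apply, act_one]
  · rw [hg] at hv
    have e3 : ζ * Ψ v = Ψ v := by
      have := congrArg Ψ hv
      rwa [LinearEquiv.apply_symm_apply] at this
    have e4 : (ζ - 1) * Ψ v = 0 := by rw [sub_mul, e3, one_mul, sub_self]
    have e5 : Ψ v = 0 := (mul_eq_zero.1 e4).resolve_left (sub_ne_zero.2 hζ1)
    exact Ψ.map_eq_zero_iff.1 e5

theorem exists_fpf_minus (p : ℕ) [Fact p.Prime] [CharP F p] {n r : ℕ} [Fact r.Prime] (h2 : (2 : F) = 0) (hr2 : r ≠ 2) (a b : F)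
    (hab : ∀ z₁ z₂ : F, z₁ ^ 2 + a * z₁ * z₂ + b * z₂ ^ 2 = 0 → z₁ = 0 ∧ z₂ = 0)
    (hrd : r ∣ Fintype.card F ^ (n + 1) + 1) :
    ∃ g : OG F (Cfsg.quadFormMinus n F a b), g ^ r = 1 ∧ ∀ v, act g v = v → v = 0 := by
  classical
  have hpr : r.Prime := Fact.out
  haveI : NeZero (2 * n + 2) := ⟨by omega⟩
  have hfr := FiniteField.finrank_extension F p (2 * n + 2)
  have hcardL : Nat.card (FiniteField.Extension F p (2 * n + 2)) = Nat.card F ^ (2 * n + 2) :=
    FiniteField.natCard_extension F p (2 * n + 2)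
  haveI : Fintype (FiniteField.Extension F p (2 * n + 2)) := Fintype.ofFinite _
  have hσa : ∀ x : FiniteField.Extension F p (2 * n + 2),
      (FiniteField.Extension.frob F p (2 * n + 2) ^ (n + 1)) x = x ^ (Nat.card F ^ (n + 1)) :=
    fun x => FiniteField.Extension.frob_iterate_apply F p (2 * n + 2) (n + 1)
  have hσ : ∀ x : FiniteField.Extension F p (2 * n + 2),
      (FiniteField.Extension.frob F p (2 * n + 2) ^ (n + 1)) ((FiniteField.Extension.frob F p (2 * n + 2) ^ (n + 1)) x) = x := by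
    intro x
    rw [hσa, hσa, ← pow_mul, ← pow_add]
    have e1 : n + 1 + (n + 1) = 2 * n + 2 := by ring
    rw [e1, ← hcardL, Nat.card_eq_fintype_card]
    exact FiniteField.pow_card x
  have hq1 : 1 ≤ Fintype.card F ^ (n + 1) := Nat.one_le_pow _ _ Fintype.card_pos
  have hU : Nat.card (FiniteField.Extension F p (2 * n + 2))ˣ = Fintype.card F ^ (2 * n + 2) - 1 := by
    rw [Nat.card_units, hcardL, Nat.card_eq_fintype_card]
  have hdvd : r ∣ Nat.card (FiniteField.Extension F p (2 * n + 2))ˣ := by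
    rw [hU]
    obtain ⟨B', hB'⟩ : ∃ B', Fintype.card F ^ (n + 1) = B' + 1 := ⟨_, (Nat.sub_add_cancel hq1).symm⟩
    have e1 : Fintype.card F ^ (2 * n + 2) = (Fintype.card F ^ (n + 1)) ^ 2 := by
      rw [← pow_mul]
      congr 1
      ring
    have e2 : Fintype.card F ^ (2 * n + 2) - 1 = (Fintype.card F ^ (n + 1) + 1) * B' := by
      rw [e1, hB']
      apply Nat.sub_eq_of_eq_add
      ring
    rw [e2]
    exact Dvd.dvd.mul_right hrd B'
  obtain ⟨ζ, hζ⟩ := exists_prime_orderOf_dvd_card' r hdvd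
  have hpow : ∀ k : ℕ, (ζ : FiniteField.Extension F p (2 * n + 2)) ^ k = 1 ↔ r ∣ k := by
    intro k
    rw [← hζ, orderOf_dvd_iff_pow_eq_one, ← Units.val_pow_eq_pow_val]
    exact ⟨fun e => Units.ext e, fun e => by rw [e, Units.val_one]⟩
  refine minus_model h2 hr2 a b hab hrd (L := FiniteField.Extension F p (2 * n + 2)) (by rw [hfr])
    (FiniteField.Extension.frob F p (2 * n + 2) ^ (n + 1)) hσ (ζ := (ζ : FiniteField.Extension F p (2 * n + 2))) ζ.ne_zero ?_ ?_ ?_ ?_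
  · rw [hσa, ← pow_succ, Nat.card_eq_fintype_card]
    exact (hpow _).2 hrd
  · rw [← sq]
    intro e
    exact hr2 ((Nat.prime_dvd_prime_iff_eq hpr Nat.prime_two).1 ((hpow 2).1 e))
  · exact (hpow r).2 dvd_rfl
  · intro e
    have e1 : (ζ : FiniteField.Extension F p (2 * n + 2)) ^ 1 = 1 := by rw [pow_one, e]
    have e2 := (hpow 1).1 e1
    exact hpr.one_lt.ne' (Nat.dvd_one.1 e2)

theorem minus_main {p : ℕ} [Fact p.Prime] [CharP F p] (hp : p = 2) (n : ℕ) (hn : 3 ≤ n) (a b : F)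
    (hab : ∀ x y : F, x ^ 2 + a * x * y + b * y ^ 2 = 0 → x = 0 ∧ y = 0) (r : ℕ) [Fact r.Prime]
    (hrΩ : r ∣ Nat.card {W : Submodule F ((Fin n ⊕ Fin n) ⊕ Fin 2 → F) // Module.finrank F ↥W = 1 ∧ ∃ v ∈ W, Cfsg.quadFormMinus n F a b v ≠ 0}) :
    (∀ x : GL ((Fin n ⊕ Fin n) ⊕ Fin 2) F, x ∈ Cfsg.Geo.omegaGL (Cfsg.quadFormMinus n F a b) →
      (∃ z : F, ((x ^ r : GL ((Fin n ⊕ Fin n) ⊕ Fin 2) F) : Matrix ((Fin n ⊕ Fin n) ⊕ Fin 2) ((Fin n ⊕ Fin n) ⊕ Fin 2) F) = z • (1 : Matrix ((Fin n ⊕ Fin n) ⊕ Fin 2) ((Fin n ⊕ Fin n) ⊕ Fin 2) F)) →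
      (∀ z : F, (x : Matrix ((Fin n ⊕ Fin n) ⊕ Fin 2) ((Fin n ⊕ Fin n) ⊕ Fin 2) F) ≠ z • (1 : Matrix ((Fin n ⊕ Fin n) ⊕ Fin 2) ((Fin n ⊕ Fin n) ⊕ Fin 2) F)) →
      ∃ W : Submodule F ((Fin n ⊕ Fin n) ⊕ Fin 2 → F), (Module.finrank F ↥W = 1 ∧ ∃ v ∈ W, Cfsg.quadFormMinus n F a b v ≠ 0) ∧ W.map (Matrix.toLin' (x : Matrix ((Fin n ⊕ Fin n) ⊕ Fin 2) ((Fin n ⊕ Fin n) ⊕ Fin 2) F)) ≤ W) ↔ r = 2 := by
  classical
  have h2 : (2 : F) = 0 := by
    subst hp
    exact_mod_cast CharP.cast_eq_zero F 2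
  have h := qfMinus (F := F) n a b
  have hv₀ : Cfsg.quadFormMinus n F a b (Pi.single (.inr 0) 1) ≠ 0 := by
    simp [Cfsg.quadFormMinus, Pi.single_apply]
  constructor
  · intro H
    by_contra hr2
    have hpr : r.Prime := Fact.out
    rw [card_lines h h2, cnt_minus a b hab n one_ne_zero] at hrΩ
    have hdvd : r ∣ Fintype.card F ^ (n + 1) + 1 :=
      (hpr.dvd_mul.1 hrΩ).resolve_left (not_dvd_of_char_two h2 hpr hr2 _)
    obtain ⟨g, hg, hfp⟩ := exists_fpf_minus p h2 hr2 a b hab hdvd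
    exact no_fpf h h2 H hv₀ g (mem_omega_of_odd (idx_minus h2 hn a b hab) g (hpr.odd_of_ne_two hr2) hg) hg hfp
  · rintro rfl x hx ⟨z, hz⟩ -
    obtain ⟨g, hgΩ, rfl⟩ := hx
    have hact : ∀ v, act (g * g) v = z • v := fun v => by
      have e : act (g * g) v = (((g : GL ((Fin n ⊕ Fin n) ⊕ Fin 2) F) ^ 2 : GL ((Fin n ⊕ Fin n) ⊕ Fin 2) F) : Matrix ((Fin n ⊕ Fin n) ⊕ Fin 2) ((Fin n ⊕ Fin n) ⊕ Fin 2) F) *ᵥ v := by
        rw [sq]
        rfl
      rw [e]
      erw [hz]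
      rw [Matrix.smul_mulVec, Matrix.one_mulVec]
    have hz1 := scal_one h h2 (g * g) hv₀ (hact _)
    have hgg : g * g = 1 := og_ext fun v => by rw [hact, hz1, one_smul, act_one]
    obtain ⟨v, hv, hf⟩ := minus_back h2 a b hab g hgg
    exact line_of_fix g (ne_zero_of_Q h hv) hv hf

end Cfsg.Agent.H27.OmFp
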