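import Cfsg.Agent.Lib.H27.OmFpOdd
/-! Fixed nonsingular points: the minus type, the counting half. -/
set_option autoImplicit false
set_option linter.unusedSimpArgs false
set_option linter.style.haveILetI false
set_option linter.unusedSectionVars false
set_option linter.unusedVariables false
namespace Cfsg.Agent.H27.OmFp
open Matrix Cfsg.Agent.Lead.Ortho Cfsg.Agent.Lead.Omega Cfsg.Agent.H01.Om

variable {F : Type*} [Field F] [Fintype F] {ι : Type} [Fintype ι] [DecidableEq ι]
variable {Q : (ι → F) → F} {B : (ι → F) → (ι → F) → F}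

lemma idx_minus (h2 : (2 : F) = 0) {n : ℕ} (hn : 3 ≤ n) (a b : F)
    (hab : ∀ z₁ z₂ : F, z₁ ^ 2 + a * z₁ * z₂ + b * z₂ ^ 2 = 0 → z₁ = 0 ∧ z₂ = 0) :
    Nat.card (OG F (Cfsg.quadFormMinus n F a b)) = 2 * Nat.card (Cfsg.Omega F (Cfsg.quadFormMinus n F a b)) := by
  obtain ⟨m', rfl⟩ : ∃ m', n = m' + 1 + 1 := ⟨n - 2, by omega⟩
  have hm' : 1 ≤ m' := by omega
  have C := mkCx (qfMinus (F := F) (m' + 1 + 1) a b) (ndMinus (F := F) (m' + 1 + 1) a b hab) (frameMinus_HF (F := F) a b (m' + 1 + 1)) hm' (frameMinus_anis (F := F) a b hab (m' + 1 + 1))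
  have h := C.h
  have e2 := cnt_minus_perp a b hab (m' + 1 + 1) (one_ne_zero (α := F))
  have e3 : 0 < cntS (Cfsg.quadFormMinus (m' + 1 + 1) F a b) (perpOf h (frameMinus (m' + 1 + 1) F)) 1 := by
    rw [e2]
    omega
  unfold cntS at e3
  obtain ⟨⟨x, hx, Qx⟩⟩ := (Nat.card_pos_iff.1 e3).1
  rw [C.hΩ]
  exact index_two h (ndMinus _ a b hab) (frameMinus_HF a b _) hm' (frameMinus_anis a b hab _) h2 (a₁ := x) (fun i => hx i.succ) (by rw [Qx]; exact one_ne_zero)

/-- an involution with totally singular fixed space forces few vectors of norm one -/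
theorem count_of_noFix (h : QF Q B) (hnd : ND B (⊤ : Submodule F (ι → F))) (h2 : (2 : F) = 0) (g : OG F Q) (hg : g * g = 1)
    (hno : ∀ v, act g v = v → Q v = 0) :
    cntS Q ⊤ 1 * Fintype.card F ≤ Fintype.card F ^ Fintype.card ι := by
  classical
  let K : Submodule F (ι → F) :=
    { carrier := {v | act g v = v}
      add_mem' := fun {x y} hx hy => by
        simp only [Set.mem_setOf_eq] at *
        rw [act_add, hx, hy]
      zero_mem' := act_zero g
      smul_mem' := fun c x hx => by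
        simp only [Set.mem_setOf_eq] at *
        rw [act_smul, hx] }
  have hK : ∀ v, v ∈ K ↔ act g v = v := fun v => Iff.rfl
  have hQK : ∀ v ∈ K, Q v = 0 := fun v hv => hno v hv
  have hBK : ∀ u ∈ K, ∀ w ∈ K, B u w = 0 := by
    intro u hu w hw
    rw [h.polar, hQK _ (K.add_mem hu hw), hQK u hu, hQK w hw]
    ring
  have hgg : ∀ v, act g (act g v) = v := fun v => by rw [← act_mul, hg, act_one]
  have hperp : ∀ v, v ∉ K → ∃ k, k ∈ K ∧ B v k = 1 := by
    intro v hv
    have hn : act g v - v ≠ 0 := fun e => hv (sub_eq_zero.1 e)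
    obtain ⟨y, -, hy⟩ := hnd _ trivial hn
    have hk : act g y - y ∈ K := by
      change act g (act g y - y) = act g y - y
      rw [act_sub, hgg]
      have : y - act g y = -(act g y - y) := by abel
      rw [this, neg_eq_self h2]
    have e1 : B v (act g y - y) = B (act g v - v) y := by
      rw [h.sub_right, h.sub_left]
      congr 1
      rw [← B_act h g v (act g y), hgg]
    rw [← e1] at hy
    refine ⟨(B v (act g y - y))⁻¹ • (act g y - y), K.smul_mem _ hk, ?_⟩
    rw [h.smul_right]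
    exact inv_mul_cancel₀ hy
  choose! κ₀ hκ₁ hκ₂ using hperp
  let rep : ((ι → F) ⧸ K) → (ι → F) := Function.surjInv K.mkQ_surjective
  have hrep : ∀ w : ι → F, rep (K.mkQ w) - w ∈ K := by
    intro w
    have : K.mkQ (rep (K.mkQ w)) = K.mkQ w := Function.surjInv_eq K.mkQ_surjective _
    exact (Submodule.Quotient.eq K).1 this
  have hprop : ∀ w : ι → F, Q w = 1 → κ₀ (rep (K.mkQ w)) ∈ K ∧ B w (κ₀ (rep (K.mkQ w))) = 1 := by
    intro w hw
    have hwK : w ∉ K := fun e => by
      rw [hQK w e] at hw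
      exact zero_ne_one hw
    have hr : rep (K.mkQ w) ∉ K := fun e => by
      apply hwK
      have := K.sub_mem e (hrep w)
      simpa using this
    have e1 := hκ₁ _ hr
    have e2 := hκ₂ _ hr
    refine ⟨e1, ?_⟩
    have e3 := hBK _ (hrep w) _ e1
    rw [h.sub_left, e2] at e3
    linear_combination -e3
  let Φ : {x : ι → F // x ∈ (⊤ : Submodule F (ι → F)) ∧ Q x = 1} × F → (ι → F) :=
    fun p => p.1.1 + p.2 • κ₀ (rep (K.mkQ p.1.1))
  have hval : ∀ p, Q (Φ p) = 1 + p.2 := by
    rintro ⟨⟨w, _, hw⟩, s⟩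
    obtain ⟨e1, e2⟩ := hprop w hw
    change Q (w + s • κ₀ (rep (K.mkQ w))) = 1 + s
    rw [h.add, h.smul, hQK _ e1, h.smul_right, e2, hw]
    ring
  have hinj : Function.Injective Φ := by
    rintro ⟨⟨w, hw0, hw⟩, s⟩ ⟨⟨w', hw0', hw'⟩, s'⟩ e
    have e1 := hval ⟨⟨w, hw0, hw⟩, s⟩
    rw [e, hval] at e1
    have hss : s = s' := by
      simpa using e1.symm
    subst hss
    have e' : w + s • κ₀ (rep (K.mkQ w)) = w' + s • κ₀ (rep (K.mkQ w')) := e
    have e2 : w - w' ∈ K := by
      have : w - w' = s • κ₀ (rep (K.mkQ w')) - s • κ₀ (rep (K.mkQ w)) := by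
        rw [sub_eq_sub_iff_add_eq_add, e', add_comm]
      rw [this]
      exact K.sub_mem (K.smul_mem _ (hprop w' hw').1) (K.smul_mem _ (hprop w hw).1)
    have e3 : K.mkQ w = K.mkQ w' := (Submodule.Quotient.eq K).2 e2
    rw [e3] at e'
    have e4 : w = w' := add_right_cancel e'
    subst e4
    rfl
  have e1 := Nat.card_le_card_of_injective Φ hinj
  rw [Nat.card_prod] at e1
  rw [Nat.card_eq_fintype_card (α := F), Nat.card_eq_fintype_card (α := ι → F), Fintype.card_fun] at e1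
  exact e1

theorem minus_back (h2 : (2 : F) = 0) {n : ℕ} (a b : F)
    (hab : ∀ z₁ z₂ : F, z₁ ^ 2 + a * z₁ * z₂ + b * z₂ ^ 2 = 0 → z₁ = 0 ∧ z₂ = 0)
    (g : OG F (Cfsg.quadFormMinus n F a b)) (hg : g * g = 1) :
    ∃ v, Cfsg.quadFormMinus n F a b v ≠ 0 ∧ act g v = v := by
  by_contra hcon
  push Not at hcon
  have hQ0 : ∀ v, act g v = v → Cfsg.quadFormMinus n F a b v = 0 := fun v hv => by_contra fun h => hcon v h hv
  have e := count_of_noFix (qfMinus (F := F) n a b) (ndMinus n a b hab) h2 g hg hQ0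
  rw [cnt_minus a b hab n one_ne_zero] at e
  have hι : Fintype.card ((Fin n ⊕ Fin n) ⊕ Fin 2) = 2 * n + 2 := by
    simp only [Fintype.card_sum, Fintype.card_fin]
    ring
  rw [hι] at e
  have hq : 0 < Fintype.card F ^ (n + 1) := pow_pos Fintype.card_pos _
  have e2 : Fintype.card F ^ n * (Fintype.card F ^ (n + 1) + 1) * Fintype.card F =
      Fintype.card F ^ (2 * n + 2) + Fintype.card F ^ (n + 1) := by ring
  omega

end Cfsg.Agent.H27.OmFp
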