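import Cfsg.Agent.Lib.H27.OmFpPlus
/-! Fixed-point-free elements of odd prime order. -/
set_option autoImplicit false
set_option linter.unusedSimpArgs false
set_option linter.style.haveILetI false
set_option linter.unusedSectionVars false
set_option linter.unusedVariables false
namespace Cfsg.Agent.H27.OmFp
open Matrix Cfsg.Agent.Lead.Ortho Cfsg.Agent.Lead.Omega Cfsg.Agent.H01.Om

variable {F : Type*} [Field F] [Fintype F]

section
variable {K : Type*} [Field K] [Algebra F K] {d : ℕ} (b : Module.Basis (Fin d) F K)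

lemma fix_left {c : K} (hc : c ≠ 1) (v : Fin d → F) (hv : Algebra.leftMulMatrix b c *ᵥ v = v) : v = 0 := by
  obtain ⟨y, rfl⟩ : ∃ y, b.equivFun y = v := ⟨b.equivFun.symm v, b.equivFun.apply_symm_apply v⟩
  have e := Algebra.leftMulMatrix_mulVec_repr b c y
  have e1 : (b.equivFun y : Fin d → F) = ⇑(b.repr y) := rfl
  rw [e1, e] at hv
  have e2 : c * y = y := by
    apply b.repr.injective
    exact DFunLike.coe_injective hv
  have e3 : (c - 1) * y = 0 := by rw [sub_mul, e2, one_mul, sub_self]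
  have e4 : y = 0 := (mul_eq_zero.1 e3).resolve_left (sub_ne_zero.2 hc)
  rw [e4, map_zero]

lemma fix_transpose {c : K} (hc : c ≠ 1) (v : Fin d → F) (hv : (Algebra.leftMulMatrix b c)ᵀ *ᵥ v = v) : v = 0 := by
  have hne : c - 1 ≠ 0 := sub_ne_zero.2 hc
  have e1 : Algebra.leftMulMatrix b (c - 1) * Algebra.leftMulMatrix b (c - 1)⁻¹ = 1 := by
    rw [← map_mul, mul_inv_cancel₀ hne, map_one]
  have e2 : (Algebra.leftMulMatrix b (c - 1)⁻¹)ᵀ * (Algebra.leftMulMatrix b (c - 1))ᵀ = 1 := by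
    rw [← Matrix.transpose_mul, e1, Matrix.transpose_one]
  have e3 : (Algebra.leftMulMatrix b (c - 1))ᵀ *ᵥ v = 0 := by
    rw [map_sub, map_one, Matrix.transpose_sub, Matrix.transpose_one, Matrix.sub_mulVec, Matrix.one_mulVec, hv, sub_self]
  have e4 : ((Algebra.leftMulMatrix b (c - 1)⁻¹)ᵀ * (Algebra.leftMulMatrix b (c - 1))ᵀ) *ᵥ v = v := by
    rw [e2, Matrix.one_mulVec]
  rw [← Matrix.mulVec_mulVec, e3, Matrix.mulVec_zero] at e4
  exact e4.symm

end

lemma exists_fpf_mat (p : ℕ) [Fact p.Prime] [CharP F p] {d : ℕ} (hd : d ≠ 0) {r : ℕ} [Fact r.Prime]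
    (hr : r ∣ Fintype.card F ^ d - 1) :
    ∃ s s' : Matrix (Fin d) (Fin d) F, s * s' = 1 ∧ s' * s = 1 ∧ s ^ r = 1 ∧ s' ^ r = 1 ∧
      (∀ v, s *ᵥ v = v → v = 0) ∧ (∀ v, s'ᵀ *ᵥ v = v → v = 0) := by
  classical
  haveI : NeZero d := ⟨hd⟩
  have hcardK : Nat.card (FiniteField.Extension F p d) = Nat.card F ^ d := FiniteField.natCard_extension F p d
  have hU : Nat.card (FiniteField.Extension F p d)ˣ = Fintype.card F ^ d - 1 := by
    rw [Nat.card_units, hcardK, Nat.card_eq_fintype_card]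
  haveI : Finite (FiniteField.Extension F p d)ˣ := inferInstance
  obtain ⟨ζ, hζ⟩ := exists_prime_orderOf_dvd_card' (G := (FiniteField.Extension F p d)ˣ) r (by rw [hU]; exact hr)
  let b : Module.Basis (Fin d) F (FiniteField.Extension F p d) :=
    Module.finBasisOfFinrankEq F _ (FiniteField.finrank_extension F p d)
  have hr1 : (ζ : FiniteField.Extension F p d) ^ r = 1 := by
    have : ζ ^ r = 1 := by rw [← hζ]; exact pow_orderOf_eq_one ζ
    rw [← Units.val_pow_eq_pow_val, this, Units.val_one]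
  have hne : (ζ : FiniteField.Extension F p d) ≠ 1 := by
    intro e
    have : ζ = 1 := Units.ext e
    rw [this, orderOf_one] at hζ
    exact (Fact.out : r.Prime).one_lt.ne hζ
  have hne0 : (ζ : FiniteField.Extension F p d) ≠ 0 := ζ.ne_zero
  have hne' : (ζ : FiniteField.Extension F p d)⁻¹ ≠ 1 := by
    intro e
    exact hne (by rw [← inv_inv (ζ : FiniteField.Extension F p d), e, inv_one])
  refine ⟨Algebra.leftMulMatrix b (ζ : FiniteField.Extension F p d), Algebra.leftMulMatrix b (ζ : FiniteField.Extension F p d)⁻¹, ?_, ?_, ?_, ?_, ?_, ?_⟩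
  · rw [← map_mul, mul_inv_cancel₀ hne0, map_one]
  · rw [← map_mul, inv_mul_cancel₀ hne0, map_one]
  · rw [← map_pow, hr1, map_one]
  · rw [← map_pow, inv_pow, hr1, inv_one, map_one]
  · exact fun v hv => fix_left b hne v hv
  · exact fun v hv => fix_transpose b hne' v hv

lemma exists_levi {d r : ℕ} (s s' : Matrix (Fin d) (Fin d) F) (h1 : s * s' = 1) (h2 : s' * s = 1) (hs : s ^ r = 1) (hs' : s' ^ r = 1)
    (f1 : ∀ v, s *ᵥ v = v → v = 0) (f2 : ∀ v, s'ᵀ *ᵥ v = v → v = 0) :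
    ∃ g : OG F (Cfsg.quadFormPlus d F), g ^ r = 1 ∧ ∀ v, act g v = v → v = 0 := by
  classical
  have e1 : (fromBlocks s 0 0 s'ᵀ : Matrix (Fin d ⊕ Fin d) (Fin d ⊕ Fin d) F) * fromBlocks s' 0 0 sᵀ = 1 := by
    rw [Matrix.fromBlocks_multiply, ← Matrix.fromBlocks_one]
    simp only [h1, mul_zero, zero_mul, add_zero, zero_add, ← Matrix.transpose_mul, Matrix.transpose_one]
  have e2 : (fromBlocks s' 0 0 sᵀ : Matrix (Fin d ⊕ Fin d) (Fin d ⊕ Fin d) F) * fromBlocks s 0 0 s'ᵀ = 1 := by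
    rw [Matrix.fromBlocks_multiply, ← Matrix.fromBlocks_one]
    simp only [h2, mul_zero, zero_mul, add_zero, zero_add, ← Matrix.transpose_mul, Matrix.transpose_one, h1]
  have hcoord : ∀ (A D : Matrix (Fin d) (Fin d) F) (x : Fin d ⊕ Fin d → F),
      fromBlocks A 0 0 D *ᵥ x = Sum.elim (A *ᵥ (x ∘ Sum.inl)) (D *ᵥ (x ∘ Sum.inr)) := by
    intro A D x
    rw [Matrix.fromBlocks_mulVec]
    simp
  let g : OG F (Cfsg.quadFormPlus d F) := mkO (Matrix.toLin' (fromBlocks s 0 0 s'ᵀ)) (Matrix.toLin' (fromBlocks s' 0 0 sᵀ))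
    (fun x => by
      rw [Matrix.toLin'_apply, Matrix.toLin'_apply, Matrix.mulVec_mulVec, e1, Matrix.one_mulVec])
    (fun x => by
      rw [Matrix.toLin'_apply, Matrix.toLin'_apply, Matrix.mulVec_mulVec, e2, Matrix.one_mulVec])
    (fun x => by
      rw [Matrix.toLin'_apply, hcoord]
      have e3 : ∀ y : Fin d ⊕ Fin d → F, Cfsg.quadFormPlus d F y = (y ∘ Sum.inl) ⬝ᵥ (y ∘ Sum.inr) := fun y => rfl
      rw [e3, e3 x]
      have e4 : (Sum.elim (s *ᵥ (x ∘ Sum.inl)) (s'ᵀ *ᵥ (x ∘ Sum.inr))) ∘ Sum.inl = s *ᵥ (x ∘ Sum.inl) := rfl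
      have e5 : (Sum.elim (s *ᵥ (x ∘ Sum.inl)) (s'ᵀ *ᵥ (x ∘ Sum.inr))) ∘ Sum.inr = s'ᵀ *ᵥ (x ∘ Sum.inr) := rfl
      rw [e4, e5, Matrix.dotProduct_mulVec, Matrix.vecMul_transpose, Matrix.mulVec_mulVec, h2, Matrix.one_mulVec])
  have hg : ∀ x, act g x = fromBlocks s 0 0 s'ᵀ *ᵥ x := fun x => by
    rw [act_mkO, Matrix.toLin'_apply]
  have hp : ∀ (n : ℕ) (x : Fin d ⊕ Fin d → F), act (g ^ n) x = fromBlocks (s ^ n) 0 0 (s'ᵀ ^ n) *ᵥ x := by
    intro n
    induction n with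
    | zero =>
      intro x
      rw [pow_zero, pow_zero, pow_zero, Matrix.fromBlocks_one, act_one, Matrix.one_mulVec]
    | succ n ih =>
      intro x
      rw [pow_succ, act_mul, ih, hg, Matrix.mulVec_mulVec, Matrix.fromBlocks_multiply, pow_succ, pow_succ]
      simp
  refine ⟨g, og_ext fun x => ?_, fun v hv => ?_⟩
  · rw [hp, act_one, hs, ← Matrix.transpose_pow, hs', Matrix.transpose_one, Matrix.fromBlocks_one, Matrix.one_mulVec]
  · rw [hg, hcoord] at hv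
    have e1 := f1 (v ∘ Sum.inl) (by
      funext i
      exact congrFun hv (.inl i))
    have e2 := f2 (v ∘ Sum.inr) (by
      funext i
      exact congrFun hv (.inr i))
    funext k
    rcases k with i | i
    · exact congrFun e1 i
    · exact congrFun e2 i

lemma not_dvd_of_char_two (h2 : (2 : F) = 0) {r : ℕ} (hr : r.Prime) (hr2 : r ≠ 2) (n : ℕ) : ¬ r ∣ Fintype.card F ^ n := by
  classical
  intro h
  have hq : 2 ∣ Fintype.card F := by
    haveI : CharP F 2 := CharTwo.of_one_ne_zero_of_two_eq_zero one_ne_zero h2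
    haveI : Fact (Nat.Prime 2) := ⟨Nat.prime_two⟩
    obtain ⟨k, -, hk⟩ := FiniteField.card F 2
    rw [hk]
    exact dvd_pow_self 2 k.ne_zero
  have hq' : ∃ k, Fintype.card F = 2 ^ k := by
    haveI : CharP F 2 := CharTwo.of_one_ne_zero_of_two_eq_zero one_ne_zero h2
    haveI : Fact (Nat.Prime 2) := ⟨Nat.prime_two⟩
    obtain ⟨k, -, hk⟩ := FiniteField.card F 2
    exact ⟨k, hk⟩
  obtain ⟨k, hk⟩ := hq'
  rw [hk, ← pow_mul] at h
  have := hr.dvd_of_dvd_pow h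
  exact hr2 ((Nat.prime_dvd_prime_iff_eq hr Nat.prime_two).1 this)

lemma plus_even_contra (h2 : (2 : F) = 0) {d : ℕ} (hd : 4 ≤ d) (hev : Even d)
    (H : ∀ x : GL (Fin d ⊕ Fin d) F, x ∈ Cfsg.Geo.omegaGL (Cfsg.quadFormPlus d F) →
      (∃ z : F, ((x ^ 2 : GL (Fin d ⊕ Fin d) F) : Matrix (Fin d ⊕ Fin d) (Fin d ⊕ Fin d) F) = z • (1 : Matrix (Fin d ⊕ Fin d) (Fin d ⊕ Fin d) F)) →
      (∀ z : F, (x : Matrix (Fin d ⊕ Fin d) (Fin d ⊕ Fin d) F) ≠ z • (1 : Matrix (Fin d ⊕ Fin d) (Fin d ⊕ Fin d) F)) →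
      ∃ W : Submodule F (Fin d ⊕ Fin d → F), (Module.finrank F ↥W = 1 ∧ ∃ v ∈ W, Cfsg.quadFormPlus d F v ≠ 0) ∧ W.map (Matrix.toLin' (x : Matrix (Fin d ⊕ Fin d) (Fin d ⊕ Fin d) F)) ≤ W) : False := by
  classical
  have h := qfPlus (F := F) d
  obtain ⟨t, ht, hact⟩ := plus_product h2 hev
  have hΩ : t ∈ Cfsg.Omega F (Cfsg.quadFormPlus d F) := by
    rw [omega_plus (by omega)]
    exact ht
  have htt : t * t = 1 := og_ext fun v => by
    rw [act_mul, act_one]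
    funext k
    rcases k with k | k
    · rw [(hact _ k).2, (hact v k).2, (hact v (Fin.rev k)).1]
      have : (2 : F) * v (.inr (Fin.rev k)) = 0 := by rw [h2, zero_mul]
      linear_combination this
    · rw [(hact _ k).1, (hact v k).1]
  have hsq : (t : GL (Fin d ⊕ Fin d) F) ^ 2 = 1 := by
    rw [sq]
    exact congrArg Subtype.val htt
  obtain ⟨W, ⟨hW1, v, hvW, hv⟩, hm⟩ := H t.1 ⟨t, hΩ, rfl⟩ ⟨1, by rw [hsq]; simp⟩ (by
    intro z hz
    let k : Fin d := ⟨0, by omega⟩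
    have e : ∀ v, act t v = z • v := fun v => by
      unfold act
      rw [hz, Matrix.smul_mulVec, Matrix.one_mulVec]
    have e1 := (hact (Pi.single (.inr k) 1) k).1
    rw [e] at e1
    have e2 : z = 1 := by simpa using e1
    have e3 := (hact (Pi.single (.inr k) 1) (Fin.rev k)).2
    rw [e, e2, one_smul, Fin.rev_rev] at e3
    simp at e3)
  have hf := fix_of_line h h2 t hW1 hvW hv hm
  apply hv
  unfold Cfsg.quadFormPlus
  apply Finset.sum_eq_zero
  intro i _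
  have e := (hact v (Fin.rev i)).2
  rw [hf, Fin.rev_rev] at e
  have : v (.inr i) = 0 := by simpa using e
  rw [this, mul_zero]

theorem plus_main {p : ℕ} [Fact p.Prime] [CharP F p] (hp : p = 2) (d : ℕ) (hd : 4 ≤ d) (r : ℕ) [Fact r.Prime]
    (hrΩ : r ∣ Nat.card {W : Submodule F (Fin d ⊕ Fin d → F) // Module.finrank F ↥W = 1 ∧ ∃ v ∈ W, Cfsg.quadFormPlus d F v ≠ 0}) :
    (∀ x : GL (Fin d ⊕ Fin d) F, x ∈ Cfsg.Geo.omegaGL (Cfsg.quadFormPlus d F) →
      (∃ z : F, ((x ^ r : GL (Fin d ⊕ Fin d) F) : Matrix (Fin d ⊕ Fin d) (Fin d ⊕ Fin d) F) = z • (1 : Matrix (Fin d ⊕ Fin d) (Fin d ⊕ Fin d) F)) →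
      (∀ z : F, (x : Matrix (Fin d ⊕ Fin d) (Fin d ⊕ Fin d) F) ≠ z • (1 : Matrix (Fin d ⊕ Fin d) (Fin d ⊕ Fin d) F)) →
      ∃ W : Submodule F (Fin d ⊕ Fin d → F), (Module.finrank F ↥W = 1 ∧ ∃ v ∈ W, Cfsg.quadFormPlus d F v ≠ 0) ∧ W.map (Matrix.toLin' (x : Matrix (Fin d ⊕ Fin d) (Fin d ⊕ Fin d) F)) ≤ W) ↔ (r = 2 ∧ Odd d) := by
  classical
  have h2 : (2 : F) = 0 := by
    subst hp
    exact_mod_cast CharP.cast_eq_zero F 2
  have h := qfPlus (F := F) d
  have hd0 : d ≠ 0 := by omega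
  let k0 : Fin d := ⟨0, by omega⟩
  have hv₀ : Cfsg.quadFormPlus d F ((Pi.single (.inl k0) 1 : Fin d ⊕ Fin d → F) + Pi.single (.inr k0) 1) ≠ 0 := by
    rw [h.add]
    simp [Cfsg.quadFormPlus, Pi.single_apply, polarPlus_inr]
  constructor
  · intro H
    by_cases hr2 : r = 2
    · refine ⟨hr2, ?_⟩
      by_contra hodd
      subst hr2
      exact plus_even_contra h2 hd (Nat.not_odd_iff_even.1 hodd) H
    · exfalso
      have hpr : r.Prime := Fact.out
      rw [card_lines h h2, cnt_plus d (by omega) one_ne_zero] at hrΩ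
      have hdvd : r ∣ Fintype.card F ^ d - 1 :=
        (hpr.dvd_mul.1 hrΩ).resolve_left (not_dvd_of_char_two h2 hpr hr2 _)
      obtain ⟨s, s', a1, a2, a3, a4, a5, a6⟩ := exists_fpf_mat p hd0 hdvd
      obtain ⟨g, hg, hfp⟩ := exists_levi s s' a1 a2 a3 a4 a5 a6
      have hodd : Odd r := hpr.odd_of_ne_two hr2
      exact no_fpf h h2 H hv₀ g (mem_omega_of_odd (idx_plus h2 (by omega)) g hodd hg) hg hfp
  · rintro ⟨hr2, hodd⟩ x hx ⟨z, hz⟩ -
    subst hr2
    obtain ⟨g, hgΩ, rfl⟩ := hx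
    have hact : ∀ v, act (g * g) v = z • v := fun v => by
      have e : act (g * g) v = (((g : GL (Fin d ⊕ Fin d) F) ^ 2 : GL (Fin d ⊕ Fin d) F) : Matrix (Fin d ⊕ Fin d) (Fin d ⊕ Fin d) F) *ᵥ v := by
        rw [sq]
        rfl
      rw [e]
      erw [hz]
      rw [Matrix.smul_mulVec, Matrix.one_mulVec]
    have hz1 := scal_one h h2 (g * g) hv₀ (hact _)
    have hgg : g * g = 1 := og_ext fun v => by rw [hact, hz1, one_smul, act_one]
    obtain ⟨v, hv, hf⟩ := plus_back h2 hodd g hgg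
    exact line_of_fix g (ne_zero_of_Q h hv) hv hf

end Cfsg.Agent.H27.OmFp
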