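import Cfsg.Agent.Lib.H27.OmFp
/-! Fixed nonsingular points: the plus type. -/
set_option autoImplicit false
set_option linter.unusedSimpArgs false
set_option linter.style.haveILetI false
set_option linter.unusedSectionVars false
set_option linter.unusedVariables false
namespace Cfsg.Agent.H27.OmFp
open Matrix Cfsg.Agent.Lead.Ortho Cfsg.Agent.Lead.Omega Cfsg.Agent.H01.Om

variable {F : Type*} [Field F] [Fintype F]

lemma idx_plus (h2 : (2 : F) = 0) {m : ℕ} (hm : 3 ≤ m) :
    Nat.card (OG F (Cfsg.quadFormPlus m F)) = 2 * Nat.card (Cfsg.Omega F (Cfsg.quadFormPlus m F)) := by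
  obtain ⟨m', rfl⟩ : ∃ m', m = m' + 1 + 1 := ⟨m - 2, by omega⟩
  have hm' : 1 ≤ m' := by omega
  have C := mkCx (qfPlus (F := F) (m' + 1 + 1)) (ndPlus (F := F) (m' + 1 + 1)) (framePlus_HF (F := F) (m' + 1 + 1)) hm' (framePlus_anis (F := F) (m' + 1 + 1))
  have h := C.h
  have hQ : Cfsg.quadFormPlus (m' + 1 + 1) F ((framePlus (m' + 1 + 1) F 0).1 + (framePlus (m' + 1 + 1) F 0).2) = 1 := by
    rw [h.add]
    obtain ⟨-, -, -, Qu', Qv', Buv'⟩ := cons_tail_HF h (framePlus_HF (F := F) (m' + 1 + 1))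
    rw [Qu', Qv', Buv']
    ring
  obtain ⟨ht, hu, hv, -⟩ := cons_tail_HF h (framePlus_HF (F := F) (m' + 1 + 1))
  rw [C.hΩ]
  exact index_two h (ndPlus _) (framePlus_HF _) hm' (framePlus_anis _) h2 (Submodule.add_mem _ hu hv) (by rw [hQ]; exact one_ne_zero)

lemma omega_plus {m : ℕ} (hm : 3 ≤ m) : Cfsg.Omega F (Cfsg.quadFormPlus m F) = SS (qfPlus (F := F) m) := by
  obtain ⟨m', rfl⟩ : ∃ m', m = m' + 1 + 1 := ⟨m - 2, by omega⟩
  have hm' : 1 ≤ m' := by omega
  exact (mkCx (qfPlus (F := F) (m' + 1 + 1)) (ndPlus (F := F) (m' + 1 + 1)) (framePlus_HF (F := F) (m' + 1 + 1)) hm' (framePlus_anis (F := F) (m' + 1 + 1))).hΩ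

lemma neg_eq_self (h2 : (2 : F) = 0) {κ : Type*} (y : κ → F) : -y = y := by
  funext i
  have : (2 : F) * y i = 0 := by rw [h2, zero_mul]
  simp only [Pi.neg_apply]
  linear_combination (-1 : F) * this

theorem plus_back (h2 : (2 : F) = 0) {d : ℕ} (hd : Odd d) (g : OG F (Cfsg.quadFormPlus d F)) (hg : g * g = 1) :
    ∃ v, Cfsg.quadFormPlus d F v ≠ 0 ∧ act g v = v := by
  classical
  by_contra hcon
  push Not at hcon
  have hQ0 : ∀ v, act g v = v → Cfsg.quadFormPlus d F v = 0 := fun v hv => by_contra fun h => hcon v h hv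
  have h := qfPlus (F := F) d
  set A : Matrix (Fin d ⊕ Fin d) (Fin d ⊕ Fin d) F := ((g : GL (Fin d ⊕ Fin d) F) : Matrix (Fin d ⊕ Fin d) (Fin d ⊕ Fin d) F) with hA
  set N := A - 1 with hN
  have hNv : ∀ v, N *ᵥ v = act g v - v := fun v => by
    rw [hN, Matrix.sub_mulVec, Matrix.one_mulVec]
    rfl
  have hnK : ∀ v, act g (N *ᵥ v) = N *ᵥ v := by
    intro v
    rw [hNv, act_sub, ← act_mul, hg, act_one]
    have : v - act g v = -(act g v - v) := by abel
    rw [this, neg_eq_self h2]
  have hQN : ∀ v, Cfsg.quadFormPlus d F (N *ᵥ v) = 0 := fun v => hQ0 _ (hnK v)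
  have hKm : ∀ u, u ∈ LinearMap.ker N.mulVecLin ↔ act g u = u := by
    intro u
    rw [LinearMap.mem_ker, Matrix.mulVecLin_apply, hNv, sub_eq_zero]
  have hiso : ∀ u ∈ LinearMap.ker N.mulVecLin, ∀ w ∈ LinearMap.ker N.mulVecLin, polarPlus d F u w = 0 := by
    intro u hu w hw
    have hu' := (hKm u).1 hu
    have hw' := (hKm w).1 hw
    rw [h.polar, hQ0 _ (by rw [act_add, hu', hw']), hQ0 u hu', hQ0 w hw']
    ring
  have e1 := two_mul_finrank_le h (ndPlus d) _ hiso
  have hcard : Fintype.card (Fin d ⊕ Fin d) = 2 * d := by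
    simp only [Fintype.card_sum, Fintype.card_fin]
    ring
  have e2 := LinearMap.finrank_range_add_finrank_ker N.mulVecLin
  have hrk : LinearMap.range N.mulVecLin ≤ LinearMap.ker N.mulVecLin := by
    rintro _ ⟨v, rfl⟩
    exact (hKm _).2 (hnK v)
  have e3 := Submodule.finrank_mono hrk
  have e4 : Module.finrank F (Fin d ⊕ Fin d → F) = 2 * d := by
    rw [Module.finrank_fintype_fun_eq_card, hcard]
  have hrank : N.rank = d := by
    change Module.finrank F (LinearMap.range N.mulVecLin) = d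
    omega
  let G : Matrix (Fin d ⊕ Fin d) (Fin d ⊕ Fin d) F := fromBlocks 0 1 1 0
  have hG : ∀ u w : Fin d ⊕ Fin d → F, u ⬝ᵥ (G *ᵥ w) = polarPlus d F u w := by
    intro u w
    simp only [G, Matrix.fromBlocks_mulVec, dotProduct, Fintype.sum_sum_type, polarPlus, Sum.elim_inl, Sum.elim_inr,
      Matrix.zero_mulVec, Matrix.one_mulVec, zero_add, add_zero, Function.comp, ← Finset.sum_add_distrib]
    exact Finset.sum_congr rfl fun i _ => by ring
  have halt : ∀ v : Fin d ⊕ Fin d → F, v ⬝ᵥ ((G * N) *ᵥ v) = 0 := by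
    intro v
    rw [← Matrix.mulVec_mulVec, hG, hNv, h.sub_right, h.self, h2, zero_mul, sub_zero]
    have e := hQN v
    rw [hNv, sub_eq_add_neg, neg_eq_self h2, h.add, Q_act (Q := Cfsg.quadFormPlus d F)] at e
    rw [h.symm]
    have e5 : (2 : F) * Cfsg.quadFormPlus d F v = 0 := by rw [h2, zero_mul]
    linear_combination e - e5
  have hev := Cfsg.Agent.H09.even_rank_of_alternating (G * N) halt
  have hGG : G * G = 1 := by
    simp only [G, Matrix.fromBlocks_multiply]
    simp [Matrix.fromBlocks_one]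
  rw [Matrix.rank_mul_eq_right_of_isUnit_det G N (Matrix.isUnit_det_of_left_inverse hGG), hrank] at hev
  exact (Nat.not_even_iff_odd.2 hd) hev

/-- the Siegel product -/
lemma plus_product (h2 : (2 : F) = 0) {d : ℕ} (hev : Even d) :
    ∃ t ∈ SS (qfPlus (F := F) d), ∀ (v : Fin d ⊕ Fin d → F) (k : Fin d),
      act t v (.inr k) = v (.inr k) ∧ act t v (.inl k) = v (.inl k) + v (.inr (Fin.rev k)) := by
  classical
  have h := qfPlus (F := F) d
  have key : ∀ S : Finset (Fin d), (∀ i ∈ S, Fin.rev i ∉ S) → ∃ t ∈ SS (qfPlus (F := F) d),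
      ∀ (v : Fin d ⊕ Fin d → F) (k : Fin d), act t v (.inr k) = v (.inr k) ∧
        act t v (.inl k) = v (.inl k) + (if k ∈ S ∨ Fin.rev k ∈ S then v (.inr (Fin.rev k)) else 0) := by
    intro S
    induction S using Finset.induction_on with
    | empty =>
      intro _
      refine ⟨1, Subgroup.one_mem _, fun v k => ?_⟩
      simp [act_one]
    | insert i S hi ih =>
      intro hS
      obtain ⟨t, ht, hact⟩ := ih (fun i' hi' hc => hS i' (Finset.mem_insert_of_mem hi') (Finset.mem_insert_of_mem hc))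
      have hri := hS i (Finset.mem_insert_self i S)
      have hri1 : Fin.rev i ≠ i := fun e => hri (by rw [e]; exact Finset.mem_insert_self i S)
      have hri2 : Fin.rev i ∉ S := fun e => hri (Finset.mem_insert_of_mem e)
      let u : Fin d ⊕ Fin d → F := Pi.single (.inl i) 1
      let a : Fin d ⊕ Fin d → F := Pi.single (.inl (Fin.rev i)) 1
      have hu : Cfsg.quadFormPlus d F u = 0 := by simp [u, Cfsg.quadFormPlus, Pi.single_apply]
      have ha : Cfsg.quadFormPlus d F a = 0 := by simp [a, Cfsg.quadFormPlus, Pi.single_apply]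
      have hau : polarPlus d F a u = 0 := by
        simp only [u]
        rw [polarPlus_inl]
        simp [a, Pi.single_apply]
      have hA : Adm (Cfsg.quadFormPlus d F) (polarPlus d F) u a := ⟨hu, hau⟩
      refine ⟨E h hA * t, Subgroup.mul_mem _ (E_mem h hA) ht, fun v k => ?_⟩
      have hact1 : ∀ x : Fin d ⊕ Fin d → F, act (E h hA) x = x + x (.inr i) • a - (x (.inr (Fin.rev i))) • u := by
        intro x
        rw [act_E h hA]
        unfold Efun
        rw [ha, zero_mul, add_zero]
        simp only [u, a]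
        rw [polarPlus_inl, polarPlus_inl]
      rw [act_mul, hact1]
      obtain ⟨e1, e2⟩ := hact v k
      constructor
      · simp [a, u, Pi.single_apply, e1]
      · simp only [Pi.sub_apply, Pi.add_apply, Pi.smul_apply, smul_eq_mul, a, u, Pi.single_apply, Sum.inl.injEq, mul_ite, mul_one, mul_zero, e2,
          (hact v i).1, (hact v (Fin.rev i)).1]
        by_cases hk1 : k = i
        · subst hk1
          have e3 : k ≠ Fin.rev k := fun e => hri1 e.symm
          simp [hi, hri2, e3, Finset.mem_insert_self]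
          have : (2 : F) * v (.inr (Fin.rev k)) = 0 := by rw [h2, zero_mul]
          linear_combination (-1 : F) * this
        · by_cases hk2 : k = Fin.rev i
          · subst hk2
            simp [hk1, hi, hri2, Finset.mem_insert_self]
          · have e4 : Fin.rev k ≠ i := by
              intro e
              apply hk2
              rw [← e, Fin.rev_rev]
            simp [hk1, hk2, e4]
  have hne : ∀ k : Fin d, k ≠ Fin.rev k := by
    intro k e
    have := congrArg Fin.val e
    rw [Fin.val_rev] at this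
    obtain ⟨m, hm⟩ := hev
    have := k.2
    omega
  obtain ⟨t, ht, hact⟩ := key (Finset.univ.filter (fun i => i < Fin.rev i)) (by
    intro i hi hc
    simp only [Finset.mem_filter, Finset.mem_univ, true_and, Fin.rev_rev] at hi hc
    exact lt_asymm hi hc)
  refine ⟨t, ht, fun v k => ⟨(hact v k).1, ?_⟩⟩
  rw [(hact v k).2, if_pos]
  simp only [Finset.mem_filter, Finset.mem_univ, true_and, Fin.rev_rev]
  exact lt_or_gt_of_ne (hne k)

end Cfsg.Agent.H27.OmFp
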