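import Cfsg.Agent.Lib.H03.OGen
import Cfsg.Agent.Lib.H03.ODick
import Cfsg.Agent.Lib.H09.OInv

/-! Transitivity properties of `Ω` for quadratic forms. -/

set_option autoImplicit false

namespace Cfsg.Agent.H27.OT

open Cfsg Matrix QuadraticMap Module
open Cfsg.Agent.H03.OGen Cfsg.Agent.H03.ODick Cfsg.Agent.H11
open scoped commutatorElement

variable {ι : Type} [Fintype ι] [DecidableEq ι] {F : Type*} [Field F] [Fintype F]

theorem two_eq_zero_of_charP [CharP F 2] : (2 : F) = 0 := by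
  exact_mod_cast CharP.cast_eq_zero F 2

/-- `Ω` in characteristic two. -/
theorem omega_eq_closure_even [CharP F 2] (Q : QuadraticForm F (ι → F)) (hQ : (polarBilin Q).Nondegenerate)
    (h : Nat.card F ≠ 2 ∨ Fintype.card ι ≠ 4) :
    Omega F (⇑Q) = Subgroup.closure {g : ↥(isometryGroup F (⇑Q)) | ∃ u v : ι → F, Q u ≠ 0 ∧ Q v ≠ 0 ∧
      ((g : GL ι F) : Matrix ι ι F) = reflectionMatrix (⇑Q) u * reflectionMatrix (⇑Q) v} := by
  classical
  have h2 : (2 : F) = 0 := two_eq_zero_of_charP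
  apply le_antisymm
  · -- the even subgroup is normal with abelian quotient
    set E := Subgroup.closure {g : ↥(isometryGroup F (⇑Q)) | ∃ u v : ι → F, Q u ≠ 0 ∧ Q v ≠ 0 ∧
      ((g : GL ι F) : Matrix ι ι F) = reflectionMatrix (⇑Q) u * reflectionMatrix (⇑Q) v} with hE
    have hmem : ∀ u v (hu : Q u ≠ 0) (hv : Q v ≠ 0), refl Q u hu * refl Q v hv ∈ E := by
      intro u v hu hv
      exact Subgroup.subset_closure ⟨u, v, hu, hv, rfl⟩
    -- the even subgroup contains all the elements with trivial Dickson invariant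
    intro g hg
    obtain ⟨L, hL, hgL⟩ := exists_list_of_isometry Q hQ h g
    have hd := (Cfsg.Agent.H09.OI.mem_omega_iff_dick h2 Q hQ h g).1 hg
    have hd2 : Cfsg.Agent.H03.ODick.dick Q g = 1 := hd
    rw [dick_of_list h2 Q hQ g L hL hgL] at hd2
    have hev : Even L.length := (Cfsg.Agent.H09.OI.neg_one_pow_eq_one_iff).1 hd2
    exact mem_of_even_list Q E hmem L hL hev g hgL
  · rw [Subgroup.closure_le]
    rintro g ⟨u, v, hu, hv, hg⟩
    have : g = refl Q u hu * refl Q v hv := by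
      apply Subtype.ext
      apply Units.ext
      exact hg
    rw [this]
    exact refl_mul_refl_mem_even h2 Q hQ h hu hv

/-- `Ω` is transitive on the non-singular vectors of given norm in characteristic two -/
theorem omega_trans_nonsing [CharP F 2] (Q : QuadraticForm F (ι → F)) (hQ : (polarBilin Q).Nondegenerate)
    (h : Nat.card F ≠ 2 ∨ Fintype.card ι ≠ 4) {u v : ι → F} (hu : Q u = 1) (hv : Q v = 1) :
    ∃ g : ↥(isometryGroup F (⇑Q)), g ∈ Omega F (⇑Q) ∧ ((g : GL ι F) : Matrix ι ι F) *ᵥ u = v := by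
  classical
  have h2 : (2 : F) = 0 := two_eq_zero_of_charP
  have hG : Good Q := by
    rcases h with h | h
    · exact Or.inl h
    · right; left
      rwa [Module.finrank_fintype_fun_eq_card]
  obtain ⟨h₀, hh₀, hh₀v⟩ := trans_even h2 hQ hG hv hu
  obtain ⟨k, hk⟩ := exists_group_of_isP Q hh₀
  have hu0 : Q u ≠ 0 := by rw [hu]; exact one_ne_zero
  have hfix : ((refl Q u hu0 : ↥(isometryGroup F (⇑Q))) : GL ι F).val *ᵥ u = u := by
    rw [refl_coe, Cfsg.Agent.H03.reflection_mulVec, QuadraticMap.polar_self]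
    have : (2 • Q u) = 0 := by
      rw [two_smul, hu]
      have : (1 : F) + 1 = 2 := one_add_one_eq_two
      rw [this, h2]
    rw [this]
    simp
  have hku : ((k : GL ι F) : Matrix ι ι F) *ᵥ u = v := by rw [hk, hh₀v]
  by_cases hkΩ : k ∈ Omega F (⇑Q)
  · exact ⟨k, hkΩ, hku⟩
  · refine ⟨k * refl Q u hu0, ?_, ?_⟩
    · rw [Cfsg.Agent.H09.OI.mem_omega_iff_dick h2 Q hQ h, map_mul, dickHom_refl]
      have hne : dickHom h2 Q hQ h k ≠ 1 := fun e => hkΩ ((Cfsg.Agent.H09.OI.mem_omega_iff_dick h2 Q hQ h k).2 e)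
      rcases Int.units_eq_one_or (dickHom h2 Q hQ h k) with e | e
      · exact absurd e hne
      · rw [e]; simp
    · have e : ((k * refl Q u hu0 : ↥(isometryGroup F (⇑Q))) : GL ι F).val =
          ((k : GL ι F) : Matrix ι ι F) * ((refl Q u hu0 : ↥(isometryGroup F (⇑Q))) : GL ι F).val := rfl
      rw [e, ← Matrix.mulVec_mulVec, hfix, hku]

theorem exists_norm_one [CharP F 2] (Q : QuadraticForm F (ι → F)) {x : ι → F} (hx : Q x ≠ 0) :
    ∃ c : F, c ≠ 0 ∧ Q (c • x) = 1 := by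
  have h2 : (2 : F) = 0 := two_eq_zero_of_charP
  have hrc : ringChar F = 2 := CharP.ringChar_of_prime_eq_zero Nat.prime_two (by exact_mod_cast h2)
  obtain ⟨s, hs⟩ := FiniteField.isSquare_of_char_two hrc (Q x)
  have hs0 : s ≠ 0 := by
    rintro rfl
    rw [mul_zero] at hs
    exact hx hs
  refine ⟨s⁻¹, inv_ne_zero hs0, ?_⟩
  rw [QuadraticMap.map_smul, hs]
  simp only [smul_eq_mul]
  field_simp

/-- `Ω` is transitive on the non-singular 1-spaces in characteristic two -/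
theorem omega_trans_lines [CharP F 2] (Q : QuadraticForm F (ι → F)) (hQ : (polarBilin Q).Nondegenerate)
    (h : Nat.card F ≠ 2 ∨ Fintype.card ι ≠ 4) {u v : ι → F} (hu : Q u ≠ 0) (hv : Q v ≠ 0) :
    ∃ g : ↥(isometryGroup F (⇑Q)), g ∈ Omega F (⇑Q) ∧ (F ∙ ((g : GL ι F) : Matrix ι ι F) *ᵥ u) = F ∙ v := by
  obtain ⟨c, hc, hcu⟩ := exists_norm_one Q hu
  obtain ⟨d, hd, hdv⟩ := exists_norm_one Q hv
  obtain ⟨g, hg, hgu⟩ := omega_trans_nonsing Q hQ h hcu hdv
  refine ⟨g, hg, ?_⟩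
  rw [Matrix.mulVec_smul] at hgu
  rw [← Submodule.span_singleton_smul_eq (isUnit_iff_ne_zero.2 hd) v, ← hgu,
    Submodule.span_singleton_smul_eq (isUnit_iff_ne_zero.2 hc)]

end Cfsg.Agent.H27.OT
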