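import Cfsg.Agent.Lib.H27.OmTrans
import Cfsg.Agent.Lib.H03.OSpin
import Cfsg.Agent.S0750
import Cfsg.Agent.Lib.H11.QF4

/-! Transitivity of `Ω` on subspaces of a given type. -/

set_option autoImplicit false

namespace Cfsg.Agent.H27.OT

open Cfsg Matrix QuadraticMap Module
open Cfsg.Agent.H03.OGen Cfsg.Agent.H03.ODick Cfsg.Agent.H11
open scoped commutatorElement

variable {ι : Type} [Fintype ι] [DecidableEq ι] {F : Type*} [Field F] [Fintype F]

section Stab

variable (Q : QuadraticForm F (ι → F))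

/-- the matrix of an isometry -/
abbrev mO (g : ↥(isometryGroup F (⇑Q))) : Matrix ι ι F := ((g : GL ι F) : Matrix ι ι F)

/-- the stabiliser of a subspace. -/
def stabO (U : Submodule F (ι → F)) : Subgroup ↥(isometryGroup F (⇑Q)) where
  carrier := {k | U.map (mO Q k).mulVecLin = U}
  one_mem' := by
    show U.map (mO Q 1).mulVecLin = U
    have : (mO Q 1).mulVecLin = LinearMap.id := by
      ext; simp [mO]
    rw [this, Submodule.map_id]
  mul_mem' := by
    intro a b ha hb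
    show U.map (mO Q (a * b)).mulVecLin = U
    have : (mO Q (a * b)).mulVecLin = (mO Q a).mulVecLin ∘ₗ (mO Q b).mulVecLin := by
      show (mO Q a * mO Q b).mulVecLin = _
      rw [Matrix.mulVecLin_mul]
    rw [this, Submodule.map_comp]
    have hb' : U.map (mO Q b).mulVecLin = U := hb
    rw [hb']
    exact ha
  inv_mem' := by
    intro a ha
    show U.map (mO Q a⁻¹).mulVecLin = U
    have ha' : U.map (mO Q a).mulVecLin = U := ha
    conv_lhs => rw [← ha']
    rw [← Submodule.map_comp]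
    have : (mO Q a⁻¹).mulVecLin ∘ₗ (mO Q a).mulVecLin = LinearMap.id := by
      rw [← Matrix.mulVecLin_mul]
      have : mO Q a⁻¹ * mO Q a = 1 := by
        show mO Q (a⁻¹ * a) = 1
        rw [inv_mul_cancel]
        rfl
      rw [this]
      ext; simp
    rw [this, Submodule.map_id]

theorem mem_stabO_iff (U : Submodule F (ι → F)) (k : ↥(isometryGroup F (⇑Q))) :
    k ∈ stabO Q U ↔ U.map (mO Q k).mulVecLin = U := Iff.rfl

theorem mem_stabO_of_maps (U : Submodule F (ι → F)) (k : ↥(isometryGroup F (⇑Q)))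
    (h : ∀ x ∈ U, mO Q k *ᵥ x ∈ U) : k ∈ stabO Q U := by
  rw [mem_stabO_iff]
  have hinj : Function.Injective (mO Q k).mulVecLin := by
    rw [injective_iff_map_eq_zero]
    intro x hx
    have h1 : mO Q k⁻¹ * mO Q k = 1 := by
      show mO Q (k⁻¹ * k) = 1
      rw [inv_mul_cancel]
      rfl
    have h2 : mO Q k⁻¹ *ᵥ (mO Q k *ᵥ x) = x := by
      rw [Matrix.mulVec_mulVec, h1, Matrix.one_mulVec]
    have h3 : mO Q k *ᵥ x = 0 := hx
    rw [h3, Matrix.mulVec_zero] at h2
    exact h2.symm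
  apply Submodule.eq_of_le_of_finrank_eq
  · rintro _ ⟨x, hx, rfl⟩
    exact h x hx
  · exact (Submodule.equivMapOfInjective _ hinj U).finrank_eq.symm

/-- reflections -/
theorem refl_mem_stab (U : Submodule F (ι → F)) {a : ι → F} (ha : Q a ≠ 0)
    (h : a ∈ U ∨ ∀ x ∈ U, polar Q a x = 0) : refl Q a ha ∈ stabO Q U := by
  apply mem_stabO_of_maps
  intro x hx
  show reflectionMatrix (⇑Q) a *ᵥ x ∈ U
  rw [Cfsg.Agent.H03.reflection_mulVec]
  rcases h with h | h
  · exact U.sub_mem hx (U.smul_mem _ h)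
  · rw [h x hx]
    simpa using hx

/-- the hyperbolic rotation: `x ↦ x + (c - 1) B(f, x) e` on `e^⊥`. -/
theorem rot_apply {e f : ι → F} (he : Q e = 0) (hf : Q f = 0) (hef : polar Q e f = 1) {c : F} (hc : c ≠ 0)
    (h1 : Q (e - f) ≠ 0) (h2 : Q (e - c • f) ≠ 0) {x : ι → F} (hx : polar Q e x = 0) :
    mO Q (refl Q (e - f) h1 * refl Q (e - c • f) h2) *ᵥ x = x + ((c - 1) * polar Q f x) • e := by
  have hee : polar Q e e = 0 := by rw [QuadraticMap.polar_self, he]; simp
  have hff : polar Q f f = 0 := by rw [QuadraticMap.polar_self, hf]; simp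
  have hfe : polar Q f e = 1 := by rw [QuadraticMap.polar_comm, hef]
  have q1 : Q (e - f) = -1 := by
    rw [Q_sub, he, hf, hef]; simp
  have q2 : Q (e - c • f) = -c := by
    rw [Q_sub, he, QuadraticMap.map_smul, hf, polar_smul_right, hef]; simp
  show (reflectionMatrix (⇑Q) (e - f) * reflectionMatrix (⇑Q) (e - c • f)) *ᵥ x = _
  rw [← Matrix.mulVec_mulVec, Cfsg.Agent.H03.reflection_mulVec Q (e - c • f) x, q2,
    polar_sub_left, polar_smul_left, hx]
  simp only [smul_eq_mul]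
  set s := polar Q f x with hs
  have e1 : (-c)⁻¹ * (0 - c * s) = s := by
    field_simp
    ring
  rw [e1, Cfsg.Agent.H03.reflection_mulVec, q1]
  obtain ⟨z, hz⟩ : ∃ z, z = x - s • (e - c • f) := ⟨_, rfl⟩
  rw [← hz]
  have pe : polar Q e z = c * s := by
    rw [hz, polar_sub_right, polar_smul_right, polar_sub_right, polar_smul_right, hx, hee, hef]
    simp only [smul_eq_mul]
    ring
  have pf : polar Q f z = 0 := by
    rw [hz, polar_sub_right, polar_smul_right, polar_sub_right, polar_smul_right, ← hs, hfe, hff]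
    simp only [smul_eq_mul]
    ring
  rw [polar_sub_left, pe, pf, hz]
  funext i
  simp only [Pi.sub_apply, Pi.add_apply, Pi.smul_apply, smul_eq_mul]
  rw [show ((-1 : F)⁻¹) = -1 by simp]
  ring

end Stab

section Core

variable (Q : QuadraticForm F (ι → F))

/-- the odd characteristic core -/
theorem exists_stab_odd [DecidableEq F] (h2 : (2 : F) ≠ 0) (hn : 2 ≤ Fintype.card ι) (hQ : (polarBilin Q).Nondegenerate)
    (H : Subgroup ↥(isometryGroup F (⇑Q))) {a p p' : ι → F} (ha : Q a ≠ 0) (hp : Q p ≠ 0) (hp' : Q p' ≠ 0)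
    (hchi : chiU (Q p) * chiU (Q p') = -1) (hra : refl Q a ha ∈ H) (hrp : refl Q p hp * refl Q p' hp' ∈ H)
    (g : ↥(isometryGroup F (⇑Q))) : ∃ k ∈ H, g * k ∈ Omega F (⇑Q) := by
  classical
  obtain ⟨χ₁, χ₂, h1, h3, hΩ, -⟩ := Cfsg.Agent.H03.OSpin.odd_chars h2 hn Q hQ
  -- first correct the first character
  obtain ⟨k₁, hk₁, hk₁1⟩ : ∃ k₁ ∈ H, χ₁ (g * k₁) = 1 := by
    rcases Int.units_eq_one_or (χ₁ g) with e | e
    · exact ⟨1, H.one_mem, by simp [e]⟩
    · exact ⟨refl Q a ha, hra, by rw [map_mul, e, h1]; simp⟩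
  have hy1 : χ₁ (refl Q p hp * refl Q p' hp') = 1 := by
    rw [map_mul, h1, h1]; simp
  have hy2 : χ₂ (refl Q p hp * refl Q p' hp') = -1 := by
    rw [map_mul, h3, h3, hchi]
  rcases Int.units_eq_one_or (χ₂ (g * k₁)) with e | e
  · exact ⟨k₁, hk₁, (hΩ _).2 ⟨hk₁1, e⟩⟩
  · refine ⟨k₁ * (refl Q p hp * refl Q p' hp'), H.mul_mem hk₁ hrp, (hΩ _).2 ⟨?_, ?_⟩⟩
    · rw [← mul_assoc, map_mul, hk₁1, hy1, one_mul]
    · rw [← mul_assoc, map_mul, e, hy2]
      simp

/-- the even characteristic core -/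
theorem exists_stab_even (h2 : (2 : F) = 0) (hQ : (polarBilin Q).Nondegenerate)
    (h : Nat.card F ≠ 2 ∨ Fintype.card ι ≠ 4)
    (H : Subgroup ↥(isometryGroup F (⇑Q))) {a : ι → F} (ha : Q a ≠ 0) (hra : refl Q a ha ∈ H)
    (g : ↥(isometryGroup F (⇑Q))) : ∃ k ∈ H, g * k ∈ Omega F (⇑Q) := by
  rcases Int.units_eq_one_or (dickHom h2 Q hQ h g) with e | e
  · exact ⟨1, H.one_mem, by
      rw [mul_one]
      exact (Cfsg.Agent.H09.OI.mem_omega_iff_dick h2 Q hQ h g).2 e⟩
  · refine ⟨refl Q a ha, hra, ?_⟩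
    rw [Cfsg.Agent.H09.OI.mem_omega_iff_dick h2 Q hQ h, map_mul, e, dickHom_refl]
    simp

/-- an isometry from a Witt extension -/
theorem isometry_of_equiv (G : (ι → F) ≃ₗ[F] (ι → F)) (hG : ∀ v, Q (G v) = Q v) :
    ∃ g : ↥(isometryGroup F (⇑Q)), ∀ v, mO Q g *ᵥ v = G v := by
  have hM : ∀ v, LinearMap.toMatrix' (G : (ι → F) →ₗ[F] (ι → F)) *ᵥ v = G v := fun v => by
    rw [LinearMap.toMatrix'_mulVec]; rfl
  let M : GL ι F := ⟨LinearMap.toMatrix' (G : (ι → F) →ₗ[F] (ι → F)), LinearMap.toMatrix' (G.symm : (ι → F) →ₗ[F] (ι → F)), by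
      rw [← LinearMap.toMatrix'_comp]
      have : (G : (ι → F) →ₗ[F] (ι → F)) ∘ₗ (G.symm : (ι → F) →ₗ[F] (ι → F)) = LinearMap.id := by
        ext x; simp
      rw [this, LinearMap.toMatrix'_id], by
      rw [← LinearMap.toMatrix'_comp]
      have : (G.symm : (ι → F) →ₗ[F] (ι → F)) ∘ₗ (G : (ι → F) →ₗ[F] (ι → F)) = LinearMap.id := by
        ext x; simp
      rw [this, LinearMap.toMatrix'_id]⟩
  refine ⟨⟨M, mem_isometryGroup_iff.2 ?_⟩, hM⟩
  intro x
  show Q (LinearMap.toMatrix' (G : (ι → F) →ₗ[F] (ι → F)) *ᵥ x) = Q x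
  rw [hM, hG]

/-- assembling: from an isometry moving `U` to `W`. -/
theorem final_step {U W : Submodule F (ι → F)} (g : ↥(isometryGroup F (⇑Q))) (hg : U.map (mO Q g).mulVecLin = W)
    (k : ↥(isometryGroup F (⇑Q))) (hk : k ∈ stabO Q U) : U.map (mO Q (g * k)).mulVecLin = W := by
  have : (mO Q (g * k)).mulVecLin = (mO Q g).mulVecLin ∘ₗ (mO Q k).mulVecLin := by
    show (mO Q g * mO Q k).mulVecLin = _
    rw [Matrix.mulVecLin_mul]
  have hk' : U.map (mO Q k).mulVecLin = U := hk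
  rw [this, Submodule.map_comp, hk', hg]

/-- the values of a quadratic form on a non-degenerate subspace of dimension at least two -/
theorem value_on (hQ : (polarBilin Q).Nondegenerate) (T : Submodule F (ι → F))
    (hT : T ⊓ LinearMap.BilinForm.orthogonal (polarBilin Q) T = ⊥) (hd : 2 ≤ finrank F T) (c : F) :
    ∃ a ∈ T, Q a = c := by
  have hnd : (polarBilin (Q.comp T.subtype)).Nondegenerate := by
    apply Cfsg.Agent.H11.nondeg_of_left
    rintro ⟨x, hx⟩ hxy
    apply Subtype.ext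
    have hm : x ∈ T ⊓ LinearMap.BilinForm.orthogonal (polarBilin Q) T := by
      refine Submodule.mem_inf.2 ⟨hx, (LinearMap.BilinForm.mem_orthogonal_iff).2 ?_⟩
      intro y hy
      show polar Q y x = 0
      rw [QuadraticMap.polar_comm]
      exact hxy ⟨y, hy⟩
    rw [hT] at hm
    simpa using hm
  obtain ⟨v, hv⟩ := exists_value_of_nondeg (Q.comp T.subtype) hnd hd c
  exact ⟨v, v.2, hv⟩

theorem polarBilin_isRefl : (polarBilin Q).IsRefl := by
  intro x y h
  show polar Q y x = 0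
  rw [QuadraticMap.polar_comm]
  exact h

end Core

section Main

/-- Witt's theorem in the form used here. -/
theorem witt_move (Q : QuadraticForm F (ι → F)) (hQ : (polarBilin Q).Nondegenerate) (U W : Submodule F (ι → F))
    (e : U ≃ₗ[F] W) (he : ∀ u : U, Q (e u : ι → F) = Q (u : ι → F)) :
    ∃ g : ↥(isometryGroup F (⇑Q)), U.map (mO Q g).mulVecLin = W := by
  classical
  obtain ⟨G, hG, hGe⟩ := Cfsg.Agent.S0750.result Q hQ U W e he
  obtain ⟨g, hg⟩ := isometry_of_equiv Q G hG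
  refine ⟨g, ?_⟩
  apply le_antisymm
  · rintro _ ⟨x, hx, rfl⟩
    show mO Q g *ᵥ x ∈ W
    rw [hg, hGe ⟨x, hx⟩]
    exact (e ⟨x, hx⟩).2
  · intro w hw
    refine ⟨(e.symm ⟨w, hw⟩ : U), (e.symm ⟨w, hw⟩).2, ?_⟩
    show mO Q g *ᵥ ((e.symm ⟨w, hw⟩ : U) : ι → F) = w
    rw [hg, hGe]
    simp

theorem chi_nonsq [DecidableEq F] {ν : F} (hν : ¬ IsSquare ν) : chiU ν = -1 := by
  rw [chiU, if_neg hν]

theorem chi_one [DecidableEq F] : chiU (1 : F) = 1 := chiU_eq_one_iff.2 IsSquare.one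

theorem ringChar_ne_two (h2 : (2 : F) ≠ 0) : ringChar F ≠ 2 := by
  intro h
  apply h2
  have := ringChar.spec F 2
  simpa [h] using this

/-- **`Ω` on non-degenerate subspaces.** -/
theorem omega_trans_nondeg (hn : 3 ≤ Fintype.card ι) (h : Nat.card F ≠ 2 ∨ Fintype.card ι ≠ 4)
    (Q : QuadraticForm F (ι → F)) (hQ : (polarBilin Q).Nondegenerate) (U W : Submodule F (ι → F))
    (hU : U ⊓ LinearMap.BilinForm.orthogonal (polarBilin Q) U = ⊥)
    (e : U ≃ₗ[F] W) (he : ∀ u : U, Q (e u : ι → F) = Q (u : ι → F)) :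
    ∃ g : ↥(isometryGroup F (⇑Q)), g ∈ Omega F (⇑Q) ∧ U.map (mO Q g).mulVecLin = W := by
  classical
  obtain ⟨g, hgU⟩ := witt_move Q hQ U W e he
  -- a piece of dimension at least two
  have hfr : finrank F (LinearMap.BilinForm.orthogonal (polarBilin Q) U) = finrank F (ι → F) - finrank F U :=
    LinearMap.BilinForm.finrank_orthogonal hQ U
  have hUle : finrank F U ≤ finrank F (ι → F) := Submodule.finrank_le U
  have hnn : finrank F (ι → F) = Fintype.card ι := Module.finrank_fintype_fun_eq_card F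
  obtain ⟨T, hT, hd, hTa⟩ : ∃ T : Submodule F (ι → F), T ⊓ LinearMap.BilinForm.orthogonal (polarBilin Q) T = ⊥ ∧
      2 ≤ finrank F T ∧ ∀ a ∈ T, a ∈ U ∨ ∀ x ∈ U, polar Q a x = 0 := by
    by_cases h2U : 2 ≤ finrank F U
    · exact ⟨U, hU, h2U, fun a ha => Or.inl ha⟩
    · refine ⟨LinearMap.BilinForm.orthogonal (polarBilin Q) U, ?_, by omega, fun a ha => Or.inr ?_⟩
      · rw [LinearMap.BilinForm.orthogonal_orthogonal hQ (polarBilin_isRefl Q), inf_comm]
        exact hU
      · intro x hx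
        rw [QuadraticMap.polar_comm]
        exact (LinearMap.BilinForm.mem_orthogonal_iff).1 ha x hx
  by_cases h2 : (2 : F) = 0
  · obtain ⟨a, haT, ha1⟩ := value_on Q hQ T hT hd 1
    have ha : Q a ≠ 0 := by rw [ha1]; exact one_ne_zero
    obtain ⟨k, hk, hgk⟩ := exists_stab_even Q h2 hQ h (stabO Q U) ha (refl_mem_stab Q U ha (hTa a haT)) g
    exact ⟨g * k, hgk, final_step Q g hgU k hk⟩
  · obtain ⟨ν, hν⟩ := FiniteField.exists_nonsquare (ringChar_ne_two h2)
    have hν0 : ν ≠ 0 := fun h => hν (by simp [h])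
    obtain ⟨a, haT, ha1⟩ := value_on Q hQ T hT hd 1
    obtain ⟨b, hbT, hb1⟩ := value_on Q hQ T hT hd ν
    have ha : Q a ≠ 0 := by rw [ha1]; exact one_ne_zero
    have hb : Q b ≠ 0 := by rw [hb1]; exact hν0
    have hra := refl_mem_stab Q U ha (hTa a haT)
    have hrb := refl_mem_stab Q U hb (hTa b hbT)
    obtain ⟨k, hk, hgk⟩ := exists_stab_odd Q h2 (by omega) hQ (stabO Q U) ha ha hb
      (by rw [ha1, hb1, chi_one, chi_nonsq hν, one_mul]) hra ((stabO Q U).mul_mem hra hrb) g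
    exact ⟨g * k, hgk, final_step Q g hgU k hk⟩

/-- **`Ω` on totally singular subspaces.** -/
theorem omega_trans_ts (h : Nat.card F ≠ 2 ∨ Fintype.card ι ≠ 4)
    (Q : QuadraticForm F (ι → F)) (hQ : (polarBilin Q).Nondegenerate) (U W : Submodule F (ι → F)) {k : ℕ}
    (hk : 2 * k < Fintype.card ι) (hU : finrank F U = k) (hW : finrank F W = k)
    (hU0 : ∀ u ∈ U, Q u = 0) (hW0 : ∀ w ∈ W, Q w = 0) :
    ∃ g : ↥(isometryGroup F (⇑Q)), g ∈ Omega F (⇑Q) ∧ U.map (mO Q g).mulVecLin = W := by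
  classical
  by_cases hk0 : k = 0
  · subst hk0
    have h1 : U = ⊥ := Submodule.finrank_eq_zero.1 hU
    have h2 : W = ⊥ := Submodule.finrank_eq_zero.1 hW
    refine ⟨1, Subgroup.one_mem _, ?_⟩
    rw [h1, h2, Submodule.map_bot]
  obtain ⟨g, hgU⟩ := witt_move Q hQ U W (LinearEquiv.ofFinrankEq U W (hU.trans hW.symm))
    (fun u => by rw [hW0 _ (LinearEquiv.ofFinrankEq U W (hU.trans hW.symm) u).2, hU0 _ u.2])
  have hnn : finrank F (ι → F) = Fintype.card ι := Module.finrank_fintype_fun_eq_card F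
  -- a non-singular vector in the perpendicular space
  have hex : ∃ a, Q a ≠ 0 ∧ ∀ x ∈ U, polar Q a x = 0 := by
    by_contra hcon
    push Not at hcon
    set T := LinearMap.BilinForm.orthogonal (polarBilin Q) U with hT
    have h0 : ∀ a ∈ T, Q a = 0 := by
      intro a ha
      by_contra hne
      obtain ⟨x, hx, hxa⟩ := hcon a hne
      apply hxa
      rw [QuadraticMap.polar_comm]
      exact (LinearMap.BilinForm.mem_orthogonal_iff).1 ha x hx
    have hle : T ≤ LinearMap.BilinForm.orthogonal (polarBilin Q) T := by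
      intro x hx
      refine (LinearMap.BilinForm.mem_orthogonal_iff).2 ?_
      intro y hy
      show polar Q y x = 0
      rw [QuadraticMap.polar, h0 _ (T.add_mem hy hx), h0 _ hy, h0 _ hx]
      simp
    have hf1 : finrank F T = finrank F (ι → F) - finrank F U :=
      LinearMap.BilinForm.finrank_orthogonal hQ U
    have hf2 : finrank F (LinearMap.BilinForm.orthogonal (polarBilin Q) T) = finrank F (ι → F) - finrank F T :=
      LinearMap.BilinForm.finrank_orthogonal hQ T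
    have hf3 := Submodule.finrank_mono hle
    omega
  obtain ⟨a, ha, hap⟩ := hex
  have hra := refl_mem_stab Q U ha (Or.inr hap)
  by_cases h2 : (2 : F) = 0
  · obtain ⟨k', hk', hgk⟩ := exists_stab_even Q h2 hQ h (stabO Q U) ha hra g
    exact ⟨g * k', hgk, final_step Q g hgU k' hk'⟩
  · obtain ⟨ν, hν⟩ := FiniteField.exists_nonsquare (ringChar_ne_two h2)
    have hν0 : ν ≠ 0 := fun h => hν (by simp [h])
    have hUne : U ≠ ⊥ := by
      intro hb
      rw [hb, finrank_bot] at hU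
      exact hk0 hU.symm
    obtain ⟨e, heU, he0⟩ := Submodule.exists_mem_ne_zero_of_ne_bot hUne
    obtain ⟨f, hf, hef⟩ := exists_hyperbolic_pair hQ he0 (hU0 e heU)
    have he := hU0 e heU
    have q1 : Q (e - f) = -1 := by
      rw [Q_sub, he, hf, hef]; simp
    have q2 : Q (e - ν • f) = -ν := by
      rw [Q_sub, he, QuadraticMap.map_smul, hf, polar_smul_right, hef]; simp
    have h1 : Q (e - f) ≠ 0 := by rw [q1]; simp
    have h3 : Q (e - ν • f) ≠ 0 := by rw [q2]; simpa using hν0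
    have hy : refl Q (e - f) h1 * refl Q (e - ν • f) h3 ∈ stabO Q U := by
      apply mem_stabO_of_maps
      intro x hx
      have hpx : polar Q e x = 0 := by
        rw [QuadraticMap.polar, hU0 _ (U.add_mem heU hx), he, hU0 x hx]
        simp
      rw [rot_apply Q he hf hef hν0 h1 h3 hpx]
      exact U.add_mem hx (U.smul_mem _ heU)
    have hn2 : 2 ≤ Fintype.card ι := by omega
    obtain ⟨k', hk', hgk⟩ := exists_stab_odd Q h2 hn2 hQ (stabO Q U) ha h1 h3
      (by
        rw [q1, q2, ← chiU_mul (by simp) (by simpa using hν0)]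
        have : (-1 : F) * -ν = ν := by ring
        rw [this, chi_nonsq hν]) hra hy g
    exact ⟨g * k', hgk, final_step Q g hgU k' hk'⟩

end Main

end Cfsg.Agent.H27.OT
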