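import Cfsg.Agent.Lib.H27.SteinerCount

set_option autoImplicit false

namespace Cfsg.Agent.H27.Plane4

open Classical Cfsg.Agent.H27.Steiner

variable {α : Type*} [Fintype α] [DecidableEq α]

/-- a plane of order 4 -/
structure Pl (L : Set (Finset α)) : Prop where
  card : Fintype.card α = 21
  st : Cfsg.IsSteinerSystem 2 5 L

variable {L : Set (Finset α)}

theorem Pl.card_line (h : Pl L) {l : Finset α} (hl : l ∈ L) : l.card = 5 := h.st.1 l hl

theorem Pl.line_unique (h : Pl L) {l m : Finset α} (hl : l ∈ L) (hm : m ∈ L) {a b : α} (hab : a ≠ b)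
    (hal : a ∈ l) (hbl : b ∈ l) (ham : a ∈ m) (hbm : b ∈ m) : l = m := by
  obtain ⟨x, -, hx⟩ := h.st.2 {a, b} (Finset.card_pair hab)
  have hsub : ∀ k : Finset α, a ∈ k → b ∈ k → ({a, b} : Finset α) ⊆ k := by
    intro k h1 h2 y hy
    simp only [Finset.mem_insert, Finset.mem_singleton] at hy
    rcases hy with rfl | rfl <;> assumption
  rw [hx l ⟨hl, hsub l hal hbl⟩, hx m ⟨hm, hsub m ham hbm⟩]

theorem Pl.exists_line (h : Pl L) {a b : α} (hab : a ≠ b) : ∃ l, l ∈ L ∧ a ∈ l ∧ b ∈ l := by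
  obtain ⟨x, ⟨hx, hs⟩, -⟩ := h.st.2 {a, b} (Finset.card_pair hab)
  exact ⟨x, hx, hs (by simp), hs (by simp)⟩

/-- the line through two points -/
noncomputable def ln (L : Set (Finset α)) (a b : α) : Finset α :=
  if h : ∃ l, l ∈ L ∧ a ∈ l ∧ b ∈ l then h.choose else ∅

theorem Pl.ln_spec (h : Pl L) {a b : α} (hab : a ≠ b) : ln L a b ∈ L ∧ a ∈ ln L a b ∧ b ∈ ln L a b := by
  have hex := h.exists_line hab
  rw [ln, dif_pos hex]
  exact hex.choose_spec

theorem Pl.ln_mem (h : Pl L) {a b : α} (hab : a ≠ b) : ln L a b ∈ L := (h.ln_spec hab).1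
theorem Pl.left_mem (h : Pl L) {a b : α} (hab : a ≠ b) : a ∈ ln L a b := (h.ln_spec hab).2.1
theorem Pl.right_mem (h : Pl L) {a b : α} (hab : a ≠ b) : b ∈ ln L a b := (h.ln_spec hab).2.2

theorem Pl.eq_ln (h : Pl L) {a b : α} (hab : a ≠ b) {l : Finset α} (hl : l ∈ L) (ha : a ∈ l)
    (hb : b ∈ l) : l = ln L a b :=
  h.line_unique hl (h.ln_mem hab) hab ha hb (h.left_mem hab) (h.right_mem hab)

theorem Pl.ln_comm (h : Pl L) {a b : α} (hab : a ≠ b) : ln L a b = ln L b a :=
  h.eq_ln hab.symm (h.ln_mem hab) (h.right_mem hab) (h.left_mem hab)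

/-- two distinct lines share at most a point -/
theorem Pl.inter_le_one (h : Pl L) {l m : Finset α} (hl : l ∈ L) (hm : m ∈ L) (hne : l ≠ m) :
    ∀ x y, x ∈ l → x ∈ m → y ∈ l → y ∈ m → x = y := by
  intro x y h1 h2 h3 h4
  by_contra hxy
  exact hne (h.line_unique hl hm hxy h1 h3 h2 h4)

theorem Pl.lam2 (h : Pl L) : ∀ s : Finset α, s.card = 2 → lam L s = 1 :=
  fun _ hs => lam_of_top h.st hs

theorem Pl.lam1 (h : Pl L) : ∀ s : Finset α, s.card = 1 → lam L s = 5 :=
  lam_down h.st.1 (by norm_num) (by rw [h.card]) (h.lam2)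

theorem Pl.lam0 (h : Pl L) : ∀ s : Finset α, s.card = 0 → lam L s = 21 :=
  lam_down h.st.1 (by norm_num) (by rw [h.card]) (h.lam1)

/-- the lines through a point -/
noncomputable def thru (L : Set (Finset α)) (a : α) : Finset (Finset α) :=
  (blocks L).filter (fun l => a ∈ l)

theorem mem_thru {a : α} {l : Finset α} : l ∈ thru L a ↔ l ∈ L ∧ a ∈ l := by
  simp [thru, mem_blocks]

theorem Pl.card_thru (h : Pl L) (a : α) : (thru L a).card = 5 := by
  have := h.lam1 {a} (by simp)
  rw [lam] at this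
  rw [← this, thru]
  congr 1
  ext l
  simp

/-- the image of a line from an outside point is all the lines through that point -/
theorem Pl.thru_eq_image (h : Pl L) {a : α} {l : Finset α} (hl : l ∈ L) (ha : a ∉ l) :
    l.image (fun x => ln L a x) = thru L a := by
  apply Finset.eq_of_subset_of_card_le
  · intro k hk
    obtain ⟨x, hx, rfl⟩ := Finset.mem_image.mp hk
    have hax : a ≠ x := fun e => ha (e ▸ hx)
    exact mem_thru.mpr ⟨h.ln_mem hax, h.left_mem hax⟩
  · rw [h.card_thru, Finset.card_image_of_injOn, h.card_line hl]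
    intro x hx y hy hxy
    have hx' : x ∈ l := Finset.mem_coe.mp hx
    have hy' : y ∈ l := Finset.mem_coe.mp hy
    have hax : a ≠ x := fun e => ha (e ▸ hx')
    have hay : a ≠ y := fun e => ha (e ▸ hy')
    by_contra hne
    have h1 : ln L a x = l := by
      refine h.line_unique (h.ln_mem hax) hl hne (h.right_mem hax) ?_ hx' hy'
      change ln L a x = ln L a y at hxy
      rw [hxy]; exact h.right_mem hay
    exact ha (h1 ▸ h.left_mem hax)

/-- two lines always meet -/
theorem Pl.lines_meet (h : Pl L) {l m : Finset α} (hl : l ∈ L) (hm : m ∈ L) : ∃ x, x ∈ l ∧ x ∈ m := by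
  have hne : m.Nonempty := by
    rw [← Finset.card_pos, h.card_line hm]; norm_num
  obtain ⟨a, ham⟩ := hne
  by_cases hal : a ∈ l
  · exact ⟨a, hal, ham⟩
  · have : m ∈ thru L a := mem_thru.mpr ⟨hm, ham⟩
    rw [← h.thru_eq_image hl hal] at this
    obtain ⟨x, hx, rfl⟩ := Finset.mem_image.mp this
    have hax : a ≠ x := fun e => hal (e ▸ hx)
    exact ⟨x, hx, h.right_mem hax⟩

/-- independence -/
def Ind (L : Set (Finset α)) (S : Finset α) : Prop := ∀ l ∈ L, (l ∩ S).card ≤ 2

theorem Ind.mono {S T : Finset α} (h : Ind L T) (hST : S ⊆ T) : Ind L S := fun l hl =>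
  (Finset.card_le_card (Finset.inter_subset_inter_left hST)).trans (h l hl)

theorem Ind.no_three {S : Finset α} (h : Ind L S) {l : Finset α} (hl : l ∈ L) {u v w : α}
    (hu : u ∈ S) (hv : v ∈ S) (hw : w ∈ S) (huv : u ≠ v) (huw : u ≠ w) (hvw : v ≠ w)
    (hul : u ∈ l) (hvl : v ∈ l) (hwl : w ∈ l) : False := by
  have h1 : ({u, v, w} : Finset α) ⊆ l ∩ S := by
    intro y hy
    simp only [Finset.mem_insert, Finset.mem_singleton] at hy
    rw [Finset.mem_inter]
    rcases hy with rfl | rfl | rfl <;> exact ⟨by assumption, by assumption⟩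
  have h2 := Finset.card_le_card h1
  rw [Finset.card_eq_three.mpr ⟨u, v, w, huv, huw, hvw, rfl⟩] at h2
  have := h l hl
  omega

theorem ind_of_no_three {S : Finset α}
    (h : ∀ l ∈ L, ∀ u v w, u ∈ l ∩ S → v ∈ l ∩ S → w ∈ l ∩ S → u ≠ v → u ≠ w → v ≠ w → False) :
    Ind L S := by
  intro l hl
  by_contra hc
  push Not at hc
  obtain ⟨u, v, w, hu, hv, hw, huv, huw, hvw⟩ := Finset.two_lt_card_iff.mp hc
  exact h l hl u v w hu hv hw huv huw hvw

/-- blockers of a set: the points on the secants of the set -/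
noncomputable def Bl (L : Set (Finset α)) (T : Finset α) : Finset α :=
  Finset.univ.filter (fun p => ∃ u ∈ T, ∃ v ∈ T, u ≠ v ∧ ∃ l ∈ L, u ∈ l ∧ v ∈ l ∧ p ∈ l)

theorem mem_Bl {T : Finset α} {p : α} :
    p ∈ Bl L T ↔ ∃ u ∈ T, ∃ v ∈ T, u ≠ v ∧ ∃ l ∈ L, u ∈ l ∧ v ∈ l ∧ p ∈ l := by
  simp [Bl]

theorem Pl.self_mem_Bl (h : Pl L) {T : Finset α} (hT : 2 ≤ T.card) {p : α} (hp : p ∈ T) :
    p ∈ Bl L T := by
  obtain ⟨q, hq, hne⟩ : ∃ q ∈ T, q ≠ p := by
    have : 1 < T.card := by omega
    exact Finset.exists_mem_ne this p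
  exact mem_Bl.mpr ⟨q, hq, p, hp, hne, ln L q p, h.ln_mem hne, h.left_mem hne, h.right_mem hne,
    h.right_mem hne⟩

theorem ind_insert_iff {T : Finset α} (hT : Ind L T) {d : α} (hd : d ∉ T) :
    Ind L (insert d T) ↔ d ∉ Bl L T := by
  constructor
  · intro hI hB
    obtain ⟨u, hu, v, hv, huv, l, hl, hul, hvl, hdl⟩ := mem_Bl.mp hB
    have hud : u ≠ d := fun e => hd (e ▸ hu)
    have hvd : v ≠ d := fun e => hd (e ▸ hv)
    exact hI.no_three hl (Finset.mem_insert_of_mem hu) (Finset.mem_insert_of_mem hv)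
      (Finset.mem_insert_self _ _) huv hud hvd hul hvl hdl
  · intro hB
    apply ind_of_no_three
    intro l hl u v w hu hv hw huv huw hvw
    rw [Finset.mem_inter, Finset.mem_insert] at hu hv hw
    by_cases hdl : d ∈ l
    · -- two of the three are in T
      rcases hu with ⟨hul, rfl | hu⟩
      · have hv' : v ∈ T := hv.2.resolve_left (fun e => huv e.symm)
        have hw' : w ∈ T := hw.2.resolve_left (fun e => huw e.symm)
        exact hB (mem_Bl.mpr ⟨v, hv', w, hw', hvw, l, hl, hv.1, hw.1, hdl⟩)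
      · rcases hv with ⟨hvl, rfl | hv⟩
        · have hw' : w ∈ T := hw.2.resolve_left (fun e => hvw e.symm)
          exact hB (mem_Bl.mpr ⟨u, hu, w, hw', huw, l, hl, hul, hw.1, hdl⟩)
        · exact hB (mem_Bl.mpr ⟨u, hu, v, hv, huv, l, hl, hul, hvl, hdl⟩)
    · have hu' : u ∈ T := hu.2.resolve_left (fun e => hdl (e ▸ hu.1))
      have hv' : v ∈ T := hv.2.resolve_left (fun e => hdl (e ▸ hv.1))
      have hw' : w ∈ T := hw.2.resolve_left (fun e => hdl (e ▸ hw.1))
      exact hT.no_three hl hu' hv' hw' huv huw hvw hu.1 hv.1 hw.1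

/-- independent sets of size `k` -/
noncomputable def Ik (L : Set (Finset α)) (k : ℕ) : Finset (Finset α) :=
  (Finset.powersetCard k Finset.univ).filter (Ind L)

theorem mem_Ik {k : ℕ} {S : Finset α} : S ∈ Ik L k ↔ S.card = k ∧ Ind L S := by
  simp [Ik, Finset.mem_powersetCard]

/-- double counting step -/
theorem Pl.dc (h : Pl L) {k A : ℕ} (hk : 2 ≤ k)
    (hA : ∀ T ∈ Ik L k, (Fintype.card α - (Bl L T).card) = A) :
    (Ik L k).card * A = (Ik L (k + 1)).card * (k + 1) := by
  have h1 := Finset.sum_card_bipartiteAbove_eq_sum_card_bipartiteBelow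
    (s := Ik L k) (t := Ik L (k + 1)) (fun T S => T ⊆ S)
  have h2 : ∀ T ∈ Ik L k, (Finset.bipartiteAbove (fun T S => T ⊆ S) (Ik L (k + 1)) T).card = A := by
    intro T hT
    have hT' := mem_Ik.mp hT
    rw [← hA T hT]
    have hcompl : Fintype.card α - (Bl L T).card = ((Bl L T)ᶜ).card := by
      rw [Finset.card_compl]
    rw [hcompl]
    symm
    apply Finset.card_bij (fun d _ => insert d T)
    · intro d hd
      have hdB : d ∉ Bl L T := Finset.mem_compl.mp hd
      have hdT : d ∉ T := fun hm => hdB (h.self_mem_Bl (by omega) hm)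
      rw [Finset.mem_bipartiteAbove]
      refine ⟨mem_Ik.mpr ⟨?_, (ind_insert_iff hT'.2 hdT).mpr hdB⟩, Finset.subset_insert _ _⟩
      rw [Finset.card_insert_of_notMem hdT, hT'.1]
    · intro d hd d' hd' he
      have hdB : d ∉ Bl L T := Finset.mem_compl.mp hd
      have hdT : d ∉ T := fun hm => hdB (h.self_mem_Bl (by omega) hm)
      have hdm : d ∈ insert d' T := by
        change insert d T = insert d' T at he
        rw [← he]; exact Finset.mem_insert_self _ _
      rcases Finset.mem_insert.mp hdm with h3 | h3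
      · exact h3
      · exact absurd h3 hdT
    · intro S hS
      rw [Finset.mem_bipartiteAbove] at hS
      have hS' := mem_Ik.mp hS.1
      have hc : (S \ T).card = 1 := by
        rw [Finset.card_sdiff_of_subset hS.2, hS'.1, hT'.1]
        omega
      obtain ⟨d, hd⟩ := Finset.card_eq_one.mp hc
      have hdm : d ∈ S \ T := by rw [hd]; exact Finset.mem_singleton_self _
      have hdm' := Finset.mem_sdiff.mp hdm
      have hins : insert d T = S := by
        ext y
        simp only [Finset.mem_insert]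
        constructor
        · rintro (rfl | hy)
          · exact hdm'.1
          · exact hS.2 hy
        · intro hy
          by_cases hyT : y ∈ T
          · exact Or.inr hyT
          · left
            have : y ∈ S \ T := Finset.mem_sdiff.mpr ⟨hy, hyT⟩
            rw [hd] at this
            exact Finset.mem_singleton.mp this
      refine ⟨d, ?_, hins⟩
      rw [Finset.mem_compl, ← ind_insert_iff hT'.2 hdm'.2, hins]
      exact hS'.2
  have h3 : ∀ S ∈ Ik L (k + 1),
      (Finset.bipartiteBelow (fun T S => T ⊆ S) (Ik L k) S).card = k + 1 := by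
    intro S hS
    have hS' := mem_Ik.mp hS
    have : Finset.bipartiteBelow (fun T S => T ⊆ S) (Ik L k) S = Finset.powersetCard k S := by
      ext T
      rw [Finset.mem_bipartiteBelow, Finset.mem_powersetCard, mem_Ik]
      constructor
      · rintro ⟨⟨h1, -⟩, h2⟩
        exact ⟨h2, h1⟩
      · rintro ⟨h1, h2⟩
        exact ⟨⟨h2, hS'.2.mono h1⟩, h1⟩
    rw [this, Finset.card_powersetCard, hS'.1]
    simp
  rw [Finset.sum_congr rfl h2, Finset.sum_congr rfl h3] at h1
  simpa using h1


theorem Pl.card_Ik2 (h : Pl L) : (Ik L 2).card = 210 := by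
  have : Ik L 2 = Finset.powersetCard 2 Finset.univ := by
    ext S
    rw [mem_Ik, Finset.mem_powersetCard]
    constructor
    · exact fun h1 => ⟨Finset.subset_univ _, h1.1⟩
    · intro h1
      refine ⟨h1.2, fun l _ => ?_⟩
      have := Finset.card_le_card (Finset.inter_subset_right (s₁ := l) (s₂ := S))
      omega
  rw [this, Finset.card_powersetCard, Finset.card_univ, h.card]
  rfl

theorem Pl.Bl_pair (h : Pl L) {a b : α} (hab : a ≠ b) : Bl L {a, b} = ln L a b := by
  ext p
  rw [mem_Bl]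
  constructor
  · rintro ⟨u, hu, v, hv, huv, l, hl, hul, hvl, hpl⟩
    simp only [Finset.mem_insert, Finset.mem_singleton] at hu hv
    rcases hu with rfl | rfl <;> rcases hv with rfl | rfl
    · exact absurd rfl huv
    · rwa [← h.eq_ln hab hl hul hvl]
    · rwa [← h.eq_ln hab hl hvl hul]
    · exact absurd rfl huv
  · intro hp
    exact ⟨a, by simp, b, by simp, hab, ln L a b, h.ln_mem hab, h.left_mem hab, h.right_mem hab, hp⟩

theorem Pl.card_Ik3 (h : Pl L) : (Ik L 3).card = 1120 := by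
  have h1 := h.dc (k := 2) (A := 16) (le_refl _) (by
    intro T hT
    obtain ⟨hc, -⟩ := mem_Ik.mp hT
    obtain ⟨a, b, hab, rfl⟩ := Finset.card_eq_two.mp hc
    rw [h.Bl_pair hab, h.card_line (h.ln_mem hab), h.card])
  rw [h.card_Ik2] at h1
  have h2 : 210 * 16 = (Ik L 3).card * 3 := h1
  omega

theorem Pl.card_Bl_triple (h : Pl L) {a b c : α} (hab : a ≠ b) (hac : a ≠ c) (hbc : b ≠ c)
    (hI : Ind L {a, b, c}) : (Bl L {a, b, c}).card = 12 := by
  have hS : ∀ x ∈ ({a, b, c} : Finset α), ∀ y ∈ ({a, b, c} : Finset α), x ≠ y → ln L x y ∈ L ∧ x ∈ ln L x y ∧ y ∈ ln L x y :=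
    fun x _ y _ hxy => h.ln_spec hxy
  have ha : a ∈ ({a, b, c} : Finset α) := by simp
  have hb : b ∈ ({a, b, c} : Finset α) := by simp
  have hc : c ∈ ({a, b, c} : Finset α) := by simp
  set A := ln L a b with hA
  set B := ln L a c with hB
  set C := ln L b c with hC
  have hAL := h.ln_mem hab
  have hBL := h.ln_mem hac
  have hCL := h.ln_mem hbc
  have hnA : c ∉ A := fun hm => hI.no_three hAL ha hb hc hab hac hbc (h.left_mem hab) (h.right_mem hab) hm
  have hnB : b ∉ B := fun hm => hI.no_three hBL ha hb hc hab hac hbc (h.left_mem hac) hm (h.right_mem hac)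
  have hnC : a ∉ C := fun hm => hI.no_three hCL ha hb hc hab hac hbc hm (h.left_mem hbc) (h.right_mem hbc)
  have hAB : A ≠ B := fun e => hnA (e ▸ h.right_mem hac)
  have hAC : A ≠ C := fun e => hnA (e ▸ h.right_mem hbc)
  have hBC : B ≠ C := fun e => hnB (e ▸ h.left_mem hbc)
  have hset : Bl L {a, b, c} = A ∪ B ∪ C := by
    ext p
    rw [mem_Bl]
    simp only [Finset.mem_union]
    constructor
    · rintro ⟨u, hu, v, hv, huv, l, hl, hul, hvl, hpl⟩
      simp only [Finset.mem_insert, Finset.mem_singleton] at hu hv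
      rcases hu with rfl | rfl | rfl <;> rcases hv with rfl | rfl | rfl
      · exact absurd rfl huv
      · left; left; rw [hA, ← h.eq_ln hab hl hul hvl]; exact hpl
      · left; right; rw [hB, ← h.eq_ln hac hl hul hvl]; exact hpl
      · left; left; rw [hA, ← h.eq_ln hab hl hvl hul]; exact hpl
      · exact absurd rfl huv
      · right; rw [hC, ← h.eq_ln hbc hl hul hvl]; exact hpl
      · left; right; rw [hB, ← h.eq_ln hac hl hvl hul]; exact hpl
      · right; rw [hC, ← h.eq_ln hbc hl hvl hul]; exact hpl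
      · exact absurd rfl huv
    · rintro ((hp | hp) | hp)
      · exact ⟨a, ha, b, hb, hab, A, hAL, h.left_mem hab, h.right_mem hab, hp⟩
      · exact ⟨a, ha, c, hc, hac, B, hBL, h.left_mem hac, h.right_mem hac, hp⟩
      · exact ⟨b, hb, c, hc, hbc, C, hCL, h.left_mem hbc, h.right_mem hbc, hp⟩
  have i1 : A ∩ B = {a} := by
    ext p
    simp only [Finset.mem_inter, Finset.mem_singleton]
    constructor
    · rintro ⟨p1, p2⟩
      exact h.inter_le_one hAL hBL hAB p a p1 p2 (h.left_mem hab) (h.left_mem hac)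
    · rintro rfl
      exact ⟨h.left_mem hab, h.left_mem hac⟩
  have i2 : (A ∪ B) ∩ C = {b, c} := by
    ext p
    simp only [Finset.mem_inter, Finset.mem_union, Finset.mem_insert, Finset.mem_singleton]
    constructor
    · rintro ⟨p1 | p1, p2⟩
      · left
        exact h.inter_le_one hAL hCL hAC p b p1 p2 (h.right_mem hab) (h.left_mem hbc)
      · right
        exact h.inter_le_one hBL hCL hBC p c p1 p2 (h.right_mem hac) (h.right_mem hbc)
    · rintro (rfl | rfl)
      · exact ⟨Or.inl (h.right_mem hab), h.left_mem hbc⟩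
      · exact ⟨Or.inr (h.right_mem hac), h.right_mem hbc⟩
  have c1 := Finset.card_union_add_card_inter A B
  have c2 := Finset.card_union_add_card_inter (A ∪ B) C
  rw [i1, Finset.card_singleton, h.card_line hAL, h.card_line hBL] at c1
  rw [i2, Finset.card_pair hbc, h.card_line hCL] at c2
  rw [hset]
  omega

theorem Pl.card_Ik4 (h : Pl L) : (Ik L 4).card = 2520 := by
  have h1 := h.dc (k := 3) (A := 9) (by norm_num) (by
    intro T hT
    obtain ⟨hc, hI⟩ := mem_Ik.mp hT
    obtain ⟨a, b, c, hab, hac, hbc, rfl⟩ := Finset.card_eq_three.mp hc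
    rw [h.card_Bl_triple hab hac hbc hI, h.card])
  rw [h.card_Ik3] at h1
  have h2 : 1120 * 9 = (Ik L 4).card * 4 := h1
  omega

/-- the points on no secant -/
noncomputable def Ex (L : Set (Finset α)) (S : Finset α) : Finset α := (Bl L S)ᶜ

theorem mem_Ex {S : Finset α} {p : α} : p ∈ Ex L S ↔ p ∉ Bl L S := by
  simp [Ex]

/-- key lemma: a line through `a ∈ S` missing the rest of `S` has one point of `Ex` -/
theorem Pl.key (h : Pl L) {S : Finset α} (hS : S.card = 4) (hI : Ind L S) {a : α} (ha : a ∈ S)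
    {m : Finset α} (hm : m ∈ L) (ham : a ∈ m) (hT : ∀ t ∈ S, t ≠ a → t ∉ m) :
    (m ∩ Ex L S).card = 1 := by
  have hT3 : (S.erase a).card = 3 := by rw [Finset.card_erase_of_mem ha, hS]
  obtain ⟨b, c, d, hbc, hbd, hcd, hset⟩ := Finset.card_eq_three.mp hT3
  have hmem : ∀ t, t ∈ ({b, c, d} : Finset α) → t ∈ S ∧ t ≠ a := by
    intro t ht
    rw [← hset] at ht
    exact ⟨Finset.mem_of_mem_erase ht, Finset.ne_of_mem_erase ht⟩
  obtain ⟨hbS, hba⟩ := hmem b (by simp)
  obtain ⟨hcS, hca⟩ := hmem c (by simp)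
  obtain ⟨hdS, hda⟩ := hmem d (by simp)
  have hSeq : ∀ t ∈ S, t = a ∨ t = b ∨ t = c ∨ t = d := by
    intro t ht
    by_cases hta : t = a
    · exact Or.inl hta
    · right
      have : t ∈ S.erase a := Finset.mem_erase.mpr ⟨hta, ht⟩
      rw [hset] at this
      simpa using this
  have hbm := hT b hbS hba
  have hcm := hT c hcS hca
  have hdm := hT d hdS hda
  have hbcL := h.ln_mem hbc
  have hbdL := h.ln_mem hbd
  have hcdL := h.ln_mem hcd
  obtain ⟨x, hxm, hxl⟩ := h.lines_meet hm hbcL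
  obtain ⟨y, hym, hyl⟩ := h.lines_meet hm hbdL
  obtain ⟨z, hzm, hzl⟩ := h.lines_meet hm hcdL
  have hb1 := h.left_mem hbc
  have hc1 := h.right_mem hbc
  have hb2 := h.left_mem hbd
  have hd2 := h.right_mem hbd
  have hc3 := h.left_mem hcd
  have hd3 := h.right_mem hcd
  have hxa : x ≠ a := by
    rintro rfl
    exact hI.no_three hbcL ha hbS hcS hba.symm hca.symm hbc hxl hb1 hc1
  have hya : y ≠ a := by
    rintro rfl
    exact hI.no_three hbdL ha hbS hdS hba.symm hda.symm hbd hyl hb2 hd2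
  have hza : z ≠ a := by
    rintro rfl
    exact hI.no_three hcdL ha hcS hdS hca.symm hda.symm hcd hzl hc3 hd3
  have hne1 : (ln L b c) ≠ (ln L b d) := fun e => hI.no_three hbcL hbS hcS hdS hbc hbd hcd hb1 hc1 (by rw [e]; exact hd2)
  have hne2 : (ln L b c) ≠ (ln L c d) := fun e => hI.no_three hbcL hbS hcS hdS hbc hbd hcd hb1 hc1 (by rw [e]; exact hd3)
  have hne3 : (ln L b d) ≠ (ln L c d) := fun e => hI.no_three hbdL hbS hcS hdS hbc hbd hcd hb2 (by rw [e]; exact hc3) hd2
  have hxy : x ≠ y := by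
    rintro rfl
    have := h.inter_le_one hbcL hbdL hne1 x b hxl hyl hb1 hb2
    exact hbm (this ▸ hxm)
  have hxz : x ≠ z := by
    rintro rfl
    have := h.inter_le_one hbcL hcdL hne2 x c hxl hzl hc1 hc3
    exact hcm (this ▸ hxm)
  have hyz : y ≠ z := by
    rintro rfl
    have := h.inter_le_one hbdL hcdL hne3 y d hyl hzl hd2 hd3
    exact hdm (this ▸ hym)
  have hW : ({a, x, y, z} : Finset α).card = 4 := by
    rw [Finset.card_insert_of_notMem (by simp [hxa.symm, hya.symm, hza.symm]),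
      Finset.card_eq_three.mpr ⟨x, y, z, hxy, hxz, hyz, rfl⟩]
  have hWm : ({a, x, y, z} : Finset α) ⊆ m := by
    intro p hp
    simp only [Finset.mem_insert, Finset.mem_singleton] at hp
    rcases hp with rfl | rfl | rfl | rfl <;> assumption
  have hdiff : (m \ {a, x, y, z}).card = 1 := by
    rw [Finset.card_sdiff_of_subset hWm, h.card_line hm, hW]
  obtain ⟨e, he⟩ := Finset.card_eq_one.mp hdiff
  have hem : e ∈ m \ {a, x, y, z} := by rw [he]; exact Finset.mem_singleton_self _
  obtain ⟨hem1, hem2⟩ := Finset.mem_sdiff.mp hem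
  simp only [Finset.mem_insert, Finset.mem_singleton, not_or] at hem2
  obtain ⟨hea, hex, hey, hez⟩ := hem2
  have hmA : ∀ t, t ∈ S → t ≠ a → ln L a t ≠ m := by
    intro t ht hta e
    exact hT t ht hta (e ▸ h.right_mem hta.symm)
  rw [Finset.card_eq_one]
  refine ⟨e, ?_⟩
  ext p
  simp only [Finset.mem_inter, Finset.mem_singleton, mem_Ex]
  constructor
  · rintro ⟨hpm, hpB⟩
    by_contra hpe
    have : p ∈ ({a, x, y, z} : Finset α) := by
      by_contra hpW
      have : p ∈ m \ {a, x, y, z} := Finset.mem_sdiff.mpr ⟨hpm, hpW⟩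
      rw [he] at this
      exact hpe (Finset.mem_singleton.mp this)
    simp only [Finset.mem_insert, Finset.mem_singleton] at this
    apply hpB
    rcases this with rfl | rfl | rfl | rfl
    · exact h.self_mem_Bl (by omega) ha
    · exact mem_Bl.mpr ⟨b, hbS, c, hcS, hbc, (ln L b c), hbcL, hb1, hc1, hxl⟩
    · exact mem_Bl.mpr ⟨b, hbS, d, hdS, hbd, (ln L b d), hbdL, hb2, hd2, hyl⟩
    · exact mem_Bl.mpr ⟨c, hcS, d, hdS, hcd, (ln L c d), hcdL, hc3, hd3, hzl⟩
  · rintro rfl
    refine ⟨hem1, ?_⟩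
    intro hB
    obtain ⟨u, hu, v, hv, huv, l, hl, hul, hvl, hpl⟩ := mem_Bl.mp hB
    -- `l ≠ m`
    have hlm : l ≠ m := by
      rintro rfl
      have hu1 : u = a := by
        by_contra hc
        exact hT u hu hc hul
      have hv1 : v = a := by
        by_contra hc
        exact hT v hv hc hvl
      exact huv (hu1.trans hv1.symm)
    have hua : u ≠ a := by
      rintro rfl
      exact hlm (h.line_unique hl hm (Ne.symm hea) hul hpl ham hem1)
    have hva : v ≠ a := by
      rintro rfl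
      exact hlm (h.line_unique hl hm (Ne.symm hea) hvl hpl ham hem1)
    have hu' := (hSeq u hu).resolve_left hua
    have hv' := (hSeq v hv).resolve_left hva
    have hfin : ∀ (r s w : α) (hrs : r ≠ s), r ∈ l → s ∈ l → w ∈ ln L r s → w ∈ m → p = w := by
      intro r s w hrs hr hs hw hwm
      have e1 : l = ln L r s := h.eq_ln hrs hl hr hs
      rw [e1] at hl hpl hlm
      exact h.inter_le_one hl hm hlm p w hpl hem1 hw hwm
    rcases hu' with e1 | e1 | e1 <;> rcases hv' with e2 | e2 | e2 <;> rw [e1] at hul <;> rw [e2] at hvl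
    · exact huv (e1.trans e2.symm)
    · exact hex (hfin b c x hbc hul hvl hxl hxm)
    · exact hey (hfin b d y hbd hul hvl hyl hym)
    · exact hex (hfin b c x hbc hvl hul hxl hxm)
    · exact huv (e1.trans e2.symm)
    · exact hez (hfin c d z hcd hul hvl hzl hzm)
    · exact hey (hfin b d y hbd hvl hul hyl hym)
    · exact hez (hfin c d z hcd hvl hul hzl hzm)
    · exact huv (e1.trans e2.symm)

end Cfsg.Agent.H27.Plane4
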