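import Cfsg.Agent.Lib.H27.Plane4

set_option autoImplicit false

namespace Cfsg.Agent.H27.Plane4

open Classical Cfsg.Agent.H27.Steiner

variable {α : Type*} [Fintype α] [DecidableEq α] {L : Set (Finset α)}

theorem Pl.card_Ex (h : Pl L) {S : Finset α} (hS : S.card = 4) (hI : Ind L S) :
    (Ex L S).card = 2 := by
  obtain ⟨a, ha⟩ : S.Nonempty := by rw [← Finset.card_pos]; omega
  have hT3 : (S.erase a).card = 3 := by rw [Finset.card_erase_of_mem ha, hS]
  have hne : ∀ t ∈ S.erase a, a ≠ t := fun t ht => (Finset.ne_of_mem_erase ht).symm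
  have hinj : Set.InjOn (fun t => ln L a t) (S.erase a : Set α) := by
    intro t ht t' ht' htt
    by_contra hc
    have ht1 := Finset.mem_coe.mp ht
    have ht2 := Finset.mem_coe.mp ht'
    have e : ln L a t = ln L a t' := htt
    exact hI.no_three (h.ln_mem (hne t ht1)) ha (Finset.mem_of_mem_erase ht1) (Finset.mem_of_mem_erase ht2)
      (hne t ht1) (hne t' ht2) hc (h.left_mem (hne t ht1)) (h.right_mem (hne t ht1))
      (by rw [e]; exact h.right_mem (hne t' ht2))
  have hIm : ((S.erase a).image (fun t => ln L a t)).card = 3 := by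
    rw [Finset.card_image_of_injOn hinj, hT3]
  have hsub : (S.erase a).image (fun t => ln L a t) ⊆ thru L a := by
    intro m hm
    obtain ⟨t, ht, rfl⟩ := Finset.mem_image.mp hm
    exact mem_thru.mpr ⟨h.ln_mem (hne t ht), h.left_mem (hne t ht)⟩
  let R := thru L a \ (S.erase a).image (fun t => ln L a t)
  have hR : R.card = 2 := by
    rw [Finset.card_sdiff_of_subset hsub, h.card_thru, hIm]
  have hRm : ∀ m ∈ R, m ∈ L ∧ a ∈ m ∧ ∀ t ∈ S, t ≠ a → t ∉ m := by
    intro m hm
    obtain ⟨h1, h2⟩ := Finset.mem_sdiff.mp hm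
    obtain ⟨h3, h4⟩ := mem_thru.mp h1
    refine ⟨h3, h4, ?_⟩
    intro t ht hta htm
    apply h2
    refine Finset.mem_image.mpr ⟨t, Finset.mem_erase.mpr ⟨hta, ht⟩, ?_⟩
    exact (h.eq_ln hta.symm h3 h4 htm).symm
  have hEx : Ex L S = R.biUnion (fun m => m ∩ Ex L S) := by
    ext x
    simp only [Finset.mem_biUnion, Finset.mem_inter]
    constructor
    · intro hx
      have hxB := mem_Ex.mp hx
      have hax : a ≠ x := by
        rintro rfl
        exact hxB (h.self_mem_Bl (by omega) ha)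
      refine ⟨ln L a x, ?_, h.right_mem hax, hx⟩
      refine Finset.mem_sdiff.mpr ⟨mem_thru.mpr ⟨h.ln_mem hax, h.left_mem hax⟩, ?_⟩
      intro him
      obtain ⟨t, ht, e⟩ := Finset.mem_image.mp him
      apply hxB
      refine mem_Bl.mpr ⟨a, ha, t, Finset.mem_of_mem_erase ht, hne t ht, ln L a t,
        h.ln_mem (hne t ht), h.left_mem (hne t ht), h.right_mem (hne t ht), ?_⟩
      have e' : ln L a t = ln L a x := e
      rw [e']; exact h.right_mem hax
    · rintro ⟨m, -, -, hx⟩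
      exact hx
  have hdisj : (R : Set (Finset α)).PairwiseDisjoint (fun m => m ∩ Ex L S) := by
    intro m hm m' hm' hne'
    simp only [Function.onFun]
    rw [Finset.disjoint_left]
    intro x hx hx'
    obtain ⟨h1, h2, -⟩ := hRm m (Finset.mem_coe.mp hm)
    obtain ⟨h1', h2', -⟩ := hRm m' (Finset.mem_coe.mp hm')
    rw [Finset.mem_inter] at hx hx'
    have hax : a ≠ x := by
      rintro rfl
      exact (mem_Ex.mp hx.2) (h.self_mem_Bl (by omega) ha)
    exact hne' (h.line_unique h1 h1' hax h2 hx.1 h2' hx'.1)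
  rw [hEx, Finset.card_biUnion hdisj]
  have h1 : ∀ m ∈ R, ((m ∩ Ex L S) ∩ Ex L S).card = 1 := by
    intro m hm
    rw [Finset.inter_assoc, Finset.inter_self]
    obtain ⟨h1, h2, h3⟩ := hRm m hm
    exact h.key hS hI ha h1 h2 h3
  have h2 : ∀ m ∈ R, (m ∩ Ex L S).card = 1 := by
    intro m hm
    obtain ⟨h1, h2, h3⟩ := hRm m hm
    exact h.key hS hI ha h1 h2 h3
  rw [Finset.sum_congr rfl h2]
  simp [hR]

theorem Pl.ind_union (h : Pl L) {S : Finset α} (hS : S.card = 4) (hI : Ind L S) :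
    Ind L (S ∪ Ex L S) := by
  apply ind_of_no_three
  intro l hl u v w hu hv hw huv huw hvw
  rw [Finset.mem_inter, Finset.mem_union] at hu hv hw
  obtain ⟨hul, hu⟩ := hu
  obtain ⟨hvl, hv⟩ := hv
  obtain ⟨hwl, hw⟩ := hw
  have two_in : ∀ r s q, r ∈ S → s ∈ S → r ≠ s → r ≠ q → s ≠ q → r ∈ l → s ∈ l → q ∈ l →
      (q ∈ S ∨ q ∈ Ex L S) → False := by
    intro r s q hr hs hrs hrq hsq hrl hsl hql hq
    rcases hq with hq | hq
    · exact hI.no_three hl hr hs hq hrs hrq hsq hrl hsl hql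
    · exact (mem_Ex.mp hq) (mem_Bl.mpr ⟨r, hr, s, hs, hrs, l, hl, hrl, hsl, hql⟩)
  have one_in : ∀ r p q, r ∈ S → p ∈ Ex L S → q ∈ Ex L S → p ≠ q → r ∈ l → p ∈ l → q ∈ l → False := by
    intro r p q hr hp hq hpq hrl hpl hql
    have hT : ∀ t ∈ S, t ≠ r → t ∉ l := by
      intro t ht htr htl
      exact (mem_Ex.mp hp) (mem_Bl.mpr ⟨t, ht, r, hr, htr, l, hl, htl, hrl, hpl⟩)
    have hc := h.key hS hI hr hl hrl hT
    have hsub : ({p, q} : Finset α) ⊆ l ∩ Ex L S := by
      intro y hy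
      simp only [Finset.mem_insert, Finset.mem_singleton] at hy
      rcases hy with rfl | rfl
      · exact Finset.mem_inter.mpr ⟨hpl, hp⟩
      · exact Finset.mem_inter.mpr ⟨hql, hq⟩
    have := Finset.card_le_card hsub
    rw [Finset.card_pair hpq, hc] at this
    omega
  rcases hu with hu | hu <;> rcases hv with hv | hv <;> rcases hw with hw | hw
  · exact two_in u v w hu hv huv huw hvw hul hvl hwl (Or.inl hw)
  · exact two_in u v w hu hv huv huw hvw hul hvl hwl (Or.inr hw)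
  · exact two_in u w v hu hw huw huv hvw.symm hul hwl hvl (Or.inr hv)
  · exact one_in u v w hu hv hw hvw hul hvl hwl
  · exact two_in v w u hv hw hvw huv.symm huw.symm hvl hwl hul (Or.inr hu)
  · exact one_in v u w hv hu hw huw hvl hul hwl
  · exact one_in w u v hw hu hv huv hwl hul hvl
  · have hsub : ({u, v, w} : Finset α) ⊆ Ex L S := by
      intro y hy
      simp only [Finset.mem_insert, Finset.mem_singleton] at hy
      rcases hy with rfl | rfl | rfl <;> assumption
    have := Finset.card_le_card hsub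
    rw [Finset.card_eq_three.mpr ⟨u, v, w, huv, huw, hvw, rfl⟩, h.card_Ex hS hI] at this
    omega

theorem disjoint_S_Ex (h : Pl L) {S : Finset α} (hS : S.card = 4) : Disjoint S (Ex L S) := by
  rw [Finset.disjoint_left]
  intro x hx hx'
  exact (mem_Ex.mp hx') (h.self_mem_Bl (by omega) hx)

theorem Pl.card_union (h : Pl L) {S : Finset α} (hS : S.card = 4) (hI : Ind L S) :
    (S ∪ Ex L S).card = 6 := by
  rw [Finset.card_union_of_disjoint (disjoint_S_Ex h hS), hS, h.card_Ex hS hI]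

theorem Pl.hyperoval_eq (h : Pl L) {S H : Finset α} (hS : S.card = 4) (hI : Ind L S)
    (hH : H.card = 6) (hHI : Ind L H) (hSH : S ⊆ H) : H = S ∪ Ex L S := by
  have h1 : H \ S ⊆ Ex L S := by
    intro p hp
    obtain ⟨hp1, hp2⟩ := Finset.mem_sdiff.mp hp
    rw [mem_Ex]
    intro hB
    obtain ⟨u, hu, v, hv, huv, l, hl, hul, hvl, hpl⟩ := mem_Bl.mp hB
    exact hHI.no_three hl (hSH hu) (hSH hv) hp1 huv (fun e => hp2 (e ▸ hu)) (fun e => hp2 (e ▸ hv))
      hul hvl hpl
  have h2 : (H \ S).card = 2 := by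
    rw [Finset.card_sdiff_of_subset hSH, hH, hS]
  have h3 : H \ S = Ex L S :=
    Finset.eq_of_subset_of_card_le h1 (by rw [h2, h.card_Ex hS hI])
  rw [← h3, Finset.union_sdiff_of_subset hSH]

/-- every independent 4-set lies in exactly one hyperoval -/
theorem Pl.exists_unique_hyperoval (h : Pl L) {S : Finset α} (hS : S.card = 4) (hI : Ind L S) :
    ∃! H : Finset α, (H.card = 6 ∧ Ind L H) ∧ S ⊆ H := by
  refine ⟨S ∪ Ex L S, ⟨⟨h.card_union hS hI, h.ind_union hS hI⟩, Finset.subset_union_left⟩, ?_⟩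
  rintro H ⟨⟨h1, h2⟩, h3⟩
  exact h.hyperoval_eq hS hI h1 h2 h3

theorem Pl.card_Ik6 (h : Pl L) : (Ik L 6).card = 168 := by
  have h1 := Finset.sum_card_bipartiteAbove_eq_sum_card_bipartiteBelow
    (s := Ik L 4) (t := Ik L 6) (fun T S => T ⊆ S)
  have h2 : ∀ T ∈ Ik L 4, (Finset.bipartiteAbove (fun T S => T ⊆ S) (Ik L 6) T).card = 1 := by
    intro T hT
    obtain ⟨hc, hI⟩ := mem_Ik.mp hT
    rw [Finset.card_eq_one]
    refine ⟨T ∪ Ex L T, ?_⟩
    ext H
    rw [Finset.mem_bipartiteAbove, mem_Ik, Finset.mem_singleton]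
    constructor
    · rintro ⟨⟨h1, h2⟩, h3⟩
      exact h.hyperoval_eq hc hI h1 h2 h3
    · rintro rfl
      exact ⟨⟨h.card_union hc hI, h.ind_union hc hI⟩, Finset.subset_union_left⟩
  have h3 : ∀ S ∈ Ik L 6, (Finset.bipartiteBelow (fun T S => T ⊆ S) (Ik L 4) S).card = 15 := by
    intro S hS
    obtain ⟨hc, hI⟩ := mem_Ik.mp hS
    have : Finset.bipartiteBelow (fun T S => T ⊆ S) (Ik L 4) S = Finset.powersetCard 4 S := by
      ext T
      rw [Finset.mem_bipartiteBelow, Finset.mem_powersetCard, mem_Ik]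
      constructor
      · rintro ⟨⟨h1, -⟩, h2⟩
        exact ⟨h2, h1⟩
      · rintro ⟨h1, h2⟩
        exact ⟨⟨h2, hI.mono h1⟩, h1⟩
    rw [this, Finset.card_powersetCard, hc]
    rfl
  rw [Finset.sum_congr rfl h2, Finset.sum_congr rfl h3] at h1
  simp only [Finset.sum_const, smul_eq_mul, mul_one, h.card_Ik4] at h1
  omega

theorem ncard_Ik (k : ℕ) : {S : Finset α | S.card = k ∧ ∀ l ∈ L, (l ∩ S).card ≤ 2}.ncard = (Ik L k).card := by
  rw [← Set.ncard_coe_finset]
  congr 1
  ext S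
  simp [mem_Ik, Ind]

end Cfsg.Agent.H27.Plane4
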