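import Cfsg.Agent.Lib.H27.Plane4b

set_option autoImplicit false
set_option maxRecDepth 100000

namespace Cfsg.Agent.H27.Plane4

open Classical Cfsg.Agent.H27.Steiner


/-- the 15 synthemes (fixed-point-free involutions of `Fin 6`) -/
def syL : List ℕ := [4530945, 3298305, 2311425, 4526130, 3231810, 1261650, 4522275, 2164035, 1180755, 3166500, 2102580, 1057620, 213285, 136245, 74565]

/-- the 21 lines of the model -/
def mlL : List ℕ := [451, 3589, 28681, 229393, 1835041, 299014, 590346, 1057810, 149538, 1179724, 540820, 74020, 264472, 33960, 4720, 345152, 567360, 402048, 1120384, 1098496, 660736]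

/-- value of a syntheme -/
def syv (t i : ℕ) : ℕ := Nat.land (Nat.shiftRight (syL.getD t 0) (4 * i)) 7

theorem k1 : ∀ σ : Equiv.Perm (Fin 6), (∀ i, σ i ≠ i) → (∀ i, σ (σ i) = i) →
    ∃ t : Fin 15, ∀ i : Fin 6, (σ i).val = syv t.val i.val := by
  decide +kernel

/-- the compatibility relation -/
def compat (s t : ℕ) : Bool :=
  (List.range 6).all fun i => !(Nat.beq (syv s i) (syv t i))

/-- secant lines of the model -/
def chkD : Bool :=
  (List.range 6).all fun i => (List.range 6).all fun j => Nat.beq i j ||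
    mlL.any fun m => Nat.testBit m i && Nat.testBit m j &&
      (List.range 15).all fun t => !(Nat.beq (syv t i) j) || Nat.testBit m (6 + t)

/-- passant lines of the model -/
def chkT : Bool :=
  (List.range 15).all fun s => (List.range 15).all fun t => !(compat s t) ||
    (List.range 15).all fun u => !(compat s u) || !(compat t u) ||
    (List.range 15).all fun v => !(compat s v) || !(compat t v) || !(compat u v) ||
    (List.range 15).all fun w => !(compat s w) || !(compat t w) || !(compat u w) || !(compat v w) ||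
    mlL.any fun m => Nat.testBit m (6 + s) && Nat.testBit m (6 + t) && Nat.testBit m (6 + u) &&
      Nat.testBit m (6 + v) && Nat.testBit m (6 + w)

theorem chkD_ok : chkD = true := by decide +kernel
theorem chkT_ok : chkT = true := by decide +kernel

/-- mask to finset -/
def ofMask (m : ℕ) : Finset (Fin 21) := Finset.univ.filter (fun v => Nat.testBit m v.val = true)

theorem mem_ofMask {m : ℕ} {v : Fin 21} : v ∈ ofMask m ↔ Nat.testBit m v.val = true := by
  simp [ofMask]

theorem card_ofMask : ∀ m ∈ mlL, (ofMask m).card = 5 := by decide +kernel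

theorem mlL_length : mlL.length = 21 := rfl

/-- the model lines -/
noncomputable def MLF : Finset (Finset (Fin 21)) := mlL.toFinset.image ofMask

theorem card_MLF_le : MLF.card ≤ 21 := by
  calc MLF.card ≤ mlL.toFinset.card := Finset.card_image_le
    _ ≤ mlL.length := List.toFinset_card_le _
    _ = 21 := mlL_length

theorem mem_MLF {b : Finset (Fin 21)} : b ∈ MLF ↔ ∃ m ∈ mlL, ofMask m = b := by
  simp [MLF]

theorem chkD_spec {i j : ℕ} (hi : i < 6) (hj : j < 6) (hij : i ≠ j) :
    ∃ m ∈ mlL, Nat.testBit m i = true ∧ Nat.testBit m j = true ∧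
      ∀ t < 15, syv t i = j → Nat.testBit m (6 + t) = true := by
  have h1 := chkD_ok
  rw [chkD, List.all_eq_true] at h1
  have h2 := h1 i (List.mem_range.mpr hi)
  rw [List.all_eq_true] at h2
  have h3 := h2 j (List.mem_range.mpr hj)
  rw [Bool.or_eq_true] at h3
  rcases h3 with h3 | h3
  · exact absurd (Nat.eq_of_beq_eq_true h3) hij
  · obtain ⟨m, hm, h4⟩ := List.any_eq_true.mp h3
    rw [Bool.and_eq_true, Bool.and_eq_true] at h4
    refine ⟨m, hm, h4.1.1, h4.1.2, ?_⟩
    intro t ht hs
    have h5 := (List.all_eq_true.mp h4.2) t (List.mem_range.mpr ht)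
    rw [Bool.or_eq_true] at h5
    rcases h5 with h5 | h5
    · rw [hs] at h5
      simp [Nat.beq_refl] at h5
    · exact h5

theorem chkT_spec {s t u v w : ℕ} (hs : s < 15) (ht : t < 15) (hu : u < 15) (hv : v < 15) (hw : w < 15)
    (c1 : compat s t = true) (c2 : compat s u = true) (c3 : compat t u = true)
    (c4 : compat s v = true) (c5 : compat t v = true) (c6 : compat u v = true)
    (c7 : compat s w = true) (c8 : compat t w = true) (c9 : compat u w = true) (c10 : compat v w = true) :
    ∃ m ∈ mlL, Nat.testBit m (6 + s) = true ∧ Nat.testBit m (6 + t) = true ∧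
      Nat.testBit m (6 + u) = true ∧ Nat.testBit m (6 + v) = true ∧ Nat.testBit m (6 + w) = true := by
  have h1 := chkT_ok
  rw [chkT, List.all_eq_true] at h1
  have h2 := (List.all_eq_true.mp (h1 s (List.mem_range.mpr hs))) t (List.mem_range.mpr ht)
  simp only [c1, Bool.not_true, Bool.false_or] at h2
  have h3 := (List.all_eq_true.mp h2) u (List.mem_range.mpr hu)
  simp only [c2, c3, Bool.not_true, Bool.false_or] at h3
  have h4 := (List.all_eq_true.mp h3) v (List.mem_range.mpr hv)
  simp only [c4, c5, c6, Bool.not_true, Bool.false_or] at h4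
  have h5 := (List.all_eq_true.mp h4) w (List.mem_range.mpr hw)
  simp only [c7, c8, c9, c10, Bool.not_true, Bool.false_or] at h5
  obtain ⟨m, hm, h6⟩ := List.any_eq_true.mp h5
  simp only [Bool.and_eq_true] at h6
  exact ⟨m, hm, h6.1.1.1.1, h6.1.1.1.2, h6.1.1.2, h6.1.2, h6.2⟩

theorem compat_of {s t : ℕ} (h : ∀ i < 6, syv s i ≠ syv t i) : compat s t = true := by
  rw [compat, List.all_eq_true]
  intro i hi
  have hi' := List.mem_range.mp hi
  have := h i hi'
  simp only [Bool.not_eq_true']
  by_contra hc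
  simp only [Bool.not_eq_false] at hc
  exact this (Nat.eq_of_beq_eq_true hc)

section Hyper

variable {α : Type*} [Fintype α] [DecidableEq α] {L : Set (Finset α)}

/-- every line through a point of a hyperoval is a secant -/
theorem Pl.secant (h : Pl L) {H : Finset α} (hH : H.card = 6) (hI : Ind L H) {x : α} (hx : x ∈ H)
    {l : Finset α} (hl : l ∈ L) (hxl : x ∈ l) : ∃ y ∈ H, y ≠ x ∧ y ∈ l := by
  have hne : ∀ y ∈ H.erase x, x ≠ y := fun y hy => (Finset.ne_of_mem_erase hy).symm
  have hinj : Set.InjOn (fun y => ln L x y) (H.erase x : Set α) := by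
    intro t ht t' ht' htt
    by_contra hc
    have ht1 := Finset.mem_coe.mp ht
    have ht2 := Finset.mem_coe.mp ht'
    have e : ln L x t = ln L x t' := htt
    exact hI.no_three (h.ln_mem (hne t ht1)) hx (Finset.mem_of_mem_erase ht1) (Finset.mem_of_mem_erase ht2)
      (hne t ht1) (hne t' ht2) hc (h.left_mem (hne t ht1)) (h.right_mem (hne t ht1))
      (by rw [e]; exact h.right_mem (hne t' ht2))
  have hsub : (H.erase x).image (fun y => ln L x y) ⊆ thru L x := by
    intro m hm
    obtain ⟨t, ht, rfl⟩ := Finset.mem_image.mp hm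
    exact mem_thru.mpr ⟨h.ln_mem (hne t ht), h.left_mem (hne t ht)⟩
  have heq : (H.erase x).image (fun y => ln L x y) = thru L x := by
    apply Finset.eq_of_subset_of_card_le hsub
    rw [h.card_thru, Finset.card_image_of_injOn hinj, Finset.card_erase_of_mem hx, hH]
  have : l ∈ (H.erase x).image (fun y => ln L x y) := by
    rw [heq]; exact mem_thru.mpr ⟨hl, hxl⟩
  obtain ⟨y, hy, e⟩ := Finset.mem_image.mp this
  refine ⟨y, Finset.mem_of_mem_erase hy, Finset.ne_of_mem_erase hy, ?_⟩
  rw [← e]
  exact h.right_mem (hne y hy)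

/-- the other point of a hyperoval on the line from `p` through `x` -/
noncomputable def oth (L : Set (Finset α)) (H : Finset α) (p x : α) : α :=
  if h : ∃ y, y ∈ H ∧ y ≠ x ∧ y ∈ ln L p x then h.choose else x

theorem Pl.ne_of_mem {H : Finset α} {p x : α} (hp : p ∉ H) (hx : x ∈ H) : p ≠ x := by
  rintro rfl
  exact hp hx

theorem Pl.oth_spec (h : Pl L) {H : Finset α} (hH : H.card = 6) (hI : Ind L H) {p x : α}
    (hp : p ∉ H) (hx : x ∈ H) : oth L H p x ∈ H ∧ oth L H p x ≠ x ∧ oth L H p x ∈ ln L p x := by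
  have hpx := Pl.ne_of_mem hp hx
  have hex := h.secant hH hI hx (h.ln_mem hpx) (h.right_mem hpx)
  rw [oth, dif_pos hex]
  exact hex.choose_spec

theorem Pl.oth_unique (h : Pl L) {H : Finset α} (hH : H.card = 6) (hI : Ind L H) {p x y : α}
    (hp : p ∉ H) (hx : x ∈ H) (hy : y ∈ H) (hyx : y ≠ x) {l : Finset α} (hl : l ∈ L) (hpl : p ∈ l)
    (hxl : x ∈ l) (hyl : y ∈ l) : oth L H p x = y := by
  have hpx := Pl.ne_of_mem hp hx
  obtain ⟨h1, h2, h3⟩ := h.oth_spec hH hI hp hx
  have e : l = ln L p x := h.eq_ln hpx hl hpl hxl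
  by_contra hc
  rw [← e] at h3
  exact hI.no_three hl hx hy h1 hyx.symm h2.symm (Ne.symm hc) hxl hyl h3

theorem Pl.oth_oth (h : Pl L) {H : Finset α} (hH : H.card = 6) (hI : Ind L H) {p x : α}
    (hp : p ∉ H) (hx : x ∈ H) : oth L H p (oth L H p x) = x := by
  have hpx := Pl.ne_of_mem hp hx
  obtain ⟨h1, h2, h3⟩ := h.oth_spec hH hI hp hx
  exact h.oth_unique hH hI hp h1 hx h2.symm (h.ln_mem hpx) (h.left_mem hpx) h3 (h.right_mem hpx)

/-- a point off the hyperoval lies on the chord `x, oth p x` -/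
theorem Pl.mem_chord (h : Pl L) {H : Finset α} (hH : H.card = 6) (hI : Ind L H) {p x : α}
    (hp : p ∉ H) (hx : x ∈ H) : p ∈ ln L x (oth L H p x) := by
  have hpx := Pl.ne_of_mem hp hx
  obtain ⟨h1, h2, h3⟩ := h.oth_spec hH hI hp hx
  have e : ln L p x = ln L x (oth L H p x) :=
    h.eq_ln h2.symm (h.ln_mem hpx) (h.right_mem hpx) h3
  rw [← e]
  exact h.left_mem hpx

/-- matchings separate the points off a hyperoval -/
theorem Pl.match_inj (h : Pl L) {H : Finset α} (hH : H.card = 6) (hI : Ind L H) {p q : α}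
    (hp : p ∉ H) (hq : q ∉ H) (he : ∀ x ∈ H, oth L H p x = oth L H q x) : p = q := by
  by_contra hpq
  have hchord : ∀ x ∈ H, ln L p q = ln L x (oth L H p x) := by
    intro x hx
    have h1 := h.mem_chord hH hI hp hx
    have h2 := h.mem_chord hH hI hq hx
    rw [← he x hx] at h2
    exact (h.eq_ln hpq (h.ln_mem (h.oth_spec hH hI hp hx).2.1.symm) h1 h2).symm
  obtain ⟨x₁, hx₁⟩ : H.Nonempty := by rw [← Finset.card_pos]; omega
  obtain ⟨hy₁, hy₁2, -⟩ := h.oth_spec hH hI hp hx₁
  have hsub : ({x₁, oth L H p x₁} : Finset α).card < H.card := by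
    rw [Finset.card_pair hy₁2.symm, hH]; omega
  obtain ⟨x₂, hx₂, hx₂'⟩ := Finset.exists_mem_notMem_of_card_lt_card hsub
  simp only [Finset.mem_insert, Finset.mem_singleton, not_or] at hx₂'
  have e1 := hchord x₁ hx₁
  have e2 := hchord x₂ hx₂
  have m1 : x₁ ∈ ln L p q := by rw [e1]; exact h.left_mem hy₁2.symm
  have m2 : oth L H p x₁ ∈ ln L p q := by rw [e1]; exact h.right_mem hy₁2.symm
  have m3 : x₂ ∈ ln L p q := by
    rw [e2]
    exact h.left_mem (h.oth_spec hH hI hp hx₂).2.1.symm
  exact hI.no_three (h.ln_mem hpq) hx₁ hy₁ hx₂ hy₁2.symm (Ne.symm hx₂'.1) (Ne.symm hx₂'.2) m1 m2 m3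

end Hyper

end Cfsg.Agent.H27.Plane4
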