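import Cfsg.Agent.Lib.H27.SpFix2
/-! The number of complementary pairs of maximal isotropic subspaces. -/
set_option autoImplicit false
set_option linter.unusedSimpArgs false
set_option linter.style.haveILetI false
set_option linter.unusedSectionVars false
set_option linter.unusedVariables false
namespace Cfsg.Agent.H27.SpFix
open Matrix Cfsg.Agent.Lead

local notation "sf" => Cfsg.Agent.Lead.sympForm

variable {F : Type*} [Field F] {d : ℕ}

/-- the form as a bilinear form -/
noncomputable def BB (d : ℕ) (F : Type*) [Field F] : LinearMap.BilinForm F (Fin d ⊕ Fin d → F) :=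
  LinearMap.mk₂ F sf sympForm_add_left (fun c x y => sympForm_smul_left c x y) sympForm_add_right
    (fun c x y => sympForm_smul_right c x y)

lemma BB_apply (x y : Fin d ⊕ Fin d → F) : BB d F x y = sf x y := rfl

lemma BB_nd : (BB d F).Nondegenerate := by
  refine ⟨?_, ?_⟩
  · intro x hx
    by_contra hx0
    obtain ⟨z, hz⟩ := sympForm_nondeg hx0
    exact hz (hx z)
  · intro y hy
    by_contra hy0
    obtain ⟨z, hz⟩ := sympForm_nondeg hy0
    apply hz
    rw [sympForm_swap]
    have := hy z
    rw [BB_apply] at this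
    rw [this, neg_zero]

lemma finrank_ti_le (K : Submodule F (Fin d ⊕ Fin d → F)) (hK : ∀ u ∈ K, ∀ v ∈ K, sf u v = 0) :
    2 * Module.finrank F K ≤ 2 * d := by
  have e1 := LinearMap.BilinForm.finrank_orthogonal (BB_nd (d := d) (F := F)) K
  have hle : K ≤ (BB d F).orthogonal K := fun u hu w hw => hK w hw u hu
  have e2 := Submodule.finrank_mono hle
  have e3 : Module.finrank F (Fin d ⊕ Fin d → F) = 2 * d := by
    rw [Module.finrank_fintype_fun_eq_card]
    simp only [Fintype.card_sum, Fintype.card_fin]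
    ring
  have e4 : Module.finrank F K ≤ Module.finrank F (Fin d ⊕ Fin d → F) := Submodule.finrank_le K
  omega

lemma dims_pair {U W : Submodule F (Fin d ⊕ Fin d → F)} (hc : IsCompl U W) (hU : ∀ u ∈ U, ∀ v ∈ U, sf u v = 0)
    (hW : ∀ u ∈ W, ∀ v ∈ W, sf u v = 0) : Module.finrank F U = d ∧ Module.finrank F W = d := by
  have e1 := finrank_ti_le U hU
  have e2 := finrank_ti_le W hW
  have e3 := Submodule.finrank_add_eq_of_isCompl hc
  have e4 : Module.finrank F (Fin d ⊕ Fin d → F) = 2 * d := by
    rw [Module.finrank_fintype_fun_eq_card]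
    simp only [Fintype.card_sum, Fintype.card_fin]
    ring
  omega

lemma sf_zero_r (x : Fin d ⊕ Fin d → F) : sf x 0 = 0 := by
  simp [Cfsg.Agent.Lead.sympForm]

lemma sf_zero_l (x : Fin d ⊕ Fin d → F) : sf 0 x = 0 := by
  simp [Cfsg.Agent.Lead.sympForm]

lemma ti_span {k : ℕ} {e : Fin k → (Fin d ⊕ Fin d → F)} (h : ∀ i j, sf (e i) (e j) = 0) :
    ∀ u ∈ Submodule.span F (Set.range e), ∀ v ∈ Submodule.span F (Set.range e), sf u v = 0 := by
  intro u hu v hv
  induction hu using Submodule.span_induction with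
  | mem x hx =>
    obtain ⟨i, rfl⟩ := hx
    induction hv using Submodule.span_induction with
    | mem y hy =>
      obtain ⟨j, rfl⟩ := hy
      exact h i j
    | zero => exact sf_zero_r _
    | add a b _ _ ha hb => rw [sympForm_add_right, ha, hb, add_zero]
    | smul c a _ ha => rw [sympForm_smul_right, ha, mul_zero]
  | zero => exact sf_zero_l _
  | add a b _ _ ha hb => rw [sympForm_add_left, ha, hb, add_zero]
  | smul c a _ ha => rw [sympForm_smul_left, ha, mul_zero]

lemma sf_sum_r {k : ℕ} (x : Fin d ⊕ Fin d → F) (a : Fin k → F) (y : Fin k → (Fin d ⊕ Fin d → F)) :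
    sf x (∑ i, a i • y i) = ∑ i, a i * sf x (y i) := by
  rw [← BB_apply, map_sum]
  simp only [map_smul, smul_eq_mul, BB_apply]

lemma li_partial {k : ℕ} {e f : Fin k → (Fin d ⊕ Fin d → F)} (h : IsPartial e f) (a b : Fin k → F)
    (hs : ∑ i, a i • e i + ∑ i, b i • f i = 0) : a = 0 ∧ b = 0 := by
  classical
  obtain ⟨h1, h2, h3⟩ := h
  constructor
  · funext j
    have e1 := congrArg (fun x => sf (f j) x) hs
    simp only [sympForm_add_right, sf_sum_r, h2, mul_zero, Finset.sum_const_zero, add_zero, sf_zero_r] at e1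
    have e2 : ∀ i, sf (f j) (e i) = if i = j then 1 else 0 := by
      intro i
      rw [sympForm_swap, h3]
      split_ifs <;> simp
    simp only [e2, mul_ite, mul_one, mul_zero, Finset.sum_ite_eq', Finset.mem_univ, if_true] at e1
    exact e1
  · funext j
    have e1 := congrArg (fun x => sf (e j) x) hs
    simp only [sympForm_add_right, sf_sum_r, h1, mul_zero, Finset.sum_const_zero, zero_add, sf_zero_r, h3] at e1
    simp only [mul_ite, mul_neg, mul_one, mul_zero, Finset.sum_ite_eq, Finset.mem_univ, if_true, neg_eq_zero] at e1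
    exact e1

lemma li_left {k : ℕ} {e f : Fin k → (Fin d ⊕ Fin d → F)} (h : IsPartial e f) : LinearIndependent F e := by
  rw [Fintype.linearIndependent_iff]
  intro g hg i
  have := (li_partial h g 0 (by simpa using hg)).1
  exact congrFun this i

lemma li_right {k : ℕ} {e f : Fin k → (Fin d ⊕ Fin d → F)} (h : IsPartial e f) : LinearIndependent F f := by
  rw [Fintype.linearIndependent_iff]
  intro g hg i
  have := (li_partial h 0 g (by simpa using hg)).2
  exact congrFun this i

lemma compl_partial {e f : Fin d → (Fin d ⊕ Fin d → F)} (h : IsPartial e f) :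
    IsCompl (Submodule.span F (Set.range e)) (Submodule.span F (Set.range f)) := by
  have e4 : Module.finrank F (Fin d ⊕ Fin d → F) = 2 * d := by
    rw [Module.finrank_fintype_fun_eq_card]
    simp only [Fintype.card_sum, Fintype.card_fin]
    ring
  rw [Submodule.isCompl_iff_disjoint _ _ (by
    rw [finrank_span_eq_card (li_left h), finrank_span_eq_card (li_right h), e4, Fintype.card_fin]
    omega)]
  rw [Submodule.disjoint_def]
  intro x h1 h2
  obtain ⟨a, ha⟩ := (Submodule.mem_span_range_iff_exists_fun F).1 h1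
  obtain ⟨b, hb⟩ := (Submodule.mem_span_range_iff_exists_fun F).1 h2
  have := (li_partial h a (-b) (by
    simp only [Pi.neg_apply, neg_smul, Finset.sum_neg_distrib]
    rw [ha, hb, add_neg_cancel])).1
  rw [← ha, this]
  simp

lemma sf_span_zero {e : Fin d → (Fin d ⊕ Fin d → F)} {w : Fin d ⊕ Fin d → F} (h : ∀ i, sf (e i) w = 0) :
    ∀ u ∈ Submodule.span F (Set.range e), sf u w = 0 := by
  intro u hu
  induction hu using Submodule.span_induction with
  | mem x hx =>
    obtain ⟨i, rfl⟩ := hx
    exact h i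
  | zero => exact sf_zero_l _
  | add a b _ _ ha hb => rw [sympForm_add_left, ha, hb, add_zero]
  | smul c a _ ha => rw [sympForm_smul_left, ha, mul_zero]

/-- the pairing of a complementary pair separates -/
lemma pair_inj {U W : Submodule F (Fin d ⊕ Fin d → F)} (hc : IsCompl U W) (hW : ∀ u ∈ W, ∀ v ∈ W, sf u v = 0)
    {e : Fin d → (Fin d ⊕ Fin d → F)} (he : Submodule.span F (Set.range e) = U) {w : Fin d ⊕ Fin d → F} (hw : w ∈ W)
    (h : ∀ i, sf (e i) w = 0) : w = 0 := by
  by_contra hw0
  obtain ⟨z, hz⟩ := sympForm_nondeg hw0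
  apply hz
  have hz' : z ∈ U ⊔ W := by rw [hc.sup_eq_top]; trivial
  obtain ⟨u, hu, w', hw', rfl⟩ := Submodule.mem_sup.1 hz'
  rw [sympForm_add_right, hW w hw w' hw', add_zero, sympForm_swap]
  have : sf u w = 0 := sf_span_zero h u (by rw [he]; exact hu)
  rw [this, neg_zero]

/-- dual vectors exist -/
lemma exists_dual {U W : Submodule F (Fin d ⊕ Fin d → F)} (hc : IsCompl U W) (hU : ∀ u ∈ U, ∀ v ∈ U, sf u v = 0) (hW : ∀ u ∈ W, ∀ v ∈ W, sf u v = 0)
    {e : Fin d → (Fin d ⊕ Fin d → F)} (he : Submodule.span F (Set.range e) = U) :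
    ∃ f : Fin d → (Fin d ⊕ Fin d → F), (∀ j, f j ∈ W) ∧ ∀ i j, sf (e i) (f j) = if i = j then -1 else 0 := by
  classical
  let ψ : W →ₗ[F] (Fin d → F) :=
    { toFun := fun w i => sf (e i) w.1
      map_add' := fun x y => by
        funext i
        simp only [Submodule.coe_add, sympForm_add_right, Pi.add_apply]
      map_smul' := fun c x => by
        funext i
        simp only [Submodule.coe_smul, sympForm_smul_right, Pi.smul_apply, smul_eq_mul, RingHom.id_apply] }
  have hinj : Function.Injective ψ := by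
    rw [injective_iff_map_eq_zero]
    intro w hw
    apply Subtype.ext
    exact pair_inj hc hW he w.2 (fun i => congrFun hw i)
  have hdim : Module.finrank F W = Module.finrank F (Fin d → F) := by
    rw [(dims_pair hc hU hW).2, Module.finrank_fintype_fun_eq_card, Fintype.card_fin]
  have hsurj := (LinearMap.injective_iff_surjective_of_finrank_eq_finrank hdim).1 hinj
  choose w hw using fun j : Fin d => hsurj (fun i => if i = j then (-1 : F) else 0)
  refine ⟨fun j => (w j).1, fun j => (w j).2, fun i j => ?_⟩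
  exact congrFun (hw j) i

section Count
variable [Fintype F]

/-- the span map on symplectic bases -/
noncomputable def Xi (d : ℕ) (F : Type*) [Field F] [Fintype F] (t : Tup (Fin d) F d) :
    {P : Submodule F (Fin d ⊕ Fin d → F) × Submodule F (Fin d ⊕ Fin d → F) // IsCompl P.1 P.2 ∧ (∀ u ∈ P.1, ∀ v ∈ P.1, Cfsg.sympForm d F u v = 0) ∧ (∀ u ∈ P.2, ∀ v ∈ P.2, Cfsg.sympForm d F u v = 0)} :=
  ⟨(Submodule.span F (Set.range t.1.1), Submodule.span F (Set.range t.1.2)), compl_partial t.2, ti_span t.2.1, ti_span t.2.2.1⟩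

lemma fiber_card (p : {P : Submodule F (Fin d ⊕ Fin d → F) × Submodule F (Fin d ⊕ Fin d → F) // IsCompl P.1 P.2 ∧ (∀ u ∈ P.1, ∀ v ∈ P.1, Cfsg.sympForm d F u v = 0) ∧ (∀ u ∈ P.2, ∀ v ∈ P.2, Cfsg.sympForm d F u v = 0)}) :
    Nat.card {t : Tup (Fin d) F d // Xi d F t = p} = ∏ i : Fin d, (Fintype.card F ^ d - Fintype.card F ^ i.val) := by
  classical
  obtain ⟨⟨U, W⟩, hc, hU, hW⟩ := p
  simp only at hc hU hW
  have hU' : ∀ u ∈ U, ∀ v ∈ U, sf u v = 0 := hU
  have hW' : ∀ u ∈ W, ∀ v ∈ W, sf u v = 0 := hW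
  obtain ⟨dU, dW⟩ := dims_pair hc hU' hW'
  have key : ∀ t : {t : Tup (Fin d) F d // Xi d F t = ⟨(U, W), hc, hU, hW⟩},
      Submodule.span F (Set.range t.1.1.1) = U ∧ Submodule.span F (Set.range t.1.1.2) = W := by
    intro t
    have e := congrArg Subtype.val t.2
    exact ⟨congrArg Prod.fst e, congrArg Prod.snd e⟩
  have key2 : ∀ (t : {t : Tup (Fin d) F d // Xi d F t = ⟨(U, W), hc, hU, hW⟩}) (i : Fin d), t.1.1.1 i ∈ U := fun t i => by
    have h : t.1.1.1 i ∈ Submodule.span F (Set.range t.1.1.1) := Submodule.subset_span ⟨i, rfl⟩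
    rwa [(key t).1] at h
  have key3 : ∀ (t : {t : Tup (Fin d) F d // Xi d F t = ⟨(U, W), hc, hU, hW⟩}) (i : Fin d), t.1.1.2 i ∈ W := fun t i => by
    have h : t.1.1.2 i ∈ Submodule.span F (Set.range t.1.1.2) := Submodule.subset_span ⟨i, rfl⟩
    rwa [(key t).2] at h
  let φ : {t : Tup (Fin d) F d // Xi d F t = ⟨(U, W), hc, hU, hW⟩} → {s : Fin d → U // LinearIndependent F s} := fun t =>
    ⟨fun i => ⟨t.1.1.1 i, key2 t i⟩, by
      apply LinearIndependent.of_comp U.subtype
      exact li_left t.1.2⟩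
  have hφ : Function.Bijective φ := by
    constructor
    · rintro t t' e
      have e1 : t.1.1.1 = t'.1.1.1 := by
        funext i
        have := congrFun (congrArg Subtype.val e) i
        exact congrArg Subtype.val this
      have e2 : t.1.1.2 = t'.1.1.2 := by
        funext j
        have hm : t.1.1.2 j - t'.1.1.2 j ∈ W := by
          exact W.sub_mem (key3 t j) (key3 t' j)
        have := pair_inj hc hW' (key t).1 hm (fun i => by
          rw [sympForm_sub_right, t.1.2.2.2 i j]
          have e3 : sf (t.1.1.1 i) (t'.1.1.2 j) = if i = j then -1 else 0 := by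
            rw [e1]
            exact t'.1.2.2.2 i j
          rw [e3, sub_self])
        exact sub_eq_zero.1 this
      apply Subtype.ext
      apply Subtype.ext
      exact Prod.ext e1 e2
    · rintro ⟨s, hs⟩
      let e : Fin d → (Fin d ⊕ Fin d → F) := fun i => (s i).1
      have hli : LinearIndependent F e := hs.map' U.subtype (Submodule.ker_subtype U)
      have he : Submodule.span F (Set.range e) = U := by
        apply Submodule.eq_of_le_of_finrank_eq
        · rw [Submodule.span_le]
          rintro _ ⟨i, rfl⟩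
          exact (s i).2
        · rw [finrank_span_eq_card hli, dU, Fintype.card_fin]
      obtain ⟨f, hf, hdual⟩ := exists_dual hc hU' hW' he
      have hpart : IsPartial e f := ⟨fun i j => hU' _ (s i).2 _ (s j).2, fun i j => hW' _ (hf i) _ (hf j), hdual⟩
      have hf' : Submodule.span F (Set.range f) = W := by
        apply Submodule.eq_of_le_of_finrank_eq
        · rw [Submodule.span_le]
          rintro _ ⟨i, rfl⟩
          exact hf i
        · rw [finrank_span_eq_card (li_right hpart), dW, Fintype.card_fin]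
      refine ⟨⟨⟨(e, f), hpart⟩, Subtype.ext (Prod.ext he hf')⟩, ?_⟩
      apply Subtype.ext
      funext i
      rfl
  rw [Nat.card_congr (Equiv.ofBijective φ hφ)]
  have := card_linearIndependent (K := F) (V := U) (k := d) (by rw [dU])
  rw [dU] at this
  exact this

/-- the count of complementary pairs -/
theorem card_pairs (d : ℕ) :
    Nat.card {P : Submodule F (Fin d ⊕ Fin d → F) × Submodule F (Fin d ⊕ Fin d → F) // IsCompl P.1 P.2 ∧ (∀ u ∈ P.1, ∀ v ∈ P.1, Cfsg.sympForm d F u v = 0) ∧ (∀ u ∈ P.2, ∀ v ∈ P.2, Cfsg.sympForm d F u v = 0)} *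
      ∏ i : Fin d, (Fintype.card F ^ d - Fintype.card F ^ i.val) = Nat.card (Matrix.symplecticGroup (Fin d) F) := by
  classical
  rw [Nat.card_congr (spEquivTup (F := F) d), ← Nat.card_congr (Equiv.sigmaFiberEquiv (Xi d F))]
  haveI : Fintype {P : Submodule F (Fin d ⊕ Fin d → F) × Submodule F (Fin d ⊕ Fin d → F) // IsCompl P.1 P.2 ∧ (∀ u ∈ P.1, ∀ v ∈ P.1, Cfsg.sympForm d F u v = 0) ∧ (∀ u ∈ P.2, ∀ v ∈ P.2, Cfsg.sympForm d F u v = 0)} := Fintype.ofFinite _
  rw [Nat.card_sigma, Finset.sum_congr rfl (fun p _ => fiber_card p), Finset.sum_const, smul_eq_mul, Finset.card_univ,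
    Nat.card_eq_fintype_card]

end Count

end Cfsg.Agent.H27.SpFix
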