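import Cfsg.Agent.Lib.H27.SpCount
/-! Odd prime order elements of `PSp` with no fixed complementary pair. -/
set_option autoImplicit false
set_option linter.unusedSimpArgs false
set_option linter.style.haveILetI false
set_option linter.unusedSectionVars false
set_option linter.unusedVariables false
namespace Cfsg.Agent.H27.SpFix
open Matrix Cfsg.Agent.Lead

lemma prod_GL (q d : ℕ) (hq : 1 ≤ q) :
    ∃ s, ∏ i : Fin d, (q ^ d - q ^ i.val) = q ^ s * ∏ i ∈ Finset.range d, (q ^ (i + 1) - 1) := by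
  refine ⟨∑ i ∈ Finset.range d, i, ?_⟩
  rw [Fin.prod_univ_eq_prod_range (fun i => q ^ d - q ^ i) d, ← Finset.prod_pow_eq_pow_sum,
    ← Finset.prod_range_reflect (fun j => q ^ (j + 1) - 1) d, ← Finset.prod_mul_distrib]
  refine Finset.prod_congr rfl fun i hi => ?_
  have hi' := Finset.mem_range.1 hi
  have e : d - 1 - i + 1 = d - i := by omega
  rw [e, Nat.mul_sub, mul_one, ← pow_add]
  congr 2
  omega

lemma exists_dvd {q d N r : ℕ} (hq : 2 ≤ q) (hodd : Odd q) (hd : 1 ≤ d) (hr : r.Prime) (hrq : ¬ r ∣ q)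
    (hN : N * ∏ i : Fin d, (q ^ d - q ^ i.val) = q ^ (d ^ 2) * ∏ i ∈ Finset.range d, (q ^ (2 * (i + 1)) - 1))
    (hΩ : r ∣ N / 2) : ∃ i, 1 ≤ i ∧ i ≤ d ∧ r ∣ q ^ i + 1 := by
  obtain ⟨s, hs⟩ := prod_GL q d (by omega)
  have hfac : ∏ i ∈ Finset.range d, (q ^ (2 * (i + 1)) - 1) =
      (∏ i ∈ Finset.range d, (q ^ (i + 1) - 1)) * ∏ i ∈ Finset.range d, (q ^ (i + 1) + 1) := by
    rw [← Finset.prod_mul_distrib]
    refine Finset.prod_congr rfl fun i _ => ?_
    have h1 : 1 ≤ q ^ (i + 1) := Nat.one_le_pow _ _ (by omega)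
    obtain ⟨B, hB⟩ : ∃ B, q ^ (i + 1) = B + 1 := ⟨_, (Nat.sub_add_cancel h1).symm⟩
    have e1 : q ^ (2 * (i + 1)) = (q ^ (i + 1)) ^ 2 := by
      rw [← pow_mul]
      congr 1
      ring
    rw [e1, hB]
    apply Nat.sub_eq_of_eq_add
    simp only [Nat.add_sub_cancel]
    ring
  have hApos : 0 < ∏ i ∈ Finset.range d, (q ^ (i + 1) - 1) := by
    apply Finset.prod_pos
    intro i _
    have h2 : q ^ 1 ≤ q ^ (i + 1) := Nat.pow_le_pow_right (by omega) (by omega)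
    rw [pow_one] at h2
    omega
  rw [hs, hfac] at hN
  have hN' : N * q ^ s = q ^ (d ^ 2) * ∏ i ∈ Finset.range d, (q ^ (i + 1) + 1) := by
    apply Nat.eq_of_mul_eq_mul_right hApos
    have key : ∀ A C T U : ℕ, N * (T * A) = U * (A * C) → N * T * A = U * C * A := by
      intro A C T U h
      rw [mul_assoc, h]
      ring
    exact key _ _ _ _ hN
  have h2C : 2 ∣ ∏ i ∈ Finset.range d, (q ^ (i + 1) + 1) := by
    have e1 : q ^ (0 + 1) + 1 ∣ ∏ i ∈ Finset.range d, (q ^ (i + 1) + 1) :=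
      Finset.dvd_prod_of_mem (fun i => q ^ (i + 1) + 1) (Finset.mem_range.2 (by omega))
    refine dvd_trans ?_ e1
    rw [zero_add, pow_one]
    obtain ⟨k, hk⟩ := hodd
    exact ⟨k + 1, by omega⟩
  have h2N : 2 ∣ N := by
    have e1 : 2 ∣ N * q ^ s := by
      rw [hN']
      exact Dvd.dvd.mul_left h2C _
    rcases Nat.prime_two.dvd_mul.1 e1 with h | h
    · exact h
    · exfalso
      have := Nat.prime_two.dvd_of_dvd_pow h
      exact (Nat.not_even_iff_odd.2 hodd) (even_iff_two_dvd.2 this)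
  have hrN : r ∣ N := by
    obtain ⟨k, hk⟩ := h2N
    rw [hk, Nat.mul_div_cancel_left _ (by norm_num)] at hΩ
    rw [hk]
    exact Dvd.dvd.mul_left hΩ 2
  have hrC : r ∣ ∏ i ∈ Finset.range d, (q ^ (i + 1) + 1) := by
    have e1 : r ∣ q ^ (d ^ 2) * ∏ i ∈ Finset.range d, (q ^ (i + 1) + 1) := by
      rw [← hN']
      exact Dvd.dvd.mul_right hrN _
    exact (hr.dvd_mul.1 e1).resolve_left fun h => hrq (hr.dvd_of_dvd_pow h)
  obtain ⟨i, hi, hdi⟩ := (Prime.dvd_finsetProd_iff hr.prime _).1 hrC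
  exact ⟨i + 1, by omega, by have := Finset.mem_range.1 hi; omega, hdi⟩

lemma gap_of_min {q f r : ℕ} (hr : r.Prime) (hr2 : r ≠ 2) (hrq : ¬ r ∣ q) (hf : 1 ≤ f) (hdiv : r ∣ q ^ f + 1)
    (hmin : ∀ g, 1 ≤ g → g < f → ¬ r ∣ q ^ g + 1) : ∀ j, 1 ≤ j → j < 2 * f → ¬ r ∣ q ^ j - 1 := by
  intro j hj1 hj2 hdvd
  haveI : Fact r.Prime := ⟨hr⟩
  have hq0 : q ≠ 0 := by
    rintro rfl
    exact hrq (dvd_zero r)
  have hu : (q : ZMod r) ^ f = -1 := by
    have := (ZMod.natCast_eq_zero_iff (q ^ f + 1) r).2 hdiv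
    push_cast at this
    exact eq_neg_of_add_eq_zero_left this
  have h2ne : (2 : ZMod r) ≠ 0 := by
    intro e
    have : ((2 : ℕ) : ZMod r) = 0 := by exact_mod_cast e
    have := (ZMod.natCast_eq_zero_iff 2 r).1 this
    exact hr2 ((Nat.prime_dvd_prime_iff_eq hr Nat.prime_two).1 this)
  have hone : (1 : ZMod r) ≠ -1 := by
    intro e
    apply h2ne
    linear_combination e
  have huj : (q : ZMod r) ^ j = 1 := by
    have h1 : 1 ≤ q ^ j := Nat.one_le_pow _ _ (Nat.pos_of_ne_zero hq0)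
    have := (ZMod.natCast_eq_zero_iff (q ^ j - 1) r).2 hdvd
    rw [Nat.cast_sub h1] at this
    push_cast at this
    exact sub_eq_zero.1 this
  have hu2 : (q : ZMod r) ^ (2 * f) = 1 := by
    rw [mul_comm, pow_mul, hu]
    ring
  set e := orderOf (q : ZMod r) with he
  have hej : e ∣ j := orderOf_dvd_of_pow_eq_one huj
  have he2 : e ∣ 2 * f := orderOf_dvd_of_pow_eq_one hu2
  have hepos : 0 < e := Nat.pos_of_dvd_of_pos he2 (by omega)
  have helt : e < 2 * f := lt_of_le_of_lt (Nat.le_of_dvd (by omega) hej) hj2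
  obtain ⟨c, hc⟩ := he2
  rcases Nat.even_or_odd c with hce | hco
  · obtain ⟨c', hc'⟩ := hce
    have hfe : f = e * c' := by
      have : 2 * f = 2 * (e * c') := by
        rw [hc, hc']
        ring
      omega
    apply hone
    have hee : (q : ZMod r) ^ e = 1 := by
      rw [he]
      exact pow_orderOf_eq_one _
    rw [← hu, hfe, pow_mul, hee, one_pow]
  · have he_even : 2 ∣ e := by
      have : 2 ∣ e * c := by rw [← hc]; exact Dvd.intro f rfl
      rcases Nat.prime_two.dvd_mul.1 this with h | h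
      · exact h
      · exfalso
        exact (Nat.not_even_iff_odd.2 hco) (even_iff_two_dvd.2 h)
    obtain ⟨g, hg⟩ := he_even
    have hfg : f = g * c := by
      have : 2 * f = 2 * (g * c) := by
        rw [hc, hg]
        ring
      omega
    have hg1 : 1 ≤ g := by omega
    have hc3 : 2 ≤ c := by
      by_contra hlt
      have : c = 1 := by
        obtain ⟨m, hm⟩ := hco
        omega
      rw [this, mul_one] at hc
      omega
    have hgf : g < f := by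
      rw [hfg]
      nlinarith
    have hsq : ((q : ZMod r) ^ g - 1) * ((q : ZMod r) ^ g + 1) = 0 := by
      have : (q : ZMod r) ^ (2 * g) = 1 := by
        rw [← hg, he]
        exact pow_orderOf_eq_one _
      rw [mul_comm 2 g, pow_mul] at this
      linear_combination this
    rcases mul_eq_zero.1 hsq with h | h
    · have : e ∣ g := orderOf_dvd_of_pow_eq_one (sub_eq_zero.1 h)
      have := Nat.le_of_dvd hg1 this
      omega
    · apply hmin g hg1 hgf
      apply (ZMod.natCast_eq_zero_iff (q ^ g + 1) r).1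
      push_cast
      exact h

variable {F : Type*} [Field F] [Fintype F]

theorem sp_main {p : ℕ} [Fact p.Prime] [CharP F p] (d : ℕ) (hd : 2 ≤ d) (hodd : Odd (Fintype.card F))
    (r : ℕ) [Fact r.Prime] (hr2 : r ≠ 2) (hrp : r ≠ p)
    (hΩ : r ∣ Nat.card {P : Submodule F (Fin d ⊕ Fin d → F) × Submodule F (Fin d ⊕ Fin d → F) // IsCompl P.1 P.2 ∧ (∀ u ∈ P.1, ∀ v ∈ P.1, Cfsg.sympForm d F u v = 0) ∧ (∀ u ∈ P.2, ∀ v ∈ P.2, Cfsg.sympForm d F u v = 0)} / 2) :
    ∃ x : ↥(Matrix.symplecticGroup (Fin d) F),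
      (∃ z : F, ((x ^ r : ↥(Matrix.symplecticGroup (Fin d) F)) : Matrix (Fin d ⊕ Fin d) (Fin d ⊕ Fin d) F) = z • (1 : Matrix (Fin d ⊕ Fin d) (Fin d ⊕ Fin d) F)) ∧
      (∀ z : F, (x : Matrix (Fin d ⊕ Fin d) (Fin d ⊕ Fin d) F) ≠ z • (1 : Matrix (Fin d ⊕ Fin d) (Fin d ⊕ Fin d) F)) ∧
      ¬ (∃ U W : Submodule F (Fin d ⊕ Fin d → F), IsCompl U W ∧ (∀ u ∈ U, ∀ v ∈ U, Cfsg.sympForm d F u v = 0) ∧ (∀ u ∈ W, ∀ v ∈ W, Cfsg.sympForm d F u v = 0) ∧
        ((U.map (Matrix.toLin' (x : Matrix (Fin d ⊕ Fin d) (Fin d ⊕ Fin d) F)) = U ∧ W.map (Matrix.toLin' (x : Matrix (Fin d ⊕ Fin d) (Fin d ⊕ Fin d) F)) = W) ∨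
         (U.map (Matrix.toLin' (x : Matrix (Fin d ⊕ Fin d) (Fin d ⊕ Fin d) F)) = W ∧ W.map (Matrix.toLin' (x : Matrix (Fin d ⊕ Fin d) (Fin d ⊕ Fin d) F)) = U))) := by
  classical
  have hpr : r.Prime := Fact.out
  have hq2 : 2 ≤ Fintype.card F := Fintype.one_lt_card
  have hrq : ¬ r ∣ Fintype.card F := by
    obtain ⟨k, hp', hk⟩ := FiniteField.card F p
    rw [hk]
    intro h
    have := hpr.dvd_of_dvd_pow h
    exact hrp ((Nat.prime_dvd_prime_iff_eq hpr hp').1 this)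
  have hN := card_pairs (F := F) d
  rw [card_Sp rfl d] at hN
  obtain ⟨i, hi1, hid, hidvd⟩ := exists_dvd hq2 hodd (by omega) hpr hrq hN hΩ
  have hex : ∃ i, 1 ≤ i ∧ r ∣ Fintype.card F ^ i + 1 := ⟨i, hi1, hidvd⟩
  obtain ⟨f, hf1, hfd, hfdvd, hfmin⟩ : ∃ f, 1 ≤ f ∧ f ≤ d ∧ r ∣ Fintype.card F ^ f + 1 ∧ ∀ g, 1 ≤ g → g < f → ¬ r ∣ Fintype.card F ^ g + 1 := by
    refine ⟨Nat.find hex, (Nat.find_spec hex).1, le_trans (Nat.find_min' hex ⟨hi1, hidvd⟩) hid, (Nat.find_spec hex).2, fun g hg1 hg2 hg3 => ?_⟩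
    exact Nat.find_min hex hg2 ⟨hg1, hg3⟩
  have hgap := gap_of_min hpr hr2 hrq hf1 hfdvd hfmin
  have hcardSp : r ∣ Nat.card (Matrix.symplecticGroup (Fin f) F) := by
    rw [card_Sp rfl f]
    apply Dvd.dvd.mul_left
    have hmem : f - 1 ∈ Finset.range f := Finset.mem_range.2 (by omega)
    refine dvd_trans ?_ (Finset.dvd_prod_of_mem (fun i => Fintype.card F ^ (2 * (i + 1)) - 1) hmem)
    have e1 : f - 1 + 1 = f := by omega
    simp only [e1]
    have h1 : 1 ≤ Fintype.card F ^ f := Nat.one_le_pow _ _ (by omega)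
    obtain ⟨B, hB⟩ : ∃ B, Fintype.card F ^ f = B + 1 := ⟨_, (Nat.sub_add_cancel h1).symm⟩
    have e2 : Fintype.card F ^ (2 * f) = (Fintype.card F ^ f) ^ 2 := by
      rw [← pow_mul]
      congr 1
      ring
    have e3 : Fintype.card F ^ (2 * f) - 1 = (Fintype.card F ^ f + 1) * B := by
      rw [e2, hB]
      apply Nat.sub_eq_of_eq_add
      ring
    rw [e3]
    exact Dvd.dvd.mul_right hfdvd B
  obtain ⟨y, hy⟩ := exists_prime_orderOf_dvd_card' r hcardSp
  have hyr : y ^ r = 1 := by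
    rw [← hy]
    exact pow_orderOf_eq_one y
  have hy1 : y ≠ 1 := by
    rintro rfl
    rw [orderOf_one] at hy
    exact hpr.one_lt.ne hy
  obtain ⟨g, rfl⟩ := Nat.exists_eq_add_of_le hfd
  exact exists_x hf1 hr2 y hyr hy1 hgap hrq

end Cfsg.Agent.H27.SpFix
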