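import Cfsg.Agent.Lib.H27.OmFpK
import Cfsg.Agent.Lib.Lead.SpOrder
/-! Symplectic elements of odd prime order with small support and complementary isotropic pairs. -/
set_option autoImplicit false
set_option linter.unusedSimpArgs false
set_option linter.style.haveILetI false
set_option linter.unusedSectionVars false
set_option linter.unusedVariables false
namespace Cfsg.Agent.H27.SpFix
open Matrix Cfsg.Agent.Lead

local notation "sf" => Cfsg.Agent.Lead.sympForm

section Gap
variable {F : Type*} [Field F] [Fintype F] {V : Type*} [AddCommGroup V] [Module F V] [Module.Finite F V]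

lemma card_modEq_fix {X : Type*} [Finite X] {r : ℕ} [Fact r.Prime] (f : Function.End X) (hf : f ^ r = 1) :
    Nat.card X ≡ Nat.card {x // f x = x} [MOD r] := by
  classical
  haveI : Fintype X := Fintype.ofFinite X
  have hmod := Equiv.Perm.card_fixedPoints_modEq (p := r) (n := 1) (f := f) (by rwa [pow_one])
  rw [Nat.card_eq_fintype_card, Nat.card_eq_fintype_card]
  convert hmod using 1
  exact Fintype.card_congr ⟨fun x => ⟨x.1, x.2⟩, fun x => ⟨x.1, x.2⟩, fun _ => rfl, fun _ => rfl⟩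

/-- the gap in the dimension of the fixed space -/
lemma gap (T : V →ₗ[F] V) {r : ℕ} [Fact r.Prime] (hq : ¬ r ∣ Fintype.card F) (hT : T ^ r = 1) (Fx W : Submodule F V)
    (hFx : ∀ v, v ∈ Fx ↔ T v = v) (hW : ∀ w ∈ W, T w ∈ W) :
    r ∣ Fintype.card F ^ (Module.finrank F W - Module.finrank F ↥(W ⊓ Fx)) - 1 := by
  classical
  have hpr : r.Prime := Fact.out
  haveI : Finite F := inferInstance
  haveI : Finite V := Module.finite_of_finite F
  let f : Function.End W := fun w => ⟨T w, hW w w.2⟩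
  have hp : ∀ (k : ℕ) (w : W), ((f ^ k) w).1 = (T ^ k) w.1 := by
    intro k
    induction k with
    | zero => intro w; rfl
    | succ k ih =>
      intro w
      rw [pow_succ', pow_succ']
      change T ((f ^ k) w).1 = _
      rw [ih]
      rfl
  have hf : f ^ r = 1 := by
    funext w
    apply Subtype.ext
    rw [hp, hT]
    rfl
  have hmod := card_modEq_fix f hf
  have e1 : Nat.card {x // f x = x} = Nat.card ↥(W ⊓ Fx) := by
    refine Nat.card_congr ⟨fun x => ⟨x.1.1, x.1.2, (hFx _).2 (congrArg Subtype.val x.2)⟩,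
      fun x => ⟨⟨x.1, x.2.1⟩, Subtype.ext ((hFx _).1 x.2.2)⟩, fun x => rfl, fun x => rfl⟩
  rw [e1, Module.natCard_eq_pow_finrank (K := F) (V := W), Module.natCard_eq_pow_finrank (K := F) (V := ↥(W ⊓ Fx)),
    Nat.card_eq_fintype_card] at hmod
  have hle : Module.finrank F ↥(W ⊓ Fx) ≤ Module.finrank F W := Submodule.finrank_mono inf_le_left
  have hq0 : 0 < Fintype.card F := Fintype.card_pos
  have e2 := (Nat.modEq_iff_dvd' (Nat.pow_le_pow_right hq0 hle)).1 hmod.symm
  obtain ⟨j, hj⟩ := Nat.exists_eq_add_of_le hle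
  have e3 : Fintype.card F ^ Module.finrank F W - Fintype.card F ^ Module.finrank F ↥(W ⊓ Fx) =
      Fintype.card F ^ Module.finrank F ↥(W ⊓ Fx) * (Fintype.card F ^ (Module.finrank F W - Module.finrank F ↥(W ⊓ Fx)) - 1) := by
    rw [hj, Nat.add_sub_cancel_left, pow_add, Nat.mul_sub, mul_one]
  rw [e3] at e2
  exact (hpr.dvd_mul.1 e2).resolve_left fun h => hq (hpr.dvd_of_dvd_pow h)

/-- irreducibility and absence of fixed vectors -/
theorem irr_of_gap (T : V →ₗ[F] V) {r : ℕ} [Fact r.Prime] (hq : ¬ r ∣ Fintype.card F) (hT : T ^ r = 1) (hT1 : ∃ v, T v ≠ v)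
    (hgap : ∀ j, 1 ≤ j → j < Module.finrank F V → ¬ r ∣ Fintype.card F ^ j - 1) :
    (∀ v, T v = v → v = 0) ∧ ∀ W : Submodule F V, (∀ w ∈ W, T w ∈ W) → W ≠ ⊤ → W = ⊥ := by
  classical
  let Fx : Submodule F V := LinearMap.ker (T - 1)
  have hFx : ∀ v, v ∈ Fx ↔ T v = v := fun v => by
    simp only [Fx, LinearMap.mem_ker, LinearMap.sub_apply, Module.End.one_apply, sub_eq_zero]
  have htop := gap T hq hT Fx ⊤ hFx (fun _ _ => trivial)
  rw [top_inf_eq, finrank_top] at htop
  have hFxbot : Fx = ⊥ := by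
    have hle : Module.finrank F Fx ≤ Module.finrank F V := Submodule.finrank_le Fx
    by_contra hne
    have hpos : 0 < Module.finrank F Fx := Nat.pos_of_ne_zero fun e => hne (Submodule.finrank_eq_zero.1 e)
    have hj0 : Module.finrank F V - Module.finrank F Fx = 0 := by
      by_contra hj
      exact hgap _ (by omega) (by omega) htop
    have heq : Fx = ⊤ := Submodule.eq_top_of_finrank_eq (by omega)
    obtain ⟨v, hv⟩ := hT1
    exact hv ((hFx v).1 (by rw [heq]; trivial))
  have hfix : ∀ v, T v = v → v = 0 := fun v hv => by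
    have : v ∈ Fx := (hFx v).2 hv
    rw [hFxbot] at this
    exact (Submodule.mem_bot F).1 this
  refine ⟨hfix, fun W hW hne => ?_⟩
  have hW' := gap T hq hT Fx W hFx hW
  rw [hFxbot, inf_bot_eq, finrank_bot, Nat.sub_zero] at hW'
  have hlt : Module.finrank F W < Module.finrank F V := by
    apply lt_of_le_of_ne (Submodule.finrank_le W)
    intro e
    exact hne (Submodule.eq_top_of_finrank_eq e)
  by_contra hbot
  have hpos : 0 < Module.finrank F W := Nat.pos_of_ne_zero fun e => hbot (Submodule.finrank_eq_zero.1 e)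
  exact hgap _ (by omega) hlt hW'

end Gap

section Blocks
variable {F : Type*} [Field F] {f g : ℕ}

/-- restriction to the small coordinates -/
def RL (f g : ℕ) (F : Type*) [Field F] : (Fin (f + g) ⊕ Fin (f + g) → F) →ₗ[F] (Fin f ⊕ Fin f → F) :=
  LinearMap.funLeft F F (Sum.map (Fin.castAdd g) (Fin.castAdd g))

/-- restriction to the large coordinates -/
def RL' (f g : ℕ) (F : Type*) [Field F] : (Fin (f + g) ⊕ Fin (f + g) → F) →ₗ[F] (Fin g ⊕ Fin g → F) :=
  LinearMap.funLeft F F (Sum.map (Fin.natAdd f) (Fin.natAdd f))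

/-- extension by zero -/
def EL (f g : ℕ) (F : Type*) [Field F] : (Fin f ⊕ Fin f → F) →ₗ[F] (Fin (f + g) ⊕ Fin (f + g) → F) where
  toFun w := Sum.elim (Fin.addCases (fun i => w (.inl i)) (fun _ => 0)) (Fin.addCases (fun i => w (.inr i)) (fun _ => 0))
  map_add' x y := by
    funext k
    rcases k with i | i <;> refine Fin.addCases (fun i => ?_) (fun i => ?_) i <;> simp
  map_smul' c x := by
    funext k
    rcases k with i | i <;> refine Fin.addCases (fun i => ?_) (fun i => ?_) i <;> simp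

@[simp] lemma R_inl (v : Fin (f + g) ⊕ Fin (f + g) → F) (i : Fin f) : RL f g F v (.inl i) = v (.inl (Fin.castAdd g i)) := rfl
@[simp] lemma R_inr (v : Fin (f + g) ⊕ Fin (f + g) → F) (i : Fin f) : RL f g F v (.inr i) = v (.inr (Fin.castAdd g i)) := rfl
@[simp] lemma R'_inl (v : Fin (f + g) ⊕ Fin (f + g) → F) (i : Fin g) : RL' f g F v (.inl i) = v (.inl (Fin.natAdd f i)) := rfl
@[simp] lemma R'_inr (v : Fin (f + g) ⊕ Fin (f + g) → F) (i : Fin g) : RL' f g F v (.inr i) = v (.inr (Fin.natAdd f i)) := rfl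

lemma R_E (w : Fin f ⊕ Fin f → F) : RL f g F (EL f g F w) = w := by
  funext k
  rcases k with i | i <;> simp [EL]

lemma R'_E (w : Fin f ⊕ Fin f → F) : RL' f g F (EL f g F w) = 0 := by
  funext k
  rcases k with i | i <;> simp [EL]

lemma ext_RR {u v : Fin (f + g) ⊕ Fin (f + g) → F} (h1 : RL f g F u = RL f g F v) (h2 : RL' f g F u = RL' f g F v) : u = v := by
  funext k
  rcases k with i | i <;> refine Fin.addCases (fun i => ?_) (fun i => ?_) i
  · exact congrFun h1 (.inl i)
  · exact congrFun h2 (.inl i)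
  · exact congrFun h1 (.inr i)
  · exact congrFun h2 (.inr i)

lemma sf_split (u v : Fin (f + g) ⊕ Fin (f + g) → F) :
    sf u v = sf (RL f g F u) (RL f g F v) + sf (RL' f g F u) (RL' f g F v) := by
  rw [sympForm_apply, sympForm_apply, sympForm_apply, Fin.sum_univ_add]
  rfl

lemma mem_sp_of_form {m : ℕ} (A : Matrix (Fin m ⊕ Fin m) (Fin m ⊕ Fin m) F)
    (h : ∀ x y, sf (A *ᵥ x) (A *ᵥ y) = sf x y) : A ∈ Matrix.symplecticGroup (Fin m) F := by
  classical
  rw [SymplecticGroup.mem_iff']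
  ext i j
  have h := h (Pi.single i 1) (Pi.single j 1)
  simp only [Cfsg.Agent.Lead.sympForm] at h
  rw [Matrix.mulVec_mulVec, Matrix.dotProduct_mulVec, Matrix.vecMul_mulVec, ← Matrix.dotProduct_mulVec, ← Matrix.mul_assoc] at h
  simpa using h

/-- the linear map of the block element -/
noncomputable def XL (f g : ℕ) {F : Type*} [Field F] (y : Matrix (Fin f ⊕ Fin f) (Fin f ⊕ Fin f) F) :
    (Fin (f + g) ⊕ Fin (f + g) → F) →ₗ[F] (Fin (f + g) ⊕ Fin (f + g) → F) :=
  LinearMap.id + (EL f g F) ∘ₗ (Matrix.toLin' y - LinearMap.id) ∘ₗ (RL f g F)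

lemma XL_apply (y : Matrix (Fin f ⊕ Fin f) (Fin f ⊕ Fin f) F) (v : Fin (f + g) ⊕ Fin (f + g) → F) :
    XL f g y v = v + EL f g F (y *ᵥ RL f g F v - RL f g F v) := rfl

lemma R_X (y : Matrix (Fin f ⊕ Fin f) (Fin f ⊕ Fin f) F) (v : Fin (f + g) ⊕ Fin (f + g) → F) :
    RL f g F (XL f g y v) = y *ᵥ RL f g F v := by
  rw [XL_apply, map_add, R_E]
  abel

lemma R'_X (y : Matrix (Fin f ⊕ Fin f) (Fin f ⊕ Fin f) F) (v : Fin (f + g) ⊕ Fin (f + g) → F) :
    RL' f g F (XL f g y v) = RL' f g F v := by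
  rw [XL_apply, map_add, R'_E, add_zero]

lemma X_E (y : Matrix (Fin f ⊕ Fin f) (Fin f ⊕ Fin f) F) (w : Fin f ⊕ Fin f → F) :
    XL f g y (EL f g F w) = EL f g F (y *ᵥ w) := by
  apply ext_RR
  · rw [R_X, R_E, R_E]
  · rw [R'_X, R'_E, R'_E]

end Blocks

end Cfsg.Agent.H27.SpFix
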