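import Cfsg.Agent.Lib.H27.SpFix
import Cfsg.Agent.Lib.Lead.SpGen
/-! The block element fixes no complementary isotropic pair. -/
set_option autoImplicit false
set_option linter.unusedSimpArgs false
set_option linter.style.haveILetI false
set_option linter.unusedSectionVars false
set_option linter.unusedVariables false
namespace Cfsg.Agent.H27.SpFix
open Matrix Cfsg.Agent.Lead

local notation "sf" => Cfsg.Agent.Lead.sympForm

variable {F : Type*} [Field F] [Fintype F]

theorem exists_x {f g r : ℕ} [Fact r.Prime] (hf : 1 ≤ f) (hr : r ≠ 2) (y : Matrix.symplecticGroup (Fin f) F) (hyr : y ^ r = 1) (hy1 : y ≠ 1)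
    (hgap : ∀ j, 1 ≤ j → j < 2 * f → ¬ r ∣ Fintype.card F ^ j - 1) (hq : ¬ r ∣ Fintype.card F) :
    ∃ x : ↥(Matrix.symplecticGroup (Fin (f + g)) F),
      (∃ z : F, ((x ^ r : ↥(Matrix.symplecticGroup (Fin (f + g)) F)) : Matrix (Fin (f + g) ⊕ Fin (f + g)) (Fin (f + g) ⊕ Fin (f + g)) F) = z • (1 : Matrix (Fin (f + g) ⊕ Fin (f + g)) (Fin (f + g) ⊕ Fin (f + g)) F)) ∧
      (∀ z : F, (x : Matrix (Fin (f + g) ⊕ Fin (f + g)) (Fin (f + g) ⊕ Fin (f + g)) F) ≠ z • (1 : Matrix (Fin (f + g) ⊕ Fin (f + g)) (Fin (f + g) ⊕ Fin (f + g)) F)) ∧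
      ¬ (∃ U W : Submodule F (Fin (f + g) ⊕ Fin (f + g) → F), IsCompl U W ∧ (∀ u ∈ U, ∀ v ∈ U, Cfsg.sympForm (f + g) F u v = 0) ∧ (∀ u ∈ W, ∀ v ∈ W, Cfsg.sympForm (f + g) F u v = 0) ∧
        ((U.map (Matrix.toLin' (x : Matrix (Fin (f + g) ⊕ Fin (f + g)) (Fin (f + g) ⊕ Fin (f + g)) F)) = U ∧ W.map (Matrix.toLin' (x : Matrix (Fin (f + g) ⊕ Fin (f + g)) (Fin (f + g) ⊕ Fin (f + g)) F)) = W) ∨
         (U.map (Matrix.toLin' (x : Matrix (Fin (f + g) ⊕ Fin (f + g)) (Fin (f + g) ⊕ Fin (f + g)) F)) = W ∧ W.map (Matrix.toLin' (x : Matrix (Fin (f + g) ⊕ Fin (f + g)) (Fin (f + g) ⊕ Fin (f + g)) F)) = U))) := by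
  classical
  have hpr : r.Prime := Fact.out
  set Y : Matrix (Fin f ⊕ Fin f) (Fin f ⊕ Fin f) F := y.1 with hY
  have hYr : Y ^ r = 1 := by
    have := congrArg Subtype.val hyr
    simpa using this
  have hpT : ∀ (k : ℕ) (v : Fin f ⊕ Fin f → F), ((Matrix.toLin' Y) ^ k) v = (Y ^ k) *ᵥ v := by
    intro k
    induction k with
    | zero => intro v; simp
    | succ k ih =>
      intro v
      rw [pow_succ', pow_succ', Module.End.mul_apply, ih, Matrix.toLin'_apply, Matrix.mulVec_mulVec]
  have hT : (Matrix.toLin' Y) ^ r = 1 := by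
    apply LinearMap.ext
    intro v
    rw [hpT, hYr, Matrix.one_mulVec]
    rfl
  have hT1 : ∃ v, Matrix.toLin' Y v ≠ v := by
    by_contra hcon
    push Not at hcon
    apply hy1
    apply Subtype.ext
    apply Matrix.mulVec_injective
    funext v
    have := hcon v
    rw [Matrix.toLin'_apply] at this
    rw [this]
    exact (Matrix.one_mulVec v).symm
  have hdim : Module.finrank F (Fin f ⊕ Fin f → F) = 2 * f := by
    rw [Module.finrank_fintype_fun_eq_card]
    simp only [Fintype.card_sum, Fintype.card_fin]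
    ring
  obtain ⟨hfix, hirr⟩ := irr_of_gap (Matrix.toLin' Y) hq hT hT1 (by rw [hdim]; exact hgap)
  have hfix' : ∀ v, Y *ᵥ v = v → v = 0 := fun v hv => hfix v (by rw [Matrix.toLin'_apply]; exact hv)
  obtain ⟨w₀, hw₀⟩ : ∃ w₀ : Fin f ⊕ Fin f → F, w₀ ≠ 0 := ⟨Pi.single (.inl ⟨0, by omega⟩) 1, fun e => by
    have := congrFun e (.inl ⟨0, by omega⟩)
    simp at this⟩
  set X : Matrix (Fin (f + g) ⊕ Fin (f + g)) (Fin (f + g) ⊕ Fin (f + g)) F := LinearMap.toMatrix' (XL f g Y) with hX
  have hXv : ∀ v, X *ᵥ v = XL f g Y v := fun v => LinearMap.toMatrix'_mulVec _ v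
  have hform : ∀ u v, sf (X *ᵥ u) (X *ᵥ v) = sf u v := by
    intro u v
    rw [hXv, hXv, sf_split, R_X, R_X, R'_X, R'_X, sympForm_mulVec y.2, ← sf_split]
  let x : ↥(Matrix.symplecticGroup (Fin (f + g)) F) := ⟨X, mem_sp_of_form X hform⟩
  have hxv : x.1 = X := rfl
  have hpx : ∀ (k : ℕ) (v : Fin (f + g) ⊕ Fin (f + g) → F),
      RL f g F ((x ^ k).1 *ᵥ v) = (Y ^ k) *ᵥ RL f g F v ∧ RL' f g F ((x ^ k).1 *ᵥ v) = RL' f g F v := by
    intro k
    induction k with
    | zero =>
      intro v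
      simp
    | succ k ih =>
      intro v
      have e : (x ^ (k + 1)).1 = X * (x ^ k).1 := by
        rw [pow_succ']
        rfl
      rw [e, ← Matrix.mulVec_mulVec, hXv, R_X, R'_X, (ih v).1, (ih v).2, Matrix.mulVec_mulVec, pow_succ']
      exact ⟨rfl, rfl⟩
  have hxr : (x ^ r).1 = 1 := by
    apply Matrix.mulVec_injective
    funext v
    rw [Matrix.one_mulVec]
    apply ext_RR
    · rw [(hpx r v).1, hYr, Matrix.one_mulVec]
    · exact (hpx r v).2
  have hinv : ∀ U : Submodule F (Fin (f + g) ⊕ Fin (f + g) → F), (∀ u ∈ U, X *ᵥ u ∈ U) → (∀ u ∈ U, ∀ v ∈ U, sf u v = 0) →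
      ∀ u ∈ U, RL f g F u = 0 := by
    intro U hU hti
    have hbot : U.comap (EL f g F) = ⊥ := by
      apply hirr
      · intro w hw
        have h1 : EL f g F w ∈ U := hw
        have h2 := hU _ h1
        rw [hXv, X_E] at h2
        exact h2
      · intro htop
        obtain ⟨z, hz⟩ := sympForm_nondeg hw₀
        apply hz
        have h1 : EL f g F w₀ ∈ U := by
          have : w₀ ∈ U.comap (EL f g F) := by rw [htop]; trivial
          exact this
        have h2 : EL f g F z ∈ U := by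
          have : z ∈ U.comap (EL f g F) := by rw [htop]; trivial
          exact this
        have h3 := hti _ h1 _ h2
        rw [sf_split, R_E, R_E, R'_E, R'_E] at h3
        simpa [Cfsg.Agent.Lead.sympForm] using h3
    intro u hu
    have h1 := hU u hu
    have h2 : EL f g F (Y *ᵥ RL f g F u - RL f g F u) ∈ U := by
      have e : EL f g F (Y *ᵥ RL f g F u - RL f g F u) = X *ᵥ u - u := by
        rw [hXv, XL_apply]
        abel
      rw [e]
      exact U.sub_mem h1 hu
    have h3 : Y *ᵥ RL f g F u - RL f g F u ∈ U.comap (EL f g F) := h2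
    rw [hbot] at h3
    exact hfix' _ (sub_eq_zero.1 ((Submodule.mem_bot F).1 h3))
  refine ⟨x, ⟨1, by rw [hxr, one_smul]⟩, ?_, ?_⟩
  · intro z hz
    have hsc : ∀ w : Fin f ⊕ Fin f → F, Y *ᵥ w = z • w := by
      intro w
      have e1 : X *ᵥ EL f g F w = z • EL f g F w := by
        rw [← hxv, hz, Matrix.smul_mulVec, Matrix.one_mulVec]
      rw [hXv, X_E] at e1
      have e2 := congrArg (RL f g F) e1
      rwa [R_E, map_smul, R_E] at e2
    have hbot : Submodule.span F {w₀} = ⊥ := by
      apply hirr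
      · intro w hw
        obtain ⟨c, rfl⟩ := Submodule.mem_span_singleton.1 hw
        rw [Matrix.toLin'_apply, hsc, smul_comm]
        exact Submodule.smul_mem _ _ (Submodule.smul_mem _ _ (Submodule.mem_span_singleton_self _))
      · intro htop
        have e1 := finrank_span_singleton (K := F) hw₀
        rw [htop, finrank_top, hdim] at e1
        omega
    exact hw₀ (Submodule.span_singleton_eq_bot.1 hbot)
  · rintro ⟨U, W, hc, hU, hW, h⟩
    have hU' : ∀ u ∈ U, ∀ v ∈ U, sf u v = 0 := hU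
    have hW' : ∀ u ∈ W, ∀ v ∈ W, sf u v = 0 := hW
    have hmem : ∀ {A B : Submodule F (Fin (f + g) ⊕ Fin (f + g) → F)}, A.map (Matrix.toLin' x.1) = B → ∀ u ∈ A, X *ᵥ u ∈ B := by
      intro A B e u hu
      rw [← e]
      exact ⟨u, hu, rfl⟩
    have hne : (⊥ : Submodule F (Fin (f + g) ⊕ Fin (f + g) → F)) ≠ ⊤ := by
      intro e
      have h1 : EL f g F w₀ ∈ (⊥ : Submodule F (Fin (f + g) ⊕ Fin (f + g) → F)) := by rw [e]; trivial
      have h2 := (Submodule.mem_bot F).1 h1
      have h3 := R_E (F := F) (g := g) w₀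
      rw [h2, map_zero] at h3
      exact hw₀ h3.symm
    rcases h with ⟨h1, h2⟩ | ⟨h1, h2⟩
    · have e1 := hinv U (hmem h1) hU'
      have e2 := hinv W (hmem h2) hW'
      have e3 : (EL f g F w₀) ∈ U ⊔ W := by rw [hc.sup_eq_top]; trivial
      obtain ⟨u, hu, w, hw, e4⟩ := Submodule.mem_sup.1 e3
      have e5 := congrArg (RL f g F) e4
      rw [map_add, e1 u hu, e2 w hw, add_zero, R_E] at e5
      exact hw₀ e5.symm
    · have hA := hmem h1
      have hB := hmem h2
      have key : ∀ k : ℕ, (∀ u ∈ U, (x ^ (2 * k)).1 *ᵥ u ∈ U) ∧ (∀ u ∈ W, (x ^ (2 * k)).1 *ᵥ u ∈ W) := by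
        intro k
        induction k with
        | zero =>
          constructor <;> intro u hu <;> simpa using hu
        | succ k ih =>
          have e : (x ^ (2 * (k + 1))).1 = X * (X * (x ^ (2 * k)).1) := by
            have : 2 * (k + 1) = (2 * k) + 1 + 1 := by ring
            rw [this, pow_succ', pow_succ']
            rfl
          constructor
          · intro u hu
            rw [e, ← Matrix.mulVec_mulVec, ← Matrix.mulVec_mulVec]
            exact hB _ (hA _ (ih.1 u hu))
          · intro u hu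
            rw [e, ← Matrix.mulVec_mulVec, ← Matrix.mulVec_mulVec]
            exact hA _ (hB _ (ih.2 u hu))
      obtain ⟨k, hk⟩ := hpr.odd_of_ne_two hr
      have e6 : (x ^ r).1 = X * (x ^ (2 * k)).1 := by
        rw [hk, pow_succ']
        rfl
      have hUW : U ≤ W := by
        intro u hu
        have := hA _ ((key k).1 u hu)
        rw [Matrix.mulVec_mulVec, ← e6, hxr, Matrix.one_mulVec] at this
        exact this
      have hbot : U = ⊥ := by
        have := hc.disjoint
        rw [disjoint_iff] at this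
        rw [inf_eq_left.2 hUW] at this
        exact this
      have hWU : W ≤ U := by
        intro u hu
        have := hB _ ((key k).2 u hu)
        rw [Matrix.mulVec_mulVec, ← e6, hxr, Matrix.one_mulVec] at this
        exact this
      have htop := hc.sup_eq_top
      rw [sup_eq_left.2 hWU, hbot] at htop
      exact hne htop

end Cfsg.Agent.H27.SpFix
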