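import Cfsg.Agent.Lib.H27.OmFpK
import Cfsg.Agent.Lib.H27.OmFpOdd
import Cfsg.Agent.Lib.H27.OmFpPlus
/-! Quadratic forms with a fixed polar form in characteristic two. -/
set_option autoImplicit false
set_option linter.unusedSimpArgs false
set_option linter.style.haveILetI false
set_option linter.unusedSectionVars false
set_option linter.unusedVariables false
namespace Cfsg.Agent.H27.SpFm
open Matrix Cfsg.Agent.Lead.Ortho Cfsg.Agent.Lead.Omega Cfsg.Agent.H01.Om Cfsg.Agent.H27.OmFp

variable {F : Type*} [Field F] [Fintype F] {ι : Type} [Fintype ι] [DecidableEq ι]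
variable {Q : (ι → F) → F} {B : (ι → F) → (ι → F) → F}

/-- the Artin–Schreier values -/
def AS (c : F) : Prop := ∃ y : F, c = y ^ 2 + y

lemma sq_add' (h2 : (2 : F) = 0) (x y : F) : (x + y) ^ 2 = x ^ 2 + y ^ 2 := by
  linear_combination (x * y) * h2

lemma neg_F (h2 : (2 : F) = 0) (x : F) : -x = x := by
  linear_combination (-x) * h2

lemma add_self' (h2 : (2 : F) = 0) (x : F) : x + x = 0 := by
  linear_combination x * h2

lemma sq_inj (h2 : (2 : F) = 0) {x y : F} (h : x ^ 2 = y ^ 2) : x = y := by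
  have e : (x + y) ^ 2 = 0 := by rw [sq_add' h2, h, add_self' h2]
  have e2 : x + y = 0 := pow_eq_zero_iff (two_ne_zero) |>.1 e
  have := add_self' h2 y
  linear_combination e2 - this

lemma AS.add' (h2 : (2 : F) = 0) {c e : F} (hc : AS c) (he : AS e) : AS (c + e) := by
  obtain ⟨y, rfl⟩ := hc
  obtain ⟨z, rfl⟩ := he
  exact ⟨y + z, by rw [sq_add' h2]; ring⟩

/-- the additive map `y ↦ y² + y` -/
noncomputable def asHom (h2 : (2 : F) = 0) : F →+ F :=
  AddMonoidHom.mk' (fun y => y ^ 2 + y) (fun x y => by simp only [sq_add' h2]; ring)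

lemma mem_range_iff (h2 : (2 : F) = 0) (c : F) : c ∈ (asHom h2).range ↔ AS c := by
  constructor
  · rintro ⟨y, rfl⟩
    exact ⟨y, rfl⟩
  · rintro ⟨y, rfl⟩
    exact ⟨y, rfl⟩

lemma index_range (h2 : (2 : F) = 0) : (asHom h2).range.index = 2 := by
  classical
  have h1 : (1 : F) ≠ 0 := one_ne_zero
  have e1 := AddSubgroup.index_ker (asHom h2)
  have e2 := AddSubgroup.card_mul_index (asHom h2).ker
  have e3 := AddSubgroup.card_mul_index (asHom h2).range
  have hker : Nat.card (asHom h2).ker = 2 := by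
    rw [Nat.card_eq_two_iff]
    refine ⟨⟨0, by simp [asHom, AddMonoidHom.mem_ker]⟩, ⟨1, ?_⟩, ?_, ?_⟩
    · rw [AddMonoidHom.mem_ker]
      change (1 : F) ^ 2 + 1 = 0
      have := add_self' h2 (1 : F)
      simpa using this
    · intro h
      exact h1 (congrArg Subtype.val h).symm
    · ext ⟨y, hy⟩
      simp only [Set.mem_univ, Set.mem_insert_iff, Set.mem_singleton_iff, iff_true, Subtype.mk.injEq]
      rw [AddMonoidHom.mem_ker] at hy
      change y ^ 2 + y = 0 at hy
      have e : y * (y + 1) = 0 := by linear_combination hy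
      rcases mul_eq_zero.1 e with e | e
      · exact Or.inl (Subtype.ext e)
      · right
        have := add_self' h2 (1 : F)
        linear_combination e - this
  have hpos : 0 < Nat.card (asHom h2).range := Nat.card_pos
  rw [e1] at e2
  rw [hker] at e2
  have : Nat.card (asHom h2).range * (asHom h2).range.index = Nat.card (asHom h2).range * 2 := by
    rw [e3, ← e2, mul_comm]
  exact Nat.eq_of_mul_eq_mul_left hpos this

lemma AS_add_iff (h2 : (2 : F) = 0) (c e : F) : AS (c + e) ↔ (AS c ↔ AS e) := by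
  have := AddSubgroup.add_mem_iff_of_index_two (index_range h2) (a := c) (b := e)
  simpa only [mem_range_iff] using this

lemma exists_not_AS (h2 : (2 : F) = 0) : ∃ c : F, ¬ AS c := by
  by_contra hall
  push Not at hall
  have := index_range h2
  have htop : (asHom h2).range = ⊤ := by
    rw [eq_top_iff]
    intro c _
    exact (mem_range_iff h2 c).2 (hall c)
  rw [htop, AddSubgroup.index_top] at this
  omega

lemma AS_sq_add (y : F) : AS (y ^ 2 + y) := ⟨y, rfl⟩

/-- A vector-twisted form -/
def Qa (Q : (ι → F) → F) (B : (ι → F) → (ι → F) → F) (a : ι → F) (v : ι → F) : F := Q v + (B v a) ^ 2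

lemma qf_Qa (h : QF Q B) (h2 : (2 : F) = 0) (a : ι → F) : QF (Qa Q B a) B where
  add x y := by
    simp only [Qa]
    rw [h.add, h.add_left, sq_add' h2]
    ring
  smul c x := by
    simp only [Qa]
    rw [h.smul, h.smul_left]
    ring
  add_left := h.add_left
  smul_left := h.smul_left
  symm := h.symm

lemma B_self (h : QF Q B) (h2 : (2 : F) = 0) (a : ι → F) : B a a = 0 := by
  rw [h.self, h2, zero_mul]

/-- bilinear form packaged -/
noncomputable def BBf (h : QF Q B) : LinearMap.BilinForm F (ι → F) :=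
  LinearMap.mk₂ F B h.add_left (fun c x y => by simp [h.smul_left]) h.add_right (fun c x y => by simp [h.smul_right])

lemma BBf_apply (h : QF Q B) (x y : ι → F) : BBf h x y = B x y := rfl

lemma BBf_nd (h : QF Q B) (hnd : ND B (⊤ : Submodule F (ι → F))) : (BBf h).Nondegenerate := by
  have hl : LinearMap.SeparatingLeft (BBf h) := by
    intro x hx
    by_contra hx0
    obtain ⟨y, -, hy⟩ := hnd x trivial hx0
    exact hy (hx y)
  refine ⟨hl, ?_⟩
  intro y hy
  by_contra hy0
  obtain ⟨x, -, hx⟩ := hnd y trivial hy0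
  apply hx
  rw [h.symm]
  exact hy x

lemma BBf_symm (h : QF Q B) : LinearMap.BilinForm.IsSymm (BBf h) := ⟨fun x y => by simp [BBf_apply, h.symm x y]⟩

lemma lin_rep (h : QF Q B) (hnd : ND B (⊤ : Submodule F (ι → F))) (l : (ι → F) →ₗ[F] F) : ∃ a, ∀ v, B v a = l v := by
  refine ⟨((BBf h).toDual (BBf_nd h hnd)).symm l, fun v => ?_⟩
  rw [h.symm]
  exact LinearMap.BilinForm.apply_toDual_symm_apply (B := BBf h) (hB := BBf_nd h hnd) l v

lemma ND_eq (hnd : ND B (⊤ : Submodule F (ι → F))) {a b : ι → F} (h : QF Q B) (hab : ∀ v, B v a = B v b) : a = b := by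
  by_contra hne
  have h0 : a - b ≠ 0 := sub_ne_zero.2 hne
  obtain ⟨y, -, hy⟩ := hnd _ trivial h0
  apply hy
  rw [h.sub_left, h.symm a, h.symm b, hab, sub_self]

/-- two forms with the same polar form differ by the square of a functional -/
lemma exists_a (h : QF Q B) (hnd : ND B (⊤ : Submodule F (ι → F))) (h2 : (2 : F) = 0) {Q' : (ι → F) → F} (h' : QF Q' B) :
    ∃ a, ∀ v, Q' v = Qa Q B a v := by
  classical
  choose s hs using exists_sqrt h2
  have hsadd : ∀ x y : F, s (x + y) = s x + s y := fun x y => sq_inj h2 (by rw [hs, sq_add' h2, hs, hs])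
  have hsmul : ∀ c x : F, s (c ^ 2 * x) = c * s x := fun c x => sq_inj h2 (by rw [hs, mul_pow, hs])
  let l : (ι → F) →ₗ[F] F :=
    { toFun := fun v => s (Q' v + Q v)
      map_add' := fun x y => by
        rw [← hsadd]
        congr 1
        rw [h'.add, h.add]
        have := add_self' h2 (B x y)
        linear_combination this
      map_smul' := fun c x => by
        simp only [RingHom.id_apply, smul_eq_mul]
        rw [← hsmul, h'.smul, h.smul]
        ring_nf }
  obtain ⟨a, ha⟩ := lin_rep h hnd l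
  refine ⟨a, fun v => ?_⟩
  simp only [Qa]
  rw [ha]
  change Q' v = Q v + (s (Q' v + Q v)) ^ 2
  rw [hs]
  have := add_self' h2 (Q v)
  linear_combination -this

lemma Qa_add (h : QF Q B) (h2 : (2 : F) = 0) (a c v : ι → F) : Qa Q B (a + c) v = Qa (Qa Q B a) B c v := by
  simp only [Qa]
  rw [h.add_right, sq_add' h2]
  ring

/-- a generic invertible matrix from a linear involution -/
lemma exists_gl (f f' : (ι → F) →ₗ[F] (ι → F)) (h1 : ∀ x, f (f' x) = x) (h2 : ∀ x, f' (f x) = x) :
    ∃ x : GL ι F, ∀ v, (x : Matrix ι ι F) *ᵥ v = f v := by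
  refine ⟨⟨LinearMap.toMatrix' f, LinearMap.toMatrix' f', ?_, ?_⟩, fun v => LinearMap.toMatrix'_mulVec f v⟩
  · rw [← LinearMap.toMatrix'_comp, show f ∘ₗ f' = LinearMap.id from LinearMap.ext h1, LinearMap.toMatrix'_id]
  · rw [← LinearMap.toMatrix'_comp, show f' ∘ₗ f = LinearMap.id from LinearMap.ext h2, LinearMap.toMatrix'_id]

/-- the transvection moving `Q` to `Qa Q B a` when `Q a` is an Artin–Schreier value -/
lemma exists_T (h : QF Q B) (h2 : (2 : F) = 0) (a : ι → F) (hA : AS (Q a)) :
    ∃ T : GL ι F, (∀ u v, B ((T : Matrix ι ι F) *ᵥ u) ((T : Matrix ι ι F) *ᵥ v) = B u v) ∧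
      ∀ v, Q ((T : Matrix ι ι F) *ᵥ v) = Qa Q B a v := by
  classical
  obtain ⟨y, hy⟩ := hA
  obtain ⟨μ, hμ⟩ : ∃ μ : F, μ ^ 2 * Q a + μ = 1 := by
    by_cases h0 : Q a = 0
    · exact ⟨1, by simp [h0]⟩
    · refine ⟨y / Q a, ?_⟩
      field_simp
      linear_combination -hy
  have haa := B_self h h2 a
  let f : (ι → F) →ₗ[F] (ι → F) :=
    { toFun := fun v => v + (μ * B v a) • a
      map_add' := fun x y => by
        rw [h.add_left, mul_add, add_smul]
        abel
      map_smul' := fun c x => by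
        simp only [RingHom.id_apply]
        rw [h.smul_left, smul_add, smul_smul]
        congr 2
        ring }
  have hf : ∀ v, f v = v + (μ * B v a) • a := fun v => rfl
  have hff : ∀ v, f (f v) = v := fun v => by
    rw [hf, hf, h.add_left, h.smul_left, haa, mul_zero, add_zero, add_assoc, ← add_smul]
    have : μ * B v a + μ * B v a = 0 := add_self' h2 _
    rw [this, zero_smul, add_zero]
  obtain ⟨T, hT⟩ := exists_gl f f hff hff
  refine ⟨T, fun u v => ?_, fun v => ?_⟩
  · rw [hT, hT, hf, hf, h.add_left, h.add_right, h.add_right, h.smul_left, h.smul_left, h.smul_right, h.smul_right, haa, h.symm a v]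
    have := add_self' h2 (μ * B v a * B u a)
    linear_combination this
  · rw [hT, hf, h.add, h.smul, h.smul_right]
    simp only [Qa]
    linear_combination (B v a) ^ 2 * hμ

lemma vadd_self (h2 : (2 : F) = 0) (v : ι → F) : v + v = 0 := by
  funext i
  simp [add_self' h2]

section inv
variable (h : QF Q B) (hnd : ND B (⊤ : Submodule F (ι → F))) (h2 : (2 : F) = 0)
variable (x : (ι → F) →ₗ[F] (ι → F)) (hxx : ∀ v, x (x v) = v) (hxB : ∀ u v, B (x u) (x v) = B u v)
include h h2

lemma eq_of_add_eq_zero {u v : ι → F} (e : u + v = 0) : u = v := by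
  have := vadd_self h2 v
  calc u = (u + v) + v := by rw [add_assoc, this, add_zero]
    _ = v := by rw [e, zero_add]

include hnd hxx hxB

lemma perp_ker {b : ι → F} (hb : ∀ w, x w = w → B w b = 0) : ∃ a, b = x a + a := by
  classical
  let N : (ι → F) →ₗ[F] (ι → F) := x + LinearMap.id
  have hN : ∀ v, N v = x v + v := fun v => rfl
  let K := LinearMap.ker N
  have hK : ∀ w, w ∈ K ↔ x w = w := fun w => by
    change N w = 0 ↔ _
    rw [hN]
    constructor
    · exact fun e => eq_of_add_eq_zero h h2 e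
    · intro e
      rw [e, vadd_self h2]
  have hR : LinearMap.range N ≤ (BBf h).orthogonal K := by
    rintro _ ⟨u, rfl⟩
    rw [LinearMap.BilinForm.mem_orthogonal_iff]
    intro w hw
    have hw' := (hK w).1 hw
    change B w (N u) = 0
    rw [hN, h.add_right]
    have e : B w (x u) = B w u := by
      conv_lhs => rw [← hw']
      exact hxB w u
    rw [e, add_self' h2]
  have e1 := LinearMap.BilinForm.finrank_orthogonal (BBf_nd h hnd) K
  have e2 := LinearMap.finrank_range_add_finrank_ker N
  have hfin : Module.finrank F K ≤ Module.finrank F (ι → F) := Submodule.finrank_le K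
  have heq : LinearMap.range N = (BBf h).orthogonal K :=
    Submodule.eq_of_le_of_finrank_eq hR (by
      have : Module.finrank F ↥K = Module.finrank F ↥(LinearMap.ker N) := rfl
      omega)
  have hbm : b ∈ (BBf h).orthogonal K := by
    rw [LinearMap.BilinForm.mem_orthogonal_iff]
    intro w hw
    exact hb w ((hK w).1 hw)
  rw [← heq] at hbm
  obtain ⟨a, rfl⟩ := hbm
  exact ⟨a, rfl⟩

lemma exists_inv_form : ∃ a₀, ∀ c, x c = c → ∀ v, Qa Q B (a₀ + c) (x v) = Qa Q B (a₀ + c) v := by
  have h' : QF (fun v => Q (x v)) B :=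
    { add := fun u v => by
        simp only [map_add]
        rw [h.add, hxB]
      smul := fun c v => by
        simp only [map_smul]
        rw [h.smul]
      add_left := h.add_left
      smul_left := h.smul_left
      symm := h.symm }
  obtain ⟨b, hb⟩ := exists_a h hnd h2 h'
  have hbw : ∀ w, x w = w → B w b = 0 := fun w hw => by
    have e := hb w
    simp only [Qa, hw] at e
    have e2 : (B w b) ^ 2 = 0 := by linear_combination -e
    exact pow_eq_zero_iff two_ne_zero |>.1 e2
  obtain ⟨a₀, rfl⟩ := perp_ker h hnd h2 x hxx hxB hbw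
  refine ⟨a₀, fun c hc v => ?_⟩
  have e := hb v
  simp only [Qa] at e ⊢
  have e1 : B v (x a₀) = B (x v) a₀ := by
    conv_rhs => rw [← hxx a₀]
    exact (hxB v (x a₀)).symm
  have e2 : B (x v) c = B v c := by
    conv_lhs => rw [← hc]
    exact hxB v c
  rw [e, h.add_right, h.add_right, h.add_right, e1, e2, sq_add' h2, sq_add' h2, sq_add' h2]
  have := add_self' h2 ((B (x v) a₀) ^ 2)
  linear_combination this

end inv

/-- the failure branch -/
lemma fail_branch (h : QF Q B) (h2 : (2 : F) = 0) (a : ι → F) (S : Submodule F (ι → F))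
    (hS : ∀ c ∈ S, ¬ AS (Q (a + c))) : ∀ c ∈ S, Q c = (B a c) ^ 2 := by
  intro c hc
  obtain ⟨z, hz⟩ := exists_sqrt h2 (Q c)
  have ha : ¬ AS (Q a) := by
    have := hS 0 S.zero_mem
    rwa [add_zero] at this
  suffices hw : z + B a c = 0 by
    have e : z = B a c := by
      have := add_self' h2 (B a c)
      linear_combination hw - this
    rw [← hz, e]
  by_contra hw
  obtain ⟨e, he⟩ := exists_not_AS h2 (F := F)
  apply he
  have hκ := hS ((e / (z + B a c)) • c) (S.smul_mem _ hc)
  set κ := e / (z + B a c) with hκd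
  have e1 : AS (Q (a + κ • c) + Q a) := (AS_add_iff h2 _ _).2 (iff_of_false hκ ha)
  have e2 : AS (Q (a + κ • c) + Q a + ((κ * z) ^ 2 + κ * z)) := e1.add' h2 (AS_sq_add _)
  have e3 : Q (a + κ • c) + Q a + ((κ * z) ^ 2 + κ * z) = e := by
    rw [h.add, h.smul, h.smul_right, ← hz]
    have e4 : κ * (z + B a c) = e := by
      rw [hκd]
      field_simp
    have e5 := add_self' h2 (Q a)
    have e6 := add_self' h2 ((κ * z) ^ 2)
    linear_combination e4 + e5 + e6
  rwa [e3] at e2

/-- two Lagrangians force an Artin–Schreier value -/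
lemma plus_plus (h : QF Q B) (hnd : ND B (⊤ : Submodule F (ι → F))) (h2 : (2 : F) = 0) (a : ι → F) (L K : Submodule F (ι → F))
    (hL : ∀ l ∈ L, Q l = 0) (hLd : 2 * Module.finrank F L = Fintype.card ι)
    (hK : ∀ k ∈ K, Q k = (B a k) ^ 2) (hKd : 2 * Module.finrank F K = Fintype.card ι) : AS (Q a) := by
  classical
  have hLiso : ∀ l ∈ L, ∀ l' ∈ L, B l l' = 0 := fun l hl l' hl' => by
    have := h.add l l'
    rw [hL _ (L.add_mem hl hl'), hL _ hl, hL _ hl'] at this
    simpa using this.symm
  have hKiso : ∀ k ∈ K, ∀ k' ∈ K, B k k' = 0 := fun k hk k' hk' => by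
    have := h.add k k'
    rw [hK _ (K.add_mem hk hk'), hK _ hk, hK _ hk', h.add_right, sq_add' h2] at this
    linear_combination -this
  have hle : L ⊔ K ≤ (BBf h).orthogonal (L ⊓ K) := by
    apply sup_le
    · intro l hl
      rw [LinearMap.BilinForm.mem_orthogonal_iff]
      intro v hv
      exact hLiso v hv.1 l hl
    · intro k hk
      rw [LinearMap.BilinForm.mem_orthogonal_iff]
      intro v hv
      exact hKiso v hv.2 k hk
  have e1 := LinearMap.BilinForm.finrank_orthogonal (BBf_nd h hnd) (L ⊓ K)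
  have e2 := Submodule.finrank_sup_add_finrank_inf_eq L K
  have e3 : Module.finrank F (ι → F) = Fintype.card ι := Module.finrank_fintype_fun_eq_card F
  have heq : L ⊔ K = (BBf h).orthogonal (L ⊓ K) := Submodule.eq_of_le_of_finrank_eq hle (by omega)
  have hmem : a ∈ L ⊔ K := by
    rw [heq, LinearMap.BilinForm.mem_orthogonal_iff]
    intro v hv
    have e4 := hK v hv.2
    rw [hL v hv.1] at e4
    have e5 : B a v = 0 := pow_eq_zero_iff two_ne_zero |>.1 e4.symm
    change B v a = 0
    rw [h.symm, e5]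
  obtain ⟨l, hl, k, hk, rfl⟩ := Submodule.mem_sup.1 hmem
  refine ⟨B l k, ?_⟩
  rw [h.add, hL l hl, hK k hk, h.add_left, hKiso k hk k hk, add_zero, zero_add, add_comm]

/-- a fixed point free isometry fixes at most one form -/
lemma fpf_unique (h : QF Q B) (hnd : ND B (⊤ : Submodule F (ι → F))) (h2 : (2 : F) = 0) {Q' : (ι → F) → F} (h' : QF Q' B)
    (x x' : (ι → F) → (ι → F)) (hxx' : ∀ v, x (x' v) = v) (hxB : ∀ u v, B (x u) (x v) = B u v)
    (hfix : ∀ v, x v = v → v = 0) (hQ : ∀ v, Q (x v) = Q v) (hQ' : ∀ v, Q' (x v) = Q' v) : ∀ v, Q' v = Q v := by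
  obtain ⟨a, ha⟩ := exists_a h hnd h2 h'
  have e1 : ∀ v, B (x v) a = B v a := fun v => by
    apply sq_inj h2
    have e2 := hQ' v
    rw [ha, ha] at e2
    simp only [Qa, hQ] at e2
    linear_combination e2
  have e3 : x a = a := by
    apply ND_eq hnd h
    intro w
    have e4 := e1 (x' w)
    rw [hxx'] at e4
    have e5 := hxB (x' w) a
    rw [hxx'] at e5
    rw [e5, ← e4]
  have e4 := hfix a e3
  intro v
  rw [ha, e4]
  simp only [Qa]
  rw [h.zero_right]
  ring

/-- the main dichotomy for involutions -/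
theorem back_main (h : QF Q B) (hnd : ND B (⊤ : Submodule F (ι → F))) (h2 : (2 : F) = 0)
    (x : (ι → F) →ₗ[F] (ι → F)) (hxx : ∀ v, x (x v) = v) (hxB : ∀ u v, B (x u) (x v) = B u v) :
    (∃ a, AS (Q a) ∧ ∀ v, Qa Q B a (x v) = Qa Q B a v) ∨
    ((∀ u, B u (x u + u) = 0) ∧ 2 * Module.finrank F (LinearMap.range (x + LinearMap.id)) = Fintype.card ι ∧
      ∀ L : Submodule F (ι → F), (∀ l ∈ L, Q l = 0) → 2 * Module.finrank F L ≠ Fintype.card ι) := by
  classical
  by_cases hgood : ∃ a, AS (Q a) ∧ ∀ v, Qa Q B a (x v) = Qa Q B a v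
  · exact Or.inl hgood
  right
  push Not at hgood
  obtain ⟨a₀, ha₀⟩ := exists_inv_form h hnd h2 x hxx hxB
  let N : (ι → F) →ₗ[F] (ι → F) := x + LinearMap.id
  have hN : ∀ v, N v = x v + v := fun v => rfl
  let K := LinearMap.ker N
  have hK : ∀ w, w ∈ K ↔ x w = w := fun w => by
    change N w = 0 ↔ _
    rw [hN]
    constructor
    · exact fun e => eq_of_add_eq_zero h h2 e
    · intro e
      rw [e, vadd_self h2]
  have hS : ∀ c ∈ K, ¬ AS (Q (a₀ + c)) := fun c hc hA => by
    obtain ⟨v, hv⟩ := hgood _ hA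
    exact hv (ha₀ c ((hK c).1 hc) v)
  have hfb := fail_branch h h2 a₀ K hS
  have hKiso : ∀ k ∈ K, ∀ k' ∈ K, B k k' = 0 := fun k hk k' hk' => by
    have := h.add k k'
    rw [hfb _ (K.add_mem hk hk'), hfb _ hk, hfb _ hk', h.add_right, sq_add' h2] at this
    linear_combination -this
  have e1 := two_mul_finrank_le h hnd K hKiso
  have e2 := LinearMap.finrank_range_add_finrank_ker N
  have hrk : LinearMap.range N ≤ K := by
    rintro _ ⟨v, rfl⟩
    rw [hK, hN, map_add, hxx, add_comm]
  have e3 := Submodule.finrank_mono hrk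
  have e4 : Module.finrank F (ι → F) = Fintype.card ι := Module.finrank_fintype_fun_eq_card F
  have e5 : Module.finrank F ↥K = Module.finrank F ↥(LinearMap.ker N) := rfl
  have hdim : 2 * Module.finrank F K = Fintype.card ι := by omega
  refine ⟨fun u => ?_, ?_, fun L hL hLd => ?_⟩
  · have e6 := ha₀ 0 (map_zero x) u
    rw [add_zero] at e6
    have hNu : N u ∈ K := hrk ⟨u, rfl⟩
    have e7 : x u = u + N u := by
      rw [hN, add_comm (x u), ← add_assoc, vadd_self h2, zero_add]
    rw [e7, (qf_Qa h h2 a₀).add] at e6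
    have e8 : Qa Q B a₀ (N u) = 0 := by
      simp only [Qa]
      rw [hfb _ hNu, h.symm (N u) a₀]
      have := add_self' h2 ((B a₀ (N u)) ^ 2)
      linear_combination this
    rw [e8, add_zero] at e6
    change B u (N u) = 0
    linear_combination e6
  · have : Module.finrank F (LinearMap.range N) = Module.finrank F K := by omega
    change 2 * Module.finrank F (LinearMap.range N) = _
    omega
  · have := plus_plus h hnd h2 a₀ L K hL hLd hfb hdim
    have h0 := hS 0 K.zero_mem
    rw [add_zero] at h0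
    exact h0 this

end Cfsg.Agent.H27.SpFm
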