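import Cfsg.Agent.Lib.H27.SpFm
/-! Concrete forms on `Fin d ⊕ Fin d`. -/
set_option autoImplicit false
set_option linter.unusedSimpArgs false
set_option linter.style.haveILetI false
set_option linter.unusedSectionVars false
set_option linter.unusedVariables false
namespace Cfsg.Agent.H27.SpFm
open Matrix Cfsg.Agent.Lead.Ortho Cfsg.Agent.Lead.Omega Cfsg.Agent.H01.Om Cfsg.Agent.H27.OmFp

variable {F : Type*} [Field F] [Fintype F] {ι : Type} [Fintype ι] [DecidableEq ι]
variable {Q : (ι → F) → F} {B : (ι → F) → (ι → F) → F}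

/-- action of an invertible matrix -/
def gv (x : GL ι F) (v : ι → F) : ι → F := (x : Matrix ι ι F) *ᵥ v

lemma gv_mul (x y : GL ι F) (v : ι → F) : gv (x * y) v = gv x (gv y v) := by
  simp [gv, Matrix.mulVec_mulVec]

lemma gv_one (v : ι → F) : gv (1 : GL ι F) v = v := by
  simp [gv]

lemma gv_inv (x : GL ι F) (v : ι → F) : gv x⁻¹ (gv x v) = v := by
  rw [← gv_mul, inv_mul_cancel, gv_one]

lemma gv_inv' (x : GL ι F) (v : ι → F) : gv x (gv x⁻¹ v) = v := by
  rw [← gv_mul, mul_inv_cancel, gv_one]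

/-- the linear equivalence of an invertible matrix -/
noncomputable def gvE (x : GL ι F) : (ι → F) ≃ₗ[F] (ι → F) :=
  LinearEquiv.ofLinear (x : Matrix ι ι F).mulVecLin ((x⁻¹ : GL ι F) : Matrix ι ι F).mulVecLin
    (LinearMap.ext fun v => gv_inv' x v) (LinearMap.ext fun v => gv_inv x v)

lemma gvE_apply (x : GL ι F) (v : ι → F) : gvE x v = gv x v := rfl

lemma gv_add (x : GL ι F) (u v : ι → F) : gv x (u + v) = gv x u + gv x v := by
  simp [gv, Matrix.mulVec_add]

lemma gv_smul (x : GL ι F) (c : F) (v : ι → F) : gv x (c • v) = c • gv x v := by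
  simp [gv, Matrix.mulVec_smul]

/-- a form composed with a polar-preserving map -/
lemma qf_comp (h : QF Q B) (x : GL ι F) (hx : ∀ u v, B (gv x u) (gv x v) = B u v) : QF (fun v => Q (gv x v)) B where
  add u v := by
    simp only [gv_add]
    rw [h.add, hx]
  smul c v := by
    simp only [gv_smul]
    rw [h.smul]
  add_left := h.add_left
  smul_left := h.smul_left
  symm := h.symm

lemma pres_inv (x : GL ι F) (hx : ∀ u v, B (gv x u) (gv x v) = B u v) : ∀ u v, B (gv x⁻¹ u) (gv x⁻¹ v) = B u v := fun u v => by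
  rw [← hx, gv_inv', gv_inv']

/-- a similarity preserving a nonzero polar form is an isometry -/
lemma sim_one (h : QF Q B) {u₀ v₀ : ι → F} (h0 : B u₀ v₀ ≠ 0) (y : GL ι F) (hy : ∀ u v, B (gv y u) (gv y v) = B u v) {c : F}
    (hc : ∀ v, Q (gv y v) = c * Q v) : c = 1 := by
  have e1 := hc (u₀ + v₀)
  rw [gv_add, h.add, h.add, hc, hc, hy] at e1
  have e2 : (c - 1) * B u₀ v₀ = 0 := by linear_combination -e1
  rcases mul_eq_zero.1 e2 with e | e
  · linear_combination e
  · exact absurd e h0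

section conc
variable {d : ℕ}

/-- the standard singular subspace -/
noncomputable def emL (d : ℕ) (F : Type*) [Field F] : (Fin d → F) →ₗ[F] (Fin d ⊕ Fin d → F) where
  toFun w := Sum.elim w 0
  map_add' x y := by
    funext k
    rcases k with k | k <;> simp
  map_smul' c x := by
    funext k
    rcases k with k | k <;> simp

lemma emL_inj : Function.Injective (emL d F) := fun x y hxy => by
  funext i
  exact congrFun hxy (.inl i)

/-- the standard singular subspace -/
noncomputable def L0 (d : ℕ) (F : Type*) [Field F] : Submodule F (Fin d ⊕ Fin d → F) := LinearMap.range (emL d F)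

lemma finrank_L0 : Module.finrank F (L0 d F) = d := by
  rw [L0, LinearMap.finrank_range_of_inj emL_inj]
  simp

lemma mem_L0 (v : Fin d ⊕ Fin d → F) (hv : ∀ i, v (.inr i) = 0) : v ∈ L0 d F := by
  refine ⟨fun i => v (.inl i), ?_⟩
  funext k
  rcases k with k | k
  · rfl
  · exact (hv k).symm

lemma L0_inr {v : Fin d ⊕ Fin d → F} (hv : v ∈ L0 d F) (i : Fin d) : v (.inr i) = 0 := by
  obtain ⟨w, rfl⟩ := hv
  rfl

lemma plus_L0 : ∀ v ∈ L0 d F, Cfsg.quadFormPlus d F v = 0 := fun v hv => by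
  unfold Cfsg.quadFormPlus
  apply Finset.sum_eq_zero
  intro i _
  rw [L0_inr hv, mul_zero]

lemma card_sum2 : Fintype.card (Fin d ⊕ Fin d) = 2 * d := by
  simp only [Fintype.card_sum, Fintype.card_fin]
  ring

lemma two_finrank_L0 : 2 * Module.finrank F (L0 d F) = Fintype.card (Fin d ⊕ Fin d) := by
  rw [finrank_L0, card_sum2]

lemma sym_eq_polar (h2 : (2 : F) = 0) (u v : Fin d ⊕ Fin d → F) : Cfsg.sympForm d F u v = polarPlus d F u v := by
  simp only [Cfsg.sympForm, Matrix.J, Matrix.fromBlocks_mulVec, dotProduct, Fintype.sum_sum_type, polarPlus, Sum.elim_inl, Sum.elim_inr,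
    Matrix.zero_mulVec, Matrix.one_mulVec, Matrix.neg_mulVec, zero_add, add_zero, Function.comp, ← Finset.sum_add_distrib, Pi.neg_apply]
  apply Finset.sum_congr rfl
  intro i _
  have := neg_F h2 (v (.inr i))
  rw [this]
  ring

/-- plus type from a vanishing transform of `L0` -/
lemma plus_of_vanish {Q : (Fin d ⊕ Fin d → F) → F} (g : GL (Fin d ⊕ Fin d) F) (hv : ∀ w ∈ L0 d F, Q (gv g w) = 0) :
    Cfsg.Geo.IsPlusTypeOn Q ⊤ := by
  refine ⟨(L0 d F).map (gvE g : (Fin d ⊕ Fin d → F) ≃ₗ[F] (Fin d ⊕ Fin d → F)).toLinearMap, le_top, ?_, ?_⟩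
  · rintro _ ⟨w, hw, rfl⟩
    exact hv w hw
  · rw [LinearEquiv.finrank_map_eq, finrank_L0, finrank_top, Module.finrank_fintype_fun_eq_card, card_sum2]

/-- alternating implies even -/
lemma parity (M : Matrix (Fin d ⊕ Fin d) (Fin d ⊕ Fin d) F) (hM : ∀ u, polarPlus d F u (M *ᵥ u) = 0) (hr : M.rank = d) : Even d := by
  classical
  let G : Matrix (Fin d ⊕ Fin d) (Fin d ⊕ Fin d) F := fromBlocks 0 1 1 0
  have hG : ∀ u w : Fin d ⊕ Fin d → F, u ⬝ᵥ (G *ᵥ w) = polarPlus d F u w := by
    intro u w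
    simp only [G, Matrix.fromBlocks_mulVec, dotProduct, Fintype.sum_sum_type, polarPlus, Sum.elim_inl, Sum.elim_inr,
      Matrix.zero_mulVec, Matrix.one_mulVec, zero_add, add_zero, Function.comp, ← Finset.sum_add_distrib]
    exact Finset.sum_congr rfl fun i _ => by ring
  have halt : ∀ v : Fin d ⊕ Fin d → F, v ⬝ᵥ ((G * M) *ᵥ v) = 0 := by
    intro v
    rw [← Matrix.mulVec_mulVec, hG, hM]
  have hev := Cfsg.Agent.H09.even_rank_of_alternating (G * M) halt
  have hGG : G * G = 1 := by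
    simp only [G, Matrix.fromBlocks_multiply]
    simp [Matrix.fromBlocks_one]
  rwa [Matrix.rank_mul_eq_right_of_isUnit_det G M (Matrix.isUnit_det_of_left_inverse hGG), hr] at hev

/-- the backward direction -/
theorem back_conc {Q : (Fin d ⊕ Fin d → F) → F} (h : QF Q (polarPlus d F)) (h2 : (2 : F) = 0)
    (hty : Cfsg.Geo.IsPlusTypeOn Q ⊤ ∨ Odd d) (x : GL (Fin d ⊕ Fin d) F) (hxx : x * x = 1)
    (hxB : ∀ u v, polarPlus d F (gv x u) (gv x v) = polarPlus d F u v) :
    ∃ g : GL (Fin d ⊕ Fin d) F, (∀ u v, polarPlus d F (gv g u) (gv g v) = polarPlus d F u v) ∧ ∀ v, Q (gv (g⁻¹ * x * g) v) = Q v := by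
  classical
  have hnd := ndPlus (F := F) d
  let xl : (Fin d ⊕ Fin d → F) →ₗ[F] (Fin d ⊕ Fin d → F) := (x : Matrix (Fin d ⊕ Fin d) (Fin d ⊕ Fin d) F).mulVecLin
  have hxl : ∀ v, xl v = gv x v := fun v => rfl
  have hxx' : ∀ v, xl (xl v) = v := fun v => by
    rw [hxl, hxl, ← gv_mul, hxx, gv_one]
  rcases back_main h hnd h2 xl hxx' hxB with ⟨a, hA, hinv⟩ | ⟨halt, hrk, hno⟩
  · obtain ⟨T, hT1, hT2⟩ := exists_T h h2 a hA
    refine ⟨T⁻¹, pres_inv T hT1, fun v => ?_⟩
    rw [inv_inv, gv_mul, gv_mul]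
    have e1 : ∀ w, Q (gv T w) = Qa Q (polarPlus d F) a w := hT2
    have e2 := hinv (gv T⁻¹ v)
    rw [hxl] at e2
    rw [e1, e2, ← e1, gv_inv']
  · exfalso
    rcases hty with ⟨U, -, hU, hUd⟩ | hodd
    · refine hno U hU ?_
      rw [hUd, finrank_top]
      exact Module.finrank_fintype_fun_eq_card F
    · let M : Matrix (Fin d ⊕ Fin d) (Fin d ⊕ Fin d) F := (x : Matrix (Fin d ⊕ Fin d) (Fin d ⊕ Fin d) F) + 1
      have hM : ∀ u, M *ᵥ u = xl u + u := fun u => by
        simp [M, Matrix.add_mulVec]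
        rfl
      have hrange : M.rank = d := by
        have e : M.mulVecLin = xl + LinearMap.id := LinearMap.ext fun u => by
          rw [Matrix.mulVecLin_apply, hM]
          rfl
        change Module.finrank F (LinearMap.range M.mulVecLin) = d
        rw [e]
        rw [card_sum2] at hrk
        omega
      have := parity M (fun u => by rw [hM]; exact halt u) hrange
      exact (Nat.not_even_iff_odd.2 hodd) this

end conc

end Cfsg.Agent.H27.SpFm
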