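import Cfsg.Agent.Lib.H27.SpFm2
/-! Orbit counts for quadratic forms with a fixed polar form. -/
set_option autoImplicit false
set_option linter.unusedSimpArgs false
set_option linter.style.haveILetI false
set_option linter.unusedSectionVars false
set_option linter.unusedVariables false
namespace Cfsg.Agent.H27.SpFm
open Matrix Cfsg.Agent.Lead.Ortho Cfsg.Agent.Lead.Omega Cfsg.Agent.H01.Om Cfsg.Agent.H27.OmFp

variable {F : Type*} [Field F] [Fintype F] {d : ℕ}

lemma mem_sp (h2 : (2 : F) = 0) (x : GL (Fin d ⊕ Fin d) F) :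
    x ∈ Cfsg.spGL d F ↔ ∀ u v, polarPlus d F (gv x u) (gv x v) = polarPlus d F u v := by
  constructor
  · intro hx u v
    have := hx u v
    rw [sym_eq_polar h2, sym_eq_polar h2] at this
    exact this
  · intro hx u v
    rw [sym_eq_polar h2, sym_eq_polar h2]
    exact hx u v

/-- the coordinates of the standard plus form count -/
lemma card_X0 : Nat.card {v : Fin d ⊕ Fin d → F // ∀ i, v (.inl i) = 0} = Fintype.card F ^ d := by
  classical
  have e : {v : Fin d ⊕ Fin d → F // ∀ i, v (.inl i) = 0} ≃ (Fin d → F) :=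
    { toFun := fun v i => v.1 (.inr i)
      invFun := fun w => ⟨Sum.elim 0 w, fun i => rfl⟩
      left_inv := fun v => by
        apply Subtype.ext
        funext k
        rcases k with k | k
        · exact (v.2 k).symm
        · rfl
      right_inv := fun w => rfl }
  rw [Nat.card_congr e, Nat.card_eq_fintype_card, Fintype.card_fun, Fintype.card_fin]

lemma count_plus (h2 : (2 : F) = 0) :
    2 * Nat.card {v : Fin d ⊕ Fin d → F // AS (Cfsg.quadFormPlus d F v)} = Fintype.card F ^ d * (Fintype.card F ^ d + 1) := by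
  classical
  obtain ⟨e, he⟩ := exists_not_AS h2 (F := F)
  have h := qfPlus (F := F) d
  let X0 : Finset (Fin d ⊕ Fin d → F) := Finset.univ.filter fun v => ∀ i, v (.inl i) = 0
  let S1 : Finset (Fin d ⊕ Fin d → F) := Finset.univ.filter fun v => AS (Cfsg.quadFormPlus d F v) ∧ v ∉ X0
  let S2 : Finset (Fin d ⊕ Fin d → F) := Finset.univ.filter fun v => ¬ AS (Cfsg.quadFormPlus d F v)
  let A : Finset (Fin d ⊕ Fin d → F) := Finset.univ.filter fun v => AS (Cfsg.quadFormPlus d F v)
  have hX0 : ∀ v ∈ X0, AS (Cfsg.quadFormPlus d F v) := fun v hv => by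
    refine ⟨0, ?_⟩
    have hv' : ∀ i, v (.inl i) = 0 := (Finset.mem_filter.1 hv).2
    unfold Cfsg.quadFormPlus
    simp [hv']
  have hcardX : X0.card = Fintype.card F ^ d := by
    rw [← card_X0 (F := F) (d := d), Nat.card_eq_fintype_card, Fintype.card_subtype]
  -- the toggling map
  have htog : ∀ x : Fin d → F, x ≠ 0 → ∃ y : Fin d ⊕ Fin d → F, (∀ i, y (.inl i) = 0) ∧
      ∀ v : Fin d ⊕ Fin d → F, (fun i => v (.inl i)) = x → Cfsg.quadFormPlus d F (v + y) = Cfsg.quadFormPlus d F v + e := by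
    intro x hx
    obtain ⟨i, hi⟩ := Function.ne_iff.1 hx
    change x i ≠ 0 at hi
    refine ⟨Pi.single (.inr i) (e / x i), fun j => by simp, ?_⟩
    rintro v rfl
    have hi' : v (.inl i) ≠ 0 := hi
    set Y : Fin d ⊕ Fin d → F := Pi.single (.inr i) (e / v (.inl i)) with hY
    have e0 : ∀ j, Y (.inl j) = 0 := fun j => by simp [hY]
    unfold Cfsg.quadFormPlus
    have e1 : ∀ j, (v + Y) (.inl j) * (v + Y) (.inr j) = v (.inl j) * v (.inr j) + v (.inl j) * Y (.inr j) := fun j => by
      rw [Pi.add_apply, Pi.add_apply, e0, add_zero, mul_add]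
    rw [Finset.sum_congr rfl (fun j _ => e1 j), Finset.sum_add_distrib]
    congr 1
    rw [Finset.sum_eq_single i]
    · rw [hY, Pi.single_eq_same]
      field_simp
    · intro j _ hj
      have e2 : Y (.inr j) = 0 := by
        rw [hY, Pi.single_apply, if_neg (by simpa using hj)]
      rw [e2, mul_zero]
    · intro hh
      exact absurd (Finset.mem_univ i) hh
  choose! y hy1 hy2 using htog
  let τ : (Fin d ⊕ Fin d → F) → (Fin d ⊕ Fin d → F) := fun v => v + y (fun i => v (.inl i))
  have hτinl : ∀ v i, τ v (.inl i) = v (.inl i) ∨ (fun i => v (.inl i)) = 0 := fun v i => by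
    by_cases hx : (fun i => v (.inl i)) = 0
    · exact Or.inr hx
    · left
      simp only [τ, Pi.add_apply, hy1 _ hx, add_zero]
  have hX : ∀ v, v ∉ X0 → (fun i => v (.inl i)) ≠ 0 := fun v hv hh => by
    apply hv
    refine Finset.mem_filter.2 ⟨Finset.mem_univ _, fun i => ?_⟩
    exact congrFun hh i
  have hτx : ∀ v, v ∉ X0 → (fun i => τ v (.inl i)) = fun i => v (.inl i) := fun v hv => by
    funext i
    simp only [τ, Pi.add_apply, hy1 _ (hX v hv), add_zero]
  have hτQ : ∀ v, v ∉ X0 → Cfsg.quadFormPlus d F (τ v) = Cfsg.quadFormPlus d F v + e := fun v hv =>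
    hy2 _ (hX v hv) v rfl
  have hτnot : ∀ v, v ∉ X0 → τ v ∉ X0 := fun v hv hh => by
    apply hv
    refine Finset.mem_filter.2 ⟨Finset.mem_univ _, fun i => ?_⟩
    have this : τ v (.inl i) = v (.inl i) := congrFun (hτx v hv) i
    rw [← this]
    exact (Finset.mem_filter.1 hh).2 i
  have hττ : ∀ v, v ∉ X0 → τ (τ v) = v := fun v hv => by
    change τ v + y (fun i => τ v (.inl i)) = v
    rw [hτx v hv]
    simp only [τ]
    rw [add_assoc, vadd_self h2, add_zero]
  have hS2 : ∀ v ∈ S2, v ∉ X0 := fun v hv hh => (Finset.mem_filter.1 hv).2 (hX0 v hh)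
  have hS12 : S1.card = S2.card := by
    apply Finset.card_nbij' τ τ
    · intro v hv
      have hv' := (Finset.mem_filter.1 hv).2
      refine Finset.mem_filter.2 ⟨Finset.mem_univ _, ?_⟩
      rw [hτQ v hv'.2, AS_add_iff h2]
      exact fun hh => he (hh.1 hv'.1)
    · intro v hv
      have hv' := hS2 v hv
      refine Finset.mem_filter.2 ⟨Finset.mem_univ _, ?_, hτnot v hv'⟩
      rw [hτQ v hv', AS_add_iff h2]
      exact iff_of_false (Finset.mem_filter.1 hv).2 he
    · intro v hv
      exact hττ v (Finset.mem_filter.1 hv).2.2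
    · intro v hv
      exact hττ v (hS2 v hv)
  have hA : A.card = X0.card + S1.card := by
    rw [← Finset.card_union_of_disjoint]
    · congr 1
      ext v
      simp only [A, S1, Finset.mem_filter, Finset.mem_univ, true_and, Finset.mem_union]
      constructor
      · intro hv
        by_cases hh : v ∈ X0
        · exact Or.inl hh
        · exact Or.inr ⟨hv, hh⟩
      · rintro (hh | hh)
        · exact hX0 v hh
        · exact hh.1
    · rw [Finset.disjoint_left]
      intro v hv hv'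
      exact (Finset.mem_filter.1 hv').2.2 hv
  have hAS : A.card + S2.card = Fintype.card F ^ d * Fintype.card F ^ d := by
    have := Finset.card_filter_add_card_filter_not (s := (Finset.univ : Finset (Fin d ⊕ Fin d → F))) (fun v => AS (Cfsg.quadFormPlus d F v))
    rw [← pow_add]
    rw [Finset.card_univ, Fintype.card_fun, Fintype.card_sum, Fintype.card_fin] at this
    exact this
  have hcard : Nat.card {v : Fin d ⊕ Fin d → F // AS (Cfsg.quadFormPlus d F v)} = A.card := by
    rw [Nat.card_eq_fintype_card, Fintype.card_subtype]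
  rw [hcard, mul_add, mul_one, ← hAS, ← hcardX]
  omega

section gen
variable {Q : (Fin d ⊕ Fin d → F) → F} (h : QF Q (polarPlus d F)) (h2 : (2 : F) = 0)
include h h2

/-- every form is a twist of the standard one; the twist decides the type -/
lemma twist : ∃ c, (∀ v, Q v = Qa (Cfsg.quadFormPlus d F) (polarPlus d F) c v) ∧
    (Cfsg.Geo.IsPlusTypeOn Q ⊤ ↔ AS (Cfsg.quadFormPlus d F c)) := by
  have hp := qfPlus (F := F) d
  have hnd := ndPlus (F := F) d
  obtain ⟨c, hc⟩ := exists_a hp hnd h2 h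
  refine ⟨c, hc, ?_, fun hA => ?_⟩
  · rintro ⟨U, -, hU, hUd⟩
    refine plus_plus hp hnd h2 c (L0 d F) U plus_L0 two_finrank_L0 (fun k hk => ?_) ?_
    · have e := hc k
      rw [hU k hk] at e
      simp only [Qa] at e
      rw [hp.symm c k, ]
      have := add_self' h2 ((polarPlus d F k c) ^ 2)
      linear_combination -e - this
    · rw [hUd, finrank_top]
      exact Module.finrank_fintype_fun_eq_card F
  · obtain ⟨T, hT1, hT2⟩ := exists_T hp h2 c hA
    apply plus_of_vanish T⁻¹
    intro w hw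
    rw [hc, ← hT2]
    change Cfsg.quadFormPlus d F (gv T (gv T⁻¹ w)) = 0
    rw [gv_inv']
    exact plus_L0 w hw

lemma orbit_AS (g : GL (Fin d ⊕ Fin d) F) (hg : ∀ u v, polarPlus d F (gv g u) (gv g v) = polarPlus d F u v) (a : Fin d ⊕ Fin d → F)
    (ha : ∀ v, Q (gv g v) = Qa Q (polarPlus d F) a v) : AS (Q a) := by
  have hp := qfPlus (F := F) d
  have hnd := ndPlus (F := F) d
  by_cases hP : Cfsg.Geo.IsPlusTypeOn Q ⊤
  · obtain ⟨U, -, hU, hUd⟩ := hP
    refine plus_plus h hnd h2 a U (U.map (gvE g⁻¹ : (Fin d ⊕ Fin d → F) ≃ₗ[F] (Fin d ⊕ Fin d → F)).toLinearMap) hU ?_ ?_ ?_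
    · rw [hUd, finrank_top]
      exact Module.finrank_fintype_fun_eq_card F
    · rintro _ ⟨u, hu, rfl⟩
      have e := ha (gv g⁻¹ u)
      rw [gv_inv', hU u hu] at e
      simp only [Qa] at e
      change Q (gv g⁻¹ u) = (polarPlus d F a (gv g⁻¹ u)) ^ 2
      rw [hp.symm a]
      have := add_self' h2 ((polarPlus d F (gv g⁻¹ u) a) ^ 2)
      linear_combination -e - this
    · rw [LinearEquiv.finrank_map_eq, hUd, finrank_top]
      exact Module.finrank_fintype_fun_eq_card F
  · by_contra hna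
    obtain ⟨c, hc, hiff⟩ := twist h h2
    have hnc : ¬ AS (Cfsg.quadFormPlus d F c) := fun hh => hP (hiff.2 hh)
    have e1 : AS (Cfsg.quadFormPlus d F c + Q a) := (AS_add_iff h2 _ _).2 (iff_of_false hnc hna)
    have e2 : AS (Cfsg.quadFormPlus d F (c + a)) := by
      have e3 := e1.add' h2 (AS_sq_add (polarPlus d F c a))
      have e4 : Cfsg.quadFormPlus d F c + Q a + ((polarPlus d F c a) ^ 2 + polarPlus d F c a) = Cfsg.quadFormPlus d F (c + a) := by
        rw [hp.add, hc a]
        simp only [Qa]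
        rw [hp.symm a c]
        have := add_self' h2 ((polarPlus d F c a) ^ 2)
        linear_combination this
      rwa [e4] at e3
    obtain ⟨T, hT1, hT2⟩ := exists_T hp h2 _ e2
    have e5 : ∀ v, Cfsg.quadFormPlus d F (gv T v) = Q (gv g v) := fun v => by
      rw [ha, show Cfsg.quadFormPlus d F (gv T v) = _ from hT2 v]
      simp only [Qa]
      rw [hc, hp.add_right, sq_add' h2]
      simp only [Qa]
      ring
    apply hP
    apply plus_of_vanish (g * T⁻¹)
    intro w hw
    rw [gv_mul, ← e5, gv_inv']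
    exact plus_L0 w hw

lemma count_Q_plus (hP : Cfsg.Geo.IsPlusTypeOn Q ⊤) :
    2 * Nat.card {a : Fin d ⊕ Fin d → F // AS (Q a)} = Fintype.card F ^ d * (Fintype.card F ^ d + 1) := by
  have hp := qfPlus (F := F) d
  obtain ⟨c, hc, hiff⟩ := twist h h2
  obtain ⟨T, hT1, hT2⟩ := exists_T hp h2 c (hiff.1 hP)
  rw [← count_plus h2]
  congr 1
  refine Nat.card_congr (Equiv.subtypeEquiv (gvE T).toEquiv fun a => ?_)
  change AS (Q a) ↔ AS (Cfsg.quadFormPlus d F (gv T a))
  rw [hc]
  rw [show Cfsg.quadFormPlus d F (gv T a) = _ from hT2 a]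

lemma count_Q_minus (hP : ¬ Cfsg.Geo.IsPlusTypeOn Q ⊤) :
    2 * Nat.card {a : Fin d ⊕ Fin d → F // AS (Q a)} = Fintype.card F ^ d * (Fintype.card F ^ d - 1) := by
  classical
  have hp := qfPlus (F := F) d
  obtain ⟨c, hc, hiff⟩ := twist h h2
  have hnc : ¬ AS (Cfsg.quadFormPlus d F c) := fun hh => hP (hiff.2 hh)
  have e1 : Nat.card {a : Fin d ⊕ Fin d → F // AS (Q a)} = Nat.card {w : Fin d ⊕ Fin d → F // ¬ AS (Cfsg.quadFormPlus d F w)} := by
    symm
    refine Nat.card_congr (Equiv.subtypeEquiv (Equiv.addRight c) fun w => ?_)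
    change ¬ AS (Cfsg.quadFormPlus d F w) ↔ AS (Q (w + c))
    have e2 : Q (w + c) = (Cfsg.quadFormPlus d F w + Cfsg.quadFormPlus d F c) + ((polarPlus d F w c) ^ 2 + polarPlus d F w c) := by
      rw [hc]
      simp only [Qa]
      rw [hp.add, hp.add_left, B_self hp h2 c, add_zero]
      ring
    rw [e2, AS_add_iff h2, AS_add_iff h2]
    constructor
    · intro hh
      exact iff_of_true (iff_of_false hh hnc) (AS_sq_add _)
    · intro hh hh2
      exact hnc ((hh.2 (AS_sq_add _)).1 hh2)
  rw [e1]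
  have e3 := count_plus (d := d) h2
  have e4 : Nat.card {w : Fin d ⊕ Fin d → F // ¬ AS (Cfsg.quadFormPlus d F w)} + Nat.card {w : Fin d ⊕ Fin d → F // AS (Cfsg.quadFormPlus d F w)}
      = Fintype.card F ^ d * Fintype.card F ^ d := by
    rw [Nat.card_eq_fintype_card, Nat.card_eq_fintype_card, Fintype.card_subtype, Fintype.card_subtype, add_comm]
    have := Finset.card_filter_add_card_filter_not (s := (Finset.univ : Finset (Fin d ⊕ Fin d → F))) (fun v => AS (Cfsg.quadFormPlus d F v))
    rw [← pow_add]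
    rw [Finset.card_univ, Fintype.card_fun, Fintype.card_sum, Fintype.card_fin] at this
    exact this
  rw [Nat.mul_sub_one]
  rw [mul_add, mul_one] at e3
  omega

end gen

/-- the action on functions -/
@[reducible] def actF (d : ℕ) (F : Type*) [Field F] [Fintype F] : MulAction (Cfsg.spGL d F) ((Fin d ⊕ Fin d → F) → F) where
  smul g f := fun v => f (gv (g : GL (Fin d ⊕ Fin d) F)⁻¹ v)
  one_smul f := by
    funext v
    change f (gv ((1 : GL (Fin d ⊕ Fin d) F))⁻¹ v) = f v
    rw [inv_one, gv_one]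
  mul_smul g k f := by
    funext v
    change f (gv ((g : GL (Fin d ⊕ Fin d) F) * (k : GL (Fin d ⊕ Fin d) F))⁻¹ v) = f (gv (k : GL (Fin d ⊕ Fin d) F)⁻¹ (gv (g : GL (Fin d ⊕ Fin d) F)⁻¹ v))
    rw [_root_.mul_inv_rev, gv_mul]

lemma exists_ne (hd0 : d ≠ 0) : ∃ u v : Fin d ⊕ Fin d → F, polarPlus d F u v ≠ 0 := by
  classical
  let k : Fin d := ⟨0, Nat.pos_of_ne_zero hd0⟩
  refine ⟨Pi.single (.inl k) 1, Pi.single (.inr k) 1, ?_⟩
  rw [polarPlus_inr]
  simp

theorem relIndex_eq {Q : (Fin d ⊕ Fin d → F) → F} (h : QF Q (polarPlus d F)) (h2 : (2 : F) = 0) (hd0 : d ≠ 0) :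
    (Cfsg.Geo.quadSimilarityGroup Q).relIndex (Cfsg.spGL d F) = Nat.card {a : Fin d ⊕ Fin d → F // AS (Q a)} := by
  classical
  letI := actF d F
  have hnd := ndPlus (F := F) d
  have hp := qfPlus (F := F) d
  obtain ⟨u₀, v₀, h0⟩ := exists_ne (F := F) hd0
  have hst : MulAction.stabilizer (Cfsg.spGL d F) Q = (Cfsg.Geo.quadSimilarityGroup Q).subgroupOf (Cfsg.spGL d F) := by
    ext g
    rw [MulAction.mem_stabilizer_iff, Subgroup.mem_subgroupOf]
    have hgp := (mem_sp h2 (g : GL (Fin d ⊕ Fin d) F)).1 g.2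
    constructor
    · intro heq
      have e : ∀ v, Q (gv (g : GL (Fin d ⊕ Fin d) F)⁻¹ v) = Q v := fun v => congrFun heq v
      refine ⟨1, fun v => ?_⟩
      have e2 := e (gv (g : GL (Fin d ⊕ Fin d) F) v)
      rw [gv_inv] at e2
      rw [Units.val_one, one_mul]
      exact e2.symm
    · rintro ⟨c, hc⟩
      have hc' : ∀ v, Q (gv (g : GL (Fin d ⊕ Fin d) F) v) = (c : F) * Q v := hc
      have hc1 := sim_one h h0 _ hgp hc'
      funext v
      change Q (gv (g : GL (Fin d ⊕ Fin d) F)⁻¹ v) = Q v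
      have e2 := hc' (gv (g : GL (Fin d ⊕ Fin d) F)⁻¹ v)
      rw [gv_inv', hc1, one_mul] at e2
      exact e2.symm
  have hor : MulAction.orbit (Cfsg.spGL d F) Q = (fun a => Qa Q (polarPlus d F) a) '' {a | AS (Q a)} := by
    ext f
    constructor
    · rintro ⟨g, rfl⟩
      have hgp := (mem_sp h2 (g : GL (Fin d ⊕ Fin d) F)).1 g.2
      have hgi := pres_inv _ hgp
      have hq2 := qf_comp h (g : GL (Fin d ⊕ Fin d) F)⁻¹ hgi
      obtain ⟨a, ha⟩ := exists_a h hnd h2 hq2
      refine ⟨a, orbit_AS h h2 _ hgi a ha, ?_⟩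
      funext v
      exact (ha v).symm
    · rintro ⟨a, hA, rfl⟩
      obtain ⟨T, hT1, hT2⟩ := exists_T h h2 a hA
      have hTm : T⁻¹ ∈ Cfsg.spGL d F := (Cfsg.spGL d F).inv_mem ((mem_sp h2 T).2 hT1)
      refine ⟨⟨T⁻¹, hTm⟩, ?_⟩
      funext v
      change Q (gv (T⁻¹)⁻¹ v) = _
      rw [inv_inv]
      exact hT2 v
  have hinj : Function.Injective (fun a => Qa Q (polarPlus d F) a) := by
    intro a a' haa
    apply ND_eq hnd h
    intro v
    have e := congrFun haa v
    simp only [Qa] at e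
    apply sq_inj h2
    linear_combination e
  rw [Subgroup.relIndex, ← hst, MulAction.index_stabilizer, hor, Set.ncard_image_of_injective _ hinj, ← Nat.card_coe_set_eq]
  rfl

end Cfsg.Agent.H27.SpFm
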