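import Cfsg.Agent.Lib.H27.SpFm3
/-! Elements with prescribed invariant forms. -/
set_option autoImplicit false
set_option linter.unusedSimpArgs false
set_option linter.style.haveILetI false
set_option linter.unusedSectionVars false
set_option linter.unusedVariables false
namespace Cfsg.Agent.H27.SpFm
open Matrix Cfsg.Agent.Lead.Ortho Cfsg.Agent.Lead.Omega Cfsg.Agent.H01.Om Cfsg.Agent.H27.OmFp

variable {F : Type*} [Field F] [Fintype F] {d : ℕ}

lemma pres_of_inv {ι : Type} [Fintype ι] [DecidableEq ι] {Q : (ι → F) → F} {B : (ι → F) → (ι → F) → F} (h : QF Q B) (x : GL ι F)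
    (hx : ∀ v, Q (gv x v) = Q v) : ∀ u v, B (gv x u) (gv x v) = B u v := fun u v => by
  rw [h.polar, h.polar u v, ← gv_add, hx, hx, hx]

lemma scal_pres (h2 : (2 : F) = 0) (hd0 : d ≠ 0) (y : GL (Fin d ⊕ Fin d) F) (hy : ∀ u v, polarPlus d F (gv y u) (gv y v) = polarPlus d F u v)
    {z : F} (hz : (y : Matrix (Fin d ⊕ Fin d) (Fin d ⊕ Fin d) F) = z • (1 : Matrix (Fin d ⊕ Fin d) (Fin d ⊕ Fin d) F)) : z = 1 := by
  have hp := qfPlus (F := F) d
  obtain ⟨u₀, v₀, h0⟩ := exists_ne (F := F) hd0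
  have e : ∀ v, gv y v = z • v := fun v => by
    unfold gv
    rw [hz, Matrix.smul_mulVec, Matrix.one_mulVec]
  have e1 := hy u₀ v₀
  rw [e, e, hp.smul_left, hp.smul_right] at e1
  have e2 : (z ^ 2 - 1) * polarPlus d F u₀ v₀ = 0 := by linear_combination e1
  rcases mul_eq_zero.1 e2 with e3 | e3
  · exact one_of_sq h2 (by linear_combination e3)
  · exact absurd e3 h0

lemma even_elem (h2 : (2 : F) = 0) (hev : Even d) (hd0 : d ≠ 0) :
    ∃ x : GL (Fin d ⊕ Fin d) F, (∀ u v, polarPlus d F (gv x u) (gv x v) = polarPlus d F u v) ∧ x * x = 1 ∧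
      (∀ z : F, (x : Matrix (Fin d ⊕ Fin d) (Fin d ⊕ Fin d) F) ≠ z • (1 : Matrix (Fin d ⊕ Fin d) (Fin d ⊕ Fin d) F)) ∧
      ∀ Q₂ : (Fin d ⊕ Fin d → F) → F, QF Q₂ (polarPlus d F) → (∀ v, Q₂ (gv x v) = Q₂ v) → ∀ w ∈ L0 d F, Q₂ w = 0 := by
  classical
  have hp := qfPlus (F := F) d
  obtain ⟨t, -, hact⟩ := plus_product h2 hev
  have hgv : ∀ v, gv t.1 v = act t v := fun v => rfl
  have hpres : ∀ u v, polarPlus d F (gv t.1 u) (gv t.1 v) = polarPlus d F u v :=
    pres_of_inv hp t.1 (fun v => Q_act t v)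
  have htt : t * t = 1 := og_ext fun v => by
    rw [act_mul, act_one]
    funext k
    rcases k with k | k
    · rw [(hact _ k).2, (hact v k).2, (hact v (Fin.rev k)).1]
      have : (2 : F) * v (.inr (Fin.rev k)) = 0 := by rw [h2, zero_mul]
      linear_combination this
    · rw [(hact _ k).1, (hact v k).1]
  refine ⟨t.1, hpres, congrArg Subtype.val htt, ?_, ?_⟩
  · intro z hz
    have hz1 := scal_pres h2 hd0 t.1 hpres hz
    let k : Fin d := ⟨0, Nat.pos_of_ne_zero hd0⟩
    have e : ∀ v, act t v = v := fun v => by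
      rw [← hgv]
      unfold gv
      rw [hz, hz1, one_smul, Matrix.one_mulVec]
    have e3 := (hact (Pi.single (.inr k) 1) (Fin.rev k)).2
    rw [e, Fin.rev_rev] at e3
    simp at e3
  · intro Q₂ hq hinv w hw
    have hN : ∀ v, gv t.1 v = v + (gv t.1 v + v) := fun v => by
      rw [add_comm (gv t.1 v), ← add_assoc, vadd_self h2, zero_add]
    have hNL : ∀ v, gv t.1 v + v ∈ L0 d F := fun v => by
      apply mem_L0
      intro i
      rw [Pi.add_apply, hgv, (hact v i).1, add_self' h2]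
    have hB : ∀ v, polarPlus d F v (gv t.1 v + v) = 0 := fun v => by
      have e1 : Cfsg.quadFormPlus d F (gv t.1 v) = Cfsg.quadFormPlus d F v := Q_act t v
      have e2 := hp.add v (gv t.1 v + v)
      rw [← hN, e1, plus_L0 _ (hNL v)] at e2
      linear_combination -e2
    have hQ2 : ∀ v, Q₂ (gv t.1 v + v) = 0 := fun v => by
      have e1 := hq.add v (gv t.1 v + v)
      rw [← hN, hinv, hB] at e1
      linear_combination -e1
    have hrep : w = gv t.1 (Sum.elim (0 : Fin d → F) (fun k => w (.inl (Fin.rev k)))) + Sum.elim (0 : Fin d → F) (fun k => w (.inl (Fin.rev k))) := by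
      funext k
      rcases k with k | k
      · rw [Pi.add_apply, hgv, (hact _ k).2]
        simp [add_self' h2, Fin.rev_rev]
      · rw [Pi.add_apply, hgv, (hact _ k).1, add_self' h2]
        exact L0_inr hw k
    rw [hrep]
    exact hQ2 _

/-- index map -/
def f0 (n : ℕ) : (Fin n ⊕ Fin n) ⊕ Fin 2 → Fin (n + 1) ⊕ Fin (n + 1)
  | .inl (.inl i) => .inl i.castSucc
  | .inl (.inr i) => .inr i.castSucc
  | .inr j => if j = 0 then .inl (Fin.last n) else .inr (Fin.last n)

lemma f0_inj (n : ℕ) : Function.Injective (f0 n) := by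
  have h01 : ∀ j l : Fin 2, (j = 0 ↔ l = 0) → j = l := by decide
  intro a b hh
  rcases a with (i | i) | j <;> rcases b with (k | k) | l <;> simp only [f0] at hh
  · simpa using hh
  · simp at hh
  · exfalso; revert hh; split_ifs <;> simp [Fin.ext_iff] <;> omega
  · simp at hh
  · simpa using hh
  · exfalso; revert hh; split_ifs <;> simp [Fin.ext_iff] <;> omega
  · exfalso; revert hh; split_ifs <;> simp [Fin.ext_iff] <;> omega
  · exfalso; revert hh; split_ifs <;> simp [Fin.ext_iff] <;> omega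
  · congr 1
    apply h01
    by_cases e1 : j = 0 <;> by_cases e2 : l = 0 <;> simp [e1, e2] at hh ⊢

/-- index equivalence -/
noncomputable def e0 (n : ℕ) : (Fin n ⊕ Fin n) ⊕ Fin 2 ≃ Fin (n + 1) ⊕ Fin (n + 1) :=
  Equiv.ofBijective (f0 n) ((Fintype.bijective_iff_injective_and_card _).2 ⟨f0_inj n, by
    simp only [Fintype.card_sum, Fintype.card_fin]
    ring⟩)

lemma e0_apply (n : ℕ) (a) : e0 n a = f0 n a := rfl

/-- the fixed-point-free element of a minus-type form -/
lemma minus_elem (p : ℕ) [Fact p.Prime] [CharP F p] (h2 : (2 : F) = 0) {n r : ℕ} [Fact r.Prime] (hr2 : r ≠ 2)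
    (hrd : r ∣ Fintype.card F ^ (n + 1) + 1) :
    ∃ (a' : Fin (n + 1) ⊕ Fin (n + 1) → F) (x : GL (Fin (n + 1) ⊕ Fin (n + 1)) F), ¬ AS (Cfsg.quadFormPlus (n + 1) F a') ∧ x ^ r = 1 ∧
      (∀ v, Qa (Cfsg.quadFormPlus (n + 1) F) (polarPlus (n + 1) F) a' (gv x v) = Qa (Cfsg.quadFormPlus (n + 1) F) (polarPlus (n + 1) F) a' v) ∧
      (∀ v, gv x v = v → v = 0) := by
  classical
  have hp := qfPlus (F := F) (n + 1)
  obtain ⟨b, hb⟩ := exists_not_AS h2 (F := F)
  obtain ⟨s, hs⟩ := exists_sqrt h2 b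
  have hab : ∀ z₁ z₂ : F, z₁ ^ 2 + 1 * z₁ * z₂ + b * z₂ ^ 2 = 0 → z₁ = 0 ∧ z₂ = 0 := by
    intro z₁ z₂ hz
    by_cases h0 : z₂ = 0
    · subst h0
      refine ⟨?_, rfl⟩
      have : z₁ ^ 2 = 0 := by linear_combination hz
      exact pow_eq_zero_iff two_ne_zero |>.1 this
    · exfalso
      apply hb
      refine ⟨z₁ / z₂, ?_⟩
      field_simp
      linear_combination hz - (z₁ ^ 2 + z₁ * z₂) * h2
  obtain ⟨g, hg, hfp⟩ := exists_fpf_minus p h2 hr2 1 b hab hrd
  let E := e0 n
  let ainl : Fin (n + 1) ⊕ Fin (n + 1) → F := Pi.single (.inl (Fin.last n)) 1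
  let ainr : Fin (n + 1) ⊕ Fin (n + 1) → F := Pi.single (.inr (Fin.last n)) 1
  have hBa : ∀ v, polarPlus (n + 1) F v (ainr + s • ainl) = v (.inl (Fin.last n)) + s * v (.inr (Fin.last n)) := fun v => by
    rw [hp.add_right, hp.smul_right, polarPlus_inr, polarPlus_inl]
  have hQa : ∀ u : Fin (n + 1) ⊕ Fin (n + 1) → F, Cfsg.quadFormMinus n F 1 b (u ∘ E) =
      Qa (Cfsg.quadFormPlus (n + 1) F) (polarPlus (n + 1) F) (ainr + s • ainl) u := fun u => by
    simp only [Qa]
    rw [hBa, sq_add' h2, mul_pow, hs]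
    unfold Cfsg.quadFormMinus Cfsg.quadFormPlus
    rw [Fin.sum_univ_castSucc]
    simp only [Function.comp, E, e0_apply, f0, if_true]
    have e1 : (if (1 : Fin 2) = 0 then (Sum.inl (Fin.last n) : Fin (n + 1) ⊕ Fin (n + 1)) else Sum.inr (Fin.last n)) = Sum.inr (Fin.last n) := by
      simp
    rw [e1]
    ring
  set x : GL (Fin (n + 1) ⊕ Fin (n + 1)) F := Units.map (MonoidHomClass.toMonoidHom (Matrix.reindexAlgEquiv F F E)) g.1 with hx
  have hgvx : ∀ u, gv x u = (act g (u ∘ E)) ∘ E.symm := fun u => by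
    have e1 : (x : Matrix (Fin (n + 1) ⊕ Fin (n + 1)) (Fin (n + 1) ⊕ Fin (n + 1)) F)
        = ((g.1 : GL _ F) : Matrix _ _ F).submatrix E.symm E.symm := rfl
    unfold gv
    rw [e1, Matrix.submatrix_mulVec_equiv, Equiv.symm_symm]
    rfl
  refine ⟨ainr + s • ainl, x, ?_, ?_, ?_, ?_⟩
  · have e1 : Cfsg.quadFormPlus (n + 1) F ainr = 0 := by
      unfold Cfsg.quadFormPlus
      apply Finset.sum_eq_zero
      intro i _
      simp [ainr]
    have e2 : Cfsg.quadFormPlus (n + 1) F ainl = 0 := by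
      unfold Cfsg.quadFormPlus
      apply Finset.sum_eq_zero
      intro i _
      simp [ainl]
    rw [hp.add, hp.smul, e1, e2, hp.smul_right, polarPlus_inl]
    have e3 : ainr (.inr (Fin.last n)) = 1 := by simp [ainr]
    rw [e3]
    rintro ⟨y, hy⟩
    apply hb
    refine ⟨y ^ 2, ?_⟩
    have e4 : s = y ^ 2 + y := by linear_combination hy
    rw [← hs, e4, sq_add' h2]
  · rw [hx, ← map_pow]
    have e5 : (g.1) ^ r = 1 := by
      have := congrArg Subtype.val hg
      simpa using this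
    rw [e5, map_one]
  · intro v
    rw [← hQa, ← hQa]
    have e6 : (gv x v) ∘ E = act g (v ∘ E) := by
      rw [hgvx]
      funext k
      simp
    rw [e6]
    exact Q_act g _
  · intro v hv
    have e6 : act g (v ∘ E) = v ∘ E := by
      have e7 : (gv x v) ∘ E = act g (v ∘ E) := by
        rw [hgvx]
        funext k
        simp
      rw [← e7, hv]
    have e8 := hfp _ e6
    funext k
    have := congrFun e8 (E.symm k)
    simpa using this

end Cfsg.Agent.H27.SpFm
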