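import Cfsg.Agent.Lib.H27.SpFm4
/-! Assembly: involutions and forms of a given type. -/
set_option autoImplicit false
set_option linter.unusedSimpArgs false
set_option linter.style.haveILetI false
set_option linter.unusedSectionVars false
set_option linter.unusedVariables false
namespace Cfsg.Agent.H27.SpFm
open Matrix Cfsg.Agent.Lead.Ortho Cfsg.Agent.Lead.Omega Cfsg.Agent.H01.Om Cfsg.Agent.H27.OmFp

variable {F : Type*} [Field F] [Fintype F] {d : ℕ}

lemma conj_inv {Q : (Fin d ⊕ Fin d → F) → F} (h : QF Q (polarPlus d F)) (h2 : (2 : F) = 0) (hd0 : d ≠ 0) (x g : GL (Fin d ⊕ Fin d) F)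
    (hx : x ∈ Cfsg.spGL d F) (hg : g ∈ Cfsg.spGL d F) (hy : g⁻¹ * x * g ∈ Cfsg.Geo.quadSimilarityGroup Q) :
    ∀ w, Q (gv g⁻¹ (gv x w)) = Q (gv g⁻¹ w) := by
  intro w
  obtain ⟨u₀, v₀, h0⟩ := exists_ne (F := F) hd0
  obtain ⟨c, hc⟩ := hy
  have hym : g⁻¹ * x * g ∈ Cfsg.spGL d F := (Cfsg.spGL d F).mul_mem ((Cfsg.spGL d F).mul_mem ((Cfsg.spGL d F).inv_mem hg) hx) hg
  have hc' : ∀ v, Q (gv (g⁻¹ * x * g) v) = (c : F) * Q v := hc
  have hc1 := sim_one h h0 _ ((mem_sp h2 _).1 hym) hc'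
  have e := hc' (gv g⁻¹ w)
  rw [hc1, one_mul, gv_mul, gv_mul, gv_inv'] at e
  exact e

lemma fpf_nonscalar (h2 : (2 : F) = 0) (hd0 : d ≠ 0) (x : GL (Fin d ⊕ Fin d) F) (hx : ∀ u v, polarPlus d F (gv x u) (gv x v) = polarPlus d F u v)
    (hfix : ∀ v, gv x v = v → v = 0) (z : F) : (x : Matrix (Fin d ⊕ Fin d) (Fin d ⊕ Fin d) F) ≠ z • (1 : Matrix (Fin d ⊕ Fin d) (Fin d ⊕ Fin d) F) := by
  classical
  intro hz
  have hz1 := scal_pres h2 hd0 x hx hz
  let k : Fin d := ⟨0, Nat.pos_of_ne_zero hd0⟩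
  have e := hfix (Pi.single (.inl k) 1) (by
    unfold gv
    rw [hz, hz1, one_smul, Matrix.one_mulVec])
  have := congrFun e (.inl k)
  simp at this

theorem main {p : ℕ} [Fact p.Prime] [CharP F p] {q : ℕ} (hq : Fintype.card F = q)
    (hp : p = 2) (d : ℕ) (hd : 2 ≤ d) (Q : (Fin d ⊕ Fin d → F) → F) (hQ : Cfsg.Geo.IsNondegenerateQuadraticForm Q)
    (hQf : ∀ u v, QuadraticMap.polar Q u v = Cfsg.sympForm d F u v)
    (r : ℕ) [Fact r.Prime]
    (hΩ : r ∣ (Cfsg.Geo.quadSimilarityGroup Q).relIndex (Cfsg.spGL d F)) :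
    (∀ x ∈ Cfsg.spGL d F, (∃ z : F, ((x ^ r : GL (Fin d ⊕ Fin d) F) : Matrix (Fin d ⊕ Fin d) (Fin d ⊕ Fin d) F) = z • (1 : Matrix (Fin d ⊕ Fin d) (Fin d ⊕ Fin d) F)) →
      (∀ z : F, (x : Matrix (Fin d ⊕ Fin d) (Fin d ⊕ Fin d) F) ≠ z • (1 : Matrix (Fin d ⊕ Fin d) (Fin d ⊕ Fin d) F)) →
      ∃ g ∈ Cfsg.spGL d F, g⁻¹ * x * g ∈ Cfsg.Geo.quadSimilarityGroup Q) ↔
    (r = 2 ∧ (Cfsg.Geo.IsPlusTypeOn Q ⊤ ∨ Odd d)) := by
  classical
  have h2 : (2 : F) = 0 := by
    subst hp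
    exact_mod_cast CharP.cast_eq_zero F 2
  have hd0 : d ≠ 0 := by omega
  have hpp := qfPlus (F := F) d
  have hnd := ndPlus (F := F) d
  have h : QF Q (polarPlus d F) :=
    { add := fun x y => by
        have := hQf x y
        rw [sym_eq_polar h2] at this
        unfold QuadraticMap.polar at this
        linear_combination this
      smul := hQ.smul
      add_left := hpp.add_left
      smul_left := hpp.smul_left
      symm := hpp.symm }
  constructor
  · intro H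
    by_cases hr2 : r = 2
    · subst hr2
      refine ⟨rfl, ?_⟩
      by_contra hcon
      push Not at hcon
      have hev : Even d := Nat.not_odd_iff_even.1 hcon.2
      obtain ⟨x, hx1, hx2, hx3, hx4⟩ := even_elem h2 hev hd0
      have hxm : x ∈ Cfsg.spGL d F := (mem_sp h2 x).2 hx1
      obtain ⟨g, hgm, hy⟩ := H x hxm ⟨1, by rw [sq, hx2]; simp⟩ hx3
      have hq2 := qf_comp h g⁻¹ (pres_inv g ((mem_sp h2 g).1 hgm))
      exact hcon.1 (plus_of_vanish g⁻¹ (hx4 _ hq2 (conj_inv h h2 hd0 x g hxm hgm hy)))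
    · exfalso
      have hpr : r.Prime := Fact.out
      rw [relIndex_eq h h2 hd0] at hΩ
      by_cases hP : Cfsg.Geo.IsPlusTypeOn Q ⊤
      · have e1 := count_Q_plus h h2 hP
        have e2 : r ∣ Fintype.card F ^ d * (Fintype.card F ^ d + 1) := by
          rw [← e1]
          exact Dvd.dvd.mul_left hΩ 2
        have hdvd : r ∣ Fintype.card F ^ d + 1 := (hpr.dvd_mul.1 e2).resolve_left (not_dvd_of_char_two h2 hpr hr2 _)
        obtain ⟨n, rfl⟩ : ∃ n, d = n + 1 := ⟨d - 1, by omega⟩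
        obtain ⟨a', x, hna, hxr, hinv, hfix⟩ := minus_elem p h2 hr2 hdvd
        have hq1 := qf_Qa hpp h2 a'
        have hpres := pres_of_inv hq1 x hinv
        have hxm : x ∈ Cfsg.spGL (n + 1) F := (mem_sp h2 x).2 hpres
        obtain ⟨g, hgm, hy⟩ := H x hxm ⟨1, by rw [hxr]; simp⟩ (fpf_nonscalar h2 hd0 x hpres hfix)
        have hq2 := qf_comp h g⁻¹ (pres_inv g ((mem_sp h2 g).1 hgm))
        have huq := fpf_unique hq1 hnd h2 hq2 (gv x) (gv x⁻¹) (gv_inv' x) hpres hfix hinv (conj_inv h h2 hd0 x g hxm hgm hy)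
        obtain ⟨U, -, hU, hUd⟩ := hP
        apply hna
        refine plus_plus hpp hnd h2 a' (L0 (n + 1) F) (U.map (gvE g : (Fin (n + 1) ⊕ Fin (n + 1) → F) ≃ₗ[F] (Fin (n + 1) ⊕ Fin (n + 1) → F)).toLinearMap)
          plus_L0 two_finrank_L0 ?_ ?_
        · rintro _ ⟨u, hu, rfl⟩
          change Cfsg.quadFormPlus (n + 1) F (gv g u) = (polarPlus (n + 1) F a' (gv g u)) ^ 2
          have e3 := huq (gv g u)
          rw [gv_inv, hU u hu] at e3
          simp only [Qa] at e3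
          rw [hpp.symm a']
          have := add_self' h2 ((polarPlus (n + 1) F (gv g u) a') ^ 2)
          linear_combination -e3 - this
        · rw [LinearEquiv.finrank_map_eq, hUd, finrank_top]
          exact Module.finrank_fintype_fun_eq_card F
      · have e1 := count_Q_minus h h2 hP
        have e2 : r ∣ Fintype.card F ^ d * (Fintype.card F ^ d - 1) := by
          rw [← e1]
          exact Dvd.dvd.mul_left hΩ 2
        have hdvd : r ∣ Fintype.card F ^ d - 1 := (hpr.dvd_mul.1 e2).resolve_left (not_dvd_of_char_two h2 hpr hr2 _)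
        obtain ⟨s, s', a1, a2, a3, a4, a5, a6⟩ := exists_fpf_mat p hd0 hdvd
        obtain ⟨g₀, hg₀, hfp⟩ := exists_levi s s' a1 a2 a3 a4 a5 a6
        have hinv : ∀ v, Cfsg.quadFormPlus d F (gv g₀.1 v) = Cfsg.quadFormPlus d F v := fun v => Q_act g₀ v
        have hpres := pres_of_inv hpp g₀.1 hinv
        have hxm : g₀.1 ∈ Cfsg.spGL d F := (mem_sp h2 _).2 hpres
        have hxr : (g₀.1) ^ r = 1 := by
          have := congrArg Subtype.val hg₀
          simpa using this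
        have hfix : ∀ v, gv g₀.1 v = v → v = 0 := hfp
        obtain ⟨g, hgm, hy⟩ := H g₀.1 hxm ⟨1, by rw [hxr]; simp⟩ (fpf_nonscalar h2 hd0 _ hpres hfix)
        have hq2 := qf_comp h g⁻¹ (pres_inv g ((mem_sp h2 g).1 hgm))
        have huq := fpf_unique hpp hnd h2 hq2 (gv g₀.1) (gv (g₀.1)⁻¹) (gv_inv' _) hpres hfix hinv (conj_inv h h2 hd0 _ g hxm hgm hy)
        apply hP
        apply plus_of_vanish g⁻¹
        intro w hw
        rw [huq]
        exact plus_L0 w hw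
  · rintro ⟨rfl, hty⟩ x hx ⟨z, hz⟩ _
    have hpres := (mem_sp h2 x).1 hx
    have hxx2 : x ^ 2 ∈ Cfsg.spGL d F := (Cfsg.spGL d F).pow_mem hx 2
    have hz1 := scal_pres h2 hd0 (x ^ 2) ((mem_sp h2 _).1 hxx2) hz
    have hxx : x * x = 1 := by
      rw [← sq]
      apply Units.ext
      rw [hz, hz1, one_smul]
      rfl
    obtain ⟨g, hg1, hg2⟩ := back_conc h h2 hty x hxx hpres
    refine ⟨g, (mem_sp h2 g).2 hg1, ⟨1, fun v => ?_⟩⟩
    rw [Units.val_one, one_mul]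
    exact hg2 v

end Cfsg.Agent.H27.SpFm
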